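import Cfsg.Statements.S4425
import Cfsg.Agent.Char.BrauerApp
-- import your own Cfsg.Agent.* helpers here

set_option autoImplicit false
open Cfsg

namespace Cfsg.Agent.S4425

/-- Let χ be an irreducible character of the finite group G, p a prime, p^a the p-part of the order of G and p^b the p-part of the degree χ(1). Let χ̃ be the class function equal to p^a · χ on p-regular elements and zero on p-singular elements. Then p^(−b) · χ̃ is a generalized character of G, while p^(−(b+1)) · χ̃ is not. -/
theorem result {G : Type*} [Group G] [Finite G] (p : ℕ) [Fact p.Prime] (χ : Cfsg.IrrCharacter G) : Cfsg.IsGeneralizedCharacter G (fun x : G => if p ∣ orderOf x then (0 : ℂ) else ((p ^ ((Nat.card G).factorization p - (Cfsg.charDegree (χ : G → ℂ)).factorization p) : ℕ) : ℂ) * (χ : G → ℂ) x) ∧ ¬ Cfsg.IsGeneralizedCharacter G (fun x : G => if p ∣ orderOf x then (0 : ℂ) else ((p ^ (Nat.card G).factorization p : ℕ) : ℂ) / ((p ^ ((Cfsg.charDegree (χ : G → ℂ)).factorization p + 1) : ℕ) : ℂ) * (χ : G → ℂ) x) := by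
  have hp : p.Prime := Fact.out
  constructor
  · convert χ.isGen_smul_pRegularPart p using 1
    funext x
    simp only [Pi.smul_apply, pRegularPart_apply, smul_eq_mul]
    split_ifs <;> simp
  · intro h
    obtain ⟨k, hk⟩ := h.exists_apply_one_eq_of_vanish p fun g hg hk =>
      if_pos (by_contra fun hd => hg (IsPElt.eq_one_of_isPRegular hk hd))
    simp only [orderOf_one, Nat.dvd_one, hp.ne_one, if_false] at hk
    rw [χ.apply_one] at hk
    have h0 : (p : ℂ) ≠ 0 := by exact_mod_cast hp.ne_zero
    have h1 : (charDegree χ.1 : ℂ) = p ^ ((charDegree χ.1).factorization p + 1) * k := by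
      push_cast at hk
      field_simp at hk
      exact hk
    have h2 : (charDegree χ.1 : ℤ) = p ^ ((charDegree χ.1).factorization p + 1) * k := by
      exact_mod_cast h1
    have h3 : p ^ ((charDegree χ.1).factorization p + 1) ∣ charDegree χ.1 :=
      Int.natCast_dvd_natCast.mp ⟨k, by exact_mod_cast h2⟩
    exact Nat.pow_succ_factorization_not_dvd χ.charDegree_pos.ne' hp h3

end Cfsg.Agent.S4425
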