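import Cfsg.Statements.S4426
import Cfsg.Agent.Blk.Contrib

set_option autoImplicit false
open Cfsg

namespace Cfsg.Agent.S4426

/-- Let χ be an irreducible character in the p-block B of the finite group G (relative to a maximal ideal M of the algebraic integers containing p), let p^a be the p-part of the order of G, and let χ̃ be the class function equal to p^a · χ on p-regular elements and zero elsewhere. For ξ ∈ B the inner product [χ̃, ξ] is an integer. The following are equivalent: (a) χ has height zero in B; (b) for some ξ ∈ B the integer [χ̃, ξ] is nonzero and the exact power of p dividing it equals the exact power of p dividing ξ(1); (c) the same holds for every ξ ∈ B. -/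
theorem result {G : Type*} [Group G] [Fintype G] (p : ℕ) [Fact p.Prime] (M : Ideal Cfsg.AlgInt) (hM : Cfsg.IsPModular p M) (B : Set (Cfsg.IrrCharacter G)) (hB : Cfsg.IsPBlock M B) (χ : Cfsg.IrrCharacter G) (hχ : χ ∈ B) : (Cfsg.blockHeight p B (χ : G → ℂ) = 0 ↔ ∃ ξ ∈ B, ∃ n : ℤ, Cfsg.classInner (fun x : G => if p ∣ orderOf x then (0 : ℂ) else ((p ^ (Nat.card G).factorization p : ℕ) : ℂ) * (χ : G → ℂ) x) (ξ : G → ℂ) = (n : ℂ) ∧ n ≠ 0 ∧ padicValInt p n = (Cfsg.charDegree (ξ : G → ℂ)).factorization p) ∧ (Cfsg.blockHeight p B (χ : G → ℂ) = 0 ↔ ∀ ξ ∈ B, ∃ n : ℤ, Cfsg.classInner (fun x : G => if p ∣ orderOf x then (0 : ℂ) else ((p ^ (Nat.card G).factorization p : ℕ) : ℂ) * (χ : G → ℂ) x) (ξ : G → ℂ) = (n : ℂ) ∧ n ≠ 0 ∧ padicValInt p n = (Cfsg.charDegree (ξ : G → ℂ)).factorization p) := by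
  have hp0 : (p : ℂ) ≠ 0 := Nat.cast_ne_zero.2 hM.prime.ne_zero
  have e : (fun x : G => if p ∣ orderOf x then (0 : ℂ) else
      ((p ^ (Nat.card G).factorization p : ℕ) : ℂ) * (χ : G → ℂ) x) =
      (p : ℂ) ^ (Nat.card G).factorization p • pRegularPart p χ.1 := by
    funext x
    rw [Pi.smul_apply, pRegularPart_apply]
    split_ifs <;> simp
  have key : ∀ ξ ∈ B, blockHeight p B χ.1 = 0 ↔ ∃ n : ℤ, classInner (fun x : G =>
      if p ∣ orderOf x then (0 : ℂ) else ((p ^ (Nat.card G).factorization p : ℕ) : ℂ) *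
        (χ : G → ℂ) x) (ξ : G → ℂ) = (n : ℂ) ∧ n ≠ 0 ∧
        padicValInt p n = (charDegree (ξ : G → ℂ)).factorization p := by
    intro ξ hξ
    obtain ⟨n, hn⟩ := exists_int_pow_mul_ip (p := p) χ ξ
    rw [e, classInner_eq_ip, ip_smul_left, hn, ← hB.red_omega_regElt_ne_zero_iff hM hχ hξ,
      red_ne_zero_iff (omega_regElt_mem χ ξ)]
    have h1 : vM M (n : ℂ) = vM M (omega ξ.1 (regElt p χ.1)) *
        vM M (p : ℂ) ^ (charDegree ξ.1).factorization p := by
      rw [← hn, ← minExp_add_blockDefect B, pow_add, mul_assoc, map_mul, hM.vM_contrib χ hξ,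
        ← minExp_add_blockHeight hξ, pow_add, map_pow, mul_left_comm]
    have hv : n ≠ 0 → padicValInt p n = n.natAbs.factorization p := fun _ => by
      rw [padicValInt, Nat.factorization_def _ hM.prime]
    constructor
    · intro h
      rw [h, one_mul] at h1
      have h0 : n ≠ 0 := fun h => by
        rw [h, Int.cast_zero, map_zero] at h1
        exact (pow_pos hM.vM_prime_pos _).ne h1
      exact ⟨n, rfl, h0, by rwa [hM.vM_intCast h0, hM.vM_prime_pow_inj, ← hv h0] at h1⟩
    · rintro ⟨m, hm, h0, h⟩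
      obtain rfl : n = m := by exact_mod_cast hm
      rw [hM.vM_intCast h0, ← hv h0, h] at h1
      exact (mul_eq_right₀ (pow_pos hM.vM_prime_pos _).ne').1 h1.symm
  exact ⟨⟨fun h => ⟨χ, hχ, (key χ hχ).1 h⟩, fun ⟨ξ, hξ, h⟩ => (key ξ hξ).2 h⟩,
    ⟨fun h ξ hξ => (key ξ hξ).1 h, fun h => (key χ hχ).2 (h χ hχ)⟩⟩

end Cfsg.Agent.S4426
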