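import Cfsg.Statements.S4427
import Cfsg.Agent.Mod.Proj
import Cfsg.Agent.Char.Ker
import Cfsg.Agent.Char.Ind
import Cfsg.Agent.Blk.Ring

set_option autoImplicit false
open Cfsg

namespace Cfsg.Agent.S4427

open scoped ComplexConjugate

section aux
variable {G : Type*} [Group G] [Finite G] {p : ℕ} [Fact p.Prime] {M : Ideal AlgInt}

theorem decNum_one_le (hM : IsPModular p M) (Q : Subgroup G) (hQ : ¬ p ∣ Nat.card Q)
    (χ : IrrCharacter G) : ∃ n : ℕ, ip (ind Q.subtype fun _ => 1) χ.1 = n ∧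
      decNum χ.1 (IBr.one hM G) ≤ n := by
  classical
  have hreg : ∀ x : Q, IsPRegular p (x : G) := by
    intro x hx
    apply hQ
    rw [Subgroup.orderOf_coe] at hx
    exact hx.trans (orderOf_dvd_natCard x)
  have h1 : ∀ φ : IBr p M G, ∃ n : ℕ, ip (fun _ : Q => (1 : ℂ)) (φ.1 ∘ Q.subtype) = n := by
    intro φ
    have := (φ.isBrauerChar.comp_of_injective Q.subtype Q.subtype_injective)
    rw [isBrauerChar_iff_of_not_dvd hM hQ] at this
    exact IsCharacter.one.exists_ip_eq_nat this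
  choose m hm using h1
  have hone : m (IBr.one hM G) = 1 := by
    have : (IBr.one hM G).1 ∘ Q.subtype = fun _ : Q => (1 : ℂ) := by
      funext x
      simp [IBr.one, pRegularPart, hreg x]
    have h2 := hm (IBr.one hM G)
    rw [this, ip_one_one] at h2
    exact_mod_cast h2.symm
  have hχ : χ.1 ∘ Q.subtype = ∑ φ : IBr p M G, (decNum χ.1 φ : ℂ) • (φ.1 ∘ Q.subtype) := by
    funext x
    rw [Finset.sum_apply]
    exact χ.isCharacter.apply_eq_sum_decNum hM (hreg x)
  refine ⟨∑ φ : IBr p M G, decNum χ.1 φ * m φ, ?_, ?_⟩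
  · rw [ip_ind_left _ _ χ.isClassFunction, hχ, ip_sum_right]
    push_cast
    refine Finset.sum_congr rfl fun φ _ => ?_
    rw [ip_smul_right, hm]
    simp
  · calc decNum χ.1 (IBr.one hM G) = decNum χ.1 (IBr.one hM G) * m (IBr.one hM G) := by
          rw [hone, mul_one]
      _ ≤ _ := Finset.single_le_sum (f := fun φ => decNum χ.1 φ * m φ)
          (fun _ _ => Nat.zero_le _) (Finset.mem_univ _)

theorem ip_ind_ind_of_coprime (Q R : Subgroup G) (h : (Nat.card Q).Coprime (Nat.card R)) :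
    ip (ind Q.subtype fun _ => (1 : ℂ)) (ind R.subtype fun _ => 1) * Nat.card Q = R.index := by
  classical
  haveI := Fintype.ofFinite Q
  rw [ip_ind_left _ _ (ind_isClassFunction _ _), ip_def, Finset.sum_eq_single 1]
  · have : ((ind R.subtype fun _ => (1 : ℂ)) ∘ Q.subtype) 1 = R.index := by
      simp [ind_subtype_apply_one]
    rw [this]
    have := natCard_cast_ne_zero Q
    simp only [one_mul, map_natCast]
    field_simp
  · intro x _ hx
    have : ((ind R.subtype fun _ => (1 : ℂ)) ∘ Q.subtype) x = 0 := by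
      refine ind_apply_eq_zero _ _ fun y hy => hx ?_
      have h1 : orderOf (x : G) = orderOf (y : G) := by
        obtain ⟨c, hc⟩ := isConj_iff.1 hy
        have : (y : G) = MulAut.conj c (x : G) := hc.symm
        rw [this, MulEquiv.orderOf_eq]
      rw [Subgroup.orderOf_coe, Subgroup.orderOf_coe] at h1
      have h2 := Nat.eq_one_of_dvd_coprimes h (orderOf_dvd_natCard x) (h1 ▸ orderOf_dvd_natCard y)
      exact orderOf_eq_one_iff.1 h2
    rw [this]; simp
  · simp

end aux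

/-- Let G be a finite group of order p^a · q^b · r^c with p, q, r distinct primes, and suppose that G has exactly q^b · r^c elements of order not divisible by p. Then G has a normal p-complement: a normal subgroup of order q^b · r^c. -/
theorem result {G : Type*} [Group G] [Finite G] (p q r a b c : ℕ) (hp : p.Prime) (hq : q.Prime) (hr : r.Prime) (hpq : p ≠ q) (hpr : p ≠ r) (hqr : q ≠ r) (hG : Nat.card G = p ^ a * q ^ b * r ^ c) (hcount : Nat.card {g : G // ¬ p ∣ orderOf g} = q ^ b * r ^ c) : ∃ N : Subgroup G, N.Normal ∧ Nat.card N = q ^ b * r ^ c := by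
  classical
  haveI := Fact.mk hp
  haveI := Fact.mk hq
  haveI := Fact.mk hr
  haveI := Fintype.ofFinite G
  obtain ⟨M, hM⟩ := exists_isPModular hp
  have hpq' : p.Coprime q := (Nat.coprime_primes hp hq).2 hpq
  have hpr' : p.Coprime r := (Nat.coprime_primes hp hr).2 hpr
  have hqr' : q.Coprime r := (Nat.coprime_primes hq hr).2 hqr
  obtain ⟨Q, hQ⟩ := Sylow.exists_subgroup_card_pow_prime (G := G) q (n := b)
    (by rw [hG]; exact Dvd.dvd.mul_right (Dvd.intro_left _ rfl) _)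
  obtain ⟨R, hR⟩ := Sylow.exists_subgroup_card_pow_prime (G := G) r (n := c)
    (by rw [hG]; exact Dvd.intro_left _ rfl)
  have hQp : ¬ p ∣ Nat.card Q := by
    rw [hQ]; exact (Nat.Prime.coprime_iff_not_dvd hp).1 (hpq'.pow_right _)
  have hRp : ¬ p ∣ Nat.card R := by
    rw [hR]; exact (Nat.Prime.coprime_iff_not_dvd hp).1 (hpr'.pow_right _)
  have hRi : R.index = p ^ a * q ^ b := by
    have := R.index_mul_card
    rw [hR, hG] at this
    exact Nat.eq_of_mul_eq_mul_right (pow_pos hr.pos _) this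
  have hipQR : ip (ind Q.subtype fun _ => (1 : ℂ)) (ind R.subtype fun _ => 1) = (p ^ a : ℕ) := by
    have := ip_ind_ind_of_coprime Q R (by rw [hQ, hR]; exact Nat.Coprime.pow _ _ hqr')
    rw [hQ, hRi] at this
    push_cast at this ⊢
    exact mul_right_cancel₀ (pow_ne_zero _ (Nat.cast_ne_zero.2 hq.ne_zero)) this
  choose α hα hα' using decNum_one_le hM Q hQp
  choose β hβ hβ' using decNum_one_le hM R hRp
  set φ := IBr.one hM G with hφ
  have hsum : ∑ χ, α χ * β χ = p ^ a := by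
    rw [(ind_isClassFunction _ _).ip_eq_sum (ind_isClassFunction _ _)] at hipQR
    simp only [hα, hβ, map_natCast] at hipQR
    exact_mod_cast hipQR
  have hc : ip (Phi φ) (Phi φ) = ((∑ χ : IrrCharacter G, decNum χ.1 φ * decNum χ.1 φ : ℕ) : ℂ) := by
    rw [ip_Phi_left]
    simp [ip_irr_Phi]
  have hcle : ∑ χ : IrrCharacter G, decNum χ.1 φ * decNum χ.1 φ ≤ p ^ a := by
    rw [← hsum]
    exact Finset.sum_le_sum fun χ _ => Nat.mul_le_mul (hα' χ) (hβ' χ)
  have hφφ : ip φ.1 φ.1 * (p ^ a : ℕ) = 1 := by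
    rw [ip_def]
    have : ∑ g : G, φ.1 g * conj (φ.1 g) = ((q ^ b * r ^ c : ℕ) : ℂ) := by
      rw [← hcount, Nat.card_eq_fintype_card, Fintype.card_subtype, Finset.card_filter]
      push_cast
      refine Finset.sum_congr rfl fun g _ => ?_
      by_cases hg : p ∣ orderOf g <;> simp [hφ, IBr.one, pRegularPart, IsPRegular, hg]
    rw [this, hG]
    have h1 : (p : ℂ) ≠ 0 := Nat.cast_ne_zero.2 hp.ne_zero
    have h2 : (q : ℂ) ≠ 0 := Nat.cast_ne_zero.2 hq.ne_zero
    have h3 : (r : ℂ) ≠ 0 := Nat.cast_ne_zero.2 hr.ne_zero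
    push_cast
    field_simp
  have h1 : ip (Phi φ) φ.1 = 1 := ip_Phi_ibr_self hM φ
  have h2 : ip φ.1 (Phi φ) = 1 := by rw [← conj_ip, h1, map_one]
  have hzero : Phi φ - ((p ^ a : ℕ) : ℂ) • φ.1 = 0 := by
    rw [← ip_self_eq_zero]
    have h3 : ip (Phi φ - ((p ^ a : ℕ) : ℂ) • φ.1) (Phi φ - ((p ^ a : ℕ) : ℂ) • φ.1) =
        ((∑ χ : IrrCharacter G, decNum χ.1 φ * decNum χ.1 φ : ℕ) : ℂ) - (p ^ a : ℕ) := by
      rw [ip_sub_left, ip_sub_right, ip_sub_right, ip_smul_left, ip_smul_right, ip_smul_left,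
        ip_smul_right, hc, h1, h2, map_natCast]
      linear_combination ((p ^ a : ℕ) : ℂ) * hφφ
    have h4 := ip_self_eq (Phi φ - ((p ^ a : ℕ) : ℂ) • φ.1)
    have h5 : (0 : ℝ) ≤ (Nat.card G : ℝ)⁻¹ *
        ∑ g, ‖(Phi φ - ((p ^ a : ℕ) : ℂ) • φ.1) g‖ ^ 2 := by positivity
    rw [h3] at h4
    have h6 : ((∑ χ : IrrCharacter G, decNum χ.1 φ * decNum χ.1 φ : ℕ) : ℝ) - (p ^ a : ℕ) =
        (Nat.card G : ℝ)⁻¹ * ∑ g, ‖(Phi φ - ((p ^ a : ℕ) : ℂ) • φ.1) g‖ ^ 2 := by
      exact_mod_cast h4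
    have h7 : p ^ a ≤ ∑ χ : IrrCharacter G, decNum χ.1 φ * decNum χ.1 φ := by
      have : ((p ^ a : ℕ) : ℝ) ≤ (∑ χ : IrrCharacter G, decNum χ.1 φ * decNum χ.1 φ : ℕ) := by linarith
      exact_mod_cast this
    rw [h3, le_antisymm hcle h7, sub_self]
  have hPhi : ∀ g, Phi φ g = if p ∣ orderOf g then 0 else ((p ^ a : ℕ) : ℂ) := by
    intro g
    have := congrFun (sub_eq_zero.1 hzero) g
    rw [this]
    by_cases hg : p ∣ orderOf g <;> simp [hφ, IBr.one, pRegularPart, IsPRegular, hg]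
  refine ⟨charKer (Phi φ), inferInstance, ?_⟩
  rw [← hcount]
  refine Nat.card_congr (Equiv.subtypeEquivRight fun g => ?_)
  rw [(Phi_isCharacter φ).mem_charKer, hPhi, hPhi, orderOf_one, if_neg hp.not_dvd_one]
  have : ((p ^ a : ℕ) : ℂ) ≠ 0 := Nat.cast_ne_zero.2 (pow_ne_zero _ hp.ne_zero)
  by_cases hg : p ∣ orderOf g
  · simp only [hg, if_true, not_true, iff_false]; exact this.symm
  · simp [hg]

end Cfsg.Agent.S4427
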