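import Cfsg.Statements.S4441
import Cfsg.Agent.Blk.FrobPrinCyc
-- import your own Cfsg.Agent.* helpers here

set_option autoImplicit false
open Cfsg

namespace Cfsg.Agent.S4441

/-- Let p be an odd prime and G a finite group whose Sylow p-subgroup P has order p; let C = C_G(P), N = N_G(P), e the index of C in N and t = (p − 1)/e; fix a maximal ideal M of the algebraic integers containing p and let B₀ be the principal block. Then B₀ is the disjoint union of a set X of e characters and a set Y of t characters such that: each χ ∈ X has a sign ε_χ with χ(1) ≡ ε_χ (mod p) and χ(x y) = ε_χ for every non-identity x ∈ P and every p-regular y ∈ C; all members of Y agree on the p-regular elements of G; there is one sign ε with θ(1) ≡ ε e (mod p) for every θ ∈ Y; and for every θ ∈ Y and every p-regular g, ε θ(g) = Σ_{χ ∈ X} ε_χ χ(g). -/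
theorem result {G : Type*} [Group G] [Fintype G] (p : ℕ) [Fact p.Prime] (M : Ideal Cfsg.AlgInt) (hM : Cfsg.IsPModular p M) (hodd : p ≠ 2) (P : Sylow p G) (hP : Nat.card P = p) (e : ℕ) (he : (Subgroup.centralizer ((P : Subgroup G) : Set G)).relIndex (Subgroup.normalizer ((P : Subgroup G) : Set G)) = e) : ∃ X Y : Set (Cfsg.IrrCharacter G), Cfsg.principalBlock M G = X ∪ Y ∧ Disjoint X Y ∧ Nat.card X = e ∧ Nat.card Y = (p - 1) / e ∧ ∃ (εX : Cfsg.IrrCharacter G → ℤ) (ε : ℤ), (∀ χ ∈ X, (εX χ = 1 ∨ εX χ = -1) ∧ (Cfsg.charDegree (χ : G → ℂ) : ℤ) ≡ εX χ [ZMOD p] ∧ ∀ x : G, x ∈ (P : Subgroup G) → x ≠ 1 → ∀ y : G, y ∈ Subgroup.centralizer ((P : Subgroup G) : Set G) → ¬ p ∣ orderOf y → (χ : G → ℂ) (x * y) = (εX χ : ℂ)) ∧ (ε = 1 ∨ ε = -1) ∧ (∀ θ ∈ Y, (Cfsg.charDegree (θ : G → ℂ) : ℤ) ≡ ε * (e : ℤ) [ZMOD p]) ∧ (∀ θ ∈ Y, ∀ θ' ∈ Y, ∀ g : G, ¬ p ∣ orderOf g → (θ : G → ℂ) g = (θ' : G → ℂ) g) ∧ ∀ θ ∈ Y, ∀ g : G, ¬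 p ∣ orderOf g → (ε : ℂ) * (θ : G → ℂ) g = ∑ᶠ χ ∈ X, (εX χ : ℂ) * (χ : G → ℂ) g := by
  let _ := Fintype.ofFinite P
  have hp : p.Prime := Fact.out
  have : IsCyclic P := isCyclic_of_prime_card hP
  have hP1 : (P : Subgroup G) ≠ ⊥ := fun h => hp.one_lt.ne (by
    rw [← hP]; exact (Subgroup.card_eq_one.2 h).symm)
  have h := Cfsg.excSys_principal_cyclic hM P hP1
  obtain ⟨X, Y, δ, ζ, α, o, h1, h2⟩ := Cfsg.exists_out_principal_cyclic hM P hP1
  have hE := (Cfsg.card_autOf_subtype (P := (P : Subgroup G)) le_rfl).trans he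
  have h3 := o.cardY
  have h4 := o.cardY_eq
  rw [hE] at h1 h3 h4
  rw [hP] at h3 h4
  have hab : (P : Subgroup G) ≤ _ := Subgroup.le_centralizer _
  have hfree := Cfsg.free_of_isCyclic_sylow hM P
  have h6 : (p : ℤ) ∣ (p : ℤ) ^ (Nat.card G).factorization p := dvd_pow_self _
    (hp.factorization_pos_of_dvd Nat.card_pos.ne'
      (hP ▸ (P : Subgroup G).card_subgroup_dvd_card)).ne'
  have h7 : ∀ χ ∈ X, α χ * α χ = 1 := fun χ hχ => by rcases h2 χ hχ with h | h <;> simp [h]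
  have h8 : ∀ χ ∈ X, (Cfsg.charDegree χ.1 : ℤ) ≡ α χ [ZMOD p] := by
    intro χ hχ
    obtain ⟨u, hu⟩ := h.nontriv
    obtain ⟨k, hk⟩ := P.isPGroup' u
    refine (χ.isCharacter.int_modEq_charDegree hp (x := u) (k := k) (congrArg Subtype.val hk)
      ?_).symm
    rw [← Cfsg.excDec_principal hM hab hfree (o.X_subset hχ) hu, o.nonexc χ hχ u hu]
  refine ⟨X, Y, o.union, o.disj, h1, h4, α, δ, fun χ hχ => ⟨h2 χ hχ, h8 χ hχ,
    fun x hx hx1 y hy hy' => ?_⟩, o.sign, fun θ hθ => ?_, o.reg_eq, fun θ hθ g hg => ?_⟩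
  · have hu : (⟨x, hx⟩ : (P : Subgroup G)) ≠ 1 := fun e => hx1 (congrArg Subtype.val e)
    rw [Cfsg.apply_eq_excDec_principal hM hab hfree (o.X_subset hχ) hu
      (Cfsg.mem_pSection_of_isPPart ⟨y, rfl, hy x hx, ?_, hy'⟩), o.nonexc χ hχ _ hu]
    obtain ⟨k, hk⟩ := IsPGroup.iff_orderOf.1 P.isPGroup' ⟨x, hx⟩
    exact ⟨k, by rw [← hk, Subgroup.orderOf_mk]⟩
  · obtain ⟨χ, hχ⟩ := o.X_nonempty h
    have h9 : (e : ℤ) * Nat.card Y + 1 = p := by exact_mod_cast h3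
    have := (((h6.trans (o.pow_dvd_Y h hχ hθ)).mul_left (e * α χ)).sub
      (dvd_mul_right (p : ℤ) (Cfsg.charDegree θ.1))).add ((h8 χ hχ).dvd.mul_left (e * α χ * δ))
    refine Int.modEq_iff_dvd.2 (this.trans (dvd_of_eq ?_))
    linear_combination (e * Nat.card Y * Cfsg.charDegree θ.1 + e * δ : ℤ) * h7 χ hχ +
      (Cfsg.charDegree θ.1 : ℤ) * h9
  · have := o.reg_rel θ hθ g hg
    simp only [Int.cast_zero, mul_zero, zero_sub] at this
    linear_combination -this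

end Cfsg.Agent.S4441
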