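import Cfsg.Statements.S4429
import Cfsg.Agent.S4441
import Cfsg.Agent.Blk.PrinExt
import Cfsg.Agent.Char.BrauerApp
import Cfsg.Agent.Grp.SelfCent
import Cfsg.Agent.Grp.Transfer
import Cfsg.Agent.Char.Congr
import Cfsg.Agent.Char.Central
-- import your own Cfsg.Agent.* helpers here

set_option autoImplicit false
open Cfsg

namespace Cfsg.Agent.S4429

open Subgroup

local notation "C(" Q ")" => Subgroup.centralizer (SetLike.coe Q)

theorem sum_mul_eq_zero {G : Type*} [Group G] [Finite G] {χ : G → ℂ} (h : IsCharacter G χ)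
    (H : Subgroup G) [Fintype H] (h0 : ∑ u : H, χ u = 0) (g : G) : ∑ u : H, χ (u * g) = 0 := by
  obtain ⟨n, ρ, rfl⟩ := h
  set T : Module.End ℂ (Fin n → ℂ) := ∑ u : H, ρ u with hT
  have hc : (Fintype.card H : ℂ) ≠ 0 := Nat.cast_ne_zero.2 Fintype.card_ne_zero
  have h1 : ∀ v : H, ρ v * T = T := fun v => by
    rw [hT, Finset.mul_sum]
    exact Fintype.sum_equiv (Equiv.mulLeft v) _ _ fun u => by simp [← map_mul]
  have h2 : IsIdempotentElem ((Fintype.card H : ℂ)⁻¹ • T) := by
    unfold IsIdempotentElem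
    rw [smul_mul_smul_comm]
    conv_lhs => rw [hT, Finset.sum_mul, ← hT]
    simp only [h1, Finset.sum_const, Finset.card_univ]
    rw [← Nat.cast_smul_eq_nsmul ℂ, smul_smul, mul_assoc, inv_mul_cancel₀ hc, mul_one]
  have h3 := LinearMap.IsIdempotentElem.eq_zero_of_trace_eq_zero h2 (by
    rw [map_smul, hT, map_sum]
    exact (congrArg _ h0).trans (smul_zero _))
  have h4 : T = 0 := (smul_eq_zero.1 h3).resolve_left (inv_ne_zero hc)
  have h5 := congrArg (fun A => LinearMap.trace ℂ _ (A * ρ g)) h4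
  simp only [hT, Finset.sum_mul, map_sum, zero_mul, map_zero, ← map_mul] at h5
  exact h5

theorem sum_by_deg {ι : Type*} (X : Finset ι) (d : ι → ℕ) (T : Finset ℕ) (h : ∀ i ∈ X, d i ∈ T)
    (F : ℕ → ℤ) : ∑ i ∈ X, F (d i) = ∑ n ∈ T, ((X.filter fun i => d i = n).card : ℤ) * F n := by
  rw [← Finset.sum_fiberwise_of_maps_to h]
  refine Finset.sum_congr rfl fun n _ => ?_
  rw [Finset.sum_congr rfl (g := fun _ => F n) fun i hi => by rw [(Finset.mem_filter.1 hi).2]]
  simp

theorem selfCent_of_le {G : Type*} [Group G] [Finite G] {p : ℕ} [Fact p.Prime] (P : Sylow p G)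
    (hP : Nat.card P = p) (h : C((P : Subgroup G)) ≤ P) {y : G} (hy : orderOf y = p) :
    SelfCent p y := by
  have : IsCyclic P := isCyclic_of_prime_card hP
  obtain ⟨x, hx⟩ := IsCyclic.exists_ofOrder_eq_natCard (α := P)
  have h1 : orderOf (x : G) = p := by rw [orderOf_coe, hx, hP]
  have h2 : zpowers (x : G) = P := eq_of_le_of_card_ge (zpowers_le.2 x.2)
    (by rw [Nat.card_zpowers, h1]; exact hP.le)
  refine SelfCent.of_orderOf (x := (x : G)) ⟨h1, ?_⟩ hy
  rw [← centralizer_zpowers, h2]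
  exact le_antisymm h (le_centralizer _)

theorem prin {G : Type*} [Group G] [Finite G] (p : ℕ) [Fact p.Prime] (hodd : p ≠ 2)
    (P : Sylow p G) (hP : Nat.card P = p) :
    ∃ (e : ℕ) (X Y : Finset (IrrCharacter G)) (s : IrrCharacter G → ℤ) (δ : ℤ),
      e ∣ p - 1 ∧ (∃ n, n ≡ 1 [MOD p] ∧ n * e * Nat.card C((P : Subgroup G)) = Nat.card G) ∧
      (e = 1 → HasNormalPComplement p G) ∧
      (IrrCharacter.one G ∈ X ∨ IrrCharacter.one G ∈ Y) ∧ Disjoint X Y ∧ X.card = e ∧
      Y.card = (p - 1) / e ∧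
      (∀ χ ∈ X, (s χ = 1 ∨ s χ = -1) ∧ (charDegree χ.1 : ℤ) ≡ s χ [ZMOD p] ∧
        ∀ x ∈ (P : Subgroup G), x ≠ 1 → ∀ y ∈ C((P : Subgroup G)), ¬ p ∣ orderOf y →
          χ.1 (x * y) = s χ) ∧
      (δ = 1 ∨ δ = -1) ∧ (∀ θ ∈ Y, (charDegree θ.1 : ℤ) ≡ δ * e [ZMOD p]) ∧
      (∀ θ ∈ Y, ∀ g, ¬ p ∣ orderOf g → δ * θ.1 g = ∑ χ ∈ X, s χ * χ.1 g) ∧
      (C((P : Subgroup G)) ≤ P → ∀ χ : IrrCharacter G, ¬ p ∣ charDegree χ.1 → χ ∈ X ∨ χ ∈ Y) := by
  classical
  have hp : p.Prime := Fact.out
  let _ := Fintype.ofFinite G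
  obtain ⟨M, hM⟩ := exists_isPModular_of_prime hp
  obtain ⟨X, Y, hB, hd, hX, hY, s, δ, h1, h2, h3, -, h4⟩ :=
    Cfsg.Agent.S4441.result p M hM hodd P hP _ rfl
  have : IsCyclic P := isCyclic_of_prime_card hP
  have hm : ∀ χ, χ ∈ principalBlock M G → χ ∈ X.toFinset ∨ χ ∈ Y.toFinset := fun χ h => by
    rw [hB] at h
    simpa using h
  refine ⟨_, X.toFinset, Y.toFinset, s, δ, ?_, ⟨_, card_sylow_modEq_one p G, ?_⟩, fun h => ?_,
    hm _ hM.one_mem_principalBlock, Set.disjoint_toFinset.2 hd, ?_, ?_,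
    fun χ h => h1 χ (Set.mem_toFinset.1 h), h2, fun χ h => h3 χ (Set.mem_toFinset.1 h),
    fun χ h g hg => ?_, fun hC χ hχ => hm _ ?_⟩
  · have h5 := card_dvd_of_injective _ (QuotientGroup.kerLift_injective
      (P : Subgroup G).normalizerMonoidHom)
    rwa [normalizerMonoidHom_ker, ← index_eq_card, IsCyclic.card_mulAut, hP,
      Nat.totient_prime hp] at h5
  · rw [P.card_eq_index_normalizer, mul_comm (index _)]
    exact (congrArg (· * _) (relIndex_mul_index (centralizer_le_normalizer _))).trans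
      (index_mul_card _)
  · exact hasNormalPComplement_of_normalizer_le_centralizer P (relIndex_eq_one.1 h)
  · rw [← hX, Set.toFinset_card, Nat.card_eq_fintype_card]
  · rw [← hY, Set.toFinset_card, Nat.card_eq_fintype_card]
  · rw [h4 χ (Set.mem_toFinset.1 h) g hg, ← finsum_mem_coe_finset, Set.coe_toFinset]
  · refine mem_principalBlock_of_red_apply_eq hM hχ fun g hg hi => ?_
    have h5 : p ∣ Nat.card (centralizer ({g} : Set G)) := by
      have h6 : p ∣ Nat.card G := hP ▸ (P : Subgroup G).card_subgroup_dvd_card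
      rw [← (centralizer ({g} : Set G)).index_mul_card] at h6
      exact (hp.dvd_mul.1 h6).resolve_left hi
    obtain ⟨y, hy⟩ := exists_prime_orderOf_dvd_card' p h5
    have h6 := selfCent_of_le P hP hC (y := (y : G)) (by rw [orderOf_coe, hy])
    have h7 : g ∈ zpowers (y : G) := by
      rw [← h6.cent, mem_centralizer_singleton_iff]
      exact (mem_centralizer_singleton_iff.1 y.2).symm
    have h8 := orderOf_dvd_of_mem_zpowers h7
    rw [h6.order, Nat.dvd_prime hp] at h8
    rcases h8 with h8 | h8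
    · rw [orderOf_eq_one_iff.1 h8]
    · exact absurd h8.symm.dvd hg

section
variable {G : Type*} [Group G] [Finite G] [IsSimpleGroup G] (hG : Nat.card G = 7920)
include hG

theorem not_comm : ¬ IsMulCommutative G := fun h => by
  let _ : CommGroup G := { ‹Group G› with mul_comm := mul_comm' }
  have := IsSimpleGroup.prime_card (α := G)
  rw [hG] at this
  norm_num at this

theorem center_eq : center G = ⊥ :=
  (IsSimpleGroup.eq_bot_or_eq_top_of_normal _ inferInstance).resolve_right fun h =>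
    not_comm hG ⟨⟨fun a b => (mem_center_iff.1 (h ▸ mem_top b : b ∈ center G) a)⟩⟩

theorem eq_one_of_deg (χ : IrrCharacter G) (h : charDegree χ.1 = 1) : χ = IrrCharacter.one G := by
  have h1 := (χ.commutator_le_charKer_iff).2 (by rw [χ.apply_one, h, Nat.cast_one])
  rcases IsSimpleGroup.eq_bot_or_eq_top_of_normal (commutator G) inferInstance with h2 | h2
  · refine absurd ⟨⟨fun a b => ?_⟩⟩ (not_comm hG)
    have := commutator_mem_commutator (mem_top a) (mem_top b)
    rw [← commutator_def, h2, mem_bot, commutatorElement_eq_one_iff_mul_comm] at this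
    exact this
  · rw [h2, top_le_iff] at h1
    exact χ.charKer_eq_top_iff.1 h1

omit hG in
theorem ker_eq (χ : IrrCharacter G) (h : charDegree χ.1 ≠ 1) : charKer χ.1 = ⊥ :=
  (IsSimpleGroup.eq_bot_or_eq_top_of_normal _ inferInstance).resolve_right fun h1 => h (by
    rw [χ.charKer_eq_top_iff.1 h1]; exact charDegree_one_irr)

omit [IsSimpleGroup G] in
theorem deg_mem (χ : IrrCharacter G) : charDegree χ.1 ∈ ({1, 2, 3, 4, 5, 6, 8, 9, 10, 11, 12, 15,
    16, 18, 20, 22, 24, 30, 33, 36, 40, 44, 45, 48, 55, 60, 66, 72, 80, 88} : Finset ℕ) := by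
  have h1 := χ.charDegree_dvd_card
  have h2 : charDegree χ.1 ^ 2 ≤ Nat.card G := by
    rw [← sum_charDegree_sq]
    exact Finset.single_le_sum (f := fun χ : IrrCharacter G => charDegree χ.1 ^ 2)
      (fun _ _ => Nat.zero_le _) (Finset.mem_univ χ)
  rw [hG] at h1 h2
  generalize charDegree χ.1 = n at h1 h2
  have h3 : n < 89 := by nlinarith
  clear h2
  revert n
  suffices ∀ n < 89, n ∣ 7920 → n ∈ ({1, 2, 3, 4, 5, 6, 8, 9, 10, 11, 12, 15,
    16, 18, 20, 22, 24, 30, 33, 36, 40, 44, 45, 48, 55, 60, 66, 72, 80, 88} : Finset ℕ) from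
    fun n h1 h3 => this n h3 h1
  decide +kernel

theorem not_npc {p : ℕ} [Fact p.Prime] (P : Sylow p G) (hP : Nat.card P = p) :
    ¬ HasNormalPComplement p G := by
  rintro ⟨Q, N, hN, h⟩
  have h1 : Nat.card Q = p := by rw [Q.card_eq_multiplicity, ← P.card_eq_multiplicity, hP]
  have h2 := h.card_mul_card
  have hp : p.Prime := Fact.out
  rcases IsSimpleGroup.eq_bot_or_eq_top_of_normal N hN with rfl | rfl
  · rw [card_bot, one_mul, hG] at h2
    have := h2.symm.trans h1
    rw [← this] at hp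
    norm_num at hp
  · rw [card_top, mul_eq_left₀ Nat.card_pos.ne'] at h2
    exact hp.one_lt.ne (h2.symm.trans h1)

omit [IsSimpleGroup G] in
theorem card_sylow {p : ℕ} [Fact p.Prime] (P : Sylow p G) (h : padicValNat p 7920 = 1) :
    Nat.card P = p := by
  rw [P.card_eq_multiplicity, hG, Nat.factorization_def _ Fact.out, h, pow_one]

open Classical in
theorem card_deg_one (X : Finset (IrrCharacter G)) :
    (X.filter fun χ => charDegree χ.1 = 1).card = if IrrCharacter.one G ∈ X then 1 else 0 := by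
  classical
  split_ifs with h
  · refine Finset.card_eq_one.2 ⟨IrrCharacter.one G, Finset.ext fun χ => ?_⟩
    rw [Finset.mem_filter, Finset.mem_singleton]
    exact ⟨fun h' => eq_one_of_deg hG χ h'.2, fun h' => h' ▸ ⟨h, charDegree_one_irr⟩⟩
  · refine Finset.card_eq_zero.2 (Finset.filter_eq_empty_iff.2 fun χ hχ h' => h ?_)
    exact eq_one_of_deg hG χ h' ▸ hχ

theorem cent_eleven [Fact (Nat.Prime 11)] (P : Sylow 11 G) : C((P : Subgroup G)) ≤ P := by
  classical
  have hP := card_sylow hG P (by decide +kernel)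
  by_contra hC
  obtain ⟨y, hy, hy1, hy2⟩ : ∃ y ∈ C((P : Subgroup G)), y ≠ 1 ∧ ¬ 11 ∣ orderOf y := by
    have : IsCyclic P := isCyclic_of_prime_card hP
    have h1 : (P : Subgroup G).relIndex C((P : Subgroup G)) ≠ 1 := mt relIndex_eq_one.1 hC
    obtain ⟨r, hr, h2⟩ := Nat.exists_prime_and_dvd h1
    have := Fact.mk hr
    obtain ⟨y, hy⟩ := exists_prime_orderOf_dvd_card' r (h2.trans (relIndex_dvd_card _ _))
    have h3 : orderOf (y : G) = r := by rw [orderOf_coe, hy]
    refine ⟨y, y.2, fun h => hr.one_lt.ne (by rw [← h3, h, orderOf_one]), fun h => ?_⟩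
    rw [h3, Nat.prime_dvd_prime_iff_eq Fact.out hr] at h
    rw [← h] at h2
    exact P.not_dvd_index (h2.trans (relIndex_dvd_index_of_le (le_centralizer _)))
  obtain ⟨e, X, Y, s, δ, he, -, -, h1, hd, hX, hY, h2, h3, h4, h5, -⟩ :=
    prin 11 (by norm_num) P hP
  have h6 : ∀ χ ∈ X, charDegree χ.1 ∈ ({1, 12, 45} : Finset ℕ) ∧ s χ = 1 := by
    intro χ hχ
    obtain ⟨h6, h7, h8⟩ := h2 χ hχ
    have h9 : charDegree χ.1 ≠ 10 := fun h => by
      have hs : s χ = -1 := by
        rw [h] at h7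
        exact h6.resolve_left fun h' => by rw [h'] at h7; revert h7; decide
      let _ := Fintype.ofFinite P
      have h10 : ∀ z ∈ C((P : Subgroup G)), ¬ 11 ∣ orderOf z →
          ∑ u : (P : Subgroup G), χ.1 (u * z) = χ.1 z - 10 := fun z hz hz' => by
        rw [← Finset.add_sum_erase _ _ (Finset.mem_univ 1), Finset.sum_congr rfl
          (g := fun _ => (-1 : ℂ)) fun u hu => by
            rw [h8 u u.2 (fun e => Finset.ne_of_mem_erase hu (Subtype.ext e)) z hz hz', hs]
            simp]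
        rw [Finset.sum_const, Finset.card_erase_of_mem (Finset.mem_univ _), Finset.card_univ,
          ← Nat.card_eq_fintype_card, hP]
        simp [sub_eq_add_neg]
      have h11 := sum_mul_eq_zero χ.isCharacter (P : Subgroup G) (by
        simpa [χ.apply_one, h] using h10 1 (one_mem _) (by simp)) y
      rw [h10 y hy hy2, sub_eq_zero] at h11
      have h12 := χ.mem_charKer.2 (h11.trans (by rw [χ.apply_one, h]; simp))
      rw [ker_eq χ (by omega)] at h12
      exact hy1 h12
    have h10 := deg_mem hG χ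
    generalize charDegree χ.1 = n at h7 h9 h10
    generalize s χ = t at h6 h7
    simp only [Finset.mem_insert, Finset.mem_singleton, Int.ModEq] at h7 h10 ⊢
    omega
  have h7 := sum_by_deg X (fun χ => charDegree χ.1) _ (fun χ h => (h6 χ h).1)
  have h8 := h7 fun _ => 1
  have h9 := h7 fun n => n
  have h10 := card_deg_one hG X
  simp only [Finset.sum_const, hX] at h8
  rw [Finset.sum_insert (by decide), Finset.sum_insert (by decide), Finset.sum_singleton] at h8 h9
  have h11 : ∀ θ ∈ Y, δ * charDegree θ.1 = ∑ χ ∈ X, (charDegree χ.1 : ℤ) := fun θ hθ => by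
    have := h5 θ hθ 1 (by simp)
    rw [Finset.sum_congr rfl (g := fun χ => (charDegree χ.1 : ℂ)) fun χ h => by
      rw [(h6 χ h).2, χ.apply_one]; simp, θ.apply_one] at this
    exact_mod_cast this
  have he' : e = 1 ∨ e = 2 ∨ e = 5 ∨ e = 10 := by
    have := Nat.le_of_dvd (by norm_num) he
    interval_cases e <;> simp_all
  by_cases h12 : IrrCharacter.one G ∈ X
  · obtain ⟨θ, hθ⟩ : Y.Nonempty := Finset.card_pos.1 (by
      rw [hY]; rcases he' with rfl | rfl | rfl | rfl <;> norm_num)
    have h13 := h11 θ hθ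
    have h14 := deg_mem hG θ
    have h15 : charDegree θ.1 ≠ 1 := fun h =>
      Finset.disjoint_left.1 hd h12 (eq_one_of_deg hG θ h ▸ hθ)
    rw [if_pos h12] at h10
    rw [h9, h10] at h13
    rw [h10] at h8
    simp only [Finset.mem_insert, Finset.mem_singleton] at h14
    simp only [nsmul_eq_mul, mul_one, Nat.cast_ofNat, Nat.cast_one] at h8 h13
    rcases h3 with rfl | rfl <;> omega
  · have h13 := h11 _ (h1.resolve_left h12)
    rw [if_neg h12] at h10
    rw [h9, h10, charDegree_one_irr] at h13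
    rw [h10] at h8
    simp only [nsmul_eq_mul, mul_one, Nat.cast_ofNat, Nat.cast_one, Nat.cast_zero] at h8 h13
    rcases h3 with rfl | rfl <;> omega

theorem five (H : ∀ v y : G, orderOf v = 5 → orderOf y = 2 → Commute v y → False) :
    (∀ χ : IrrCharacter G, charDegree χ.1 % 5 = 0 ∨ charDegree χ.1 % 5 = 1 ∨
      charDegree χ.1 % 5 = 4) ∧
    (Finset.univ.filter fun χ : IrrCharacter G => ¬ 5 ∣ charDegree χ.1).card = 5 := by
  classical
  have := Fact.mk Nat.prime_five
  have := Fact.mk Nat.prime_eleven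
  have := Fact.mk Nat.prime_two
  obtain ⟨P⟩ : Nonempty (Sylow 5 G) := inferInstance
  obtain ⟨Q⟩ : Nonempty (Sylow 11 G) := inferInstance
  have hP := card_sylow hG P (by decide +kernel)
  have hQ := card_sylow hG Q (by decide +kernel)
  have : IsCyclic P := isCyclic_of_prime_card hP
  obtain ⟨e, X, Y, s, δ, he, ⟨n, hn, hn'⟩, he1, -, hd, hX, hY, h2, h3, h4, -, h5⟩ :=
    prin 5 (by norm_num) P hP
  obtain ⟨v, hv⟩ := exists_prime_orderOf_dvd_card' (G := P) 5 hP.symm.dvd
  have hv' : orderOf (v : G) = 5 := by rw [orderOf_coe, hv]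
  have h6 : ¬ 2 ∣ Nat.card C((P : Subgroup G)) := fun h => by
    obtain ⟨y, hy⟩ := exists_prime_orderOf_dvd_card' 2 h
    exact H v y hv' (by rw [orderOf_coe, hy]) (y.2 v v.2)
  have h7 : ¬ 11 ∣ Nat.card C((P : Subgroup G)) := fun h => by
    obtain ⟨y, hy⟩ := exists_prime_orderOf_dvd_card' 11 h
    have h8 := selfCent_of_le Q hQ (cent_eleven hG Q) (y := (y : G)) (by rw [orderOf_coe, hy])
    have h9 : (v : G) ∈ zpowers (y : G) := by
      rw [← h8.cent, mem_centralizer_singleton_iff]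
      exact y.2 v v.2
    have := orderOf_dvd_of_mem_zpowers h9
    rw [h8.order, hv'] at this
    norm_num at this
  have h8 : 5 ∣ Nat.card C((P : Subgroup G)) :=
    hP.symm.dvd.trans (card_dvd_of_le (le_centralizer _))
  have h9 : Nat.card C((P : Subgroup G)) ∣ 45 := by
    refine Nat.Coprime.dvd_of_dvd_mul_left (m := 2 ^ 4 * 11) ?_ ?_
    · exact Nat.Coprime.mul_right (Nat.Coprime.pow_right _
        ((Nat.Prime.coprime_iff_not_dvd Nat.prime_two).2 h6).symm)
        ((Nat.Prime.coprime_iff_not_dvd Nat.prime_eleven).2 h7).symm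
    · exact (card_subgroup_dvd_card _).trans hG.dvd
  have h10 : e ≠ 1 := mt he1 (not_npc hG P hP)
  have h11 : Nat.card C((P : Subgroup G)) = 5 ∧ e = 4 := by
    rw [hG] at hn'
    generalize Nat.card C((P : Subgroup G)) = k at h8 h9 hn'
    have h12 : k = 5 ∨ k = 15 ∨ k = 45 :=
      (by decide +kernel : ∀ k < 46, k ∣ 45 → 5 ∣ k → k = 5 ∨ k = 15 ∨ k = 45) k
        (Nat.lt_succ_of_le (Nat.le_of_dvd (by norm_num) h9)) h9 h8
    have h13 : e = 2 ∨ e = 4 :=
      (by decide +kernel : ∀ k < 5, k ∣ 5 - 1 → k ≠ 1 → k = 2 ∨ k = 4) e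
        (Nat.lt_succ_of_le (Nat.le_of_dvd (by norm_num) he)) he h10
    unfold Nat.ModEq at hn
    rcases h12 with rfl | rfl | rfl <;> rcases h13 with rfl | rfl <;> omega
  obtain ⟨h11, rfl⟩ := h11
  replace h5 := h5 (eq_of_le_of_card_ge (le_centralizer _) (by rw [h11]; exact hP.ge)).ge
  have h12 : ∀ χ, χ ∈ X ∨ χ ∈ Y → charDegree χ.1 % 5 = 1 ∨ charDegree χ.1 % 5 = 4 := by
    rintro χ (h | h)
    · obtain ⟨h6, h7, -⟩ := h2 χ h
      unfold Int.ModEq at h7
      omega
    · have := h4 χ h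
      unfold Int.ModEq at this
      rcases h3 with rfl | rfl <;> omega
  refine ⟨fun χ => ?_, ?_⟩
  · by_cases h : 5 ∣ charDegree χ.1
    · omega
    · exact Or.inr (h12 χ (h5 χ h))
  · rw [show (Finset.univ.filter fun χ : IrrCharacter G => ¬ 5 ∣ charDegree χ.1) = X ∪ Y from ?_,
      Finset.card_union_of_disjoint hd, hX, hY]
    ext χ
    rw [Finset.mem_filter, Finset.mem_union]
    exact ⟨fun h => h5 χ h.2, fun h => ⟨Finset.mem_univ _, by have := h12 χ h; omega⟩⟩

end

set_option maxHeartbeats 1600000 in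
/-- Let G be a simple group of order 7920. Then G has exactly ten irreducible complex characters, and their degrees, listed with multiplicity, are 1, 10, 10, 10, 11, 16, 16, 44, 45, 55: for every natural number n, the number of irreducible characters of degree n is 1 if n ∈ {1, 11, 44, 45, 55}, 3 if n = 10, 2 if n = 16, and 0 otherwise. -/
theorem result {G : Type*} [Group G] [Finite G] [IsSimpleGroup G] (hG : Nat.card G = 7920) : Nat.card (Cfsg.IrrCharacter G) = 10 ∧ ∀ n : ℕ, Nat.card {χ : Cfsg.IrrCharacter G // Cfsg.charDegree (χ : G → ℂ) = n} = (if n = 1 ∨ n = 11 ∨ n = 44 ∨ n = 45 ∨ n = 55 then 1 else if n = 10 then 3 else if n = 16 then 2 else 0) := by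
  classical
  have := Fact.mk Nat.prime_five
  have := Fact.mk Nat.prime_eleven
  have := Fact.mk Nat.prime_two
  obtain ⟨P⟩ : Nonempty (Sylow 11 G) := inferInstance
  have hP := card_sylow hG P (by decide +kernel)
  have : IsCyclic P := isCyclic_of_prime_card hP
  have hC := cent_eleven hG P
  obtain ⟨e, X, Y, s, δ, he, ⟨n, hn, hn'⟩, -, h1, hd, hX, hY, h2, h3, h4, h5, h6⟩ :=
    prin 11 (by norm_num) P hP
  replace h6 := h6 hC
  obtain rfl : e = 5 := by
    rw [hG, le_antisymm hC (le_centralizer _), hP] at hn'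
    have := Nat.le_of_dvd (by norm_num) he
    unfold Nat.ModEq at hn
    interval_cases e <;> omega
  have hX' : ∀ χ ∈ X, charDegree χ.1 ∈ ({1, 10, 12, 45} : Finset ℕ) ∧
      s χ = if charDegree χ.1 = 10 then -1 else 1 := fun χ hχ => by
    obtain ⟨h6, h7, -⟩ := h2 χ hχ
    have h10 := deg_mem hG χ
    generalize charDegree χ.1 = n at h7 h10
    generalize s χ = t at h6 h7
    simp only [Finset.mem_insert, Finset.mem_singleton, Int.ModEq] at h7 h10 ⊢
    split_ifs <;> omega
  have hY' : ∀ χ ∈ Y, (δ = 1 ∧ charDegree χ.1 ∈ ({5, 16, 60} : Finset ℕ)) ∨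
      (δ = -1 ∧ charDegree χ.1 ∈ ({6, 72} : Finset ℕ)) := fun χ hχ => by
    have h7 := h4 χ hχ
    have h10 := deg_mem hG χ
    generalize charDegree χ.1 = n at h7 h10
    simp only [Finset.mem_insert, Finset.mem_singleton, Int.ModEq] at h7 h10 ⊢
    rcases h3 with rfl | rfl <;> omega
  have hT : ∀ χ ∈ (Finset.univ : Finset (IrrCharacter G)), charDegree χ.1 ∈
      ({1, 5, 6, 10, 11, 12, 16, 22, 33, 44, 45, 55, 60, 66, 72, 88} : Finset ℕ) := fun χ _ => by
    have h10 := deg_mem hG χ
    by_cases h : 11 ∣ charDegree χ.1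
    · simp only [Finset.mem_insert, Finset.mem_singleton] at h10 ⊢
      omega
    · rcases h6 χ h with h | h
      · have := (hX' χ h).1
        simp only [Finset.mem_insert, Finset.mem_singleton] at this ⊢
        omega
      · have := hY' χ h
        simp only [Finset.mem_insert, Finset.mem_singleton] at this ⊢
        omega
  have eX : X = Finset.univ.filter fun χ => charDegree χ.1 ∈ ({1, 10, 12, 45} : Finset ℕ) := by
    ext χ
    rw [Finset.mem_filter]
    refine ⟨fun h => ⟨Finset.mem_univ _, (hX' χ h).1⟩, fun ⟨_, h⟩ => ?_⟩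
    simp only [Finset.mem_insert, Finset.mem_singleton] at h
    refine (h6 χ (by omega)).resolve_right fun h' => ?_
    have := hY' χ h'
    simp only [Finset.mem_insert, Finset.mem_singleton] at this
    omega
  have eY : Y = Finset.univ.filter fun χ => charDegree χ.1 ∈ ({5, 6, 16, 60, 72} : Finset ℕ) := by
    ext χ
    rw [Finset.mem_filter]
    refine ⟨fun h => ⟨Finset.mem_univ _, ?_⟩, fun ⟨_, h⟩ => ?_⟩
    · have := hY' χ h
      simp only [Finset.mem_insert, Finset.mem_singleton] at this ⊢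
      omega
    simp only [Finset.mem_insert, Finset.mem_singleton] at h
    refine (h6 χ (by omega)).resolve_left fun h' => ?_
    have := (hX' χ h').1
    simp only [Finset.mem_insert, Finset.mem_singleton] at this
    omega
  obtain ⟨c, hc⟩ : ∃ c : ℕ → ℕ, ∀ n, c n =
      (Finset.univ.filter fun χ : IrrCharacter G => charDegree χ.1 = n).card := ⟨_, fun _ => rfl⟩
  have hs : ∀ F : ℕ → ℤ, ∑ χ : IrrCharacter G, F (charDegree χ.1) =
      c 1 * F 1 + c 5 * F 5 + c 6 * F 6 + c 10 * F 10 + c 11 * F 11 + c 12 * F 12 + c 16 * F 16 +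
      c 22 * F 22 + c 33 * F 33 + c 44 * F 44 + c 45 * F 45 + c 55 * F 55 + c 60 * F 60 +
      c 66 * F 66 + c 72 * F 72 + c 88 * F 88 := fun F => by
    rw [sum_by_deg _ _ _ hT F]
    simp only [← hc]
    repeat rw [Finset.sum_insert (by decide)]
    rw [Finset.sum_singleton]
    ring
  have hcard : ∀ (Q : ℕ → Prop) [DecidablePred Q],
      ((Finset.univ.filter fun χ : IrrCharacter G => Q (charDegree χ.1)).card : ℤ) =
        ∑ χ : IrrCharacter G, if Q (charDegree χ.1) then (1 : ℤ) else 0 :=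
    fun Q _ => by simp
  have c1 : c 1 = 1 := by rw [hc, card_deg_one hG, if_pos (Finset.mem_univ _)]
  have e1 := (hcard (· ∈ ({1, 10, 12, 45} : Finset ℕ))).trans
    (hs fun n => if n ∈ ({1, 10, 12, 45} : Finset ℕ) then 1 else 0)
  have e2 := (hcard (· ∈ ({5, 6, 16, 60, 72} : Finset ℕ))).trans
    (hs fun n => if n ∈ ({5, 6, 16, 60, 72} : Finset ℕ) then 1 else 0)
  rw [← eX, hX] at e1
  rw [← eY, hY] at e2
  have e3 := hs fun n => n ^ 2
  rw [show ∑ χ : IrrCharacter G, (charDegree χ.1 : ℤ) ^ 2 = 7920 by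
    exact_mod_cast sum_charDegree_sq.trans hG] at e3
  have e4 : ∀ θ ∈ Y, δ * charDegree θ.1 = c 1 - 10 * c 10 + 12 * c 12 + 45 * c 45 := fun θ hθ => by
    have h7 := h5 θ hθ 1 (by simp)
    have h8 := hs fun n => if n ∈ ({1, 10, 12, 45} : Finset ℕ) then
      (if n = 10 then -1 else 1) * n else 0
    rw [← Finset.sum_filter, ← eX] at h8
    rw [Finset.sum_congr rfl (g := fun χ => (((if charDegree χ.1 = 10 then -1 else 1) *
      charDegree χ.1 : ℤ) : ℂ)) fun χ h => by
        rw [← (hX' χ h).2, χ.apply_one]; simp, θ.apply_one, ← Int.cast_sum, h8] at h7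
    norm_num at h7
    have h9 : ((δ * charDegree θ.1 : ℤ) : ℂ) =
        ((c 1 - 10 * c 10 + 12 * c 12 + 45 * c 45 : ℤ) : ℂ) := by
      push_cast
      linear_combination h7
    exact_mod_cast h9
  norm_num at e1 e2 e3
  obtain ⟨θ, hθ⟩ : Y.Nonempty := Finset.card_pos.1 (by rw [hY]; norm_num)
  have e5 : 2 ≤ c (charDegree θ.1) := by
    rw [hc]
    refine le_trans (by rw [hY]) (Finset.card_le_card (s := Y) fun χ hχ => ?_)
    have h7 := (e4 χ hχ).trans (e4 θ hθ).symm
    refine Finset.mem_filter.2 ⟨Finset.mem_univ _, ?_⟩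
    rcases h3 with rfl | rfl <;> omega
  have e6 := e4 θ hθ
  have e7 := hY' θ hθ
  simp only [Finset.mem_insert, Finset.mem_singleton] at e7
  have e8 : δ = 1 ∧ ((charDegree θ.1 = 5 ∧ c 12 = 2) ∨ (charDegree θ.1 = 16 ∧ c 12 = 0)) := by
    rcases e7 with ⟨rfl, h | h | h⟩ | ⟨rfl, h | h⟩ <;> rw [h] at e5 e6 <;> omega
  obtain ⟨rfl, e8⟩ := e8
  have h5z : ∀ χ : IrrCharacter G, 5 ∣ charDegree χ.1 → ∀ g, 5 ∣ orderOf g → χ.1 g = 0 :=
    fun χ h g hg => χ.eq_zero_of_defect_zero 5 (by
      rw [← Sylow.card_eq_multiplicity default, card_sylow hG _ (by decide +kernel)]; exact h) hg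
  obtain ⟨f1, f2⟩ := five hG fun v y hv hy hvy => by
    have ho : orderOf (v * y) = 10 := by
      rw [hvy.orderOf_mul_eq_mul_orderOf_of_coprime (by rw [hv, hy]; norm_num), hv, hy]
    rcases e8 with ⟨h7, -⟩ | ⟨h7, h8⟩
    · obtain ⟨m, hm, hm1, hm2⟩ := θ.isCharacter.exists_int_of_sq_eq_one (g := y)
        (by rw [← hy, pow_orderOf_eq_one])
      have h8 := θ.isCharacter.isGen.int_modEq Nat.prime_five hvy (k := 1)
        (by rw [pow_one, ← hv, pow_orderOf_eq_one]) (m := 0)
        (by rw [h5z θ h7.symm.dvd _ (by rw [ho]; norm_num), Int.cast_zero]) hm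
      rw [h7] at hm1 hm2
      have h9 : y ∈ charCenter θ.1 := θ.mem_charCenter.2 (by
        rw [hm, h7, Complex.norm_intCast]
        have : |m| = 5 := by
          unfold Int.ModEq at h8 hm1
          rw [abs_le] at hm2
          rw [abs_eq (by norm_num)]
          omega
        exact_mod_cast this)
      rw [θ.charCenter_eq_center_of_faithful (ker_eq θ (by omega)), center_eq hG, mem_bot] at h9
      simp [h9] at hy
    · have h9 := h5 θ hθ (v * y) (by rw [ho]; norm_num)
      rw [θ.eq_zero_of_defect_zero 2 (by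
        rw [hG, h7, Nat.factorization_def _ Nat.prime_two]; decide +kernel) (by rw [ho]; norm_num),
        Finset.sum_eq_single (IrrCharacter.one G)] at h9
      · have h10 : IrrCharacter.one G ∈ X := by rw [eX]; simp
        rw [(hX' _ h10).2, charDegree_one_irr] at h9
        simp at h9
      · intro χ hχ h10
        have h11 := (hX' χ hχ).1
        have h12 := mt (eq_one_of_deg hG χ) h10
        have h13 : charDegree χ.1 ≠ 12 := fun h => by
          rw [hc, Finset.card_eq_zero, Finset.filter_eq_empty_iff] at h8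
          exact h8 (Finset.mem_univ χ) h
        simp only [Finset.mem_insert, Finset.mem_singleton] at h11
        rw [h5z χ (by omega) _ (by rw [ho]; norm_num), mul_zero]
      · intro h
        exact absurd (by rw [eX]; simp) h
  have c0 : ∀ n, n % 5 = 2 ∨ n % 5 = 3 → c n = 0 := fun n hn => by
    rw [hc, Finset.card_eq_zero, Finset.filter_eq_empty_iff]
    intro χ _ h
    have := f1 χ
    omega
  have c12 := c0 12 (by norm_num)
  have c22 := c0 22 (by norm_num)
  have c33 := c0 33 (by norm_num)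
  have c72 := c0 72 (by norm_num)
  have c88 := c0 88 (by norm_num)
  have e9 := (hcard fun n => ¬ 5 ∣ n).trans (hs fun n => if ¬ 5 ∣ n then 1 else 0)
  rw [f2] at e9
  norm_num at e9
  have h7 : charDegree θ.1 = 16 := by omega
  rw [h7] at e5 e6
  obtain ⟨c5, c6, c16, c60⟩ : c 5 = 0 ∧ c 6 = 0 ∧ c 16 = 2 ∧ c 60 = 0 := by
    clear * - e2 e5
    omega
  obtain ⟨c10, c45⟩ : c 10 = 3 ∧ c 45 = 1 := by
    clear * - e1 e6 c1 c12
    omega
  obtain ⟨c11, c44, c55, c66⟩ : c 11 = 1 ∧ c 44 = 1 ∧ c 55 = 1 ∧ c 66 = 0 := by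
    rw [c1, c5, c6, c10, c12, c16, c22, c33, c45, c60, c72, c88] at e3
    rw [c1, c6, c12, c16, c22, c33, c72, c88] at e9
    clear * - e3 e9
    have : c 66 ≤ 1 := by omega
    have : c 44 ≤ 2 := by omega
    interval_cases c 66 <;> interval_cases c 44 <;> omega
  refine ⟨?_, fun n => ?_⟩
  · have := hs fun _ => 1
    rw [Finset.sum_const, Finset.card_univ, ← Nat.card_eq_fintype_card] at this
    simp only [nsmul_eq_mul, mul_one, c1, c5, c6, c10, c11, c12, c16, c22, c33, c44, c45, c55, c60,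
      c66, c72, c88] at this
    exact_mod_cast this
  · rw [Nat.card_eq_fintype_card, Fintype.card_subtype, ← hc]
    by_cases h : n ∈ ({1, 5, 6, 10, 11, 12, 16, 22, 33, 44, 45, 55, 60, 66, 72, 88} : Finset ℕ)
    · simp only [Finset.mem_insert, Finset.mem_singleton] at h
      rcases h with rfl | rfl | rfl | rfl | rfl | rfl | rfl | rfl | rfl | rfl | rfl | rfl | rfl |
        rfl | rfl | rfl <;> simp only [c1, c5, c6, c10, c11, c12, c16, c22, c33, c44, c45, c55, c60,
      c66, c72, c88] <;> decide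
    · have : c n = 0 := by
        rw [hc, Finset.card_eq_zero, Finset.filter_eq_empty_iff]
        exact fun χ hχ h' => h (h' ▸ hT χ hχ)
      simp only [Finset.mem_insert, Finset.mem_singleton] at h
      rw [this]
      clear * - h
      rw [if_neg (by omega), if_neg (by omega), if_neg (by omega)]

end Cfsg.Agent.S4429
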