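import Cfsg.Statements.S4430
import Cfsg.Agent.Blk.Induced

set_option autoImplicit false
open Cfsg

namespace Cfsg.Agent.S4430

/-- Let H be a subgroup of the finite group G, b a block of H whose induced block B₀ in G is defined (relative to a maximal ideal M of the algebraic integers containing p), and ξ ∈ b. For a block B of G let n_B be the value at 1 of the B-part of the induced character ξ^G (a natural number: the sum over χ ∈ B of the multiplicity of χ in ξ^G times χ(1)). Then for B = B₀ the exact power of p dividing n_B equals the exact power of p dividing ξ^G(1), while for every other block B either n_B = 0 or n_B is divisible by a strictly higher power of p than ξ^G(1). -/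
theorem result {G : Type*} [Group G] [Fintype G] (p : ℕ) [Fact p.Prime] (M : Ideal Cfsg.AlgInt) (hM : Cfsg.IsPModular p M) (H : Subgroup G) [Fintype H] (b : Set (Cfsg.IrrCharacter H)) (B₀ : Set (Cfsg.IrrCharacter G)) (hind : Cfsg.IsInducedBlock M H b B₀) (ξ : Cfsg.IrrCharacter H) (hξ : ξ ∈ b) : (∃ n : ℕ, Cfsg.blockPart B₀ (Cfsg.indFun H (ξ : H → ℂ)) 1 = (n : ℂ) ∧ n ≠ 0 ∧ n.factorization p = (Cfsg.charDegree (Cfsg.indFun H (ξ : H → ℂ))).factorization p) ∧ ∀ B : Set (Cfsg.IrrCharacter G), Cfsg.IsPBlock M B → B ≠ B₀ → ∃ n : ℕ, Cfsg.blockPart B (Cfsg.indFun H (ξ : H → ℂ)) 1 = (n : ℂ) ∧ (n = 0 ∨ (Cfsg.charDegree (Cfsg.indFun H (ξ : H → ℂ))).factorization p < n.factorization p) := by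
  classical
  rw [isInducedBlock_iff hM] at hind
  rw [indFun_eq_ind]
  have hc : IsCharacter G (ind H.subtype ξ.1) := ξ.isCharacter.ind _
  have hpos := hc.charDegree_pos (ξ.isCharacter.ind_ne_zero ξ.ne_zero H.subtype_injective)
  refine ⟨⟨_, (hc.blockPart B₀).apply_one, ?_⟩, fun B hB hne => ⟨_, (hc.blockPart B).apply_one, ?_⟩⟩
  · have h := vM_eq_one_of_red_ne_zero
      ((hind.vM_blockPart_ind_self hM H.subtype_injective hξ).trans_ne one_ne_zero)
    rw [(hc.blockPart B₀).apply_one, hc.apply_one] at h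
    have h0 : charDegree (blockPart B₀ (ind H.subtype ξ.1)) ≠ 0 := fun h0 => by
      rw [h0, Nat.cast_zero, zero_div, map_zero] at h
      exact zero_ne_one h
    refine ⟨h0, ?_⟩
    rw [map_div₀, hM.vM_natCast h0, hM.vM_natCast hpos.ne',
      div_eq_one_iff_eq (pow_ne_zero _ hM.vM_prime_pos.ne')] at h
    exact hM.vM_prime_pow_inj.1 h
  · have h := hind.vM_blockPart_ind_of_ne hM H.subtype_injective hξ hB hne
    rw [(hc.blockPart B).apply_one, hc.apply_one] at h
    rcases eq_or_ne (charDegree (blockPart B (ind H.subtype ξ.1))) 0 with h0 | h0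
    · exact Or.inl h0
    · exact Or.inr ((hM.vM_natCast_div_lt_one_iff h0 hpos.ne').1 h)

end Cfsg.Agent.S4430
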