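import Cfsg.Statements.S4431
import Cfsg.Agent.Blk.Induced
import Cfsg.Agent.Blk.Contrib

set_option autoImplicit false
open Cfsg

namespace Cfsg.Agent.S4431

/-- Let H be a subgroup of the finite group G and b a block of H whose induced block B₀ in G is defined (relative to a maximal ideal M of the algebraic integers containing p). Let χ be an irreducible character of G, ψ ∈ b, and let η be the class function on H equal to p^a · χ on the p-regular elements of H and zero elsewhere, p^a being the p-part of the order of H. Then (a) if χ ∉ B₀, the number [η, ψ]/ψ(1) lies in the local ideal at M; (b) if χ ∈ B₀ has height zero, it does not. -/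
theorem result {G : Type*} [Group G] [Fintype G] (p : ℕ) [Fact p.Prime] (M : Ideal Cfsg.AlgInt) (hM : Cfsg.IsPModular p M) (H : Subgroup G) [Fintype H] (b : Set (Cfsg.IrrCharacter H)) (B₀ : Set (Cfsg.IrrCharacter G)) (hind : Cfsg.IsInducedBlock M H b B₀) (χ : Cfsg.IrrCharacter G) (ψ : Cfsg.IrrCharacter H) (hψ : ψ ∈ b) : (χ ∉ B₀ → Cfsg.MemLocalIdeal M (Cfsg.classInner (fun h : H => if p ∣ orderOf h then (0 : ℂ) else ((p ^ (Nat.card H).factorization p : ℕ) : ℂ) * (χ : G → ℂ) h) (ψ : H → ℂ) / (ψ : H → ℂ) 1)) ∧ (χ ∈ B₀ → Cfsg.blockHeight p B₀ (χ : G → ℂ) = 0 → ¬ Cfsg.MemLocalIdeal M (Cfsg.classInner (fun h : H => if p ∣ orderOf h then (0 : ℂ) else ((p ^ (Nat.card H).factorization p : ℕ) : ℂ) * (χ : G → ℂ) h) (ψ : H → ℂ) / (ψ : H → ℂ) 1)) := by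
  classical
  rw [isInducedBlock_iff hM] at hind
  have hη : (fun h : H => if p ∣ orderOf h then (0 : ℂ) else
      ((p ^ (Nat.card H).factorization p : ℕ) : ℂ) * (χ : G → ℂ) h) =
      ((p ^ (Nat.card H).factorization p : ℕ) : ℂ) • pRegularPart p (χ.1 ∘ H.subtype) := by
    funext h
    rw [Pi.smul_apply, pRegularPart_apply]
    split_ifs <;> simp
  have hg := (χ.isCharacter.comp H.subtype).isGen.smul_pRegularPart p
  obtain ⟨n, hn⟩ := (isGeneralizedCharacter_iff.1 hg).2 ψ
  have hres : GA.resTo H.subtype (regElt p χ.1) = regElt p (χ.1 ∘ H.subtype) := by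
    refine GA.ext_coeff fun h => ?_
    change (starRingEnd ℂ) (pRegularPart p χ.1 h) = (starRingEnd ℂ) (pRegularPart p _ h)
    rw [pRegularPart_apply, pRegularPart_apply, Subgroup.orderOf_coe]
    rfl
  have hp0 : ((p ^ (Nat.card H).factorization p : ℕ) : ℂ) ≠ 0 :=
    Nat.cast_ne_zero.2 (pow_ne_zero _ hM.prime.ne_zero)
  have hreal : ip (pRegularPart p ψ.1) (χ.1 ∘ H.subtype) =
      ip (pRegularPart p (χ.1 ∘ H.subtype)) ψ.1 := by
    rw [ip_pRegularPart_comm, ← conj_ip]
    rw [ip_smul_left] at hn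
    rw [eq_div_of_mul_eq hp0 ((mul_comm _ _).trans hn)]
    simp
  have hval : vM M ((n : ℂ) / ψ 1) =
      vM M (omega ψ.1 (GA.resTo H.subtype (regElt p χ.1))) := by
    rw [hres, omega_regElt, hreal, ← hn, ip_smul_left]
    simp only [map_div₀, map_mul]
    rw [hM.vM_card H, Nat.cast_pow, map_pow]
  have halg : IsAlgebraic ℚ ((n : ℂ) / ψ 1) := by
    rw [ψ.apply_one, div_eq_mul_inv]
    exact (isAlgebraic_int n).mul (isAlgebraic_nat _).inv
  have hmem : omega ψ.1 (GA.resTo H.subtype (regElt p χ.1)) ∈ locO M := by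
    refine omega_mem_locO ψ (resTo_mem_center _ (regElt_mem χ.isClassFunction)) fun h => ?_
    exact regElt_mem_intGA χ _
  rw [hη, classInner_eq_ip, hn, hM.memLocalIdeal_iff]
  change (_ → _ ∧ vM M ((n : ℂ) / ψ 1) < 1) ∧ (_ → _ → ¬ (_ ∧ vM M ((n : ℂ) / ψ 1) < 1))
  rw [hval, ← red_eq_zero_iff hmem]
  obtain ⟨χ', hχ'⟩ := hind.right.nonempty hM
  rw [hind.red_omega_eq hψ hχ' (regElt_mem χ.isClassFunction) (regElt_mem_intGA χ)]
  refine ⟨fun h => ⟨halg, ?_⟩, fun h h0 h1 => ?_⟩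
  · rw [omega_regElt, hind.right.ip_pRegularPart_eq_zero hM hχ' h]
    simp
  · exact (hind.right.red_omega_regElt_ne_zero_iff hM h hχ').2 h0 h1.2

end Cfsg.Agent.S4431
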