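import Cfsg.Statements.S4435
import Cfsg.Agent.Blk.FongReynolds
-- import your own Cfsg.Agent.* helpers here

set_option autoImplicit false
open Cfsg

namespace Cfsg.Agent.S4435

/-- Let N be a normal subgroup of the finite group G, b a block of N (relative to a maximal ideal M of the algebraic integers containing p), and T the stabilizer of b in G (the elements g such that conjugating any member of b by g gives a member of b); N ≤ T. Say that a block of T (or of G) covers b when some member has a constituent in b on restriction to N. Then: (i) every block B′ of T covering b induces a block B of G, B covers b, every ψ ∈ B′ induces to an irreducible character of G, and B consists exactly of the characters induced from members of B′; (ii) distinct blocks of T covering b induce distinct blocks of G; (iii) every block of G covering b is induced by some block of T covering b. -/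
theorem result {G : Type*} [Group G] [Fintype G] (p : ℕ) [Fact p.Prime] (M : Ideal Cfsg.AlgInt) (hM : Cfsg.IsPModular p M) (N : Subgroup G) [hN : N.Normal] [Fintype N] (b : Set (Cfsg.IrrCharacter N)) (hb : Cfsg.IsPBlock M b) (T : Subgroup G) [Fintype T] (hT : ∀ g : G, g ∈ T ↔ ∀ θ ∈ b, ∀ θ' : Cfsg.IrrCharacter N, (∀ n : N, (θ' : N → ℂ) n = (θ : N → ℂ) ⟨g * n * g⁻¹, hN.conj_mem n n.2 g⟩) → θ' ∈ b) (hNT : N ≤ T) : (∀ B' : Set (Cfsg.IrrCharacter T), Cfsg.IsPBlock M B' → (∃ ψ ∈ B', ∃ θ ∈ b, Cfsg.classInner (fun n : N => (ψ : T → ℂ) ⟨(n : G), hNT n.2⟩) (θ : N → ℂ) ≠ 0) → ∃ B : Set (Cfsg.IrrCharacter G), Cfsg.IsInducedBlock M T B' B ∧ (∃ χ ∈ B, ∃ θ ∈ b, Cfsg.classInner (fun n : N => (χ : G → ℂ) n) (θ : N → ℂ) ≠ 0) ∧ (∀ ψ ∈ B', Cfsg.IsIrrCharacter G (Cfsg.indFun T (ψ : T → ℂ))) ∧ ∀ χ : Cfsg.IrrCharacter G, χ ∈ B ↔ ∃ ψ ∈ B', (χ : G → ℂ) = Cfsg.indFun T (ψ : T → ℂ)) ∧ (∀ B'₁ B'₂ : Set (Cfsg.IrrCharacter T), Cfsg.IsPBlock M B'₁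 → Cfsg.IsPBlock M B'₂ → (∃ ψ ∈ B'₁, ∃ θ ∈ b, Cfsg.classInner (fun n : N => (ψ : T → ℂ) ⟨(n : G), hNT n.2⟩) (θ : N → ℂ) ≠ 0) → (∃ ψ ∈ B'₂, ∃ θ ∈ b, Cfsg.classInner (fun n : N => (ψ : T → ℂ) ⟨(n : G), hNT n.2⟩) (θ : N → ℂ) ≠ 0) → ∀ B : Set (Cfsg.IrrCharacter G), Cfsg.IsInducedBlock M T B'₁ B → Cfsg.IsInducedBlock M T B'₂ B → B'₁ = B'₂) ∧ (∀ B : Set (Cfsg.IrrCharacter G), Cfsg.IsPBlock M B → (∃ χ ∈ B, ∃ θ ∈ b, Cfsg.classInner (fun n : N => (χ : G → ℂ) n) (θ : N → ℂ) ≠ 0) → ∃ B' : Set (Cfsg.IrrCharacter T), Cfsg.IsPBlock M B' ∧ (∃ ψ ∈ B', ∃ θ ∈ b, Cfsg.classInner (fun n : N => (ψ : T → ℂ) ⟨(n : G), hNT n.2⟩) (θ : N → ℂ) ≠ 0) ∧ Cfsg.IsInducedBlock M T B' B) := by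
  have hfac : ∀ n, T.subtype (Subgroup.inclusion hNT n) = N.subtype n := fun _ => rfl
  have hi := T.subtype_injective
  have hst : blockStab N.subtype b ≤ T.subtype.range := by
    rw [Subgroup.range_subtype]
    intro g hg
    refine (hT g).2 fun θ hθ θ' h => ?_
    rw [← smul_mem_iff_of_mem_blockStab hg]
    convert hθ
    refine (conjAut_smul_eq_iff N.subtype).2 fun n n' e => ?_
    exact (congrArg θ.1 (Subtype.ext e)).trans (h n).symm
  haveI : IsNormalEmb (Subgroup.inclusion hNT) := IsNormalEmb.of_factor hi hfac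
  have hc : ∀ B' : Set (IrrCharacter T), (∃ ψ ∈ B', ∃ θ ∈ b, classInner
      (fun n : N => (ψ : T → ℂ) ⟨(n : G), hNT n.2⟩) (θ : N → ℂ) ≠ 0) ↔
      Covers (Subgroup.inclusion hNT) B' b := fun B' =>
    (covers_iff_classInner (f := Subgroup.inclusion hNT)).symm
  refine ⟨fun B' hB' hcov => ?_, fun B₁ B₂ h₁ h₂ c₁ c₂ B i₁ i₂ => ?_, fun B hB hcov => ?_⟩
  · rw [hc] at hcov
    have hA := hcov.subset_irrOver hM hB' (hb.isBlockUnion hM)
    refine ⟨irrOver T.subtype B', (isInducedBlock_iff hM).2 (fr_induces hM hi hfac hb hst hB' hcov),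
      (covers_iff_classInner (f := N.subtype)).1 (fr_covers hi hfac hcov), fun ψ hψ => ?_,
      fun χ => ?_⟩
    · rw [indFun_eq_ind]
      exact fr_isIrr_ind hM hi hfac hb hst (hA hψ)
    · simp only [indFun_eq_ind]
      exact fr_mem_irrOver_iff hM hi hfac hb hst hA
  · rw [hc] at c₁ c₂
    have e₁ := (fr_induces hM hi hfac hb hst h₁ c₁).unique hM ((isInducedBlock_iff hM).1 i₁)
    have e₂ := (fr_induces hM hi hfac hb hst h₂ c₂).unique hM ((isInducedBlock_iff hM).1 i₂)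
    have a₁ := c₁.subset_irrOver hM h₁ (hb.isBlockUnion hM)
    have a₂ := c₂.subset_irrOver hM h₂ (hb.isBlockUnion hM)
    exact Set.Subset.antisymm (fr_injective hM hi hfac hb hst a₁ a₂ (e₁.trans e₂.symm).le)
      (fr_injective hM hi hfac hb hst a₂ a₁ (e₂.trans e₁.symm).le)
  · obtain ⟨B', hB', c, rfl⟩ := fr_surjective hM hi hfac hb hst hB
      ((covers_iff_classInner (f := N.subtype)).2 hcov)
    exact ⟨B', hB', (hc B').2 c, (isInducedBlock_iff hM).2 (fr_induces hM hi hfac hb hst hB' c)⟩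

end Cfsg.Agent.S4435
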