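import Cfsg.Statements.S4436
import Cfsg.Agent.Blk.FongReynolds
-- import your own Cfsg.Agent.* helpers here

set_option autoImplicit false
open Cfsg

namespace Cfsg.Agent.S4436

/-- Let N be a normal subgroup of the finite group G, b a block of N (relative to a maximal ideal M of the algebraic integers containing p), T the stabilizer of b in G, N ≤ T, and B′ a block of T covering b (some member of B′ has a constituent in b on restriction to N) that induces the block B of G. Then every defect group of B′ is a defect group of B, and for every ψ ∈ B′ the induced character ψ^G is an irreducible character of G lying in B with the same height as ψ. -/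
theorem result {G : Type*} [Group G] [Fintype G] (p : ℕ) [Fact p.Prime] (M : Ideal Cfsg.AlgInt) (hM : Cfsg.IsPModular p M) (N : Subgroup G) [hN : N.Normal] [Fintype N] (b : Set (Cfsg.IrrCharacter N)) (hb : Cfsg.IsPBlock M b) (T : Subgroup G) [Fintype T] (hT : ∀ g : G, g ∈ T ↔ ∀ θ ∈ b, ∀ θ' : Cfsg.IrrCharacter N, (∀ n : N, (θ' : N → ℂ) n = (θ : N → ℂ) ⟨g * n * g⁻¹, hN.conj_mem n n.2 g⟩) → θ' ∈ b) (hNT : N ≤ T) (B' : Set (Cfsg.IrrCharacter T)) (hB' : Cfsg.IsPBlock M B') (hcov : (∃ ψ ∈ B', ∃ θ ∈ b, Cfsg.classInner (fun n : N => (ψ : T → ℂ) ⟨(n : G), hNT n.2⟩) (θ : N → ℂ) ≠ 0)) (B : Set (Cfsg.IrrCharacter G)) (hind : Cfsg.IsInducedBlock M T B' B) : (∀ D : Subgroup T, Cfsg.IsDefectGroup p M B' D → Cfsg.IsDefectGroup p M B (D.map T.subtype)) ∧ ∀ ψ ∈ B', ∃ χ ∈ B, (χ : G → ℂ) = Cfsg.indFun T (ψ : T → ℂ) ∧ Cfsg.blockHeight p B (χ : G → ℂ) = Cfsg.blockHeight p B' (ψ : T → ℂ) := by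
  have hfac : ∀ n, T.subtype (Subgroup.inclusion hNT n) = N.subtype n := fun _ => rfl
  have hi := T.subtype_injective
  have hst : blockStab N.subtype b ≤ T.subtype.range := by
    rw [Subgroup.range_subtype]
    intro g hg
    refine (hT g).2 fun θ hθ θ' h => ?_
    rw [← smul_mem_iff_of_mem_blockStab hg]
    convert hθ
    refine (conjAut_smul_eq_iff N.subtype).2 fun n n' e => ?_
    exact (congrArg θ.1 (Subtype.ext e)).trans (h n).symm
  haveI : IsNormalEmb (Subgroup.inclusion hNT) := IsNormalEmb.of_factor hi hfac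
  have hc : Covers (Subgroup.inclusion hNT) B' b :=
    (covers_iff_classInner (f := Subgroup.inclusion hNT)).2 hcov
  have hA := hc.subset_irrOver hM hB' (hb.isBlockUnion hM)
  obtain rfl := (fr_induces hM hi hfac hb hst hB' hc).unique hM ((isInducedBlock_iff hM).1 hind)
  refine ⟨fun D hD => fr_isDefectGroup hM hi hfac hb hst hB' hc hD, fun ψ hψ => ?_⟩
  refine ⟨⟨_, fr_isIrr_ind hM hi hfac hb hst (hA hψ)⟩, ⟨ψ, hψ, liesOver_of_ind_eq rfl⟩,
    (indFun_eq_ind T _).symm, ?_⟩
  exact fr_blockHeight hM hi hfac hb hst hA hψ (χ := ⟨_, fr_isIrr_ind hM hi hfac hb hst (hA hψ)⟩) rfl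

end Cfsg.Agent.S4436
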