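import Cfsg.Statements.S4437
import Cfsg.Agent.Blk.Pairs
import Cfsg.Agent.Grp.Cores
-- import your own Cfsg.Agent.* helpers here

set_option autoImplicit false
open Cfsg

namespace Cfsg.Agent.S4437

open Cfsg.GA

/-- Let P be a p-subgroup of the finite group G, H = P·C_G(P), and b a block of H (relative to a maximal ideal M of the algebraic integers containing p) having P as a defect group; let B be the block of G induced by b. Let T be the stabilizer of b in N_G(P): the elements g of N_G(P) such that the g-conjugate of every member of b is again a member of b. Then B has defect group P if and only if p does not divide the index of H in T. -/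
theorem result {G : Type*} [Group G] [Fintype G] (p : ℕ) [Fact p.Prime] (M : Ideal Cfsg.AlgInt) (hM : Cfsg.IsPModular p M) (P : Subgroup G) (hP : IsPGroup p P) (H : Subgroup G) [Fintype H] (hH : H = P ⊔ Subgroup.centralizer (P : Set G)) (b : Set (Cfsg.IrrCharacter H)) (hb : Cfsg.IsPBlock M b) (hbP : Cfsg.IsDefectGroup p M b (P.subgroupOf H)) (B : Set (Cfsg.IrrCharacter G)) (hind : Cfsg.IsInducedBlock M H b B) (T : Subgroup G) (hT : ∀ g : G, g ∈ T ↔ (g ∈ Subgroup.normalizer (P : Set G) ∧ ∀ θ ∈ b, ∀ θ' : Cfsg.IrrCharacter H, (∀ h h' : H, (h' : G) = g * h * g⁻¹ → (θ' : H → ℂ) h' = (θ : H → ℂ) h) → θ' ∈ b)) : Cfsg.IsDefectGroup p M B P ↔ ¬ p ∣ H.relIndex T := by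
  haveI := hM.charP
  have hPH : P ≤ H := hH ▸ le_sup_left
  have hCH : Subgroup.centralizer (P : Set G) ≤ H := hH ▸ le_sup_right
  have hHN : H ≤ Subgroup.normalizer (P : Set G) :=
    hH ▸ sup_le Subgroup.le_normalizer (centralizer_le_normalizer' P)
  have hNH : Subgroup.normalizer (P : Set G) ≤ Subgroup.normalizer (H : Set G) := by
    rw [hH]
    exact (le_inf le_rfl (normalizer_le_normalizer_centralizer' P)).trans
      (normalizer_inf_le_sup _ _)
  set e := subIdem M H b with he
  have h1 := (isBlockIdem_iff_centralizer hP hPH hCH hHN).1 (hb.isBlockIdem_subIdem hM)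
  have h2 : IsBPair p P e := by
    refine ⟨hP, (isPrimIdem_congr fun f _ => ?_).1 h1⟩
    rw [mem_Zalg, mem_Zalg, hH, mem_fixedBy_sup]
    exact ⟨fun h => ⟨h.1, h.2.2⟩, fun h => ⟨h.1, suppIn_centralizer_le_fixedBy P h.1, h.2⟩⟩
  have hD : IsDefGrp p H e P := (hb.isDefectGroup_subgroupOf_iff hM hPH).1 hbP
  have hi := (isInducedBlock_iff hM).1 hind
  have hB := hi.right
  have h3 : IsPairOf p (blockIdem M B) P e := by
    refine ⟨hB.isBlockIdem hM, h2, ?_⟩
    have := (induces_subtype_iff_Br hM hP hPH hCH hb h2.Br_ne_zero hB).1 hi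
    rwa [h2.Br_self] at this
  have hTe : T = Subgroup.normalizer (P : Set G) ⊓ cjStab e := by
    ext g
    rw [hT, Subgroup.mem_inf, mem_cjStab]
    refine and_congr_right fun hg => ?_
    have := (hb.stabilizesBlock_iff hM (x := g)).symm.trans stabilizesBlock_iff_conjSet
    rw [and_iff_right (hNH hg), and_iff_right (hNH hg)] at this
    rw [this]
    exact ⟨fun h θ' ⟨θ, hθ, h'⟩ => h θ hθ θ' h', fun h θ hθ θ' h' => h ⟨θ, hθ, h'⟩⟩
  have hI := h2.isInertial_stab
  rw [hB.isDefectGroup_iff hM, hTe]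
  constructor
  · intro h
    have := hI.not_dvd_relIndex (IsMaxPair.isDefGrp_stab ⟨h3, h⟩)
    rwa [← hH] at this
  · intro h
    have hHT : H ≤ Subgroup.normalizer (P : Set G) ⊓ cjStab e :=
      le_inf hHN (mem_fixedBy_iff_le.1 (hb.isBlockIdem_subIdem hM).mem.2)
    obtain ⟨D, hD', hPD⟩ := hI.exists_isDefGrp_ge (hPH.trans hHT) hP h2.Br_ne_zero
    have hDH : D ≤ H := by
      haveI : (H.subgroupOf (Subgroup.normalizer (P : Set G) ⊓ cjStab e)).Normal :=
        Subgroup.normal_subgroupOf_of_le_normalizer (inf_le_left.trans hNH)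
      have := le_of_isPGroup_of_not_dvd_index (N := H.subgroupOf _)
        (isPGroup_subgroupOf hD'.isPGroup (Subgroup.normalizer (P : Set G) ⊓ cjStab e)) h
      intro x hx
      exact this (show (⟨x, hD'.le hx⟩ : ↥(Subgroup.normalizer (P : Set G) ⊓ cjStab e)) ∈
        D.subgroupOf _ from hx)
    have : D = P := hD.eq_of_le hPD hDH hD'.isPGroup hD'.br_ne_zero
    exact (h3.isMaxPair_of_isDefGrp_stab (this ▸ hD')).defect

end Cfsg.Agent.S4437
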