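import Cfsg.Statements.S4442
import Cfsg.Agent.Blk.FrobPrime
-- import your own Cfsg.Agent.* helpers here

set_option autoImplicit false
open Cfsg

namespace Cfsg.Agent.S4442

/-- Blocks of defect one. Let p be an odd prime and G a finite group whose Sylow p-subgroup P has order p; let C = C_G(P) and N = N_G(P), and fix a maximal ideal M of the algebraic integers containing p. Let B be a block of G with defect group P, b a block of C inducing B, and θ the member of b having P in its kernel (there is exactly one). Let T be the stabilizer of θ in N (the elements g ∈ N with θ(g c g⁻¹) = θ(c) for all c ∈ C) and e the index of C in T. Then e divides p − 1 and B contains exactly e + (p − 1)/e irreducible characters. Moreover B is the disjoint union of a set X of e characters and a set Y of (p − 1)/e characters such that, with f the index of C in N: every χ ∈ X has χ(1) ≡ ±(f/e)·θ(1) (mod p), there is one sign ε with ψ(1) ≡ ε f θ(1) (mod p) for all ψ ∈ Y, and all members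 of Y agree on the p-regular elements of G. -/
theorem result {G : Type*} [Group G] [Finite G] (p : ℕ) [Fact p.Prime] (M : Ideal Cfsg.AlgInt) (hM : Cfsg.IsPModular p M) (hodd : p ≠ 2) (P : Sylow p G) (hP : Nat.card P = p) (B : Set (Cfsg.IrrCharacter G)) (hB : Cfsg.IsPBlock M B) (hBP : Cfsg.IsDefectGroup p M B P) (b : Set (Cfsg.IrrCharacter (Subgroup.centralizer ((P : Subgroup G) : Set G)))) (hind : Cfsg.IsInducedBlock M (Subgroup.centralizer ((P : Subgroup G) : Set G)) b B) (θ : Cfsg.IrrCharacter (Subgroup.centralizer ((P : Subgroup G) : Set G))) (hθ : θ ∈ b) (hθP : ∀ x : Subgroup.centralizer ((P : Subgroup G) : Set G), (x : G) ∈ (P : Subgroup G) → (θ : Subgroup.centralizer ((P : Subgroup G) : Set G) → ℂ) x = (θ : Subgroup.centralizer ((P : Subgroup G) : Set G) → ℂ) 1) (T : Subgroup G) (hT : ∀ g : G, g ∈ T ↔ (g ∈ Subgroup.normalizer ((P : Subgroup G) : Set G) ∧ ∀ c c' : Subgroup.centralizer ((P : Subgroup G) : Set G), (c' : G) = g * c * g⁻¹ → (θ : Subgroup.centralizer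 ((P : Subgroup G) : Set G) → ℂ) c' = (θ : Subgroup.centralizer ((P : Subgroup G) : Set G) → ℂ) c)) (e f : ℕ) (he : (Subgroup.centralizer ((P : Subgroup G) : Set G)).relIndex T = e) (hf : (Subgroup.centralizer ((P : Subgroup G) : Set G)).relIndex (Subgroup.normalizer ((P : Subgroup G) : Set G)) = f) : e ∣ p - 1 ∧ Nat.card B = e + (p - 1) / e ∧ ∃ X Y : Set (Cfsg.IrrCharacter G), B = X ∪ Y ∧ Disjoint X Y ∧ Nat.card X = e ∧ Nat.card Y = (p - 1) / e ∧ (∀ χ ∈ X, (Cfsg.charDegree (χ : G → ℂ) : ℤ) ≡ ((f / e * Cfsg.charDegree (θ : Subgroup.centralizer ((P : Subgroup G) : Set G) → ℂ) : ℕ) : ℤ) [ZMOD p] ∨ (Cfsg.charDegree (χ : G → ℂ) : ℤ) ≡ -((f / e * Cfsg.charDegree (θ : Subgroup.centralizer ((P : Subgroup G) : Set G) → ℂ) : ℕ) : ℤ) [ZMOD p]) ∧ (∃ ε : ℤ, (ε = 1 ∨ ε = -1) ∧ ∀ ψ ∈ Y, (Cfsg.charDegree (ψ : G → ℂ) : ℤ) ≡ ε * ((f * Cfsg.charDegree (θ : Subgroup.centralizer ((P : Subgroup G) : Set G) → ℂ) : ℕ) : ℤ) [ZMOD p]) ∧ ∀ ψ ∈ Y, ∀ ψ' ∈ Y, ∀ g : G, ¬ p ∣ orderOf g → (ψ : G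 → ℂ) g = (ψ' : G → ℂ) g := by
  classical
  let _ := Fintype.ofFinite P
  have hp : p.Prime := Fact.out
  have := hM.charP
  have hi := (Cfsg.isInducedBlock_iff hM).1 hind
  have : IsCyclic P := isCyclic_of_prime_card hP
  have hab : (P : Subgroup G) ≤ _ := Subgroup.le_centralizer _
  obtain rfl : T = Subgroup.normalizer ((P : Subgroup G) : Set G) ⊓
      Cfsg.GA.cjStab (Cfsg.subIdem M _ b) := by
    ext g
    rw [hT, Subgroup.mem_inf]
    exact and_congr_right fun hg => (hi.mem_cjStab_iff_canonical hM hBP hab hθ hθP hg).symm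
  obtain ⟨S, ε, hε, h, hS, hS0, -, X, Y, δ, ζ, α, o, h1, h2⟩ :=
    hi.exists_out_prime hM hBP hP hθ hθP
  have hE := (Cfsg.card_autOf_subtype (P := (P : Subgroup G)) inf_le_left).trans he
  have hF := (Cfsg.card_autOf_subtype (P := (P : Subgroup G)) le_rfl).trans hf
  have h3 := o.cardY
  have h4 := o.cardY_eq
  have h5 := h.card_dvd
  rw [hE] at h3 h4 h5
  rw [hP] at h3 h4 h5
  rw [he] at h1
  obtain ⟨k, hk⟩ : e ∣ f := by
    rw [← he, ← hf, ← Subgroup.relIndex_mul_relIndex _ _ _
      (hi.isMaxPair hM hBP).pair.isInertial_stab.centralizer_le inf_le_left]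
    exact dvd_mul_right _ _
  have he0 : 0 < e := hE ▸ Nat.card_pos
  have hfe : f / e = k := by rw [hk, Nat.mul_div_cancel_left _ he0]
  have h6 : (p : ℤ) ∣ (p : ℤ) ^ (Nat.card G).factorization p := dvd_pow_self _
    (hp.factorization_pos_of_dvd Nat.card_pos.ne'
      (hP ▸ (P : Subgroup G).card_subgroup_dvd_card)).ne'
  have h7 : ∀ χ ∈ X, α χ * α χ = 1 := fun χ hχ => by rcases h2 χ hχ with h | h <;> simp [h]
  have h8 : ∀ χ ∈ X, (Cfsg.charDegree χ.1 : ℤ) ≡ α χ * ε * (k * Cfsg.charDegree θ.1 : ℕ)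
      [ZMOD p] := by
    intro χ hχ
    obtain ⟨u, hu⟩ := h.nontriv
    have hu' : (u : G) ≠ 1 := fun e => hu (Subtype.ext e)
    obtain ⟨n, hn⟩ := P.isPGroup' u
    refine (χ.isCharacter.int_modEq_charDegree hp (x := u) (k := n) (congrArg Subtype.val hn)
      ?_).symm
    have hup : ∀ v : (P : Subgroup G), Cfsg.IsPElt p (v : G) := fun v => by
      obtain ⟨n, hn⟩ := IsPGroup.iff_orderOf.1 P.isPGroup' v
      exact ⟨n, by rw [← hn, Subgroup.orderOf_coe]⟩
    have hnr : ¬ Cfsg.IsPRegular p (u : G) := by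
      rw [Cfsg.IsPRegular, not_not, ← Nat.card_zpowers,
        Cfsg.zpowers_eq_of_card_eq_prime hP u.2 hu', hP]
    let _ := Fintype.ofFinite (Cfsg.autOf (P : Subgroup G).subtype
      (Subgroup.normalizer ((P : Subgroup G) : Set G)))
    have h9 := (Cfsg.Exc.isFree_of_card_eq_prime hP (Cfsg.autOf (P : Subgroup G).subtype
      (Subgroup.normalizer ((P : Subgroup G) : Set G)))).sum_orbit hu (fun _ => (1 : ℂ))
    rw [Finset.sum_const (s := Finset.univ), Finset.card_univ, ← Nat.card_eq_fintype_card, hF,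
      Finset.sum_filter] at h9
    rw [h.apply_eq_sum χ.isClassFunction (Cfsg.blockPart_irr_of_mem (o.X_subset hχ)) hnr, hE,
      Finset.sum_filter, Finset.sum_congr rfl (g := fun v => (α χ * ε * θ.1 1) *
        if ∃ σ ∈ Cfsg.autOf (P : Subgroup G).subtype
          (Subgroup.normalizer ((P : Subgroup G) : Set G)), σ u = v then 1 else 0),
      ← Finset.mul_sum, θ.apply_one]
    · rw [show (∑ v, if ∃ σ ∈ Cfsg.autOf (P : Subgroup G).subtype
          (Subgroup.normalizer ((P : Subgroup G) : Set G)), σ u = v then (1 : ℂ) else 0) =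
          f • (1 : ℂ) by convert h9, hk]
      have : (e : ℂ) ≠ 0 := by exact_mod_cast he0.ne'
      rw [nsmul_one]
      push_cast
      field_simp
    · intro v _
      simp only [Cfsg.exists_autOf_apply_iff (Subgroup.subtype_injective (P : Subgroup G))
        (T := Subgroup.normalizer ((P : Subgroup G) : Set G)) (by rw [Subgroup.range_subtype])]
      by_cases hv : v = 1
      · rw [if_neg (by simp [hv]), if_neg, mul_zero]
        rintro ⟨g, -, hg⟩
        apply hu'
        rw [hv, map_one, eq_comm, mul_inv_eq_one, mul_eq_left] at hg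
        exact hg
      rw [if_pos hv, o.nonexc χ hχ v hv]
      by_cases hc : IsConj (u : G) v
      · obtain ⟨g, hg⟩ := isConj_iff.1 hc
        rw [if_pos ⟨g, Cfsg.mem_normalizer_of_card_eq_prime hP u.2 hu' (hg ▸ v.2), hg.symm⟩,
          (h.cf v).eq_of_isConj hc]
        have := hS v hv 1 Cfsg.isPRegular_one
        simp only [OneMemClass.coe_one, mul_one] at this
        rw [this]
        ring
      · rw [hS0 v u (by rwa [Cfsg.mem_pSection_iff_isConj (hup u)]), if_neg, mul_zero, mul_zero]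
        rintro ⟨g, -, hg⟩
        exact hc (isConj_iff.2 ⟨g, hg.symm⟩)
  refine ⟨h5, by rw [o.card_eq, h1, h4], X, Y, o.union, o.disj, h1, h4, fun χ hχ => ?_,
    ⟨δ * ε, ?_, fun ψ hψ => ?_⟩, o.reg_eq⟩
  · have := h8 χ hχ
    rw [hfe]
    rcases h2 χ hχ with h | h <;> rcases hε with h' | h' <;> simp only [h, h'] at this <;>
      simp only [mul_one, one_mul, mul_neg, neg_mul, neg_neg] at this <;> simp only [this, true_or,
      or_true]
  · rcases o.sign with h | h <;> rcases hε with h' | h' <;> simp [h, h']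
  · obtain ⟨χ, hχ⟩ := o.X_nonempty h
    have h9 : (e : ℤ) * Nat.card Y + 1 = p := by exact_mod_cast h3
    have := (((h6.trans (o.pow_dvd_Y h hχ hψ)).mul_left (e * α χ)).sub
      (dvd_mul_right (p : ℤ) (Cfsg.charDegree ψ.1))).add ((h8 χ hχ).dvd.mul_left (e * α χ * δ))
    refine Int.modEq_iff_dvd.2 (this.trans (dvd_of_eq ?_))
    rw [hk]
    push_cast
    linear_combination (e * Nat.card Y * Cfsg.charDegree ψ.1 +
      e * δ * ε * k * Cfsg.charDegree θ.1 : ℤ) * h7 χ hχ + (Cfsg.charDegree ψ.1 : ℤ) * h9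

end Cfsg.Agent.S4442
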