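import Cfsg.Statements.S4443
import Cfsg.Agent.Blk.Robinson

set_option autoImplicit false
open Cfsg

namespace Cfsg.Agent.S4443

open Subgroup GA
open scoped ComplexConjugate

theorem aux {G : Type*} [Group G] [Finite G] {p : ℕ} [Fact p.Prime] {M : Ideal AlgInt}
    (hM : IsPModular p M) (S : Sylow p G) (x : G) {y : G} (hy : ¬ p ∣ orderOf y)
    (c : Blocks G M → IrrCharacter G) (hc : ∀ B, c B ∈ B.1) : ∃ z ∈ locO M,
    (Nat.card {gh : G × G // IsConj x gh.1 ∧ IsConj y gh.2 ∧ gh.2 * gh.1⁻¹ ∈ (S : Subgroup G)} : ℂ) =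
      (Nat.card (S : Subgroup G) : ℂ) / Nat.card (centralizer ({y} : Set G)) * z ∧
      red M z = (S : Subgroup G).index *
        ∑ B, red M (centralChar (c B).1 x) * red M (blockCoeff B.1 y) := by
  classical
  have := Fintype.ofFinite (S : Subgroup G)
  have h0 : ∀ χ : IrrCharacter G, ip (χ.1 ∘ (S : Subgroup G).subtype) (fun _ => 1) ∈ locO M :=
    fun χ => by
      obtain ⟨n, hn⟩ := χ.exists_ip_one_res (S : Subgroup G)
      rw [← conj_ip, hn, map_natCast]; exact natCast_mem _ n
  have h1 := congrArg conj (card_pairs_mem_eq_sum (S : Subgroup G) x y)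
  simp only [map_natCast, map_mul, map_div₀, map_sum, IrrCharacter.centralChar_inv, conj_ip,
    Complex.conj_conj, mul_assoc] at h1
  have h2 := fun χ : IrrCharacter G => mul_mem (h0 χ) (χ.conj_mem_locO (M := M) y)
  refine ⟨_, sum_mem fun χ _ => mul_mem (centralChar_mem_locO χ x) (h2 χ), h1, ?_⟩
  rw [red_sum fun χ _ => mul_mem (centralChar_mem_locO χ x) (h2 χ), ← hM.sum_blocks_finsum,
    Finset.mul_sum]
  refine Finset.sum_congr rfl fun B _ => ?_
  rw [finsum_mem_irr_eq_sum, Finset.sum_congr rfl fun χ h => by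
    rw [red_mul (centralChar_mem_locO χ x) (h2 χ),
      B.2.red_centralChar_eq hM (Finset.mem_filter.1 h).2 (hc B)], ← Finset.mul_sum,
    ← red_sum fun χ _ => h2 χ, mul_left_comm, ← red_natCast,
    ← red_mul (natCast_mem _ _) (B.2.blockCoeff_mem hM y)]
  congr 2
  simp only [ip_def, map_one, mul_one, mul_assoc, ← Finset.mul_sum, Finset.sum_mul]
  rw [Finset.sum_comm, Fintype.sum_eq_single 1 fun u hu => ?_, blockCoeff_eq_sum,
    ← (S : Subgroup G).index_mul_card]
  · have := natCard_cast_ne_zero (S : Subgroup G)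
    have : ((S : Subgroup G).index : ℂ) ≠ 0 := Nat.cast_ne_zero.2 index_ne_zero_of_finite
    push_cast; field_simp; rfl
  · obtain ⟨k, hk⟩ := isPElt_of_mem S.isPGroup' u.2
    have := congrArg conj (B.2.finsum_mul_conj_eq_zero_of_regular hM hy (h := u) (hk ▸ dvd_pow_self p
      fun h => hu (Subtype.ext (orderOf_eq_one_iff.1 (by rw [hk, h, pow_zero])))))
    simpa [finsum_mem_irr_eq_sum, mul_comm] using this

/-- Let D be a normal p-subgroup of the finite group G, of order p^d, let p^a be the p-part of the order of G, and fix a Sylow p-subgroup S and a maximal ideal M of the algebraic integers containing p. Index by a finite type ι (via an injective map K) exactly the conjugacy classes of p-regular elements x of G for which D is a Sylow p-subgroup of C_G(x). For classes K_i, K_j let ω(i, j) be the number of pairs (y, z) ∈ K_i × K_j with z y⁻¹ ∈ S; this number is divisible by p^(a−d). Then the number of p-blocks of G having D as a defect group equals the rank over ℤ/pℤ of the matrix with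 (i, j) entry ω(i, j)/p^(a−d) reduced modulo p. -/
theorem result {G : Type*} [Group G] [Finite G] (p : ℕ) [Fact p.Prime] (M : Ideal Cfsg.AlgInt) (hM : Cfsg.IsPModular p M) (D : Subgroup G) [D.Normal] (hD : IsPGroup p D) (S : Sylow p G) {ι : Type*} [Fintype ι] [DecidableEq ι] (K : ι → ConjClasses G) (hKinj : Function.Injective K) (hK : ∀ C : ConjClasses G, (∃ i, K i = C) ↔ ∃ x ∈ C.carrier, ¬ p ∣ orderOf x ∧ ∃ Q : Sylow p (Subgroup.centralizer ({x} : Set G)), (Q : Subgroup (Subgroup.centralizer ({x} : Set G))).map (Subgroup.centralizer ({x} : Set G)).subtype = D) : Nat.card {B : Set (Cfsg.IrrCharacter G) // Cfsg.IsPBlock M B ∧ Cfsg.IsDefectGroup p M B D} = (Matrix.of fun i j : ι => ((Nat.card {yz : G × G // yz.1 ∈ (K i).carrier ∧ yz.2 ∈ (K j).carrier ∧ yz.2 * yz.1⁻¹ ∈ (S : Subgroup G)} / p ^ ((Nat.card G).factorization p - (Nat.card D).factorization p) : ℕ) : ZMod p)).rank := by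
  classical
  have := hM.charP
  have := Fintype.ofFinite (ConjClasses G)
  have hp : p.Prime := Fact.out
  have hx : ∀ i, ¬ p ∣ orderOf (K i).out ∧ IsSylowIn p D (centralizer {(K i).out}) := fun i => by
    obtain ⟨x, hx, h1, Q, hQ⟩ := (hK _).1 ⟨i, rfl⟩
    obtain ⟨c, hc⟩ := isConj_iff.1 (ConjClasses.mk_eq_mk_iff_isConj.1
      ((ConjClasses.mem_carrier_iff_mk_eq.1 hx).trans (Quotient.out_eq (K i)).symm))
    have h2 := (isSylowIn_iff.2 ⟨Q, hQ.symm⟩).cjS c
    rw [cjS_centralizer_singleton, hc, cjS_of_normal] at h2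
    exact ⟨by rw [← hc]; exact ((MulAut.conj c).orderOf_eq x).symm ▸ h1, h2⟩
  have hmem : ∀ i g, g ∈ (K i).carrier ↔ IsConj (K i).out g := fun i g => by
    rw [ConjClasses.mem_carrier_iff_mk_eq, ← ConjClasses.mk_eq_mk_iff_isConj, eq_comm]
    exact Iff.of_eq (congrArg (· = _) (Quotient.out_eq (K i)).symm)
  choose c hc using fun B : Blocks G M => B.2.nonempty hM
  let L : Matrix ι {B : Blocks G M // IsDefectGroup p M B.1 D} (ResK M) :=
    Matrix.of fun i B => red M (centralChar (c B.1).1 (K i).out)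
  let R : Matrix {B : Blocks G M // IsDefectGroup p M B.1 D} ι (ResK M) :=
    Matrix.of fun B j => red M (blockCoeff B.1.1 (K j).out)
  have hRL : R * L = 1 := by
    ext B B'
    have h1 : lam M (c B'.1).1 (blockIdem M B.1.1) = if B = B' then 1 else 0 := by
      split_ifs with h
      · exact B.1.2.lam_blockIdem_of_mem hM (h ▸ hc _)
      · exact B.1.2.lam_blockIdem_of_notMem hM fun h' =>
          h (Subtype.ext (Subtype.ext (B.1.2.eq_of_mem B'.1.2 hM h' (hc _))))
    rw [Matrix.one_apply, ← h1, lam_apply, Matrix.mul_apply]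
    refine Fintype.sum_of_injective K hKinj _ _ (fun C hC => by_contra fun h => hC ?_)
      fun i => rfl
    obtain ⟨h2, h3, h4⟩ := B.1.2.red_mul_red_ne_zero B'.1.2 hM (hc _) h
    obtain ⟨a, ha⟩ := B'.2.exists_conj_le_centralizer B'.1.2 hM (hc _) (right_ne_zero_of_mul h)
    obtain ⟨Q, hQ, h5⟩ := exists_isSylowIn_ge hD ((cjS_of_normal a D).ge.trans ha)
    obtain rfl := eq_of_le_of_card_ge h5 (by
      rw [hQ.card_eq, B.2.card_eq B.1.2 hM]; exact Nat.pow_le_pow_right hp.pos h4)
    obtain ⟨Q, hQ⟩ := isSylowIn_iff.1 hQ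
    exact (hK C).2 ⟨C.out, ConjClasses.mem_carrier_iff_mk_eq.2 (Quotient.out_eq C), h2, Q, hQ.symm⟩
  let w : ι → ResK M := fun j => (S : Subgroup G).index *
    (red M (Nat.card (centralizer ({(K j).out} : Set G)) / p ^ (Nat.card D).factorization p))⁻¹
  have hd : ∀ j, (Nat.card (centralizer ({(K j).out} : Set G))).factorization p =
      (Nat.card D).factorization p := fun j => by
    rw [(hx j).2.card_eq, hp.factorization_pow, Finsupp.single_eq_same]
  have hw : ∀ j, w j ≠ 0 := fun j => mul_ne_zero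
    (fun h => S.not_dvd_index ((CharP.cast_eq_zero_iff _ p _).1 h))
    (inv_ne_zero ((hM.red_div_pow_ne_zero_iff Nat.card_pos.ne').2 (hd j)))
  rw [← matrix_rank_map (ZMod.castHom (dvd_refl p) (ResK M)), show Matrix.map _ _ =
      L * R * Matrix.diagonal w from ?_, Matrix.rank_mul_eq_left_of_det_ne_zero _ _ (by
        simpa [Finset.prod_ne_zero_iff] using hw),
    ← Nat.card_congr (Equiv.subtypeSubtypeEquivSubtypeInter _ _), Nat.card_eq_fintype_card]
  · refine le_antisymm ?_ ((Matrix.rank_mul_le_left _ _).trans (Matrix.rank_le_card_width _))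
    calc _ = (R * (L * R) * L).rank := by
          rw [← Matrix.mul_assoc, hRL, Matrix.one_mul, hRL, Matrix.rank_one]
      _ ≤ _ := (Matrix.rank_mul_le_left _ _).trans (Matrix.rank_mul_le_right _ _)
  ext i j
  have h1 := aux hM S (K i).out (hx j).1 c hc
  have hle : (Nat.card D).factorization p ≤ (Nat.card G).factorization p := by
    rw [← factorization_index_add (p := p) D]; omega
  have hp0 : (p : ℂ) ≠ 0 := Nat.cast_ne_zero.2 hp.ne_zero
  have hC := natCard_cast_ne_zero (centralizer ({(K j).out} : Set G))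
  have hu := (hM.red_div_pow_ne_zero_iff Nat.card_pos.ne').2 (hd j)
  obtain ⟨z, hz, h1, h2⟩ := h1
  simp only [← hmem] at h1
  have h3 := (div_eq_iff (pow_ne_zero ((Nat.card G).factorization p -
    (Nat.card D).factorization p) hp0)).2 (h1.trans (show _ = z * (Nat.card (centralizer
      ({(K j).out} : Set G)) / p ^ (Nat.card D).factorization p : ℂ)⁻¹ * _ by
        rw [S.card_eq_multiplicity, pow_sub₀ _ hp0 hle]; push_cast; field_simp))
  have h4 := inv_mem_locO (mem_locO_of_red_ne_zero hu) hu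
  have h5 := hM.pow_dvd_of_div_mem (by rw [Int.cast_natCast, h3]; exact mul_mem hz h4)
  rw [Matrix.map_apply, Matrix.of_apply, map_natCast, ← red_natCast,
    Nat.cast_div (by exact_mod_cast h5) (by simpa using fun h => absurd h hp.ne_zero), Nat.cast_pow,
    h3, red_mul hz h4, red_inv (mem_locO_of_red_ne_zero hu) hu, h2, Matrix.mul_diagonal,
    Matrix.mul_apply, ← mul_assoc, mul_comm _ ((S : Subgroup G).index : ResK M)]
  congr 2
  refine (Finset.sum_filter_of_ne (p := fun B => IsDefectGroup p M B.1 D) fun B _ h => ?_).symm.trans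
    (Finset.sum_subtype _ (by simp) _)
  obtain ⟨Q, hQ⟩ := B.2.exists_isDefectGroup hM
  refine B.2.isDefectGroup_of_red_centralChar hM (hc B) (left_ne_zero_of_mul h) (hx i).2 ?_
  rw [← Nat.pow_le_pow_iff_right hp.one_lt, ← (hx i).2.card_eq, ← hQ.card_eq B.2 hM]
  exact card_le_of_le (hQ.le_of_normal B.2 hM hD)

end Cfsg.Agent.S4443
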