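import Cfsg.Statements.S4444
import Cfsg.Agent.Char.GlaubInv

set_option autoImplicit false
open Cfsg

namespace Cfsg.Agent.S4444

/-- The Glauberman correspondence for a p-group of operators. Inside a finite group Γ let S normalise G with the orders of G and S coprime, S a p-group, and let C = G ⊓ C(S) be the fixed points. Call an irreducible character χ of G S-invariant when χ(s g s⁻¹) = χ(g) for s ∈ S, g ∈ G. Then: (i) for every S-invariant χ there is exactly one irreducible character β of C whose multiplicity [χ_C, β] in the restriction of χ is not divisible by p; (ii) that multiplicity is ≡ 1 or ≡ −1 (mod p); (iii) distinct S-invariant χ give distinct β; (iv) every irreducible character of C arises in this way. So χ ↦ β is a bijection from the S-invariant irreducible characters of G onto the irreducible characters of C. -/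
theorem result {Γ : Type*} [Group Γ] [Fintype Γ] (G S : Subgroup Γ) [Fintype G] (hnorm : ∀ s ∈ S, ∀ g ∈ G, s * g * s⁻¹ ∈ G) (hcop : (Nat.card G).Coprime (Nat.card S)) (p : ℕ) (hp : p.Prime) (hS : IsPGroup p S) (C : Subgroup Γ) [Fintype C] (hC : C = G ⊓ Subgroup.centralizer (S : Set Γ)) (hCG : C ≤ G) : (∀ χ : Cfsg.IrrCharacter G, (∀ s ∈ S, ∀ g g' : G, (g' : Γ) = s * g * s⁻¹ → (χ : G → ℂ) g' = (χ : G → ℂ) g) → ∃! β : Cfsg.IrrCharacter C, ∃ m : ℕ, Cfsg.classInner (fun c : C => (χ : G → ℂ) ⟨c, hCG c.2⟩) (β : C → ℂ) = (m : ℂ) ∧ ¬ p ∣ m) ∧ (∀ χ : Cfsg.IrrCharacter G, (∀ s ∈ S, ∀ g g' : G, (g' : Γ) = s * g * s⁻¹ → (χ : G → ℂ) g' = (χ : G → ℂ) g) → ∀ β : Cfsg.IrrCharacter C, ∀ m : ℕ, Cfsg.classInner (fun c : C => (χ : G → ℂ) ⟨c, hCG c.2⟩) (β : C → ℂ) = (m : ℂ) → ¬ p ∣ m → ((m : ℤ) ≡ 1 [ZMOD p] ∨ (m : ℤ) ≡ -1 [ZMOD p])) ∧ (∀ χ χ' : Cfsg.IrrCharacter G, (∀ s ∈ S, ∀ g g' : G, (g' : Γ) = s * g * s⁻¹ → (χ : G → ℂ)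 g' = (χ : G → ℂ) g) → (∀ s ∈ S, ∀ g g' : G, (g' : Γ) = s * g * s⁻¹ → (χ' : G → ℂ) g' = (χ' : G → ℂ) g) → ∀ β : Cfsg.IrrCharacter C, ∀ m m' : ℕ, Cfsg.classInner (fun c : C => (χ : G → ℂ) ⟨c, hCG c.2⟩) (β : C → ℂ) = (m : ℂ) → ¬ p ∣ m → Cfsg.classInner (fun c : C => (χ' : G → ℂ) ⟨c, hCG c.2⟩) (β : C → ℂ) = (m' : ℂ) → ¬ p ∣ m' → χ = χ') ∧ (∀ β : Cfsg.IrrCharacter C, ∃ χ : Cfsg.IrrCharacter G, (∀ s ∈ S, ∀ g g' : G, (g' : Γ) = s * g * s⁻¹ → (χ : G → ℂ) g' = (χ : G → ℂ) g) ∧ ∃ m : ℕ, Cfsg.classInner (fun c : C => (χ : G → ℂ) ⟨c, hCG c.2⟩) (β : C → ℂ) = (m : ℂ) ∧ ¬ p ∣ m) := by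
  haveI := Fact.mk hp
  have h : IsGlaub p (fun χ => ∀ s, conjOn S G hnorm s • χ = χ) (Subgroup.inclusion hCG) := by
    have hj := mem_range_inclusion_iff_conjOn hnorm hC hCG
    by_cases hG : p ∣ Nat.card G
    · haveI : Subsingleton S := (Subgroup.eq_bot_iff_card _).2 (by
        obtain ⟨k, hk⟩ := hS.exists_card_eq
        rcases k with _ | k
        · simpa using hk
        · exact absurd (Nat.eq_one_of_dvd_coprimes hcop hG (hk ▸ dvd_pow_self p k.succ_ne_zero))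
            hp.one_lt.ne') ▸ (inferInstance : Subsingleton (⊥ : Subgroup Γ))
      have h1 : ∀ s, conjOn S G hnorm s = 1 := fun s => by rw [Subsingleton.elim s 1, map_one]
      let e := MulEquiv.ofBijective (Subgroup.inclusion hCG)
        ⟨Subgroup.inclusion_injective _, fun g => (hj g).2 (by simp [h1])⟩
      have h2 : ∀ χ : IrrCharacter G, χ.1 ∘ Subgroup.inclusion hCG =
        (IrrCharacter.comapEquiv e χ).1 := fun _ => rfl
      refine ⟨fun χ _ => ⟨IrrCharacter.comapEquiv e χ, by simp [h2, IrrCharacter.ipNat_self],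
        fun β hβ => by simp [h2, IrrCharacter.ipNat_of_ne hβ.symm]⟩, fun β => ?_⟩
      obtain ⟨χ, rfl⟩ := (IrrCharacter.comapEquiv e).surjective β
      refine ⟨χ, ⟨by simp [h1], by simp [h2, IrrCharacter.ipNat_self, hp.one_lt.ne']⟩, ?_⟩
      rintro χ' ⟨-, h3⟩
      exact (IrrCharacter.comapEquiv e).injective (by_contra fun e =>
        h3 (by simp [h2, IrrCharacter.ipNat_of_ne e]))
    · exact isGlaub_of_pGroup hp _ (fun s => (hS s).imp fun k hk => by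
        rw [← map_pow, hk, map_one]) hG (Subgroup.inclusion_injective _) hj
  have e : ∀ (χ : IrrCharacter G) (β : IrrCharacter C) (m : ℕ),
      classInner (fun c : C => (χ : G → ℂ) ⟨c, hCG c.2⟩) (β : C → ℂ) = (m : ℂ) ↔
        ipNat (χ.1 ∘ Subgroup.inclusion hCG) β.1 = m := fun χ β m => by
    rw [classInner_eq_ip, ← Nat.cast_inj (R := ℂ),
      (χ.isCharacter.comp _).ipNat_cast β.isCharacter]
    rfl
  simp only [e, exists_eq_left', ← forall_conjOn_smul_iff hnorm]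
  refine ⟨fun χ hχ => ?_, fun χ hχ β m hm h1 => hm ▸ h.modEq hχ (hm ▸ h1),
    fun χ χ' hχ hχ' β m m' hm h1 hm' h2 => h.left_unique hχ hχ' (hm ▸ h1) (hm' ▸ h2),
    h.exists_left⟩
  obtain ⟨β, hβ⟩ := h.exists_rel hp hχ
  exact ⟨β, hβ, fun β' h' => h.right_unique hχ h' hβ⟩

end Cfsg.Agent.S4444
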