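import Cfsg.Statements.S4446
import Cfsg.Agent.Char.GlaubCyc

set_option autoImplicit false
open Cfsg

namespace Cfsg.Agent.S4446

/-- Let the finite group Γ be generated by a normal subgroup G and a cyclic subgroup S of coprime orders, C = G ⊓ C(S), and let χ be an S-invariant irreducible character of G with canonical extension χ̂ to Γ (the extension whose determinantal order is coprime to the order of S). Then there are exactly one irreducible character β of C and one sign ε such that χ̂(c s) = ε β(c) for every c ∈ C and every generator s of S; this β is a constituent of the restriction of χ to C; distinct S-invariant χ give distinct β; and every irreducible character of C arises in this way. -/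
theorem result {Γ : Type*} [Group Γ] [Fintype Γ] (G S : Subgroup Γ) [Fintype G] (hnorm : ∀ s ∈ S, ∀ g ∈ G, s * g * s⁻¹ ∈ G) (hcop : (Nat.card G).Coprime (Nat.card S)) (htop : G ⊔ S = ⊤) (hcyc : IsCyclic S) (C : Subgroup Γ) [Fintype C] (hC : C = G ⊓ Subgroup.centralizer (S : Set Γ)) (hCG : C ≤ G) : (∀ (χ : Cfsg.IrrCharacter G) (χh : Cfsg.IrrCharacter Γ), (∀ s ∈ S, ∀ g g' : G, (g' : Γ) = s * g * s⁻¹ → (χ : G → ℂ) g' = (χ : G → ℂ) g) → (∀ g : G, (χh : Γ → ℂ) g = (χ : G → ℂ) g) → (Cfsg.detOrder (χh : Γ → ℂ)).Coprime (Nat.card S) → (∃! βε : Cfsg.IrrCharacter C × ℤ, (βε.2 = 1 ∨ βε.2 = -1) ∧ ∀ c : C, ∀ s : Γ, Subgroup.zpowers s = S → (χh : Γ → ℂ) ((c : Γ) * s) = (βε.2 : ℂ) * (βε.1 : C → ℂ) c) ∧ ∀ β : Cfsg.IrrCharacter C, ∀ ε : ℤ, (ε = 1 ∨ ε = -1) → (∀ c : C, ∀ s : Γ, Subgroup.zpowers s = S → (χh : Γ → ℂ) ((c : Γ) * s) = (ε : ℂ) * (β : C → ℂ) c) → Cfsg.classInner (fun c : C =>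 (χ : G → ℂ) ⟨c, hCG c.2⟩) (β : C → ℂ) ≠ 0) ∧ (∀ (χ χ' : Cfsg.IrrCharacter G) (χh χh' : Cfsg.IrrCharacter Γ), (∀ s ∈ S, ∀ g g' : G, (g' : Γ) = s * g * s⁻¹ → (χ : G → ℂ) g' = (χ : G → ℂ) g) → (∀ s ∈ S, ∀ g g' : G, (g' : Γ) = s * g * s⁻¹ → (χ' : G → ℂ) g' = (χ' : G → ℂ) g) → (∀ g : G, (χh : Γ → ℂ) g = (χ : G → ℂ) g) → (∀ g : G, (χh' : Γ → ℂ) g = (χ' : G → ℂ) g) → (Cfsg.detOrder (χh : Γ → ℂ)).Coprime (Nat.card S) → (Cfsg.detOrder (χh' : Γ → ℂ)).Coprime (Nat.card S) → ∀ β : Cfsg.IrrCharacter C, ∀ ε ε' : ℤ, (ε = 1 ∨ ε = -1) → (ε' = 1 ∨ ε' = -1) → (∀ c : C, ∀ s : Γ, Subgroup.zpowers s = S → (χh : Γ → ℂ) ((c : Γ) * s) = (ε : ℂ) * (β : C → ℂ) c) → (∀ c : C, ∀ s : Γ, Subgroup.zpowers s = S → (χh' : Γ → ℂ) ((c : Γ) * s) = (ε' : ℂ) * (β : C → ℂ) c) → χ = χ') ∧ (∀ β : Cfsg.IrrCharacter C, ∃ (χ : Cfsg.IrrCharacter G) (χh : Cfsg.IrrCharacter Γ) (ε : ℤ), (∀ s ∈ S, ∀ g g' : G, (g' : Γ)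 = s * g * s⁻¹ → (χ : G → ℂ) g' = (χ : G → ℂ) g) ∧ (∀ g : G, (χh : Γ → ℂ) g = (χ : G → ℂ) g) ∧ (Cfsg.detOrder (χh : Γ → ℂ)).Coprime (Nat.card S) ∧ (ε = 1 ∨ ε = -1) ∧ ∀ c : C, ∀ s : Γ, Subgroup.zpowers s = S → (χh : Γ → ℂ) ((c : Γ) * s) = (ε : ℂ) * (β : C → ℂ) c) := by
  classical
  obtain ⟨_, hidx, hx, hc, hC'⟩ := glauberman_ambient_setup hnorm hcop htop hC hCG
  obtain ⟨s₀, hs₀⟩ : ∃ s, Subgroup.zpowers s = S := (Subgroup.isCyclic_iff_exists_zpowers_eq_top S).1 hcyc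
  have hj := Subgroup.inclusion_injective hCG
  have hm : ∀ {s}, Subgroup.zpowers s = S → s ∈ S := fun h => h ▸ Subgroup.mem_zpowers _
  have hgen : ∀ (χh : IrrCharacter Γ), IsIrrCharacter G (χh.1 ∘ G.subtype) →
      (detOrder χh.1).Coprime (Nat.card S) → ∀ (c : C) (s : Γ), Subgroup.zpowers s = S →
      χh (c * s) = χh (c * s₀) := fun χh h1 h2 c s hs => by
    obtain ⟨k, rfl⟩ := (Submonoid.mem_powers_iff _ _).1
      (mem_powers_iff_mem_zpowers.2 (hs₀ ▸ hm hs : s ∈ Subgroup.zpowers s₀))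
    refine canonical_extension_apply_mul_pow (hidx ▸ hcop) h1 (hidx ▸ h2) (hx _ (hm hs₀))
      (hc c _ (hm hs₀)) ?_
    have h3 : orderOf (s₀ ^ k) = orderOf s₀ := by
      rw [← Nat.card_zpowers, ← Nat.card_zpowers, hs, hs₀]
    rw [orderOf_pow, Nat.div_eq_self, or_iff_right (orderOf_pos _).ne'] at h3
    exact Nat.coprime_comm.1 h3
  refine ⟨fun χ χh _ hext hdet => ?_, fun χ χ' χh χh' _ _ hext hext' hdet hdet' β ε ε' hε hε' h h' => ?_,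
    fun β => ?_⟩
  · have h1 : χh.1 ∘ G.subtype = χ.1 := funext hext
    obtain ⟨β, ε, hε, hβ⟩ := exists_glauberman_sign (hidx ▸ hcop) (h1 ▸ χ.2) (hidx ▸ hdet) hj
      (hx _ (hm hs₀)) (hC' _ hs₀)
    refine ⟨⟨(β, ε), ⟨hε, fun c s hs => (hgen χh (h1 ▸ χ.2) hdet c s hs).trans (hβ c)⟩, ?_⟩, ?_⟩
    · rintro ⟨β', ε'⟩ ⟨hε', hβ'⟩
      have h2 := ip_eq_of_eq_sign_mul hβ β'
      have h3 := ip_eq_of_eq_sign_mul (fun c => hβ' c s₀ hs₀) β'
      rw [if_pos rfl] at h3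
      have h4 := h3.symm.trans h2
      split_ifs at h4 with e
      · exact Prod.ext e.symm (by exact_mod_cast h4)
      · exact absurd h4 (sign_cast_ne_zero hε')
    · intro β ε hε h
      rw [classInner_eq_ip]
      have := liesOver_of_glauberman_sign (f := G.subtype) χh.isCharacter
        (fun c => hc c _ (hm hs₀)) (sign_cast_ne_zero hε) (fun c => h c s₀ hs₀)
      rw [h1] at this
      exact this
  · have h1 : χh.1 ∘ G.subtype = χ.1 := funext hext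
    have h2 : χh'.1 ∘ G.subtype = χ'.1 := funext hext'
    have := comp_eq_of_glauberman_sign (h1 ▸ χ.2) (h2 ▸ χ'.2) hj (hx _ (hm hs₀)) (hC' _ hs₀)
      (sign_cast_ne_zero hε) (sign_cast_ne_zero hε') (fun c => h c s₀ hs₀) (fun c => h' c s₀ hs₀)
    exact Subtype.ext (h1.symm.trans (this.trans h2))
  · obtain ⟨χ, χh, ε, h1, h2, h3, h4⟩ := exists_glauberman_preimage (f := G.subtype) hj
      (by rw [Subgroup.range_subtype, hs₀, htop]) (hx _ (hm hs₀)) (hC' _ hs₀) β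
    rw [hidx] at h2
    refine ⟨χ, χh, ε, fun s _ g g' hg => ?_, congrFun h1, h2, h3, fun c s hs =>
      (hgen χh (h1 ▸ χ.2) h2 c s hs).trans (h4 c)⟩
    rw [← congrFun h1 g, ← congrFun h1 g']
    exact (congrArg χh.1 hg).trans (χh.isClassFunction _ _)

end Cfsg.Agent.S4446
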