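import Cfsg.Statements.S4451
import Cfsg.Agent.Char.GlaubCyc

set_option autoImplicit false
open Cfsg

namespace Cfsg.Agent.S4451

private theorem zero_iff {S : Type*} [Group S] [Finite S] {ψ : S → ℂ} (h : IsCharacter S ψ)
    (hv : ∀ x, x ≠ 1 → ∃ m : ℤ, ψ x = m ∧ (m = 0 ∨ m = 1 ∨ m = -1)) {p : ℕ} (hp : p.Prime) :
    ∀ (n : ℕ) (x : S), orderOf x = n → p ∣ n → (ψ x = 0 ↔ p ∣ charDegree ψ) := by
  have key : ∀ {q : ℕ}, q.Prime → ∀ m : ℤ, (m = 0 ∨ m = 1 ∨ m = -1) → ((q : ℤ) ∣ m ↔ m = 0) :=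
    fun {q} hq m hm => by
      have : ¬ (q : ℤ) ∣ 1 := by exact_mod_cast hq.not_dvd_one
      rcases hm with rfl | rfl | rfl <;> simp [this]
  have hne : ∀ x : S, p ∣ orderOf x → x ≠ 1 := fun x hx e => hp.not_dvd_one (by simpa [e] using hx)
  intro n
  induction n using Nat.strong_induction_on with
  | _ n ih =>
  rintro x rfl hx
  obtain ⟨m, hm, hm'⟩ := hv x (hne x hx)
  by_cases hq : ∀ {q : ℕ}, q.Prime → q ∣ orderOf x → q = p
  · have h1 := h.int_modEq_charDegree hp (x := x) (k := (orderOf x).primeFactorsList.length)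
      (by rw [← Nat.eq_prime_pow_of_unique_prime_dvd (orderOf_pos x).ne' hq, pow_orderOf_eq_one]) hm
    rw [hm, Int.cast_eq_zero, ← key hp m hm', ← Int.natCast_dvd_natCast, h1.dvd_iff]
  · push Not at hq
    obtain ⟨q, hq, hqx, hqp⟩ := hq
    haveI := Fact.mk hq
    have h1 : p ∣ orderOf (pPrimePart q x) := by
      rw [orderOf_pPrimePart]
      rw [← Nat.ordProj_mul_ordCompl_eq_self (orderOf x) q] at hx
      exact (hp.dvd_mul.1 hx).resolve_left fun e =>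
        hqp ((Nat.prime_dvd_prime_iff_eq hp hq).1 (hp.dvd_of_dvd_pow e)).symm
    have h2 : orderOf (pPrimePart q x) < orderOf x := by
      rw [orderOf_pPrimePart]
      exact Nat.div_lt_self (orderOf_pos x) (Nat.one_lt_pow
        (hq.factorization_pos_of_dvd (orderOf_pos x).ne' hqx).ne' hq.one_lt)
    obtain ⟨m', hn, hn'⟩ := hv _ (hne _ h1)
    obtain ⟨k, hk⟩ := isPElt_iff_pow_eq_one.1 (isPElt_pPart (p := q) x)
    have h3 := h.isGen.int_modEq hq (commute_pPart_pPrimePart q x) hk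
      (by rw [pPart_mul_pPrimePart, hm]) hn
    rw [← ih _ h2 _ rfl h1, hm, hn, Int.cast_eq_zero, Int.cast_eq_zero, ← key hq m hm',
      ← key hq m' hn', h3.dvd_iff]

/-- Let the finite group Γ be generated by a normal subgroup G and a cyclic subgroup S of coprime orders such that every non-identity element of S has the same centraliser C = G ⊓ C(S) in G. Let χ be an S-invariant irreducible character of G, χ̂ its canonical extension to Γ (determinantal order coprime to the order of S), and β the irreducible character of C with χ̂(c s) = ε₀ β(c) for c ∈ C and generators s of S (ε₀ = ±1). Then there are a sign ε = ±1, which may differ from ε₀, and a linear character μ of S with μ² = 1, such that: (a) χ̂(c x) = ε β(c) μ(x) for all c ∈ C and all x ∈ S other than 1; (b) the restriction of χ to C equals |S|·ϑ + ε β for some character ϑ of C or ϑ = 0; (c) |S| divides χ(1) − ε β(1). -/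
theorem result {Γ : Type*} [Group Γ] [Fintype Γ] (G S : Subgroup Γ) [Fintype G] (hnorm : ∀ s ∈ S, ∀ g ∈ G, s * g * s⁻¹ ∈ G) (hcop : (Nat.card G).Coprime (Nat.card S)) (htop : G ⊔ S = ⊤) (hcyc : IsCyclic S) (C : Subgroup Γ) [Fintype C] (hC : C = G ⊓ Subgroup.centralizer (S : Set Γ)) (hCG : C ≤ G) (hfpf : ∀ x ∈ S, x ≠ 1 → G ⊓ Subgroup.centralizer ({x} : Set Γ) = C) (χ : Cfsg.IrrCharacter G) (hinv : (∀ s ∈ S, ∀ g g' : G, (g' : Γ) = s * g * s⁻¹ → (χ : G → ℂ) g' = (χ : G → ℂ) g)) (χh : Cfsg.IrrCharacter Γ) (hext : (∀ g : G, (χh : Γ → ℂ) g = (χ : G → ℂ) g)) (hdet : (Cfsg.detOrder (χh : Γ → ℂ)).Coprime (Nat.card S)) (β : Cfsg.IrrCharacter C) (ε₀ : ℤ) (hε₀ : ε₀ = 1 ∨ ε₀ = -1) (hβ : ∀ c : C, ∀ s : Γ, Subgroup.zpowers s = S → (χh : Γ → ℂ) ((c : Γ) * s) = (ε₀ : ℂ) * (β : C → ℂ) c) : ∃ ε : ℤ, (ε = 1 ∨ ε = -1) ∧ (∃ μ : S → ℂ, Cfsg.IsCharacter S μ ∧ μ 1 = 1 ∧ (∀ x : S, μ x * μ x = 1) ∧ ∀ c : C, ∀ x : S, x ≠ 1 → (χh :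 Γ → ℂ) ((c : Γ) * x) = (ε : ℂ) * (β : C → ℂ) c * μ x) ∧ (∃ ϑ : C → ℂ, Cfsg.IsCharacter C ϑ ∧ (fun c : C => (χ : G → ℂ) ⟨c, hCG c.2⟩) = fun c => (Nat.card S : ℂ) * ϑ c + (ε : ℂ) * (β : C → ℂ) c) ∧ (Nat.card S : ℤ) ∣ (Cfsg.charDegree (χ : G → ℂ) : ℤ) - ε * (Cfsg.charDegree (β : C → ℂ) : ℤ) := by
  classical
  obtain ⟨_, hidx, hx, hc, -⟩ := glauberman_ambient_setup hnorm hcop htop hC hCG
  obtain ⟨s₀, hs₀⟩ : ∃ s, Subgroup.zpowers s = S :=
    (Subgroup.isCyclic_iff_exists_zpowers_eq_top S).1 hcyc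
  have hm : s₀ ∈ S := hs₀ ▸ Subgroup.mem_zpowers _
  have h1 : χh.1 ∘ G.subtype = χ.1 := funext hext
  have hcl : ∀ (ε : ℤ) (ϑ : C → ℂ), IsCharacter C ϑ → ((fun c : C => χ ⟨c, hCG c.2⟩) =
      fun c => (Nat.card S : ℂ) * ϑ c + ε * β c) →
      (Nat.card S : ℤ) ∣ (charDegree χ.1 : ℤ) - ε * charDegree β.1 := fun ε ϑ hϑ h => by
    have h2 : χ 1 = _ := congrFun h 1
    rw [χ.apply_one, hϑ.apply_one, β.apply_one, ← sub_eq_iff_eq_add] at h2
    exact ⟨charDegree ϑ, by exact_mod_cast h2⟩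
  rcases subsingleton_or_nontrivial S with hS | hS
  · have h2 : (fun c : C => χ ⟨c, hCG c.2⟩) =
        fun c => (Nat.card S : ℂ) * (0 : C → ℂ) c + ε₀ * β c := by
      funext c
      have h3 : s₀ = 1 := congrArg Subtype.val (Subsingleton.elim (⟨s₀, hm⟩ : S) 1)
      rw [← hβ c s₀ hs₀, h3, ← hext]; simp
    exact ⟨ε₀, hε₀, ⟨fun _ => 1, IsCharacter.one, rfl, fun _ => one_mul _,
      fun c x hx => absurd (Subsingleton.elim _ _) hx⟩, ⟨0, IsCharacter.zero, h2⟩,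
      hcl _ _ IsCharacter.zero h2⟩
  have h2 : ∀ x : S, x ≠ 1 → ∃ (β : IrrCharacter C) (ε : ℤ), (ε = 1 ∨ ε = -1) ∧
      ∀ c : C, χh (c * x) = ε * β c := fun x hx1 =>
    exists_glauberman_sign (hidx ▸ hcop) (h1 ▸ χ.2) (hidx ▸ hdet)
      (Subgroup.inclusion_injective hCG) (hx _ x.2) fun g => by
        rw [Subgroup.inclusion_range, Subgroup.mem_subgroupOf,
          ← hfpf x x.2 (fun e => hx1 (Subtype.ext e)), Subgroup.mem_inf, and_iff_right g.2,
          Subgroup.mem_centralizer_singleton_iff]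
        rfl
  haveI : Nonempty (IrrCharacter C) := ⟨β⟩
  choose! b e he hb using h2
  let ψ : IrrCharacter C → S → ℂ := fun φ s => ip (fun c : C => χh (c * s)) φ.1
  have hψ : ∀ φ, IsCharacter S (ψ φ) := fun φ =>
    isCharacter_ip_centralizer_coset (f := G.subtype) hc χh.isCharacter φ
  have hv : ∀ φ x, x ≠ 1 → ψ φ x = if b x = φ then (e x : ℂ) else 0 := fun φ x hx =>
    ip_eq_of_eq_sign_mul (hb x hx) φ
  have hv0 : ∀ φ, ψ φ ⟨s₀, hm⟩ = if β = φ then (ε₀ : ℂ) else 0 := fun φ =>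
    ip_eq_of_eq_sign_mul (fun c => hβ c s₀ hs₀) φ
  have h3 : ∀ x, x ≠ 1 → b x = β := fun x hx => by
    obtain ⟨p, hp, hpx⟩ := Nat.exists_prime_and_dvd (n := orderOf x) (by simpa using hx)
    have hz := zero_iff (hψ (b x)) (fun y hy => by
      rw [hv _ y hy]
      split_ifs
      · exact ⟨e y, rfl, Or.inr (he y hy)⟩
      · exact ⟨0, by simp, Or.inl rfl⟩) hp
    have h4 := (hz _ x rfl hpx).trans (hz _ ⟨s₀, hm⟩ rfl (by
      rw [Subgroup.orderOf_mk, ← Nat.card_zpowers, hs₀]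
      exact hpx.trans (orderOf_dvd_natCard x))).symm
    rw [hv _ x hx, hv0, if_pos rfl] at h4
    by_contra hne
    exact sign_cast_ne_zero (he x hx) (h4.2 (if_neg (Ne.symm hne)))
  have h4 : ∀ x, x ≠ 1 → ψ β x = e x := fun x hx => by rw [hv _ x hx, if_pos (h3 x hx)]
  obtain ⟨k, ε, μ, hε, h5, h6⟩ := (hψ β).exists_eq_of_norm_eq_one
    (fun a b => mul_comm' a b) fun x hx => by
      rw [h4 x hx]; rcases he x hx with h | h <;> simp [h]
  have h7 : ∀ φ, ∃ n : ℕ, ψ φ 1 = Nat.card S * n + if φ = β then (ε : ℂ) else 0 := fun φ => by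
    split_ifs with h
    · exact ⟨k, by rw [h, (hψ β).apply_one, mul_comm]; exact_mod_cast h6⟩
    · obtain ⟨n, hn⟩ := (hψ φ).card_dvd_charDegree_of_vanish fun x hx => by
        rw [hv _ x hx, h3 x hx, if_neg (Ne.symm h)]
      exact ⟨n, by rw [(hψ φ).apply_one, hn]; simp⟩
  choose n hn using h7
  have h8 : (fun c : C => χ ⟨c, hCG c.2⟩) =
      fun c => (Nat.card S : ℂ) * (∑ φ : IrrCharacter C, (n φ : ℂ) • φ.1) c + ε * β c := by
    funext c
    have h9 := (χ.isClassFunction.comp (Subgroup.inclusion hCG)).apply_eq_sum c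
    have h10 : ∀ φ : IrrCharacter C, ip (χ.1 ∘ Subgroup.inclusion hCG) φ.1 = ψ φ 1 := fun φ => by
      simp only [ψ, OneMemClass.coe_one, mul_one, ← h1]; rfl
    simp only [h10, hn, add_mul, Finset.sum_add_distrib, ite_mul, zero_mul, Finset.sum_ite_eq',
      Finset.mem_univ, if_true] at h9
    simp only [Finset.sum_apply, Pi.smul_apply, smul_eq_mul, Finset.mul_sum, ← mul_assoc]
    exact h9
  refine ⟨ε, hε, ⟨fun x => μ x, isCharacter_linear μ, by simp, fun x => ?_, fun c x hx => ?_⟩,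
    ⟨_, isCharacter_sum_nat_smul_irr n, h8⟩, hcl _ _ (isCharacter_sum_nat_smul_irr n) h8⟩
  · by_cases hx : x = 1
    · simp [hx]
    · have h9 := (h4 x hx).symm.trans (h5 x hx)
      have h10 : (e x : ℂ) * e x = 1 := by rcases he x hx with h | h <;> simp [h]
      have h11 : (ε : ℂ) * ε = 1 := by rcases hε with h | h <;> simp [h]
      linear_combination h10 - (e x + ε * μ x) * h9 - (μ x : ℂ) * μ x * h11
  · rw [hb x hx, h3 x hx, ← h4 x hx, h5 x hx]; ring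

end Cfsg.Agent.S4451
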