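import Cfsg.Statements.S4452
import Cfsg.Agent.Char.GlaubInv

set_option autoImplicit false
open Cfsg

namespace Cfsg.Agent.S4452

theorem card_coprime_degree {G K Q : Type*} [Group G] [Finite G] [Group K] [Finite K] [Group Q]
    [Finite Q] {f : K →* G} [hf : IsNormalEmb f] {π : G →* Q} (hπ : Function.Surjective π)
    (hker : π.ker = f.range) (hc : (Nat.card K).Coprime (Nat.card Q)) :
    Nat.card {χ : IrrCharacter G // (charDegree χ.1).Coprime (Nat.card Q)} =
      Nat.card {θ : IrrCharacter K // inertia f θ = ⊤} * Nat.card (Q →* ℂˣ) := by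
  have hi : f.range.index = Nat.card Q := by
    rw [← hker, Subgroup.index_ker, MonoidHom.range_eq_top.2 hπ, Subgroup.card_top]
  choose e he using fun θ : {θ : IrrCharacter K // inertia f θ = ⊤} =>
    (exists_extension_of_coprime_card θ.2 (hi ▸ hc)).imp fun _ h => h.1
  have h1 : ∀ (lam : Q →* ℂˣ) θ, (lam.comp π • e θ).1 ∘ f = θ.1.1 := fun lam θ => by
    rw [← he θ]
    exact funext fun n => by simp [apply_map_eq_one_of_ker_eq hker]
  rw [← Nat.card_prod]
  refine (Nat.card_congr (Equiv.ofBijective (fun x => ⟨x.2.comp π • e x.1, by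
    rw [charDegree_eq_of_comp_eq (h1 _ _)]
    exact hc.coprime_dvd_left x.1.1.charDegree_dvd_card⟩) ⟨?_, ?_⟩)).symm
  · rintro ⟨θ, lam⟩ ⟨θ', lam'⟩ h
    have h2 : lam.comp π • e θ = lam'.comp π • e θ' := congrArg Subtype.val h
    obtain rfl : θ = θ' := Subtype.ext (Subtype.ext (by rw [← h1 lam θ, h2, h1]))
    rw [IrrCharacter.ofLinear_injective (gallagher_injective hπ hker (e θ).isCharacter
      (he θ ▸ θ.1.2) (β := .ofLinear lam) (β' := .ofLinear lam') (congrArg Subtype.val h2))]
  · rintro ⟨χ, hχ⟩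
    let θ : {θ : IrrCharacter K // inertia f θ = ⊤} :=
      ⟨⟨_, χ.isIrr_comp_of_coprime (hi ▸ hχ)⟩, inertia_eq_top_of_comp_eq χ.isClassFunction rfl⟩
    obtain ⟨lam, h2, h3⟩ := exists_linear_of_comp_eq (e θ).isCharacter χ.isCharacter
      (he θ ▸ θ.1.2) (he θ).symm
    have h4 : π.ker ≤ lam.ker := by rw [hker]; rintro _ ⟨n, rfl⟩; exact h2 n
    refine ⟨(θ, π.liftOfSurjective hπ ⟨lam, h4⟩), Subtype.ext (Subtype.ext ?_)⟩
    simp only [MonoidHom.liftOfRightInverse_comp]
    exact h3.symm

/-- Let the finite group G be the product of a normal subgroup K and a solvable subgroup H of coprime orders, and let N = N_G(H). Then the number of irreducible characters of G of degree coprime to the order of H equals the number of irreducible characters of N of degree coprime to the order of H. (The two sets are in fact in a canonical bijection; only the equality of their sizes is stated here.) -/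
theorem result {G : Type*} [Group G] [Finite G] (K H : Subgroup G) [K.Normal] (hKH : K ⊔ H = ⊤) (hcop : (Nat.card K).Coprime (Nat.card H)) (hsolv : Group.IsSolvable H) : Nat.card {χ : Cfsg.IrrCharacter G // (Cfsg.charDegree (χ : G → ℂ)).Coprime (Nat.card H)} = Nat.card {η : Cfsg.IrrCharacter (Subgroup.normalizer (H : Set G)) // (Cfsg.charDegree (η : Subgroup.normalizer (H : Set G) → ℂ)).Coprime (Nat.card H)} := by
  have hi := inf_eq_bot_of_coprime_card hcop
  have hQ : Nat.card H = Nat.card (G ⧸ K) := card_eq_index_of_inf_of_sup hi (sup_comm K H ▸ hKH)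
  set N := Subgroup.normalizer (H : Set G)
  have hC : K ⊓ N = K ⊓ Subgroup.centralizer (H : Set G) :=
    inf_normalizer_eq_inf_centralizer Subgroup.le_normalizer_of_normal hi
  have hKH' : ∀ g : G, ∃ k ∈ K, ∃ h ∈ H, k * h = g := fun g =>
    Subgroup.mem_sup_of_normal_left.1 (hKH ▸ Subgroup.mem_top g)
  rw [hQ, card_coprime_degree (f := K.subtype) (QuotientGroup.mk'_surjective K)
    (ker_mk'_eq_range_subtype K) (hQ ▸ hcop),
    card_coprime_degree (f := (K.subgroupOf N).subtype) (π := (QuotientGroup.mk' K).comp N.subtype)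
    (fun q => by
      obtain ⟨g, rfl⟩ := QuotientGroup.mk'_surjective K q
      obtain ⟨k, hk, h, hh, rfl⟩ := hKH' g
      exact ⟨⟨h, Subgroup.le_normalizer hh⟩, by simp [(QuotientGroup.eq_one_iff k).2 hk]⟩)
    (by ext x; simp [Subgroup.mem_subgroupOf])
    (hQ ▸ hcop.coprime_dvd_left (card_subgroupOf K N ▸ Subgroup.card_dvd_of_le inf_le_left))]
  congr 1
  have hall : ∀ θ, inertia (K.subgroupOf N).subtype θ = ⊤ := fun θ => by
    refine (Subgroup.eq_top_iff' _).2 fun x => ?_
    obtain ⟨k, hk, h, hh, e⟩ := hKH' x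
    have h1 : h ∈ N := Subgroup.le_normalizer hh
    have h2 : k ∈ N := (N.mul_mem_cancel_right h1).1 (e ▸ x.2)
    rw [show x = (⟨k, h2⟩ : N) * (⟨h, h1⟩ : N) from Subtype.ext e.symm]
    refine Subgroup.mul_mem _ (le_inertia_subtype (K.subgroupOf N) θ
      (Subgroup.mem_subgroupOf.2 hk)) (centralizer_le_inertia _ θ ?_)
    rintro _ ⟨c, rfl⟩
    exact Subtype.ext ((hC ▸ ⟨c.2, c.1.2⟩ : ((c : N) : G) ∈ K ⊓ Subgroup.centralizer
      (H : Set G)).2 h hh).symm
  rw [Nat.card_congr (Equiv.subtypeUnivEquiv hall),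
    ← card_invariant_irr_of_isSolvable ((conjAut K.subtype).comp H.subtype) hcop
    (j := (N.subtype.comp (K.subgroupOf N).subtype).codRestrict K fun x => x.2)
    (fun a b e => Subtype.ext (Subtype.ext (congrArg (fun x : K => (x : G)) e))) fun g => ?_]
  · refine Nat.card_congr (Equiv.subtypeEquivRight fun θ => ⟨fun e s => mem_inertia.1
      (e ▸ Subgroup.mem_top _), fun e => top_le_iff.1 (hKH ▸ sup_le (le_inertia_subtype K θ)
        fun s hs => mem_inertia.2 (e ⟨s, hs⟩))⟩)
  · have : g ∈ ((N.subtype.comp (K.subgroupOf N).subtype).codRestrict K fun x => x.2).range ↔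
        (g : G) ∈ K ⊓ N := ⟨by rintro ⟨x, rfl⟩; exact ⟨x.2, x.1.2⟩,
          fun h => ⟨⟨⟨g, h.2⟩, g.2⟩, rfl⟩⟩
    rw [this, hC, Subgroup.mem_inf, and_iff_right g.2, Subgroup.mem_centralizer_iff]
    simp only [MonoidHom.comp_apply, conjAut_eq_iff, eq_mul_inv_iff_mul_eq]
    exact ⟨fun e h => (e h h.2).symm, fun e h hh => (e ⟨h, hh⟩).symm⟩

end Cfsg.Agent.S4452
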