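import Cfsg.Statements.S4453
import Cfsg.Agent.Char.IsaacsOdd

set_option autoImplicit false
open Cfsg

namespace Cfsg.Agent.S4453

/-- Inside a finite group Γ let S normalise the solvable subgroup G of odd order with the orders of G and S coprime, let C = G ⊓ C(S), and let L ≤ K be S-invariant normal subgroups of G with K/L abelian, G = KC and H = LC (so C ≤ H ≤ G). Then for each S-invariant irreducible character χ of G there is exactly one S-invariant irreducible character ψ of H whose multiplicity in the restriction of χ to H is odd, and χ ↦ ψ is a bijection from the S-invariant irreducible characters of G onto those of H (distinct χ give distinct ψ, and every S-invariant ψ arises). -/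
theorem result {Γ : Type*} [Group Γ] [Fintype Γ] (G S : Subgroup Γ) [Fintype G] (hnorm : ∀ s ∈ S, ∀ g ∈ G, s * g * s⁻¹ ∈ G) (hcop : (Nat.card G).Coprime (Nat.card S)) (hGsolv : Group.IsSolvable G) (hodd : Odd (Nat.card G)) (C : Subgroup Γ) [Fintype C] (hC : C = G ⊓ Subgroup.centralizer (S : Set Γ)) (hCG : C ≤ G) (K L H : Subgroup Γ) [Fintype H] (hLK : L ≤ K) (hKG : K ≤ G) (hKn : ∀ g ∈ G, ∀ k ∈ K, g * k * g⁻¹ ∈ K) (hLn : ∀ g ∈ G, ∀ l ∈ L, g * l * g⁻¹ ∈ L) (hKS : ∀ s ∈ S, ∀ k ∈ K, s * k * s⁻¹ ∈ K) (hLS : ∀ s ∈ S, ∀ l ∈ L, s * l * s⁻¹ ∈ L) (hab : ∀ a ∈ K, ∀ b ∈ K, a * b * a⁻¹ * b⁻¹ ∈ L) (hGKC : K ⊔ C = G) (hH : H = L ⊔ C) (hHG : H ≤ G) : (∀ χ : Cfsg.IrrCharacter G, (∀ s ∈ S, ∀ g g' : G, (g' : Γ) = s * g * s⁻¹ → (χ : G → ℂ) g' = (χ : G → ℂ) g) → ∃! ψ : Cfsg.IrrCharacter H, (∀ s ∈ S, ∀ g g' : H, (g' : Γ) = s * g * s⁻¹ → (ψ : H → ℂ) g' = (ψ : H →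 ℂ) g) ∧ ∃ m : ℕ, Cfsg.classInner (fun h : H => (χ : G → ℂ) ⟨h, hHG h.2⟩) (ψ : H → ℂ) = (m : ℂ) ∧ Odd m) ∧ (∀ χ χ' : Cfsg.IrrCharacter G, (∀ s ∈ S, ∀ g g' : G, (g' : Γ) = s * g * s⁻¹ → (χ : G → ℂ) g' = (χ : G → ℂ) g) → (∀ s ∈ S, ∀ g g' : G, (g' : Γ) = s * g * s⁻¹ → (χ' : G → ℂ) g' = (χ' : G → ℂ) g) → ∀ ψ : Cfsg.IrrCharacter H, (∀ s ∈ S, ∀ g g' : H, (g' : Γ) = s * g * s⁻¹ → (ψ : H → ℂ) g' = (ψ : H → ℂ) g) → ∀ m m' : ℕ, Cfsg.classInner (fun h : H => (χ : G → ℂ) ⟨h, hHG h.2⟩) (ψ : H → ℂ) = (m : ℂ) → Odd m → Cfsg.classInner (fun h : H => (χ' : G → ℂ) ⟨h, hHG h.2⟩) (ψ : H → ℂ) = (m' : ℂ) → Odd m' → χ = χ') ∧ (∀ ψ : Cfsg.IrrCharacter H, (∀ s ∈ S, ∀ g g' : H, (g' : Γ) = s * g * s⁻¹ → (ψ : H → ℂ) g' = (ψ : H → ℂ) g) → ∃ χ : Cfsg.IrrCharacter G, (∀ s ∈ S, ∀ g g' : G, (g' : Γ) = s * g * s⁻¹ → (χ : G → ℂ) g' = (χ : G → ℂ) g) ∧ ∃ m : ℕ, Cfsg.classInner (fun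 h : H => (χ : G → ℂ) ⟨h, hHG h.2⟩) (ψ : H → ℂ) = (m : ℂ) ∧ Odd m) := by
  have hLG := hLK.trans hKG
  have hLH : L ≤ H := hH ▸ le_sup_left
  have hCS : ∀ c ∈ C, ∀ s ∈ S, s * c * s⁻¹ = c := fun c hc s hs =>
    mul_inv_eq_iff_eq_mul.2 ((hC ▸ hc : c ∈ G ⊓ Subgroup.centralizer (S : Set Γ)).2 s hs)
  have hmem : ∀ {M : Subgroup Γ}, (∀ g ∈ G, ∀ k ∈ M, g * k * g⁻¹ ∈ M) →
      (∀ s ∈ S, ∀ k ∈ M, s * k * s⁻¹ ∈ M) → ∀ x ∈ M ⊔ C, ∀ s ∈ S, x⁻¹ * (s * x * s⁻¹) ∈ M :=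
    fun {M} h1 h2 x hx s hs => by
      obtain ⟨c, hc, m, hm, rfl⟩ := (mem_sup_of_le_normalizer fun c hc =>
        mem_normalizer_of_forall_conj_mem (h1 c (hCG hc))).1 (sup_comm M C ▸ hx)
      have := M.mul_mem (M.inv_mem hm) (h2 s hs m hm)
      convert this using 1
      conv_lhs => rw [mul_inv_rev, ← hCS c⁻¹ (C.inv_mem hc) s hs]
      group
  have hHS : ∀ s ∈ S, ∀ h ∈ H, s * h * s⁻¹ ∈ H := fun s hs h hh => by
    simpa using H.mul_mem hh (hLH (hmem hLn hLS h (hH ▸ hh) s hs))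
  haveI : (L.subgroupOf G).Normal := ⟨fun n hn g => hLn g g.2 n hn⟩
  have e1 : ∀ g : G, g ∈ (Subgroup.inclusion hLG).range ↔ (g : Γ) ∈ L := fun g => by
    rw [Subgroup.inclusion_range, Subgroup.mem_subgroupOf]
  obtain ⟨k1, k2⟩ := odd_correspondence (f := Subgroup.inclusion hLG) (φ := conjOn S G hnorm)
    (ψ := conjOn S L hLS) (fun _ _ => rfl) hcop hodd (fun a ha b hb => by
      have : autComm (conjOn S G hnorm) ≤ K.subgroupOf G :=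
        autComm_le.2 fun s g => hmem hKn hKS g (hGKC ▸ g.2) s s.2
      exact (e1 _).2 (hab _ (this ha) _ (this hb))) (Subgroup.inclusion_injective hHG) (fun g => by
      rw [Subgroup.inclusion_range, Subgroup.mem_subgroupOf]
      refine ⟨fun h s => (e1 _).2 (hmem hLn hLS g (hH ▸ h) s s.2), fun h => ?_⟩
      obtain ⟨u, hu, h1⟩ := exists_mul_fixed_of_coprime (conjOn S G hnorm)
        (fun s u hu => (e1 _).2 (hLS s s.2 u ((e1 u).1 hu)))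
        (hcop.coprime_dvd_left (Subgroup.card_subgroup_dvd_card _)) (Or.inl inferInstance) h
      obtain ⟨c, hc⟩ := (mem_range_inclusion_iff_conjOn hnorm hC hCG _).2 h1
      have h2 : ((g * u : G) : Γ) ∈ H := hH ▸ Subgroup.mem_sup_right (hc ▸ c.2)
      exact (H.mul_mem_cancel_right (hLH ((e1 u).1 hu))).1 h2)
    (ω := conjOn S H hHS) (fun _ _ => rfl) (a := Subgroup.inclusion hLH) fun _ => rfl
  have e : ∀ (χ : IrrCharacter G) (β : IrrCharacter H) (m : ℕ),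
      classInner (fun c : H => (χ : G → ℂ) ⟨c, hHG c.2⟩) (β : H → ℂ) = (m : ℂ) ↔
        ipNat (χ.1 ∘ Subgroup.inclusion hHG) β.1 = m := fun χ β m => by
    rw [classInner_eq_ip, ← Nat.cast_inj (R := ℂ),
      (χ.isCharacter.comp _).ipNat_cast β.isCharacter]
    rfl
  simp only [e, exists_eq_left', ← forall_conjOn_smul_iff hnorm, ← forall_conjOn_smul_iff hHS,
    ← Nat.not_even_iff_odd, even_iff_two_dvd]
  exact ⟨k1, fun χ χ' h1 h2 ψ h3 m m' h4 h5 h6 h7 => (k2 ψ h3).unique ⟨h1, h4 ▸ h5⟩ ⟨h2, h6 ▸ h7⟩,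
    fun ψ h => (k2 ψ h).exists⟩

end Cfsg.Agent.S4453
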