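import Cfsg.Statements.S4454
import Cfsg.Agent.Char.GlaubCyc

set_option autoImplicit false
open Cfsg

namespace Cfsg.Agent.S4454

/-- Let N ≤ G be normal subgroups of the finite group Γ with Γ/G cyclic and Γ/N a Frobenius group with kernel G/N: G ≠ Γ, N ≠ G, and no element of Γ outside G fixes a non-identity coset of N in G under conjugation. Let ϑ be an irreducible character of N invariant under conjugation by Γ and suppose ϑ is fully ramified in G: the character of G induced from ϑ equals e·χ for an irreducible character χ of G and a natural number e. Then the index of G in Γ divides e − 1 or e + 1. -/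
theorem result {Γ : Type*} [Group Γ] [Fintype Γ] (G N : Subgroup Γ) [hG : G.Normal] [hN : N.Normal] [Fintype G] [Fintype N] (hNG : N ≤ G) (hGlt : G ≠ ⊤) (hNlt : N ≠ G) (hcyc : IsCyclic (Γ ⧸ G)) (hfrob : ∀ x : Γ, x ∉ G → ∀ g : Γ, g ∈ G → x * g * x⁻¹ * g⁻¹ ∈ N → g ∈ N) (θ : Cfsg.IrrCharacter N) (hinv : ∀ (x : Γ) (n : N), (θ : N → ℂ) ⟨x * n * x⁻¹, hN.conj_mem n n.2 x⟩ = (θ : N → ℂ) n) (χ : Cfsg.IrrCharacter G) (e : ℕ) (hram : Cfsg.indFun (N.subgroupOf G) (fun n : N.subgroupOf G => (θ : N → ℂ) ⟨(n : G), n.2⟩) = fun g => (e : ℂ) * (χ : G → ℂ) g) : (G.index : ℤ) ∣ (e : ℤ) - 1 ∨ (G.index : ℤ) ∣ (e : ℤ) + 1 := by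
  classical
  rw [indFun_eq_ind, ind_subgroupOf hNG] at hram
  have hj := Subgroup.inclusion_injective hNG
  have hram' : ind (Subgroup.inclusion hNG) θ.1 = (e : ℂ) • χ.1 := hram
  have he : (e : ℂ) ≠ 0 := fun h => θ.isCharacter.ind_ne_zero θ.ne_zero hj (by simp [hram', h])
  have hT : inertia N.subtype θ = ⊤ := inertia_eq_top_iff_forall.2 fun x n n' h => by
    rw [← hinv x n]; exact congrArg θ.1 (Subtype.ext h)
  have hTχ : inertia G.subtype χ = ⊤ := by
    refine top_le_iff.1 fun x _ => mem_inertia_iff_forall_conjAut.2 fun g => ?_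
    have h1 := ind_comp_of_comm (f := Subgroup.inclusion hNG) (f' := Subgroup.inclusion hNG)
      (conjAut N.subtype x) (conjAut G.subtype x) (fun n => Subtype.ext
        ((map_conjAut G.subtype x _).trans (map_conjAut N.subtype x n).symm)) θ.1
    rw [show θ.1 ∘ conjAut N.subtype x = θ.1 from
      funext (mem_inertia_iff_forall_conjAut.1 (hT ▸ Subgroup.mem_top x)), hram'] at h1
    exact mul_left_cancel₀ he (congrFun h1 g)
  have hχθ : χ.1 ∘ Subgroup.inclusion hNG = (e : ℂ) • θ.1 := by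
    have h1 : ip (ind (Subgroup.inclusion hNG) θ.1) χ.1 = e := by
      rw [hram', ip_smul_left, χ.ip_self, mul_one]
    rw [LiesOver.comp_eq_smul_of_inertia_eq_top ((liesOver_iff_ip_ind χ.isClassFunction _).2
      (h1 ▸ he)) (by rw [inertia_of_factor (f := N.subtype) (i := G.subtype) (fun _ => rfl), hT,
        Subgroup.comap_top]), ← ipNat_ind_left _ _ χ.isClassFunction, ipNat_eq_of_ip_eq h1]
  obtain ⟨χh, hχh⟩ := exists_extension_of_isCyclic hTχ
    (isCyclic_of_surjective _ (QuotientGroup.quotientMulEquivOfEq G.range_subtype).symm.surjective)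
  obtain ⟨q, hq⟩ := hcyc.exists_zpow_surjective
  obtain ⟨s, rfl⟩ := QuotientGroup.mk_surjective q
  let A := N ⊔ Subgroup.zpowers s
  let π : A →* Γ ⧸ G := (QuotientGroup.mk' G).comp A.subtype
  have hπ : Function.Surjective π := fun q => by
    obtain ⟨k, rfl⟩ := hq q
    exact ⟨⟨s ^ k, Subgroup.mem_sup_right ⟨k, rfl⟩⟩, rfl⟩
  haveI : Nontrivial (Γ ⧸ G) := QuotientGroup.nontrivial_iff.2 hGlt
  have hs : s ∉ G := fun h => by
    obtain ⟨q, hq1⟩ := exists_ne (1 : Γ ⧸ G)
    obtain ⟨k, rfl⟩ := hq q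
    exact hq1 (by simp [(QuotientGroup.eq_one_iff s).2 h])
  let i : N →* A := Subgroup.inclusion le_sup_left
  have hker : π.ker = i.range := by
    ext ⟨a, ha⟩
    rw [MonoidHom.mem_ker, Subgroup.inclusion_range, Subgroup.mem_subgroupOf]
    refine (QuotientGroup.eq_one_iff a).trans ⟨fun h => ?_, fun h => hNG h⟩
    obtain ⟨n, hn, _, ⟨k, rfl⟩, rfl⟩ := (mem_sup_of_le_normalizer' Subgroup.le_normalizer_of_normal).1 ha
    refine N.mul_mem hn (hfrob s hs _ ((G.mul_mem_cancel_left (hNG hn)).1 h) ?_)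
    rw [show s * s ^ k * s⁻¹ * (s ^ k)⁻¹ = 1 by group]
    exact N.one_mem
  obtain ⟨θh, hθh⟩ := exists_extension_of_isCyclic (f := i) (θ := θ) (by
      rw [inertia_of_factor (f := N.subtype) (i := A.subtype) (fun _ => rfl), hT,
        Subgroup.comap_top])
    (isCyclic_of_surjective _ ((QuotientGroup.quotientMulEquivOfEq hker.symm).trans
      (QuotientGroup.quotientKerEquivOfSurjective π hπ)).symm.surjective)
  obtain ⟨ψ, hψ, h1⟩ := IsCharacter.exists_eq_comp_mul_of_comp_eq_smul hπ hker θh.isCharacter hθh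
    (χh.isCharacter.comp A.subtype) (c := e) (by rw [← hχθ, ← hχh]; rfl)
  obtain ⟨k, ε, -, hε, -, h2⟩ := hψ.exists_eq_of_norm_eq_one (fun a b => mul_comm' a b) fun q hq1 => by
    obtain ⟨x, rfl⟩ := hπ q
    have hx : (x : Γ) ∉ G := fun h => hq1 ((QuotientGroup.eq_one_iff _).2 h)
    have h3 := ip_coset_eq_ip_coset G.subtype hj (x := x) (fun g c c' h => by
      rw [Subgroup.inclusion_range, Subgroup.mem_subgroupOf]
      refine hfrob x hx g g.2 ?_
      have h4 : (g : Γ) * (c * x) * (g : Γ)⁻¹ = c' * x := h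
      have h5 : (x : Γ) * g * (x : Γ)⁻¹ * (g : Γ)⁻¹ =
          (c' : Γ)⁻¹ * (g * (c * x) * (g : Γ)⁻¹) * (g * (x : Γ)⁻¹ * (g : Γ)⁻¹) := by
        rw [h4]; group
      rw [h5, show (c' : Γ)⁻¹ * (g * (c * x) * (g : Γ)⁻¹) * (g * (x : Γ)⁻¹ * (g : Γ)⁻¹) =
        (c' : Γ)⁻¹ * (g * c * (g : Γ)⁻¹) by group]
      exact N.mul_mem (N.inv_mem c'.2) (hN.conj_mem _ c.2 _)) χh.isClassFunction χh.isClassFunction
    rw [ip_coset_self _ χh.isCharacter (hχh ▸ χ.2)] at h3
    have h5 : (fun c : N => χh (G.subtype (Subgroup.inclusion hNG c) * x)) =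
        ψ (π x) • fun c => θh (i c * x) := by
      funext c
      have := congrFun h1 (i c * x)
      simp only [Pi.mul_apply, Function.comp_apply, map_mul, apply_map_eq_one_of_ker_eq hker,
        one_mul] at this
      exact this
    rw [h5, ip_smul_left, ip_smul_right, ip_coset_self _ θh.isCharacter (hθh ▸ θ.2), mul_one,
      Complex.mul_conj, Complex.normSq_eq_norm_sq] at h3
    exact (pow_eq_one_iff_of_nonneg (norm_nonneg _) two_ne_zero).1 (by exact_mod_cast h3)
  have h3 : charDegree ψ = e := by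
    have h4 : χh 1 = ψ (π 1) * θh 1 := congrFun h1 1
    have h5 : χh 1 = χ 1 := congrFun hχh 1
    have h6 : θh 1 = θ 1 := congrFun hθh 1
    have h7 : χ 1 = e * θ 1 := congrFun hχθ 1
    rw [h5, h6, h7, map_one] at h4
    exact charDegree_eq_of_apply_one (mul_right_cancel₀ θ.apply_one_ne_zero h4).symm
  rw [h3, ← Subgroup.index_eq_card] at h2
  rcases hε with rfl | rfl
  · exact Or.inl ⟨k, by linear_combination h2⟩
  · exact Or.inr ⟨k, by linear_combination h2⟩

end Cfsg.Agent.S4454
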