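import Cfsg.Statements.S4459
import Cfsg.Agent.Char.FewDeg

set_option autoImplicit false
open Cfsg

namespace Cfsg.Agent.S4459

open Subgroup

universe u

variable {G : Type u} [Group G] [Finite G] {p : ℕ}

theorem card_fixed {Z : Subgroup G} [Z.Normal] [IsMulCommutative Z] (g : G) :
    Nat.card {θ : IrrCharacter Z // g ∈ inertia Z.subtype θ} *
      (centralizer ({g} : Set G)).relIndex Z = Nat.card Z := by
  rw [← card_inf_mul_relIndex (centralizer ({g} : Set G)) Z, ← card_subgroupOf]
  congr 1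
  have h1 := card_fixed_irr_mulAut (conjAut Z.subtype g)
  rw [Nat.card_congr (Equiv.subtypeEquivRight fun θ => mem_inertia), h1]
  have hb : Function.Bijective (ConjClasses.mk : Z → ConjClasses Z) :=
    ⟨fun a b hab => by
      obtain ⟨c, hc⟩ := isConj_iff.1 (ConjClasses.mk_eq_mk_iff_isConj.1 hab)
      rwa [mul_comm' c, mul_inv_cancel_right] at hc, ConjClasses.mk_surjective⟩
  refine Nat.card_congr ((Equiv.ofBijective _ hb).subtypeEquiv fun z => ?_).symm
  rw [Equiv.ofBijective_apply, mulAut_smul_conjClasses_mk, hb.1.eq_iff, conjAut_eq_iff,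
    mem_subgroupOf, mem_centralizer_singleton_iff, eq_mul_inv_iff_mul_eq]
  rfl

theorem exists_notMem (hp : p.Prime) {Z : Subgroup G} [Z.Normal] [IsMulCommutative Z]
    (hi : Z.index = p ^ 2)
    (hd : ∀ g, g ∉ Z → ∃ k, (centralizer ({g} : Set G)).relIndex Z = p ^ (k + 1))
    (hT : ∀ θ : IrrCharacter Z, (inertia Z.subtype θ).index ≤ p) {U : Subgroup G} (hU : Z ≤ U)
    (hU' : p ≤ U.index) : ∃ v, v ∉ U ∧ (centralizer ({v} : Set G)).relIndex Z = p := by
  classical
  by_contra! h
  have := Fintype.ofFinite G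
  obtain ⟨q, rfl⟩ : ∃ q, p = q + 1 := ⟨p - 1, by have := hp.pos; omega⟩
  have hq : 1 ≤ q := by have := hp.two_le; omega
  set n := Nat.card Z with hn
  have hn0 : 0 < n := Nat.card_pos
  have hG : Nat.card G = n * (q + 1) ^ 2 := by rw [← Z.card_mul_index, hi]
  have hc : ∀ S : Subgroup G, ∑ g : G, (if g ∈ S then 1 else 0) = Nat.card S := fun S => by
    rw [← Finset.card_filter, Nat.card_eq_fintype_card, Fintype.card_subtype]
  have h1 : ∑ g : G, Nat.card {θ : IrrCharacter Z // g ∈ inertia Z.subtype θ} =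
      ∑ θ : IrrCharacter Z, Nat.card (inertia Z.subtype θ) := by
    simp only [← hc]
    rw [Finset.sum_comm]
    refine Finset.sum_congr rfl fun g _ => ?_
    rw [← Finset.card_filter, Nat.card_eq_fintype_card, Fintype.card_subtype]
  have h2 : n * (n * (q + 1)) < ∑ θ : IrrCharacter Z, Nat.card (inertia Z.subtype θ) := by
    rw [← smul_eq_mul]
    nth_rewrite 1 [hn]
    rw [← card_irr_of_isMulCommutative, Nat.card_eq_fintype_card, ← Finset.card_univ,
      ← Finset.sum_const]
    refine Finset.sum_lt_sum (fun θ _ => ?_) ⟨IrrCharacter.one Z, Finset.mem_univ _, ?_⟩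
    · have h3 := (inertia Z.subtype θ).card_mul_index
      have h4 := Nat.mul_le_mul_left (Nat.card (inertia Z.subtype θ)) (hT θ)
      rw [h3, hG, pow_two, ← mul_assoc] at h4
      exact Nat.le_of_mul_le_mul_right h4 hp.pos
    · rw [inertia_one, card_top, hG]
      exact Nat.mul_lt_mul_of_pos_left (by nlinarith) hn0
  have h3 : ∀ g : G, (q + 1) ^ 2 * Nat.card {θ : IrrCharacter Z // g ∈ inertia Z.subtype θ} ≤
      n * (1 + q * (if g ∈ U then 1 else 0) + (q + 1) * q * (if g ∈ Z then 1 else 0)) := fun g => by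
    have h4 := card_fixed (Z := Z) g
    rw [← hn] at h4
    rw [← h4, mul_comm, mul_assoc]
    refine Nat.mul_le_mul_left _ ?_
    by_cases h5 : g ∈ Z
    · rw [if_pos h5, if_pos (hU h5)]
      refine le_trans (by nlinarith) (Nat.le_mul_of_pos_left _ (relIndex_pos _ _))
    obtain ⟨k, hk⟩ := hd g h5
    rw [if_neg h5, hk]
    by_cases h6 : g ∈ U
    · rw [if_pos h6, mul_one, mul_zero, add_zero, pow_two, add_comm 1]
      exact Nat.mul_le_mul_right _ (Nat.le_self_pow k.succ_ne_zero _)
    · rw [if_neg h6, mul_zero, mul_zero, add_zero, add_zero, mul_one]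
      refine Nat.pow_le_pow_right hp.pos ?_
      rcases k with _ | k
      · exact absurd (by simpa using hk) (h g h6)
      · omega
  have h4 := Finset.sum_le_sum fun g (_ : g ∈ Finset.univ) => h3 g
  rw [← Finset.mul_sum, h1, ← Finset.mul_sum, Finset.sum_add_distrib, Finset.sum_add_distrib,
    ← Finset.mul_sum, ← Finset.mul_sum, hc, hc, Finset.sum_const, Finset.card_univ,
    ← Nat.card_eq_fintype_card, hG, smul_eq_mul, mul_one, ← hn] at h4
  have h5 : Nat.card U ≤ n * (q + 1) := by
    have h5 := Nat.mul_le_mul_left (Nat.card U) hU'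
    rw [U.card_mul_index, hG, pow_two, ← mul_assoc] at h5
    exact Nat.le_of_mul_le_mul_right h5 hp.pos
  have h6 := (Nat.mul_lt_mul_of_pos_left h2 (pow_pos hp.pos 2)).trans_le (h4.trans
    (Nat.mul_le_mul_left n (Nat.add_le_add_right (Nat.add_le_add_left
      (Nat.mul_le_mul_left q h5) _) _)))
  have h7 : n * n * (q + 1) * ((q + 1) * (q + 1)) < n * n * (q + 1) * (3 * q + 1) := by
    refine lt_of_eq_of_lt ?_ (h6.trans_eq ?_) <;> ring
  have h8 := lt_of_mul_lt_mul_left h7 (Nat.zero_le _)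
  nlinarith

theorem sup_ne (hp : p.Prime) {Z : Subgroup G} [Z.Normal] [IsMulCommutative Z]
    (hi : Z.index = p ^ 2) (hc : commutator G ≤ Z) (hZ : centralizer (Z : Set G) ≤ Z)
    (hT : ∀ θ : IrrCharacter Z, (inertia Z.subtype θ).index ≤ p) {u v : G} (hu : u ∉ Z)
    (hv : v ∉ Z) : (centralizer {u}).subgroupOf Z ⊔ (centralizer {v}).subgroupOf Z ≠ ⊤ := by
  intro h
  have h1 : ∀ g, g ∉ Z → ∃ lam : Z →* ℂˣ, g ∉ inertia Z.subtype (IrrCharacter.ofLinear lam) := by
    intro g hg
    by_contra! h1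
    refine hg (hZ (mem_centralizer_of_forall_inertia fun θ => ?_))
    obtain ⟨lam, rfl⟩ := IrrCharacter.ofLinear_surjective_of_comm (fun a b => mul_comm' a b) θ
    exact h1 lam
  have h2 : ∀ (g : G) (lam : Z →* ℂˣ), g ∈ inertia Z.subtype (IrrCharacter.ofLinear lam) ↔
      ∀ n, lam (conjAut Z.subtype g n) = lam n := fun g lam => by
    simp only [mem_inertia_iff_forall_conjAut, IrrCharacter.ofLinear_apply, Units.val_inj]
  obtain ⟨lam, h3, h4⟩ : ∃ lam : Z →* ℂˣ, u ∉ inertia Z.subtype (IrrCharacter.ofLinear lam) ∧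
      v ∉ inertia Z.subtype (IrrCharacter.ofLinear lam) := by
    by_contra! h3
    obtain ⟨a, ha⟩ := h1 u hu
    obtain ⟨b, hb⟩ := h1 v hv
    have h4 := (h2 _ _).1 (h3 a ha)
    have h5 := (h2 _ _).1 (by_contra fun h5 => hb (h3 b h5))
    refine hb ((h2 _ _).2 fun n => ?_)
    have h6 := (h2 _ _).1 (h3 (a * b) fun h6 => ha ((h2 _ _).2 fun n => by
      have := (h2 _ _).1 h6 n
      rwa [MonoidHom.mul_apply, MonoidHom.mul_apply, h5, mul_left_inj] at this)) n
    rwa [MonoidHom.mul_apply, MonoidHom.mul_apply, h4, mul_right_inj] at h6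
  set T := inertia Z.subtype (IrrCharacter.ofLinear lam) with hTd
  have hZT : Z ≤ T := le_inertia_subtype Z _
  have : T.Normal := Normal.of_commutator_le _ (hc.trans hZT)
  have h5 : T.index = p := by
    obtain ⟨j, h5, h6⟩ := (Nat.dvd_prime_pow hp).1 (hi ▸ index_dvd_of_le hZT)
    have h7 := hT (IrrCharacter.ofLinear lam)
    rw [← hTd, h6] at h7
    rcases j with _ | _ | j
    · rw [pow_zero, index_eq_one] at h6
      exact absurd (h6 ▸ mem_top u) h3
    · simpa using h6
    · have := Nat.pow_lt_pow_right hp.one_lt (show 1 < j + 1 + 1 by omega)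
      rw [pow_one] at this
      omega
  have h6 := zpowers_sup_eq_top_of_prime_index (h5 ▸ hp) h3
  rw [sup_comm] at h6
  obtain ⟨t, ht, y, hy, rfl⟩ := mem_sup_of_normal_left.1 (h6 ▸ mem_top v)
  refine h4 (T.mul_mem ht ((h2 _ _).2 fun n => ?_))
  have h7 : (lam.comp (conjAut Z.subtype y).toMonoidHom).eqLocus lam = ⊤ := by
    rw [eq_top_iff, ← h]
    refine sup_le (fun z hz => ?_) fun z hz => ?_
    · have : conjAut Z.subtype y z = z := by
        rw [conjAut_eq_iff, eq_mul_inv_iff_mul_eq]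
        exact ((centralizer_zpowers u ▸ mem_subgroupOf.1 hz :) y hy).symm
      exact congrArg lam this
    · have : conjAut Z.subtype (t * y) z = z := by
        rw [conjAut_eq_iff, eq_mul_inv_iff_mul_eq]
        exact mem_centralizer_singleton_iff.1 (mem_subgroupOf.1 hz)
      have h7 := (h2 _ _).1 ht (conjAut Z.subtype y z)
      rw [← MulAut.mul_apply, ← map_mul, this] at h7
      exact h7.symm
  exact (h7 ▸ mem_top n : n ∈ (lam.comp (conjAut Z.subtype y).toMonoidHom).eqLocus lam)

theorem index_eq (hp : p.Prime) {Z U : Subgroup G} (hi : Z.index = p ^ 2) (h : Z < U)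
    (hU : U ≠ ⊤) : U.index = p := by
  obtain ⟨j, h5, h6⟩ := (Nat.dvd_prime_pow hp).1 (hi ▸ index_dvd_of_le h.le)
  interval_cases j
  · exact absurd (index_eq_one.1 h6) hU
  · simpa using h6
  · have := index_strictAnti h
    omega

theorem core (hp : p.Prime) {Z : Subgroup G} [Z.Normal] [IsMulCommutative Z]
    (hi : Z.index = p ^ 2) (hc : commutator G ≤ Z) (hZ : centralizer (Z : Set G) ≤ Z) {k : ℕ}
    (hk : (center G).index ∣ p ^ k)
    (hT : ∀ θ : IrrCharacter Z, (inertia Z.subtype θ).index ≤ p) : (center G).index = p ^ 3 := by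
  have hcZ : center G ≤ Z := (center_le_centralizer _).trans hZ
  have hd : ∀ g, g ∉ Z → ∃ k, (centralizer ({g} : Set G)).relIndex Z = p ^ (k + 1) := by
    intro g hg
    obtain ⟨j, -, hj⟩ := (Nat.dvd_prime_pow hp).1 (((relIndex_dvd_of_le_left Z
      (center_le_centralizer {g})).trans (relIndex_dvd_index_of_le hcZ)).trans hk)
    rcases j with _ | j
    · rw [pow_zero, relIndex_eq_one] at hj
      exact absurd (hZ fun z hz => mem_centralizer_singleton_iff.1 (hj hz)) hg
    · exact ⟨j, hj⟩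
  have fin : ∀ v : G, (centralizer ({v} : Set G)).relIndex Z = p →
      centralizer {v} ⊓ Z ≤ center G → (center G).index = p ^ 3 := fun v h1 h2 => by
    rw [← le_antisymm h2 (le_inf (center_le_centralizer _) hcZ), ← relIndex_mul_index inf_le_right,
      inf_relIndex_right, h1, hi]
    ring
  obtain ⟨u, hu, hu'⟩ := exists_notMem hp hi hd hT le_rfl (hi ▸ Nat.le_self_pow two_ne_zero p)
  by_cases hU : zpowers u ⊔ Z = ⊤
  · refine fin u hu' ?_
    rw [inf_comm, inf_centralizer_eq_inf_center_of_zpowers_sup hU]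
    exact inf_le_right
  have h1 := index_eq hp hi (right_lt_sup.2 (mt zpowers_le.1 hu)) hU
  obtain ⟨v, hv, hv'⟩ := exists_notMem hp hi hd hT le_sup_right h1.ge
  have h2 := zpowers_sup_eq_top_of_prime_index (h1 ▸ hp) hv
  have h3 : (centralizer {v}).subgroupOf Z ≤ (centralizer {u}).subgroupOf Z := by
    by_contra h3
    exact sup_ne hp hi hc hZ hT hu (fun h => hv (mem_sup_right h))
      ((isCoatom_of_prime_index (show (relIndex _ _).Prime from hu' ▸ hp)).2 _ (left_lt_sup.2 h3))
  refine fin v hv' fun x hx => mem_center_iff.2 fun g => ?_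
  have h4 : centralizer {x} = ⊤ := by
    rw [eq_top_iff, ← h2]
    refine sup_le (zpowers_le.2 ?_) (sup_le (zpowers_le.2 ?_) fun z hz => ?_) <;>
      rw [mem_centralizer_singleton_iff]
    · exact (mem_centralizer_singleton_iff.1 hx.1).symm
    · exact (mem_centralizer_singleton_iff.1 (h3 (x := ⟨x, hx.2⟩) hx.1)).symm
    · exact isMulCommutative_iff_forall.1 inferInstance z hz x hx.2
  exact mem_centralizer_singleton_iff.1 (h4 ▸ mem_top g)

theorem main (hp : p.Prime) (hG : ¬ ∀ a b : G, a * b = b * a)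
    (h : ∀ χ : IrrCharacter G, charDegree χ.1 = 1 ∨ charDegree χ.1 = p) :
    (∃ A : Subgroup G, A.Normal ∧ IsMulCommutative A ∧ A.index = p) ∨ (center G).index = p ^ 3 := by
  rcases two_degrees_structure h hG with h1 | ⟨q, e, hq, he, P, A, h1, h2, h3, h4, h5, h6⟩
  · exact Or.inl h1
  obtain rfl : q = p := by
    rcases e with _ | e
    · exact absurd (by simpa using he) hp.ne_one
    · exact (Nat.prime_dvd_prime_iff_eq hq hp).1 (he ▸ dvd_pow_self q e.succ_ne_zero)
  have : Fact q.Prime := ⟨hq⟩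
  obtain ⟨k, hk⟩ := h3.exists_card_eq
  have hA : A ≤ center G := fun a ha => mem_center_iff.2 fun g => by
    obtain ⟨y, hy, z, hz, rfl⟩ := mem_sup_of_normal_right.1 (h6 ▸ mem_top g)
    rw [mul_assoc, isMulCommutative_iff_forall.1 h4 z hz a ha, ← mul_assoc,
      (commute_of_normal_of_disjoint P A h1 h2 (disjoint_iff.2 h5) y a hy ha).eq, mul_assoc]
  have hk' : (center G).index ∣ q ^ k := by
    rw [← hk, card_eq_index_of_inf_of_sup (inf_comm P A ▸ h5) h6]
    exact index_dvd_of_le hA
  have := isSolvable_of_two_degrees h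
  obtain ⟨K, hK, hJ⟩ := exists_isJustNonab_quotient' hG
  rcases hJ.pQuot_or_frobQuot with ⟨Z, r, β, hr⟩ | ⟨N, r, hF⟩
  swap
  · exact Or.inl ⟨N, hF.normal, hF.comm_of_two_degrees h⟩
  have := hr.normal
  have hβ := (h β).resolve_left hr.ne_one
  have hi : Z.index = q ^ 2 := hβ ▸ hr.sq.symm
  have : IsMulCommutative Z := isMulCommutative_iff_forall_irr_charDegree.2 fun θ => by
    by_contra h7
    obtain ⟨χ, hχ⟩ := θ.exists_liesOver_above Z.subtype_injective
    have h8 := hχ.charDegree_dvd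
    have h9 := (h χ).resolve_left fun h9 => h7 (Nat.dvd_one.1 (h9 ▸ h8))
    have h10 := ((Nat.dvd_prime hq).1 (h9 ▸ h8)).resolve_left h7
    obtain ⟨ψ, hψ⟩ := mul_mem_charDegrees_of_le_charCenter hr.le_center (χ := χ)
      (hχ.comp_eq_of_charDegree_le χ.isCharacter (by omega) ▸ θ.2)
    rw [hβ, h9] at hψ
    have := hq.two_le
    rcases h ψ with h11 | h11 <;> nlinarith
  by_cases hZ : centralizer (Z : Set G) ≤ Z
  · refine Or.inr (core hq hi hr.commutator_le hZ hk' fun θ => ?_)
    obtain ⟨χ, hχ⟩ := θ.exists_liesOver_above Z.subtype_injective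
    have := Nat.le_of_dvd χ.charDegree_pos hχ.index_inertia_dvd
    have := hq.one_le
    rcases h χ with h7 | h7 <;> omega
  · obtain ⟨g, hg, hg'⟩ := SetLike.not_le_iff_exists.1 hZ
    have h7 := isMulCommutative_zpowers_sup (Z := Z) (x := g) fun z hz =>
      mem_centralizer_singleton_iff.2 (hg z hz)
    refine Or.inl ⟨zpowers g ⊔ Z, Normal.of_commutator_le _ (hr.commutator_le.trans le_sup_right),
      h7, index_eq hq hi (right_lt_sup.2 (mt zpowers_le.1 hg')) fun h8 => hG fun a b => ?_⟩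
    exact isMulCommutative_iff_forall.1 h7 a (h8 ▸ mem_top a) b (h8 ▸ mem_top b)

/-- Let G be a non-abelian finite group and p a prime. Then the irreducible character degrees of G are exactly 1 and p if and only if either G has an abelian normal subgroup of index p or the centre of G has index p³. -/
theorem result {G : Type*} [Group G] [Finite G] (hG : ∃ a b : G, a * b ≠ b * a) (p : ℕ) (hp : p.Prime) : ((∀ χ : Cfsg.IrrCharacter G, Cfsg.charDegree (χ : G → ℂ) = 1 ∨ Cfsg.charDegree (χ : G → ℂ) = p) ∧ ∃ χ : Cfsg.IrrCharacter G, Cfsg.charDegree (χ : G → ℂ) = p) ↔ ((∃ A : Subgroup G, A.Normal ∧ (∀ a ∈ A, ∀ b ∈ A, a * b = b * a) ∧ A.index = p) ∨ (Subgroup.center G).index = p ^ 3) := by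
  have hG' : ¬ ∀ a b : G, a * b = b * a := fun h => hG.elim fun a ⟨b, hab⟩ => hab (h a b)
  constructor
  · rintro ⟨h, -⟩
    exact (main hp hG' h).imp_left fun ⟨A, h1, h2, h3⟩ =>
      ⟨A, h1, isMulCommutative_iff_forall.1 h2, h3⟩
  · intro h
    have h1 : ∀ χ : IrrCharacter G, charDegree χ.1 = 1 ∨ charDegree χ.1 = p := fun χ => by
      rcases h with ⟨A, h1, h2, h3⟩ | h
      · have := isMulCommutative_iff_forall.2 h2
        exact (Nat.dvd_prime hp).1 (h3 ▸ χ.charDegree_dvd_index_of_normal_comm A)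
      · obtain ⟨j, -, hj⟩ := (Nat.dvd_prime_pow hp).1 (h ▸ χ.charDegree_dvd_index_center)
        have h2 := χ.sq_charDegree_le_index_of_le χ.center_le_charCenter
        rw [h, hj, ← pow_mul, Nat.pow_le_pow_iff_right hp.one_lt] at h2
        have : j ≤ 1 := by omega
        interval_cases j
        · exact Or.inl (by simpa using hj)
        · exact Or.inr (by simpa using hj)
    obtain ⟨χ, hχ⟩ := exists_irr_nonlinear_of_not_comm hG'
    exact ⟨h1, χ, (h1 χ).resolve_left hχ.ne'⟩

end Cfsg.Agent.S4459
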