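import Cfsg.Statements.S4460
import Cfsg.Agent.Char.FewDeg

set_option autoImplicit false
open Cfsg

namespace Cfsg.Agent.S4460

/-- A finite group with exactly three distinct irreducible character degrees is solvable of derived length at most 3: its third derived subgroup is trivial. -/
theorem result {G : Type*} [Group G] [Finite G] (hcd : Nat.card {n : ℕ // ∃ χ : Cfsg.IrrCharacter G, Cfsg.charDegree (χ : G → ℂ) = n} = 3) : derivedSeries G 3 = ⊥ := by
  have h1 : (charDegrees G \ {1}).ncard = 2 := by
    rw [Set.ncard_diff_singleton_of_mem one_mem_charDegrees]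
    change Nat.card (charDegrees G) = 3 at hcd
    rw [Nat.card_coe_set_eq] at hcd
    rw [hcd]
  obtain ⟨m, n, -, h2⟩ := Set.ncard_eq_two.1 h1
  refine derivedSeries_three_eq_bot G m n fun χ => or_iff_not_imp_left.2 fun h3 => ?_
  have : charDegree χ.1 ∈ charDegrees G \ {1} := ⟨χ.charDegree_mem, h3⟩
  rwa [h2] at this

end Cfsg.Agent.S4460
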