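import Cfsg.Statements.S4461
import Cfsg.Agent.Char.FewDeg

set_option autoImplicit false
open Cfsg

namespace Cfsg.Agent.S4461

open Subgroup

universe u

variable {G : Type u} [Group G] [Finite G]

theorem bigger_or_vanish (χ : IrrCharacter G) {H : Subgroup G} (hH : IsCoatom H)
    (hs : H ⊔ charKer χ.1 = ⊤) :
    (∃ ψ : IrrCharacter G, charDegree χ.1 < charDegree ψ.1 ∧ charKer ψ.1 < charKer χ.1) ∨
      ∀ g ∈ H, g ∉ H.normalCore → χ g = 0 := by
  have key : ∀ ψ : IrrCharacter G, H ⊔ charKer ψ.1 = ⊤ → IsIrrCharacter H (ψ.1 ∘ H.subtype) := by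
    intro ψ hψ
    obtain ⟨β, hβ⟩ := ψ.exists_quotient_of_le_charKer _ le_rfl
    rw [← hβ]
    refine β.2.comp_of_surjective ((QuotientGroup.mk' _).comp H.subtype) ?_
    rw [← MonoidHom.range_eq_top, MonoidHom.range_comp, range_subtype, map_mk'_eq_top_iff, hψ]
  have hirr := key χ hs
  by_cases h : ∀ ψ : IrrCharacter G, LiesOver H.subtype ψ.1 (χ.1 ∘ H.subtype) →
      charDegree ψ.1 ≤ charDegree χ.1
  · exact Or.inr fun g hg hg' => χ.eq_zero_of_notMem_normalCore hirr h hg hg'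
  push Not at h
  obtain ⟨ψ, h1, h2⟩ := h
  refine Or.inl ⟨ψ, h2, ?_⟩
  have h3 : charKer ψ.1 ≤ H := by
    by_contra h3
    have h4 := key ψ (hH.2 _ (left_lt_sup.2 h3))
    have h5 : ψ.1 ∘ H.subtype = χ.1 ∘ H.subtype := h4.eq_of_ip_ne_zero hirr h1
    have h6 := congrArg charDegree h5
    rw [charDegree_comp, charDegree_comp] at h6
    omega
  refine lt_of_le_of_ne (fun g hg => χ.mem_charKer.2 ?_) fun h4 => hH.1 ?_
  · exact (ψ.isCharacter.comp H.subtype).apply_eq_of_constituent (g := ⟨g, h3 hg⟩)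
      (ψ.mem_charKer.1 hg) (χ := ⟨_, hirr⟩) h1
  · rwa [← h4, sup_eq_left.2 h3] at hs

theorem frattini_arg {p : ℕ} [Fact p.Prime] (P : Sylow p G) (N : Subgroup G) [N.Normal] :
    normalizer (((P : Subgroup G) ⊓ N : Subgroup G) : Set G) ⊔ N = ⊤ := by
  rw [← map_sylowInfNormal]
  exact (sylowInfNormal P N).normalizer_sup_eq_top

theorem main (χ : IrrCharacter G)
    (h : ¬ charKer χ.1 ≤ fittingSubgroup G ∨ (charKer χ.1 = fittingSubgroup G ∧
      Group.IsSolvable (G ⧸ charKer χ.1) ∧ charKer χ.1 ≠ ⊤)) :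
    ∃ ψ : IrrCharacter G, charDegree χ.1 < charDegree ψ.1 ∧ charKer ψ.1 < charKer χ.1 := by
  set K := charKer χ.1 with hK
  rcases h with h | ⟨h1, h2, h3⟩
  · obtain ⟨p, hp, P, hP⟩ : ∃ (p : ℕ) (_ : Fact p.Prime) (P : Sylow p G),
        ¬ ((P : Subgroup G) ⊓ K).Normal := by
      by_contra! h1
      refine h (le_of_forall_isPElt_mem fun q hq x hx hx' => ?_)
      obtain ⟨P, hP⟩ := hx'.exists_mem_sylow
      have := h1 q hq P
      exact (le_pCore (P.isPGroup'.to_inf_left (K := K))).trans pCore_le_fittingSubgroup ⟨hP, hx⟩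
    obtain ⟨H, hH, hle⟩ := exists_isCoatom_ge (mt normalizer_eq_top_iff.1 hP)
    refine (bigger_or_vanish χ hH (top_le_iff.1 ((frattini_arg P K).ge.trans
      (sup_le_sup_right hle _)))).resolve_right fun h1 => hH.1 ?_
    have h2 : (P : Subgroup G) ⊓ (H.normalCore ⊓ K) = (P : Subgroup G) ⊓ K := by
      refine le_antisymm (inf_le_inf_left _ inf_le_right) fun x hx => ⟨hx.1, ?_, hx.2⟩
      by_contra h3
      exact χ.apply_one_ne_zero ((χ.mem_charKer.1 hx.2).symm.trans
        (h1 x (hle (le_normalizer hx)) h3))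
    have h3 := frattini_arg P (H.normalCore ⊓ K)
    rw [h2] at h3
    exact top_le_iff.1 (h3.ge.trans (sup_le hle (inf_le_left.trans H.normalCore_le)))
  obtain ⟨E, hE, hKE, -, hmin⟩ := exists_chief_above (lt_top_iff_ne_top.2 h3)
  obtain ⟨q, hq, hel⟩ := hmin.exists_isElementaryAbelian
  have : Fact q.Prime := ⟨hq⟩
  obtain ⟨P⟩ : Nonempty (Sylow q G) := inferInstance
  have hchief := ((isMinNormal_map_mk'_iff hKE.le).1 hmin).2
  have hPE : (P : Subgroup G) ⊓ E ⊔ K = E := by
    obtain ⟨k, hk⟩ := hel.isPGroup.exists_card_eq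
    rw [card_map_mk'_eq_relIndex] at hk
    have h4 := sup_eq_top_of_coprime_index (H := (P : Subgroup G).subgroupOf E)
      (K := K.subgroupOf E) (by
        rw [show (K.subgroupOf E).index = q ^ k from hk]
        exact (coprime_iff_not_dvd'.2 (not_dvd_relIndex_sylow_inf_normal P E)).pow_right k)
    have h5 := congrArg (Subgroup.map E.subtype) h4
    rwa [Subgroup.map_sup, subgroupOf_map_subtype, subgroupOf_map_subtype, inf_eq_left.2 hKE.le,
      ← MonoidHom.range_eq_map, range_subtype] at h5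
  have hP : ¬ ((P : Subgroup G) ⊓ E).Normal := fun hP => hKE.not_ge (by
    rw [← hPE]
    exact sup_le (((le_pCore (P.isPGroup'.to_inf_left (K := E))).trans
      pCore_le_fittingSubgroup).trans h1.ge) le_rfl)
  obtain ⟨H, hH, hle⟩ := exists_isCoatom_ge (mt normalizer_eq_top_iff.1 hP)
  have hPH : (P : Subgroup G) ⊓ E ≤ H := le_normalizer.trans hle
  refine (bigger_or_vanish χ hH (top_le_iff.1 ((frattini_arg P E).ge.trans
      (sup_le (hle.trans le_sup_left) (hPE.ge.trans (sup_le_sup_right hPH _)))))).resolve_right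
    fun h4 => ?_
  rcases hchief (H.normalCore ⊓ E ⊔ K) inferInstance le_sup_right (sup_le inf_le_right hKE.le)
    with h5 | h5
  · refine hKE.not_ge (χ.le_charKer_of_vanish le_rfl fun g hg hg' => ?_)
    obtain ⟨y, hy, z, hz, rfl⟩ := mem_sup_of_normal_right.1 (hPE ▸ hg)
    rw [apply_mul_of_mem_charKer hz]
    exact h4 y (hPH hy) fun h6 => hg' (K.mul_mem (h5.le (mem_sup_left ⟨h6, hy.2⟩)) hz)
  · have h6 : pCore q G ≤ H.normalCore ⊓ E := by
      have : pCore q G ≤ E := (pCore_le_fittingSubgroup.trans h1.ge).trans hKE.le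
      exact le_inf (normal_le_normalCore.2 ((le_inf (pCore_le_sylow P) this).trans hPH)) this
    have h7 : ¬ q ∣ (H.normalCore ⊓ E).relIndex E := fun h7 => by
      refine not_dvd_relIndex_sylow_inf_normal P K ?_
      rw [← inf_relIndex_right, show (P : Subgroup G) ⊓ K = pCore q G by
        rw [hK, h1, sylow_inf_fittingSubgroup]]
      refine dvd_trans ?_ (relIndex_dvd_of_le_left K h6)
      rwa [← relIndex_sup_left, h5]
    have h8 : (P : Subgroup G) ⊓ (H.normalCore ⊓ E) = (P : Subgroup G) ⊓ E := by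
      refine le_antisymm (inf_le_inf_left _ inf_le_right) fun x hx => ⟨hx.1, ?_⟩
      exact le_of_isPGroup_of_not_dvd_index (H := (P : Subgroup G).subgroupOf E)
        (N := (H.normalCore ⊓ E).subgroupOf E) P.isPGroup'.comap_subtype h7 (x := ⟨x, hx.2⟩) hx.1
    have h9 := frattini_arg P (H.normalCore ⊓ E)
    rw [h8] at h9
    exact hH.1 (top_le_iff.1 (h9.ge.trans (sup_le hle (inf_le_left.trans H.normalCore_le))))

/-- Let χ be an irreducible character of the finite group G and K its kernel (the elements where χ takes the value χ(1)). Suppose either that K is not contained in the Fitting subgroup F(G), or that K = F(G) with G/K solvable and K ≠ G. Then there is an irreducible character ψ of G with ψ(1) > χ(1) whose kernel is properly contained in K. -/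
theorem result {G : Type*} [Group G] [Finite G] (χ : Cfsg.IrrCharacter G) (K : Subgroup G) [K.Normal] (hK : (∀ g : G, g ∈ K ↔ (χ : G → ℂ) g = (χ : G → ℂ) 1)) (h : ¬ K ≤ Cfsg.fittingSubgroup G ∨ (K = Cfsg.fittingSubgroup G ∧ Group.IsSolvable (G ⧸ K) ∧ K ≠ ⊤)) : ∃ ψ : Cfsg.IrrCharacter G, Cfsg.charDegree (χ : G → ℂ) < Cfsg.charDegree (ψ : G → ℂ) ∧ ∃ L : Subgroup G, (∀ g : G, g ∈ L ↔ (ψ : G → ℂ) g = (ψ : G → ℂ) 1) ∧ L < K := by
  obtain rfl : K = charKer χ.1 := Subgroup.ext fun g => (hK g).trans χ.mem_charKer.symm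
  obtain ⟨ψ, h1, h2⟩ := main χ h
  exact ⟨ψ, h1, _, fun g => ψ.mem_charKer, h2⟩

end Cfsg.Agent.S4461
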