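import Cfsg.Statements.S4462
import Cfsg.Agent.S4461

set_option autoImplicit false
open Cfsg

namespace Cfsg.Agent.S4462

open Subgroup

universe u

theorem ncard_lt {G : Type u} [Group G] [Finite G] [Group.IsSolvable G]
    (h : fittingSubgroup G ≠ ⊤) :
    (charDegrees (G ⧸ fittingSubgroup G)).ncard < (charDegrees G).ncard := by
  refine Set.ncard_lt_ncard ⟨charDegrees_quotient_subset _, fun h1 => ?_⟩ finite_charDegrees
  obtain ⟨χ, -, hχ⟩ := Finset.exists_max_image Finset.univ
    (fun χ : IrrCharacter G => charDegree χ.1) ⟨IrrCharacter.one G, Finset.mem_univ _⟩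
  obtain ⟨β, hβ⟩ := h1 χ.charDegree_mem
  have h2 : fittingSubgroup G ≤ charKer (β.inflate _ (QuotientGroup.mk'_surjective _)).1 := by
    intro g hg
    rw [IrrCharacter.mem_charKer, IrrCharacter.inflate_apply, IrrCharacter.inflate_apply, map_one,
      QuotientGroup.mk'_apply, (QuotientGroup.eq_one_iff g).2 hg]
  obtain ⟨ψ, h3, -⟩ := S4461.main (β.inflate _ (QuotientGroup.mk'_surjective _)) (by
    by_cases h3 : charKer (β.inflate _ (QuotientGroup.mk'_surjective _)).1 ≤ fittingSubgroup G
    · exact Or.inr ⟨le_antisymm h3 h2, inferInstance, fun h4 => h (top_le_iff.1 (h4 ▸ h3))⟩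
    · exact Or.inl h3)
  rw [IrrCharacter.charDegree_inflate, hβ] at h3
  exact h3.not_ge (hχ ψ (Finset.mem_univ _))

theorem nilpotent_quotient {A B : Type u} [Group A] [Group B] [Group.IsNilpotent B] (φ : A →* B)
    (N : Subgroup A) [N.Normal] (h : N = φ.ker) : Group.IsNilpotent (A ⧸ N) := by
  subst h
  exact isNilpotent_of_injective _ (QuotientGroup.kerLift_injective φ)

theorem main (n : ℕ) : ∀ (G : Type u) [Group G] [Finite G] [Group.IsSolvable G],
    (Subsingleton G ∨ (charDegrees G).ncard ≤ n) →
    ∃ N : Fin (n + 1) → Subgroup G, N 0 = ⊥ ∧ N (Fin.last n) = ⊤ ∧ Monotone N ∧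
      (∀ i, (N i).Normal) ∧ ∀ i : Fin n, ∀ _ : (N i.castSucc).subgroupOf (N i.succ) |>.Normal,
        Group.IsNilpotent (↥(N i.succ) ⧸ (N i.castSucc).subgroupOf (N i.succ)) := by
  induction n with
  | zero =>
    intro G _ _ _ h
    have : Subsingleton G := h.resolve_right fun h => by
      have := (Set.ncard_pos finite_charDegrees).2 ⟨1, one_mem_charDegrees (G := G)⟩
      omega
    exact ⟨fun _ => ⊥, rfl, Subsingleton.elim _ _, monotone_const, fun _ => inferInstance,
      fun i => i.elim0⟩
  | succ n ih =>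
    intro G _ _ _ h
    obtain ⟨M, h0, h1, h2, h3, h4⟩ := ih (G ⧸ fittingSubgroup G) (by
      by_cases hF : fittingSubgroup G = ⊤
      · exact Or.inl (hF ▸ QuotientGroup.subsingleton_quotient_top)
      · have := ncard_lt hF
        exact Or.inr (by
          have := h.resolve_left fun _ => hF (Subsingleton.elim _ _)
          omega))
    refine ⟨Fin.cons ⊥ fun i => (M i).comap (QuotientGroup.mk' _), rfl, ?_, ?_, fun i => ?_,
      fun i => ?_⟩
    · rw [← Fin.succ_last, Fin.cons_succ, h1, comap_top]
    · refine Fin.monotone_iff_le_succ.2 fun i => ?_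
      refine Fin.cases bot_le (fun j => ?_) i
      exact comap_mono (h2 j.castSucc_le_succ)
    · refine Fin.cases normal_bot (fun j => ?_) i
      exact (h3 j).comap _
    · refine Fin.cases (fun hn => ?_) (fun j hn => ?_) i
      · have : Group.IsNilpotent ((M 0).comap (QuotientGroup.mk' (fittingSubgroup G))) := by
          rw [h0, MonoidHom.comap_bot, QuotientGroup.ker_mk']
          infer_instance
        exact Group.nilpotent_of_surjective (G := (M 0).comap (QuotientGroup.mk' _)) _
          (@QuotientGroup.mk'_surjective _ _ _ hn)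
      · have := h3 j.castSucc
        have := h4 j inferInstance
        refine @nilpotent_quotient ((M j.succ).comap (QuotientGroup.mk' _)) _ _ _ this
          ((QuotientGroup.mk' ((M j.castSucc).subgroupOf (M j.succ))).comp
            ((QuotientGroup.mk' _).subgroupComap (M j.succ))) _ hn ?_
        rw [← MonoidHom.comap_ker, QuotientGroup.ker_mk']
        rfl

/-- Let G be a finite solvable group with exactly n distinct irreducible character degrees. Then G has normal subgroups 1 = N₀ ≤ N₁ ≤ ⋯ ≤ Nₙ = G with every quotient N_{i+1}/N_i nilpotent (the nilpotent length of G is at most n). -/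
theorem result {G : Type*} [Group G] [Finite G] (hsolv : Group.IsSolvable G) (n : ℕ) (hcd : Nat.card {d : ℕ // ∃ χ : Cfsg.IrrCharacter G, Cfsg.charDegree (χ : G → ℂ) = d} = n) : ∃ N : Fin (n + 1) → Subgroup G, N 0 = ⊥ ∧ N (Fin.last n) = ⊤ ∧ Monotone N ∧ (∀ i, (N i).Normal) ∧ ∀ i : Fin n, ∀ h : (N i.castSucc).subgroupOf (N i.succ) |>.Normal, Group.IsNilpotent (↥(N i.succ) ⧸ (N i.castSucc).subgroupOf (N i.succ)) := by
  exact main n G (Or.inr (hcd ▸ (Nat.card_coe_set_eq (charDegrees G)).ge))

end Cfsg.Agent.S4462
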