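import Cfsg.Statements.S4463
import Cfsg.Agent.Char.FewDeg

set_option autoImplicit false
open Cfsg

namespace Cfsg.Agent.S4463

open Subgroup

universe u

variable {G : Type u} [Group G] [Finite G] {b : ℕ}

theorem exists_ext (hb : ∀ χ : IrrCharacter G, charDegree χ.1 ≤ b) {L : Subgroup G}
    {θ : IrrCharacter L} (hθ : charDegree θ.1 = b) :
    ∃ χ : IrrCharacter G, charDegree χ.1 = b ∧ IsIrrCharacter L (χ.1 ∘ L.subtype) ∧
      χ.1 ∘ L.subtype = θ.1 := by
  obtain ⟨χ, hχ⟩ := θ.exists_liesOver_above L.subtype_injective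
  have h1 := hχ.comp_eq_of_charDegree_le χ.isCharacter (hθ ▸ hb χ)
  exact ⟨χ, by rw [← hθ, ← h1, charDegree_comp], h1 ▸ θ.2, h1⟩

theorem relIndex_dvd (hb : ∀ χ : IrrCharacter G, charDegree χ.1 ≤ b) {K H : Subgroup G} [K.Normal]
    (hc : H.normalCore ≤ K) {θ : IrrCharacter H} (hθ : charDegree θ.1 = b) :
    K.relIndex H ∣ b ^ 2 := by
  obtain ⟨χ, h1, h2, h3⟩ := exists_ext hb hθ
  have := θ.index_dvd_sq_of_vanish (K.subgroupOf H).subtype fun g hg => by
    rw [← h3]
    exact χ.eq_zero_of_notMem_normalCore h2 (fun ψ _ => h1 ▸ hb ψ) g.2 fun h4 =>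
      hg ⟨⟨g, hc h4⟩, rfl⟩
  rwa [range_subtype, hθ] at this

omit [Finite G] in
theorem not_mul_mem (hb : ∀ χ : IrrCharacter G, charDegree χ.1 ≤ b) {f : ℕ} (hf : f ≠ 1) :
    f * b ∉ charDegrees G := by
  rintro ⟨χ, hχ⟩
  have h1 := hb χ
  have h2 := χ.charDegree_pos
  rw [hχ] at h1 h2
  have h3 := Nat.pos_of_mul_pos_right h2
  have h4 := Nat.pos_of_mul_pos_left h2
  nlinarith [show 2 ≤ f by omega]

theorem exists_small_class (hb : ∀ χ : IrrCharacter G, charDegree χ.1 ≤ b) [Nontrivial G] :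
    ∃ x : G, x ≠ 1 ∧ (centralizer ({x} : Set G)).index ≤ b ^ 2 := by
  classical
  by_contra! h
  have := Fintype.ofFinite G
  have := Fintype.ofFinite (ConjClasses G)
  have h1 := sum_charDegree_sq (G := G)
  rw [← Finset.add_sum_erase _ _ (Finset.mem_univ (IrrCharacter.one G)),
    IrrCharacter.charDegree_one] at h1
  have h2 : ∑ χ ∈ Finset.univ.erase (IrrCharacter.one G), charDegree χ.1 ^ 2 ≤
      (Fintype.card (ConjClasses G) - 1) * b ^ 2 := by
    rw [← Nat.card_eq_fintype_card, ← card_irr_eq_card_conjClasses, Nat.card_eq_fintype_card,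
      ← Finset.card_univ, ← Finset.card_erase_of_mem (Finset.mem_univ (IrrCharacter.one G)),
      ← smul_eq_mul]
    exact Finset.sum_le_card_nsmul _ _ _ fun χ _ => Nat.pow_le_pow_left (hb χ) 2
  have h3 := sum_conjClasses_card_eq_card G
  rw [← Finset.add_sum_erase _ _ (Finset.mem_univ (ConjClasses.mk (1 : G)))] at h3
  have hc : ∀ x : G, (ConjClasses.mk x).carrier.toFinset.card = (centralizer ({x} : Set G)).index :=
    fun x => by
    rw [← card_isConj_eq_index, Set.toFinset_card, ← Nat.card_eq_fintype_card]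
    exact Nat.card_congr (Equiv.subtypeEquivRight fun y => by
      rw [ConjClasses.mem_carrier_iff_mk_eq, ConjClasses.mk_eq_mk_iff_isConj, isConj_comm])
  have h4 : (Fintype.card (ConjClasses G) - 1) * b ^ 2 <
      ∑ c ∈ Finset.univ.erase (ConjClasses.mk (1 : G)), c.carrier.toFinset.card := by
    rw [← Finset.card_univ, ← Finset.card_erase_of_mem (Finset.mem_univ (ConjClasses.mk (1 : G))),
      ← smul_eq_mul, ← Finset.sum_const]
    refine Finset.sum_lt_sum_of_nonempty ?_ fun c hc' => ?_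
    · obtain ⟨x, hx⟩ := exists_ne (1 : G)
      exact ⟨ConjClasses.mk x, Finset.mem_erase.2 ⟨by
        rwa [Ne, ConjClasses.mk_eq_mk_iff_isConj, isConj_one_left], Finset.mem_univ _⟩⟩
    · obtain ⟨x, rfl⟩ := ConjClasses.mk_surjective c
      rw [hc]
      exact h x fun h5 => Finset.ne_of_mem_erase hc' (by rw [h5])
  rw [hc] at h3
  have := index_pos (centralizer ({1} : Set G))
  rw [Nat.card_eq_fintype_card] at h1
  omega

theorem five_le (hb : ∀ χ : IrrCharacter G, charDegree χ.1 ≤ b) (hJ : IsJustNonab G)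
    (hs : ¬ Group.IsSolvable G) : 5 ≤ b := by
  by_contra! h
  refine hs (isSolvable_of_forall_prime_dvd Nat.prime_two Nat.prime_three fun r hr hd => ?_)
  by_contra! h1
  have : Fact r.Prime := ⟨hr⟩
  have h2 : 5 ≤ r := hr.five_le_of_ne_two_of_ne_three h1.1 h1.2
  obtain ⟨P⟩ : Nonempty (Sylow r G) := inferInstance
  have h3 := sylow_normal_of_forall_charDegree_lt (fun χ => (hb χ).trans_lt (h.trans_le h2)) P
  have h4 := hJ.le _ h3 (P.ne_bot_of_dvd_card hd)
  have := isSolvable_of_isPGroup (P.isPGroup'.to_le h4)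
  have : IsMulCommutative (G ⧸ commutator G) := ⟨⟨commutator_eq_bot_iff_comm.1 (by
    rw [commutator_quotient_eq, map_mk'_eq_bot_iff])⟩⟩
  have : Group.IsSolvable (G ⧸ commutator G) := isSolvable_of_isMulCommutative
  exact hs (isSolvable_of_normal_of_quotient (commutator G))

theorem exists_sub (hb : ∀ χ : IrrCharacter G, charDegree χ.1 ≤ b)
    (hG : ¬ ∀ a b : G, a * b = b * a) :
    ∃ (L : Subgroup G) (c : ℕ), c < b ∧ (∀ θ : IrrCharacter L, charDegree θ.1 ≤ c) ∧
      L.index * c.factorial ^ 2 ≤ b.factorial ^ 2 := by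
  have hb0 : 0 < b := (IrrCharacter.one G).charDegree_pos.trans_le (hb _)
  by_cases h : ∃ L : Subgroup G, L.index ≤ b ^ 2 ∧ ∀ θ : IrrCharacter L, charDegree θ.1 ≠ b
  · obtain ⟨L, h1, h2⟩ := h
    refine ⟨L, b - 1, by omega, fun θ => ?_, ?_⟩
    · obtain ⟨χ, hχ⟩ := θ.exists_charDegree_le L.subtype_injective
      have := hb χ
      have := h2 θ
      omega
    · rw [← Nat.mul_factorial_pred hb0.ne', mul_pow]
      exact Nat.mul_le_mul_right _ h1
  push Not at h
  have hbb : 0 < b ^ 2 := by positivity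
  obtain ⟨K, hK, hJ⟩ := exists_isJustNonab_quotient' hG
  by_cases hs : Group.IsSolvable (G ⧸ K)
  · exfalso
    rcases hJ.pQuot_or_frobQuot with ⟨Z, p, β, hp⟩ | ⟨N, r, hF⟩
    · obtain ⟨θ, hθ⟩ := h Z (hp.sq ▸ Nat.pow_le_pow_left (hb β) 2)
      obtain ⟨χ, h1, h2, -⟩ := exists_ext hb hθ
      have := hp.normal
      exact not_mul_mem hb hp.ne_one (h1 ▸ mul_mem_charDegrees_of_le_charCenter hp.le_center h2)
    · obtain ⟨β, h1, h2⟩ := hF.exists_char
      obtain ⟨θ, hθ⟩ := h N ((h2 ▸ hb β).trans (Nat.le_self_pow two_ne_zero b))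
      have h3 := (hF.mem_or_dvd θ).resolve_left (hθ ▸ not_mul_mem hb hF.ne_one)
      rw [hθ] at h3
      obtain ⟨H, h4, h5, h6, h7⟩ := hF.compl
      obtain ⟨θ, hθ⟩ := h H (h6 ▸ Nat.le_of_dvd hbb h3)
      have h8 := relIndex_dvd hb h5 hθ
      obtain ⟨k, hk⟩ := hF.pow
      obtain ⟨θ, hθ⟩ := h K (by
        rw [← relIndex_mul_index hF.le]
        refine Nat.le_of_dvd hbb (Nat.Coprime.mul_dvd_of_dvd_of_dvd ?_ h3 (h7 ▸ h8))
        rw [hk]
        exact (hF.prime.coprime_iff_not_dvd.2 hF.not_dvd).pow_left k)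
      obtain ⟨χ, h9, h10, -⟩ := exists_ext hb hθ
      exact not_mul_mem hb hF.ne_one (h9 ▸ h2 ▸ mul_mem_charDegrees_of_isIrr_comp h1 h10)
  have hsurj := QuotientGroup.mk'_surjective K
  have hb' : ∀ χ : IrrCharacter (G ⧸ K), charDegree χ.1 ≤ b := fun χ =>
    χ.charDegree_inflate _ hsurj ▸ hb _
  have h5 := five_le hb' hJ hs
  have : Nontrivial (G ⧸ K) := not_subsingleton_iff_nontrivial.1 fun _ => hs inferInstance
  obtain ⟨x, hx, hx'⟩ := exists_small_class hb'
  have h1 : ((centralizer ({x} : Set (G ⧸ K))).comap (QuotientGroup.mk' K)).index ≤ b ^ 2 := by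
    rwa [index_comap_of_surjective _ hsurj]
  obtain ⟨θ, hθ⟩ := h _ h1
  have h2 := relIndex_dvd hb (normalCore_comap_le hJ fun h2 => by
    have h3 := hJ.le (centralizer (commutator (G ⧸ K) : Set (G ⧸ K))) inferInstance fun h3 =>
      hx (mem_bot.1 (h3 ▸ fun y hy => mem_centralizer_singleton_iff.1 (h2 hy)))
    have := le_centralizer_iff_isMulCommutative.1 h3
    have : Group.IsSolvable (commutator (G ⧸ K)) := isSolvable_of_isMulCommutative
    have : IsMulCommutative ((G ⧸ K) ⧸ commutator (G ⧸ K)) := ⟨⟨commutator_eq_bot_iff_comm.1 (by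
      rw [commutator_quotient_eq (commutator (G ⧸ K)), map_mk'_eq_bot_iff])⟩⟩
    have : Group.IsSolvable ((G ⧸ K) ⧸ commutator (G ⧸ K)) := isSolvable_of_isMulCommutative
    exact hs (isSolvable_of_normal_of_quotient (commutator (G ⧸ K)))) hθ
  refine ⟨K, b - 3, by omega, fun θ => ?_, ?_⟩
  · obtain ⟨χ, hχ⟩ := θ.exists_liesOver_above K.subtype_injective
    obtain ⟨m, hm⟩ := hχ.charDegree_dvd
    have h3 := hb χ
    have h4 := χ.charDegree_pos
    have h6 : 2 * charDegree θ.1 ≤ b := by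
      rcases m with _ | _ | m
      · omega
      · obtain ⟨β, hβ⟩ := hJ.exists_nonlinear
        have h7 := hχ.comp_eq_of_charDegree_le χ.isCharacter (by omega)
        have h8 := hb ⟨_, gallagher_isIrr_quotient K χ.isCharacter (h7 ▸ θ.2) β⟩
        rw [(β.isCharacter.comp _).charDegree_mul χ.isCharacter, charDegree_comp] at h8
        have := β.charDegree_pos
        nlinarith [show 2 ≤ charDegree β.1 by omega]
      · nlinarith
    omega
  · obtain ⟨c, rfl⟩ : ∃ c, b = c + 3 := ⟨b - 3, by omega⟩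
    rw [← relIndex_mul_index (le_comap_mk'_self K (centralizer {x})), Nat.add_sub_cancel,
      Nat.factorial_succ, Nat.factorial_succ, Nat.factorial_succ, ← mul_assoc, ← mul_assoc, mul_pow]
    refine Nat.mul_le_mul_right _ ((Nat.mul_le_mul (Nat.le_of_dvd hbb h2) h1).trans ?_)
    rw [← mul_pow, mul_assoc]
    exact Nat.pow_le_pow_left (Nat.mul_le_mul_left _ (by nlinarith)) 2

theorem main (b : ℕ) : ∀ (G : Type u) [Group G] [Finite G],
    (∀ χ : IrrCharacter G, charDegree χ.1 ≤ b) →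
      ∃ A : Subgroup G, (∀ x ∈ A, ∀ y ∈ A, x * y = y * x) ∧ A.index ≤ b.factorial ^ 2 := by
  induction b using Nat.strong_induction_on with
  | _ b ih =>
  intro G _ _ hb
  by_cases hG : ∀ a b : G, a * b = b * a
  · exact ⟨⊤, fun x _ y _ => hG x y, index_top.trans_le (Nat.one_le_pow _ _ b.factorial_pos)⟩
  obtain ⟨L, c, h1, h2, h3⟩ := exists_sub hb hG
  obtain ⟨A, h4, h5⟩ := ih c h1 L h2
  refine ⟨A.map L.subtype, ?_, ?_⟩
  · rintro _ ⟨x, hx, rfl⟩ _ ⟨y, hy, rfl⟩
    rw [← map_mul, h4 x hx y hy, map_mul]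
  · rw [index_map_subtype, mul_comm]
    exact (Nat.mul_le_mul_left _ h5).trans h3

/-- Let b be the largest irreducible character degree of the finite group G. Then G has an abelian subgroup of index at most (b!)². -/
theorem result {G : Type*} [Group G] [Finite G] (b : ℕ) (hb : IsGreatest {d : ℕ | ∃ χ : Cfsg.IrrCharacter G, Cfsg.charDegree (χ : G → ℂ) = d} b) : ∃ A : Subgroup G, (∀ x ∈ A, ∀ y ∈ A, x * y = y * x) ∧ A.index ≤ (Nat.factorial b) ^ 2 := by
  exact main b G fun χ => hb.2 ⟨χ, rfl⟩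

end Cfsg.Agent.S4463
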