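import Cfsg.Statements.S4467
import Cfsg.Agent.Char.Winter

set_option autoImplicit false
open Cfsg

namespace Cfsg.Agent.S4467

/-- Let the finite solvable group G have a faithful irreducible character of degree n, and suppose that for the prime p a Sylow p-subgroup of G is not normal. Then n is divisible by a prime power q > 1 with q congruent to −1, 0 or 1 modulo p. -/
theorem result {G : Type*} [Group G] [Finite G] (χ : Cfsg.IrrCharacter G) (hfaith : ∀ g : G, (χ : G → ℂ) g = (χ : G → ℂ) 1 → g = 1) (n : ℕ) (hn : Cfsg.charDegree (χ : G → ℂ) = n) (hsolv : Group.IsSolvable G) (p : ℕ) (hp : p.Prime) (P : Sylow p G) (hP : ¬ (P : Subgroup G).Normal) : ∃ q : ℕ, IsPrimePow q ∧ q ∣ n ∧ ((q : ℤ) ≡ -1 [ZMOD p] ∨ (q : ℤ) ≡ 0 [ZMOD p] ∨ (q : ℤ) ≡ 1 [ZMOD p]) := by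
  have := Fact.mk hp
  subst hn
  obtain ⟨q, h1, h2, h3⟩ := χ.exists_primePow_of_not_normal hfaith P hP
  refine ⟨q, h1, h2, ?_⟩
  rcases h3 with h3 | h3
  · exact Or.inr (Or.inl (Int.modEq_zero_iff_dvd.2 (by exact_mod_cast h3)))
  · have h4 : (q : ZMod p) ^ 2 = 1 := by
      exact_mod_cast (ZMod.natCast_eq_natCast_iff _ _ _).2 h3
    rcases sq_eq_one_iff.1 h4 with h | h
    · exact Or.inr (Or.inr ((ZMod.intCast_eq_intCast_iff _ _ _).1 (by exact_mod_cast h)))
    · exact Or.inl ((ZMod.intCast_eq_intCast_iff _ _ _).1 (by exact_mod_cast h))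

end Cfsg.Agent.S4467
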