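import Cfsg.Statements.S4469
import Cfsg.Agent.Char.Blichfeldt
import Cfsg.Agent.Char.Jordan
import Cfsg.Agent.Char.MGroup
import Cfsg.Agent.Char.Mackey

set_option autoImplicit false
open Cfsg

namespace Cfsg.Agent.S4469

open scoped commutatorElement

theorem index_normalCore_dvd {G : Type*} [Group G] [Finite G] (H : Subgroup G) :
    H.normalCore.index ∣ H.index.factorial := by
  rw [Subgroup.normalCore_eq_ker, Subgroup.index_ker, Subgroup.index_eq_card, ← Nat.card_perm]
  exact Subgroup.card_subgroup_dvd_card _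

theorem exists_of_isMGroup {G : Type*} [Group G] [Finite G] (hG : IsMGroup G) {χ : G → ℂ}
    (hχ : IsCharacter G χ) : ∃ K : Subgroup G, K.Normal ∧ K.index ∣ (charDegree χ).factorial ∧
      ∀ a ∈ K, ∀ b ∈ K, χ ⁅a, b⁆ = χ 1 := by
  refine hχ.induction_on (P := fun χ => ∃ K : Subgroup G, K.Normal ∧
    K.index ∣ (charDegree χ).factorial ∧ ∀ a ∈ K, ∀ b ∈ K, χ ⁅a, b⁆ = χ 1)
    ⟨⊤, inferInstance, by simp, by simp⟩ (fun ψ => ?_) ?_
  · obtain ⟨L, lam, hL⟩ := hG ψ
    refine ⟨L.normalCore, inferInstance, ?_, fun a ha b hb => ?_⟩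
    · rw [hL, (isCharacter_linear lam).charDegree_ind_subtype, charDegree_linear, mul_one]
      exact index_normalCore_dvd L
    · rw [hL]
      refine ((isCharacter_linear lam).mem_kerSet_ind (fun h => by simpa using congrFun h 1)
        L.subtype_injective _).2 fun x => ?_
      refine ⟨⁅(⟨x⁻¹ * a * x, by simpa using ha x⁻¹⟩ : L),
        (⟨x⁻¹ * b * x, by simpa using hb x⁻¹⟩ : L)⁆, ?_, ?_⟩
      · simp [kerSet, commutatorElement_eq_one_iff_mul_comm, mul_comm]
      · simp [commutatorElement_def, mul_assoc]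
  · rintro φ ψ hφ hψ ⟨K, hK, hK1, hK2⟩ ⟨L, hL, hL1, hL2⟩
    refine ⟨K ⊓ L, inferInstance, ?_, fun a ha b hb => ?_⟩
    · rw [hφ.charDegree_add hψ, ← Subgroup.relIndex_mul_index (inf_le_right : K ⊓ L ≤ L),
        Subgroup.inf_relIndex_right]
      exact (mul_dvd_mul ((K.relIndex_dvd_index_of_normal L).trans hK1) hL1).trans
        (Nat.factorial_mul_factorial_dvd_factorial_add _ _)
    · simp [hK2 a ha.1 b hb.1, hL2 a ha.2 b hb.2]

theorem natPiPart_index {G : Type*} [Group G] [Finite G] {π : Set ℕ} {H : Subgroup G}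
    (hH : IsPiHall π H) (A : Subgroup G) [A.Normal] : natPiPart π A.index = A.relIndex H := by
  rw [← card_map_mk'_eq_relIndex, (hH.map_mk' A).card_eq, Subgroup.index_eq_card]

/-- The classical bound for finite linear groups, in explicit form. Let the finite group G have a faithful character of degree n. Then G has an abelian normal subgroup whose index is at most n! · 12^(n·(π(n+1)+1)), π(k) denoting the number of primes not exceeding k. -/
theorem result {G : Type*} [Group G] [Finite G] (χ : G → ℂ) (hχ : Cfsg.IsCharacter G χ) (hfaith : ∀ g : G, χ g = χ 1 → g = 1) (n : ℕ) (hn : Cfsg.charDegree χ = n) : ∃ A : Subgroup G, A.Normal ∧ (∀ x ∈ A, ∀ y ∈ A, x * y = y * x) ∧ A.index ≤ Nat.factorial n * 12 ^ (n * (Nat.primeCounting (n + 1) + 1)) := by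
  classical
  subst hn
  obtain ⟨A, hA, hAc, hAi⟩ := hχ.exists_abelian_normal_relIndex_le hfaith
  obtain ⟨H, hHc, hH⟩ := hχ.exists_abelian_isPiHall hfaith
  refine ⟨A, hA, hAc, ?_⟩
  set n := charDegree χ with hn
  have h1 : natPiPart {q | n + 1 < q} A.index ≤ 12 ^ n := by
    rw [natPiPart_index hH]
    exact hAi H hHc
  have h2 : ∀ p : ℕ, p.Prime → p ^ A.index.factorization p ≤
      p ^ n.factorial.factorization p * 12 ^ n := by
    intro p hp
    have : Fact p.Prime := ⟨hp⟩
    obtain ⟨P⟩ : Nonempty (Sylow p G) := inferInstance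
    rw [← natPiPart_singleton hp, natPiPart_index (isPiHall_sylow P)]
    obtain ⟨K, hK, hK1, hK2⟩ := exists_of_isMGroup (isMGroup_of_isPGroup P.isPGroup')
      (hχ.comp (P : Subgroup G).subtype)
    rw [charDegree_comp] at hK1
    have h3 : K.index ≤ p ^ n.factorial.factorization p := by
      obtain ⟨k, hk⟩ := P.isPGroup'.index K
      rw [hk] at hK1 ⊢
      exact Nat.pow_le_pow_right hp.pos
        ((hp.pow_dvd_iff_le_factorization n.factorial_ne_zero).1 hK1)
    have h4 := hAi (K.map (P : Subgroup G).subtype) (by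
      rintro _ ⟨a, ha, rfl⟩ _ ⟨b, hb, rfl⟩
      rw [← commutatorElement_eq_one_iff_mul_comm, ← map_commutatorElement]
      exact hfaith _ (hK2 a ha b hb))
    have hle : K.map (P : Subgroup G).subtype ≤ P := Subgroup.map_subtype_le K
    calc A.relIndex P ≤ (A ⊓ K.map (P : Subgroup G).subtype).relIndex P :=
          Subgroup.relIndex_le_of_le_left inf_le_left (relIndex_pos _ _).ne'
      _ = A.relIndex (K.map (P : Subgroup G).subtype) * K.index := by
          rw [← Subgroup.relIndex_mul_relIndex _ _ _ inf_le_right hle, Subgroup.inf_relIndex_right]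
          congr 1
          rw [Subgroup.relIndex, Subgroup.subgroupOf,
            Subgroup.comap_map_eq_self_of_injective (Subgroup.subtype_injective _)]
      _ ≤ _ := by
          rw [mul_comm]
          exact Nat.mul_le_mul h3 h4
  have h3 : natPiPart {q | n + 1 < q}ᶜ A.index ≤
      n.factorial * 12 ^ (n * Nat.primeCounting (n + 1)) := by
    suffices ∀ S : Finset ℕ, (∀ p ∈ S, p.Prime ∧ p ≤ n + 1) →
        ∏ p ∈ S, p ^ A.index.factorization p ≤
          n.factorial * 12 ^ (n * Nat.primeCounting (n + 1)) from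
      this _ fun p hp => by
        simp only [Finset.mem_filter] at hp
        exact ⟨Nat.prime_of_mem_primeFactors hp.1, not_lt.1 hp.2⟩
    intro S hS1
    calc _ ≤ ∏ p ∈ S, (p ^ n.factorial.factorization p * 12 ^ n) :=
          Finset.prod_le_prod' fun p hp => h2 p (hS1 p hp).1
      _ = (∏ p ∈ S, p ^ n.factorial.factorization p) * 12 ^ (n * S.card) := by
          rw [Finset.prod_mul_distrib, Finset.prod_const, pow_mul]
      _ ≤ _ := by
          refine Nat.mul_le_mul (Nat.le_of_dvd n.factorial_pos ?_)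
            (Nat.pow_le_pow_right (by norm_num) (Nat.mul_le_mul_left _ ?_))
          · refine Finset.prod_dvd_of_isRelPrime (fun p hp q hq hpq => ?_)
              fun p _ => Nat.ordProj_dvd _ _
            exact Nat.coprime_iff_isRelPrime.1 (Nat.coprime_pow_primes _ _ (hS1 p hp).1
              (hS1 q hq).1 hpq)
          · rw [← Nat.primesLE_card_eq_primeCounting]
            exact Finset.card_le_card fun p hp => Nat.mem_primesLE.2 (hS1 p hp).symm
  rw [← natPiPart_mul_natPiPart_compl {q | n + 1 < q} (index_pos A).ne', mul_add, pow_add, mul_one,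
    ← mul_assoc, mul_comm]
  exact Nat.mul_le_mul h3 h1

end Cfsg.Agent.S4469
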