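import Cfsg.Statements.S4471
import Cfsg.Agent.Char.Sixty
import Cfsg.Agent.Char.Blichfeldt
import Cfsg.Agent.Char.Degrees
import Cfsg.Agent.Char.CliffordBasic
import Cfsg.Agent.Grp.Nilpotent

set_option autoImplicit false
open Cfsg

namespace Cfsg.Agent.S4471

open scoped commutatorElement

theorem exists_two_eigen {P : Type*} [Group P] [Finite P] {p : ℕ} [hp : Fact p.Prime]
    (hP : IsPGroup p P) {θ : P → ℂ} (hθ : IsCharacter P θ) (hf : ∀ g, θ g = θ 1 → g = 1)
    (hn : charDegree θ < 2 * p) (hna : ∃ x y : P, x * y ≠ y * x) {ζ : ℂ}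
    (hζ : IsPrimitiveRoot ζ p) :
    p ≤ charDegree θ ∧ ∃ s : P, orderOf s = p ∧
      ∀ k : ℕ, θ (s ^ k) = p * ζ ^ k + (charDegree θ - p : ℕ) := by
  have hp1 := hp.out.one_lt
  obtain ⟨ψ, hψ, hψ1⟩ : ∃ ψ : IrrCharacter P, ip θ ψ.1 ≠ 0 ∧ charDegree ψ.1 ≠ 1 := by
    by_contra hall
    push Not at hall
    obtain ⟨x, y, hxy⟩ := hna
    refine hxy (commutatorElement_eq_one_iff_mul_comm.1 (hθ.eq_one_of_forall_constituent hf
      fun ψ hψ => ψ.mem_charKer.1 (ψ.commutator_le_charKer_iff'.2 (hall ψ hψ) ?_)))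
    exact Subgroup.commutator_mem_commutator (Subgroup.mem_top x) (Subgroup.mem_top y)
  have hlin : ∀ φ : IrrCharacter P, charDegree φ.1 < 2 * p →
      charDegree φ.1 = 1 ∨ charDegree φ.1 = p := fun φ hφ => by
    obtain ⟨k, hk⟩ := φ.exists_charDegree_eq_pow hP
    rw [hk] at hφ ⊢
    rcases k with _ | _ | k
    · simp
    · simp
    · exfalso
      have : p * p ≤ p ^ (k + 1 + 1) := by
        rw [← pow_two]; exact Nat.pow_le_pow_right hp1.le (by omega)
      nlinarith
  have hpos := (hθ.ipNat_pos_iff ψ.isCharacter).2 hψ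
  have hle : charDegree ψ.1 ≤ charDegree θ :=
    (Nat.le_mul_of_pos_left _ hpos).trans (hθ.ipNat_mul_charDegree_le ψ)
  have hψp : charDegree ψ.1 = p := (hlin ψ (hle.trans_lt hn)).resolve_left hψ1
  have hφ : IsCharacter P (θ - ψ.1) := hθ.sub_of_ipNat_le ψ.isCharacter fun χ => by
    by_cases h : ψ = χ
    · subst h
      rw [ipNat_eq_of_ip_eq (n := 1) (by simpa using ψ.ip_self)]
      exact hpos
    · rw [(ψ.isCharacter.ipNat_eq_zero_iff χ.isCharacter).2
        (not_not.1 fun h' => h (IrrCharacter.eq_of_ip_ne_zero h'))]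
      exact Nat.zero_le _
  have hφd : charDegree (θ - ψ.1) = charDegree θ - p := by
    have := hφ.charDegree_add ψ.isCharacter
    rw [sub_add_cancel, hψp] at this
    omega
  have hker : commutator P ≤ charKer (θ - ψ.1) := fun g hg =>
    hφ.mem_charKer_iff_forall.2 fun χ hχ => χ.commutator_le_charKer_iff'.2 (by
      have h1 : charDegree χ.1 ≤ charDegree (θ - ψ.1) :=
        (Nat.le_mul_of_pos_left _ ((hφ.ipNat_pos_iff χ.isCharacter).2 hχ)).trans
          (hφ.ipNat_mul_charDegree_le χ)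
      rcases hlin χ (by omega) with h | h
      · exact h
      · omega) hg
  have hne : commutator P ≠ ⊥ := fun h => by
    obtain ⟨x, y, hxy⟩ := hna
    exact hxy (commutatorElement_eq_one_iff_mul_comm.1 (Subgroup.mem_bot.1 (h ▸
      Subgroup.commutator_mem_commutator (Subgroup.mem_top x) (Subgroup.mem_top y))))
  have := hP.isNilpotent
  have hne2 : commutator P ⊓ Subgroup.center P ≠ ⊥ := inf_center_ne_bot_of_isNilpotent hne
  obtain ⟨z', hz'⟩ := exists_prime_orderOf_dvd_card'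
    (G := (commutator P ⊓ Subgroup.center P : Subgroup P)) p (by
      obtain ⟨k, hk0, hk⟩ := (hP.to_subgroup _).nontrivial_iff_card.1
        ((Subgroup.nontrivial_iff_ne_bot _).2 hne2)
      rw [hk]
      exact dvd_pow_self p hk0.ne')
  have hz : orderOf (z' : P) = p := by rw [Subgroup.orderOf_coe, hz']
  obtain ⟨hz1, hz2⟩ := Subgroup.mem_inf.1 z'.2
  generalize (z' : P) = z at hz hz1 hz2
  obtain ⟨c, hc⟩ := mem_charCenter_def.1 (ψ.center_le_charCenter hz2)
  have hψk : ∀ k : ℕ, ψ.1 (z ^ k) = p * (c : ℂ) ^ k := fun k => by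
    induction k with
    | zero => rw [pow_zero, pow_zero, mul_one, ← hψp]; exact ψ.apply_one
    | succ k ih =>
      have := hc (z ^ k) 1
      rw [mul_one, mul_one, ih] at this
      rw [pow_succ, this]
      ring
  have hθk : ∀ k : ℕ, θ (z ^ k) = p * (c : ℂ) ^ k + (charDegree θ - p : ℕ) := fun k => by
    have := apply_of_mem_charKer (hker (pow_mem hz1 k))
    rw [hφ.apply_one, hφd, Pi.sub_apply, hψk, sub_eq_iff_eq_add] at this
    rw [this, add_comm]
  have hp0 : (p : ℂ) ≠ 0 := by exact_mod_cast hp.out.ne_zero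
  have hcp : (c : ℂ) ^ p = 1 := by
    have h1 := hψk p
    have h2 := hψk 0
    rw [← hz, pow_orderOf_eq_one, hz] at h1
    rw [pow_zero, h1, pow_zero] at h2
    exact mul_left_cancel₀ hp0 h2
  have hc1 : (c : ℂ) ≠ 1 := fun h => by
    have h1 := hθk 1
    have h2 := hθk 0
    simp only [h, pow_one, pow_zero] at h1 h2
    rw [hf z (h1.trans h2.symm), orderOf_one] at hz
    omega
  have hcprim : IsPrimitiveRoot (c : ℂ) p := by
    have := IsPrimitiveRoot.orderOf (c : ℂ)
    rwa [orderOf_eq_prime hcp hc1] at this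
  obtain ⟨j, hjp, hj⟩ := hcprim.eq_pow_of_pow_eq_one hζ.pow_eq_one
  have hj0 : j ≠ 0 := fun h => hζ.ne_one hp1 (by rw [← hj, h, pow_zero])
  refine ⟨hψp ▸ hle, z ^ j, ?_, fun k => by rw [← pow_mul, hθk, pow_mul, hj]⟩
  rw [Nat.Coprime.orderOf_pow, hz]
  rw [hz]
  exact Nat.coprime_of_lt_prime hj0 hjp hp.out

theorem norm_exp_sub_one_lt {p : ℕ} (h7 : 7 ≤ p) :
    ‖Complex.exp (2 * Real.pi * Complex.I / p) - 1‖ < 1 := by
  have h7' : (7 : ℝ) ≤ p := by exact_mod_cast h7
  have e : (2 * Real.pi * Complex.I / p : ℂ) = Complex.I * ((2 * Real.pi / p : ℝ) : ℂ) := by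
    push_cast; ring
  rw [e]
  refine (Real.norm_exp_I_mul_ofReal_sub_one_le).trans_lt ?_
  rw [Real.norm_of_nonneg (by positivity), div_lt_one (by linarith)]
  linarith [Real.pi_lt_d2]

theorem exists_abelian_normal {G : Type*} [Group G] [Finite G] (χ : IrrCharacter G)
    (hf : ∀ g : G, χ g = χ 1 → g = 1) {p : ℕ} (hp : p.Prime) (h7 : 7 ≤ p)
    (h1 : p < charDegree χ.1) (h2 : charDegree χ.1 < 2 * p) {s : G} (hs : orderOf s = p)
    (hχ : ∀ k : ℕ, χ (s ^ k) = p * Complex.exp (2 * Real.pi * Complex.I / p) ^ k +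
      (charDegree χ.1 - p : ℕ)) :
    ∃ K : Subgroup G, K.Normal ∧ IsMulCommutative K ∧ K.index ∣ (charDegree χ.1).factorial := by
  classical
  have hζ := Complex.isPrimitiveRoot_exp p hp.ne_zero
  set ζ := Complex.exp (2 * Real.pi * Complex.I / p) with hζdef
  set n := charDegree χ.1 with hn
  let ε : Fin p ⊕ Fin (n - p) → ℂ := Sum.elim (fun _ => ζ) (fun _ => 1)
  have hε : ∀ k : ℕ, χ (s ^ k) = ∑ i, ε i ^ k := fun k => by simp [hχ, ε]
  have hεp : ∀ i, ε i ^ p = 1 := by rintro (i | i) <;> simp [ε, hζ.pow_eq_one]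
  have hcomm := χ.isCharacter.commute_conj_of_two_eigen hf hε (α := 1) (β := ζ) (one_pow _)
    (by rw [hs, hζ.pow_eq_one]) (by rintro (i | i) <;> simp [ε]) (norm_exp_sub_one_lt h7)
  let N := Subgroup.normalClosure ({s} : Set G)
  have hN : IsMulCommutative N := Subgroup.isMulCommutative_closure fun a ha b hb => by
    obtain ⟨a', ha', h⟩ := Group.mem_conjugatesOfSet_iff.1 ha
    obtain ⟨b', hb', h'⟩ := Group.mem_conjugatesOfSet_iff.1 hb
    obtain ⟨x, rfl⟩ := isConj_iff.1 h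
    obtain ⟨y, rfl⟩ := isConj_iff.1 h'
    rw [Set.mem_singleton_iff.1 ha', Set.mem_singleton_iff.1 hb']
    have := ((hcomm (y⁻¹ * x)).map (MulAut.conj x)).eq
    simpa [mul_assoc] using this
  let s' : N := ⟨s, Subgroup.subset_normalClosure (Set.mem_singleton _)⟩
  obtain ⟨θ, hθ⟩ := χ.exists_liesOver_below N.subtype
  have hθ1 : ∀ θ' : IrrCharacter N, θ' 1 = 1 := fun θ' =>
    θ'.apply_one_eq_one_of_comm fun a b => mul_comm' a b
  set e := ipNat (χ.1 ∘ N.subtype) θ.1 with he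
  have hdvd : ∀ α : ℂ, α ^ p = 1 → e ∣ Multiset.count α (Finset.univ.val.map ε) := fun α hα => by
    have e1 := mul_count_roots_eq hp.ne_zero ε hεp hα
    have e2 := mul_count_roots_eq hp.ne_zero (fun θ' : conjOrbit N.subtype θ => θ'.1 s')
      (fun θ' => by
        rw [← θ'.1.isCharacter.map_pow_of_apply_one (hθ1 _),
          show s' ^ p = 1 from Subtype.ext (by simp [s', ← hs])]
        exact hθ1 _) hα
    have e3 : ∀ k : ℕ, ∑ i, ε i ^ k = e * ∑ θ' : conjOrbit N.subtype θ, θ'.1 s' ^ k := fun k => by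
      have := congrFun hθ.comp_eq_smul_sum_conjOrbit (s' ^ k)
      rw [← hε, Finset.sum_coe_sort (conjOrbit N.subtype θ) fun θ' => θ' s' ^ k]
      simp only [Function.comp_apply, Pi.smul_apply, Finset.sum_apply, smul_eq_mul] at this
      refine this.trans ?_
      congr 1
      exact Finset.sum_congr rfl fun θ' _ => θ'.isCharacter.map_pow_of_apply_one (hθ1 _) _ _
    simp only [e3, mul_assoc, ← Finset.mul_sum] at e1
    rw [← e2, mul_left_comm] at e1
    have hp0 : (p : ℂ) ≠ 0 := by exact_mod_cast hp.ne_zero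
    exact ⟨_, by exact_mod_cast mul_left_cancel₀ hp0 e1⟩
  have hζ1 : ζ ≠ 1 := hζ.ne_one hp.one_lt
  have he1 : e = 1 := by
    have a1 := hdvd ζ hζ.pow_eq_one
    have a2 := hdvd 1 (one_pow _)
    rw [Multiset.count_map, ← Finset.filter_val, Finset.card_val, Finset.card_filter,
      Fintype.sum_sum_type] at a1 a2
    simp only [ε, Sum.elim_inl, Sum.elim_inr, if_true, hζ1, hζ1.symm, if_false, Finset.sum_const,
      Finset.card_univ, Fintype.card_fin, smul_eq_mul, mul_one, mul_zero, add_zero, zero_add]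
      at a1 a2
    exact Nat.eq_one_of_dvd_coprimes (Nat.coprime_of_lt_prime (by omega) (by omega) hp) a1 a2
  have hT : (inertia N.subtype θ).index = n := by
    have := hθ.charDegree_eq
    rw [← he, he1, θ.charDegree_eq_one_of_isMulCommutative, one_mul, mul_one] at this
    exact this.symm
  obtain ⟨ψ, -, hψ⟩ := hθ.exists_inertia_ind_eq
  generalize inertia N.subtype θ = T at hT ψ hψ
  have hψ1 : charDegree ψ.1 = 1 := by
    have := ψ.isCharacter.charDegree_ind_subtype
    rw [hψ, hT, ← hn] at this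
    exact (Nat.mul_eq_left (by omega)).1 this.symm
  refine ⟨T.normalCore, inferInstance, ⟨⟨fun a b => Subtype.ext ?_⟩⟩, ?_⟩
  · refine commutatorElement_eq_one_iff_mul_comm.1 (hf _ ?_)
    have := Fintype.ofFinite (G ⧸ T)
    change χ.1 _ = χ.1 1
    rw [← hψ, ind_subtype_apply_eq_sum_quotient _ ψ.isClassFunction,
      ind_subtype_apply_eq_sum_quotient _ ψ.isClassFunction]
    refine Finset.sum_congr rfl fun q _ => ?_
    have ha : q.out⁻¹ * a * q.out ∈ T := by simpa using a.2 q.out⁻¹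
    have hb : q.out⁻¹ * b * q.out ∈ T := by simpa using b.2 q.out⁻¹
    have e1 : q.out⁻¹ * ⁅(a : G), (b : G)⁆ * q.out = (⁅(⟨_, ha⟩ : T), (⟨_, hb⟩ : T)⁆ : T) := by
      simp [commutatorElement_def, mul_assoc]
    have e2 : q.out⁻¹ * 1 * q.out = ((1 : T) : G) := by simp
    rw [e1, e2, extendByZero_coe, extendByZero_coe]
    exact ψ.mem_charKer.1 (ψ.commutator_le_charKer_iff'.2 hψ1
      (Subgroup.commutator_mem_commutator (Subgroup.mem_top _) (Subgroup.mem_top _)))
  · rw [Subgroup.normalCore_eq_ker, Subgroup.index_ker, ← hT, Subgroup.index_eq_card,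
      ← Nat.card_perm]
    exact Subgroup.card_subgroup_dvd_card _

/-- Let p ≥ 7 be a prime and let the finite group G have a faithful irreducible character of degree n with n < 2p and n ≠ p. If the Sylow p-subgroups of G are non-abelian then p² does not divide the index of O_p(G) in G; consequently, in every case G/O_p(G) has abelian Sylow p-subgroups. -/
theorem result {G : Type*} [Group G] [Finite G] (χ : Cfsg.IrrCharacter G) (hfaith : ∀ g : G, (χ : G → ℂ) g = (χ : G → ℂ) 1 → g = 1) (n : ℕ) (hn : Cfsg.charDegree (χ : G → ℂ) = n) (p : ℕ) (hp : p.Prime) (h7 : 7 ≤ p) (hn2 : n < 2 * p) (hnp : n ≠ p) : ((∃ P : Sylow p G, ∃ x ∈ (P : Subgroup G), ∃ y ∈ (P : Subgroup G), x * y ≠ y * x) → ¬ p ^ 2 ∣ (Cfsg.pCore p G).index) ∧ ∀ Q : Sylow p (G ⧸ Cfsg.pCore p G), ∀ x ∈ (Q : Subgroup (G ⧸ Cfsg.pCore p G)), ∀ y ∈ (Q : Subgroup (G ⧸ Cfsg.pCore p G)), x * y = y * x := by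
  have := Fact.mk hp
  subst hn
  have key : (∃ P : Sylow p G, ∃ x ∈ (P : Subgroup G), ∃ y ∈ (P : Subgroup G), x * y ≠ y * x) →
      ¬ p ^ 2 ∣ (Cfsg.pCore p G).index := by
    rintro ⟨P, x, hx, y, hy, hxy⟩ hdvd
    have hd : charDegree (χ.1 ∘ (P : Subgroup G).subtype) = charDegree χ.1 := charDegree_comp _ _
    obtain ⟨h1, s, hs, hχs⟩ := exists_two_eigen P.isPGroup' (χ.isCharacter.comp P.1.subtype)
      (IsCharacter.comp_faithful hfaith P.1.subtype_injective) (by rwa [hd])
      ⟨⟨x, hx⟩, ⟨y, hy⟩, fun h => hxy (congrArg Subtype.val h)⟩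
      (Complex.isPrimitiveRoot_exp p hp.ne_zero)
    rw [hd] at h1 hχs
    obtain ⟨K, hK, hKc, hKi⟩ := exists_abelian_normal χ hfaith hp h7
      (lt_of_le_of_ne h1 hnp.symm) hn2 (s := (s : G)) (by rw [Subgroup.orderOf_coe, hs])
      (fun k => by simpa using hχs k)
    have h2 : K ⊓ P ≤ pCore p G := fun g hg => by
      obtain ⟨h1, h2⟩ := Subgroup.mem_inf.1 hg
      have : Group.IsNilpotent K := isNilpotent_of_isMulCommutative
      exact mem_pCore_of_mem_isNilpotent hK.isSubnormal h1 (isPElt_of_mem P.isPGroup' h2)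
    have h3 : p ^ 2 ∣ (pCore p G).relIndex P := by
      rw [← Subgroup.relIndex_mul_index (pCore_le_sylow P)] at hdvd
      exact Nat.Coprime.dvd_of_dvd_mul_right
        ((hp.coprime_iff_not_dvd.2 P.not_dvd_index).pow_left 2) hdvd
    have h4 : (pCore p G).relIndex P ∣ K.relIndex P := by
      rw [← Subgroup.inf_relIndex_right K]
      exact Subgroup.relIndex_dvd_of_le_left _ h2
    have h5 := (h3.trans h4).trans ((Subgroup.relIndex_dvd_index_of_normal K P).trans hKi)
    rw [hp.pow_dvd_factorial_iff (b := 2) (Nat.log_lt_of_lt_pow' (by norm_num) (by nlinarith))]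
      at h5
    simp only [Nat.Ico_succ_singleton, Finset.sum_singleton, pow_one] at h5
    have := (Nat.le_div_iff_mul_le hp.pos).1 h5
    omega
  refine ⟨key, fun Q => ?_⟩
  by_cases h : ∃ P : Sylow p G, ∃ x ∈ (P : Subgroup G), ∃ y ∈ (P : Subgroup G), x * y ≠ y * x
  · have h1 := key h
    obtain ⟨k, hk⟩ := Q.isPGroup'.exists_card_eq
    have h2 : p ^ k ∣ (pCore p G).index := hk ▸ Subgroup.card_subgroup_dvd_card Q.1
    have h3 : k ≤ 1 := by
      by_contra h3
      exact h1 ((pow_dvd_pow p (by omega)).trans h2)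
    have h4 : IsCyclic Q.1 := isCyclic_of_card_dvd_prime (p := p)
      (by rw [hk]; simpa using pow_dvd_pow p h3)
    intro x hx y hy
    exact congrArg Subtype.val (mul_comm' (⟨x, hx⟩ : Q.1) ⟨y, hy⟩)
  · push Not at h
    obtain ⟨P, rfl⟩ := Sylow.mapSurjective_surjective (QuotientGroup.mk'_surjective (pCore p G)) p Q
    rintro _ ⟨x, hx, rfl⟩ _ ⟨y, hy, rfl⟩
    rw [← map_mul, h P x hx y hy, map_mul]

end Cfsg.Agent.S4471
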