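import Cfsg.Statements.S4472
import Cfsg.Agent.Char.GlaubCyc
import Cfsg.Agent.Char.PPrimeDeg
import Cfsg.Agent.Char.Blichfeldt
import Cfsg.Agent.Grp.PSolvable
import Cfsg.Agent.Grp.SylowEA

set_option autoImplicit false
open Cfsg

namespace Cfsg.Agent.S4472

open Subgroup

theorem card_dvd_of_rational {P : Type*} [Group P] [Finite P] {p : ℕ} [hp : Fact p.Prime]
    (hP : IsPGroup p P) {Φ : P → ℂ} (hΦ : IsCharacter P Φ) (hf : ∀ g, Φ g = Φ 1 → g = 1)
    (hr : ∀ (x : P) (k : ℕ), k.Coprime p → Φ (x ^ k) = Φ x) {M : ℕ}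
    (hM : charDegree Φ / (p - 1) ≤ M) : Nat.card P ∣ p ^ M * M.factorial := by
  classical
  have hp1 := hp.out.one_lt
  set m := charDegree Φ with hm
  have key : ∀ x : P, x ≠ 1 → ∃ t ∈ Finset.range M, Φ x = (m - p * (t + 1) : ℤ) := by
    intro x hx
    obtain ⟨j, hj⟩ := IsPGroup.iff_orderOf.1 hP x
    obtain ⟨j, rfl⟩ : ∃ i, j = i + 1 := Nat.exists_eq_succ_of_ne_zero (by
      rintro rfl
      exact hx (orderOf_eq_one_iff.1 hj))
    obtain ⟨v, hv⟩ := hΦ.isGen.exists_int_of_forall_pow (g := x) fun k hk =>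
      hr x k (Nat.Coprime.coprime_dvd_right (hj ▸ dvd_pow_self p j.succ_ne_zero) hk)
    obtain ⟨c, hc⟩ := (hΦ.int_modEq_charDegree hp.out (hj ▸ pow_orderOf_eq_one x) hv).dvd
    have h1 : v ≤ m := by
      have := hΦ.re_le x
      rw [hv] at this
      exact_mod_cast this
    have h2 : v ≠ m := fun h => hx (hf x (by rw [hv, h, hΦ.apply_one]; simp [hm]))
    have h3 : 0 ≤ (p - 1 : ℤ) * v + m := by
      obtain ⟨ε, hε, hε', -⟩ := hΦ.exists_roots x
      have e := congrArg Complex.re (mul_count_roots_eq (orderOf_pos x).ne' ε hε (one_pow _))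
      simp only [inv_one, one_pow, mul_one, ← hε', Complex.re_sum] at e
      rw [← Finset.sum_filter_add_sum_filter_not _ (orderOf x).Coprime,
        Finset.sum_congr rfl (g := fun _ => (v : ℝ)) (fun k hk => by
          rw [hr x k (Nat.Coprime.coprime_dvd_right (hj ▸ dvd_pow_self p j.succ_ne_zero)
            (Finset.mem_filter.1 hk).2.symm), hv]
          simp), Finset.sum_const, ← Nat.totient_eq_card_coprime] at e
      have e2 := Finset.sum_le_card_nsmul ((Finset.range (orderOf x)).filter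
        fun k => ¬ (orderOf x).Coprime k) (fun k => (Φ (x ^ k)).re) m fun k _ => hΦ.re_le _
      have e3 := Finset.card_filter_add_card_filter_not (s := Finset.range (orderOf x))
        (orderOf x).Coprime
      rw [← Nat.totient_eq_card_coprime, Finset.card_range] at e3
      have e4 : (orderOf x).totient = p ^ j * (p - 1) := by
        rw [hj, Nat.totient_prime_pow_succ hp.out]
      have e5 : ((Finset.range (orderOf x)).filter fun k => ¬ (orderOf x).Coprime k).card =
          p ^ j := by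
        rw [e4] at e3
        conv_rhs at e3 => rw [hj, pow_succ, ← Nat.sub_add_cancel hp1.le, mul_add, mul_one]
        rw [Nat.sub_add_cancel hp1.le] at e3
        omega
      rw [e5] at e2
      rw [e4] at e
      have e6 : (0 : ℝ) ≤ ((orderOf x : ℂ) *
          (Multiset.count 1 (Finset.univ.val.map ε) : ℂ)).re := by
        rw [← Nat.cast_mul, Complex.natCast_re]
        positivity
      have e7 : (0 : ℝ) ≤ p ^ j * ((p - 1) * v + m) := by
        simp only [nsmul_eq_mul, Nat.cast_mul, Nat.cast_pow, Nat.cast_sub hp1.le, Nat.cast_one]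
          at e e2
        nlinarith
      have e8 := nonneg_of_mul_nonneg_right e7 (by positivity : (0 : ℝ) < p ^ j)
      exact_mod_cast e8
    have hp0 : (1 : ℤ) < p := by exact_mod_cast hp1
    rw [← hm] at hc
    have h4 : 0 < c := by
      have := lt_of_le_of_ne h1 h2
      nlinarith
    obtain ⟨t, rfl⟩ : ∃ t : ℕ, c = t + 1 := ⟨(c - 1).toNat, by omega⟩
    refine ⟨t, Finset.mem_range.2 (lt_of_lt_of_le ?_ hM), by rw [hv]; congr 1; omega⟩
    rw [Nat.lt_iff_add_one_le, Nat.le_div_iff_mul_le (by omega)]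
    zify [hp1.le]
    nlinarith
  have hgen : IsGeneralizedCharacter P
      (∏ t ∈ Finset.range M, (Φ - ((m - p * (t + 1) : ℤ) : ℂ) • fun _ => 1)) :=
    Finset.prod_induction _ _ (fun _ _ => IsGeneralizedCharacter.mul)
      (IrrCharacter.one P).isCharacter.isGen fun t _ =>
        hΦ.isGen.sub ((IrrCharacter.one P).isCharacter.isGen.zsmul _)
  have := hgen.card_dvd_of_vanish ⊤ (m := (p ^ M * M.factorial : ℕ)) (fun g _ hg => by
    obtain ⟨t, ht, h⟩ := key g hg
    rw [Finset.prod_apply]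
    exact Finset.prod_eq_zero ht (by simp [h])) (by
    rw [Finset.prod_apply, Finset.prod_congr rfl (g := fun t : ℕ => (p : ℂ) * ((t + 1 : ℕ) : ℂ))
      fun t _ => by simp [hΦ.apply_one, hm], Finset.prod_mul_distrib, Finset.prod_const,
      Finset.card_range, ← Nat.cast_prod, Finset.prod_range_add_one_eq_factorial]
    simp)
  rw [card_top] at this
  exact_mod_cast this

theorem exists_rational {H : Type*} [Group H] [Finite H] {K : Subgroup H} [K.Normal]
    (hc : (Nat.card K).Coprime K.index) {χ : H → ℂ} (hχ : IsCharacter H χ) :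
    ∃ Φ : H → ℂ, IsCharacter H Φ ∧ charDegree Φ ≤ charDegree χ ∧ charKer Φ ⊓ K ≤ charKer χ ∧
      ∀ σ : ℂ ≃+* ℂ, (∀ z : ℂ, z ^ Nat.card K = 1 → σ z = z) → σ ∘ Φ = Φ := by
  refine hχ.induction_on (P := fun χ => ∃ Φ : H → ℂ, IsCharacter H Φ ∧
    charDegree Φ ≤ charDegree χ ∧ charKer Φ ⊓ K ≤ charKer χ ∧
      ∀ σ : ℂ ≃+* ℂ, (∀ z : ℂ, z ^ Nat.card K = 1 → σ z = z) → σ ∘ Φ = Φ)
    ⟨0, IsCharacter.zero, le_rfl, inf_le_left, fun σ _ => by ext; simp⟩ (fun ψ => ?_) ?_
  · obtain ⟨θ, hθ⟩ := ψ.exists_liesOver_below K.subtype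
    have hc' : (Nat.card K).Coprime (toInertia K.subtype θ).range.index := by
      rw [range_toInertia, range_subtype]
      exact hc.coprime_dvd_right (relIndex_dvd_index_of_normal _ _)
    obtain ⟨η, ⟨h1, h2⟩, -⟩ := existsUnique_extension_of_coprime_card
      (inertia_toInertia K.subtype θ) hc'
    have h3 : LiesOver (toInertia K.subtype θ) η.1 θ.1 := by
      rw [LiesOver, h1, θ.ip_self]
      exact one_ne_zero
    have h4 := clifford_isIrr_ind (f := K.subtype) (subtype_injective _) (fun _ => rfl)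
      (range_subtype _).ge h3
    have h5 := liesOver_ind_of_liesOver (f := K.subtype) (subtype_injective _) (fun _ => rfl)
      θ.isCharacter η.isCharacter h3
    refine ⟨_, h4.isCharacter, ?_, ?_, fun σ hσ => ?_⟩
    · rw [η.isCharacter.charDegree_ind_subtype, hθ.charDegree_eq, charDegree_eq_of_comp_eq h1,
        mul_assoc]
      exact Nat.le_mul_of_pos_left _ ((liesOver_iff_ipNat_pos ψ.isCharacter θ.isCharacter).1 hθ)
    · refine hθ.le_charKer_of_le_map K.subtype_injective fun g hg => ?_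
      exact ⟨⟨g, hg.2⟩, LiesOver.comap_charKer_le (χ := ⟨_, h4⟩) h5 hg.1, rfl⟩
    · have := gal_smul_canonical_extension hc' (h1 ▸ θ.2) h2 σ hσ
      conv_rhs => rw [← this]
      exact (ind_map_ringHom _ _ σ.toRingHom).symm
  · rintro φ ψ hφ hψ ⟨Φ, a1, a2, a3, a4⟩ ⟨Ψ, b1, b2, b3, b4⟩
    refine ⟨Φ + Ψ, a1.add b1, ?_, ?_, fun σ hσ => ?_⟩
    · rw [a1.charDegree_add b1, hφ.charDegree_add hψ]
      omega
    · rw [a1.charKer_add b1, hφ.charKer_add hψ]
      exact le_inf ((inf_le_inf_right _ inf_le_left).trans a3)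
        ((inf_le_inf_right _ inf_le_right).trans b3)
    · ext g
      have e1 := congrFun (a4 σ hσ) g
      have e2 := congrFun (b4 σ hσ) g
      simp only [Function.comp_apply, Pi.add_apply, map_add] at e1 e2 ⊢
      rw [e1, e2]

theorem relIndex_centralizer_dvd {H : Type*} [Group H] [Finite H] {p : ℕ} [hp : Fact p.Prime]
    {K P : Subgroup H} [K.Normal] (hK : ¬ p ∣ Nat.card K) (hP : IsPGroup p P) (h : P ⊔ K = ⊤)
    {χ : H → ℂ} (hχ : IsCharacter H χ) (hf : ∀ g, χ g = χ 1 → g = 1) :
    (centralizer (K : Set H)).relIndex P ∣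
      p ^ (charDegree χ / (p - 1)) * (charDegree χ / (p - 1)).factorial := by
  have hc : (Nat.card K).Coprime K.index := by
    rw [← relIndex_top_right, ← h, relIndex_sup_right]
    exact ((hP.coprime_card_of_not_dvd hK).coprime_dvd_left (relIndex_dvd_card K P)).symm
  obtain ⟨Φ, h1, h2, h3, h4⟩ := exists_rational hc hχ
  rw [hχ.charKer_eq_bot_iff.2 hf] at h3
  have h5 : charKer Φ ≤ centralizer (K : Set H) := commutator_eq_bot_iff_le_centralizer.1
    (le_bot_iff.1 ((commutator_le_inf _ _).trans h3))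
  refine (relIndex_dvd_of_le_left P h5).trans ?_
  have hΦ := h1.comp P.subtype
  obtain ⟨Ψ, h6, h7⟩ := hΦ.exists_quotient_of_le_charKer _ le_rfl
  have h8 : (charKer Φ).relIndex P = Nat.card (P ⧸ charKer (Φ ∘ P.subtype)) := by
    rw [h1.charKer_comp, relIndex, index_eq_card, subgroupOf]
  rw [h8]
  refine card_dvd_of_rational (hP.to_quotient _) h6 (fun g hg => ?_) (fun x k hk => ?_) ?_
  · obtain ⟨g, rfl⟩ := QuotientGroup.mk_surjective g
    refine (QuotientGroup.eq_one_iff _).2 (hΦ.mem_charKer.2 ?_)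
    rw [← h7]
    exact hg
  · obtain ⟨x, rfl⟩ := QuotientGroup.mk_surjective x
    have e1 : Ψ ((x : P ⧸ _) ^ k) = Φ ((x : H) ^ k) := congrFun h7 (x ^ k)
    have e2 : Ψ (x : P ⧸ _) = Φ x := congrFun h7 x
    rw [e1, e2]
    obtain ⟨j, hj⟩ := isPElt_of_mem hP x.2
    have hK0 : Nat.card K ≠ 0 := Nat.card_pos.ne'
    have hx0 := (orderOf_pos (x : H)).ne'
    obtain ⟨l, l1, l2, l3⟩ := exists_coprime_modEq_modEq_one (k := k) hK0 hx0
      (hj ▸ hk.pow_right j) (by
        rw [hj, (hp.out.coprime_iff_not_dvd.2 hK).symm.pow_right j]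
        exact Nat.modEq_one)
    obtain ⟨σ, hσ⟩ := exists_ringEquiv_pow (mul_ne_zero hK0 hx0) l1
    rw [← pow_eq_pow_iff_modEq.2 l3, h1.apply_pow_eq σ.toRingHom (n := Nat.card K * orderOf (x : H))
      (by rw [mul_comm, pow_mul, pow_orderOf_eq_one, one_pow]) hσ]
    refine congrFun (h4 σ fun z hz => ?_) x
    rw [hσ z (by rw [pow_mul, hz, one_pow]), ← pow_mod_orderOf,
      (l2.of_dvd (orderOf_dvd_of_pow_eq_one hz) : l % _ = 1 % _), pow_mod_orderOf, pow_one]
  · refine Nat.div_le_div_right ?_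
    rw [← charDegree_comp Ψ (QuotientGroup.mk' _), h7, charDegree_comp]
    exact h2

theorem exists_pair {G : Type*} [Group G] [Finite G] {p : ℕ} [hp : Fact p.Prime]
    (hs : IsPSolvable p G) : ∃ K P : Subgroup G, ¬ p ∣ Nat.card K ∧ IsPGroup p P ∧
      P ≤ normalizer (K : Set G) ∧
      p ^ (pCore p G).index.factorization p ∣ (centralizer (K : Set G)).relIndex P := by
  let π := QuotientGroup.mk' (pCore p G)
  have hπ : Function.Surjective π := QuotientGroup.mk'_surjective _
  let L := (pPrimeCore p (G ⧸ pCore p G)).comap π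
  have hOL : pCore p G ≤ L := fun g hg => by
    rw [mem_comap, show π g = 1 from (QuotientGroup.eq_one_iff g).2 hg]
    exact one_mem _
  have hrel : (pCore p G).relIndex L = Nat.card (pPrimeCore p (G ⧸ pCore p G)) := by
    rw [← card_map_mk'_eq_relIndex, map_comap_eq_self_of_surjective hπ]
  have hnd : ¬ p ∣ (pCore p G).relIndex L := hrel ▸ not_dvd_card_pPrimeCore p _
  obtain ⟨K, h1, h2, h3, h4⟩ := exists_complement_in_of_coprime hOL le_normalizer_of_normal
    ((isPGroup_pCore p G).coprime_card_of_not_dvd hnd)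
  have hK : ¬ p ∣ Nat.card K := h4 ▸ hnd
  have hc := (isPGroup_pCore p G).coprime_card_of_not_dvd hK
  have hN : normalizer (K : Set G) ⊔ pCore p G = ⊤ := eq_top_iff.2 fun g _ => by
    obtain ⟨n, hn, h5⟩ := exists_map_conj_eq_of_coprime_of_le_normalizer (N := pCore p G) (H := K)
      (K := K.map (MulAut.conj g).toMonoidHom) le_normalizer_of_normal hc
      (by rwa [card_map_of_injective (MulAut.conj g).injective]) (by
        rw [h3, ← map_conj_eq_iff.2 (le_normalizer_of_normal (mem_top g) :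
          g ∈ normalizer (pCore p G : Set G)), ← Subgroup.map_sup, h3]
        exact map_conj_eq_iff.2 (le_normalizer_of_normal (mem_top g)))
      (Or.inl (isSolvable_of_isPGroup (isPGroup_pCore p G)))
    rw [map_conj_map_conj, map_conj_eq_iff] at h5
    rw [← inv_mul_cancel_left n g]
    exact mul_mem (mem_sup_right (inv_mem hn)) (mem_sup_left h5)
  obtain ⟨P, hP, -, h5, h6⟩ := exists_sylow_le_of_le (H := normalizer (K : Set G))
    (IsPGroup.of_bot (p := p)) bot_le
  refine ⟨K, P, hK, hP, h5, ?_⟩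
  have h7 : centralizer (K : Set G) ⊓ P ≤ pCore p G := fun g hg => by
    have a1 : K.map π = pPrimeCore p (G ⧸ pCore p G) := by
      rw [← map_comap_eq_self_of_surjective hπ (pPrimeCore p _)]
      change _ = L.map π
      rw [← h3, Subgroup.map_sup, QuotientGroup.map_mk'_self, sup_bot_eq]
    have a2 : π g ∈ pPrimeCore p (G ⧸ pCore p G) :=
      (hs.to_quotient _).centralizer_pPrimeCore_le (pCore_quotient_pCore p G) (by
        rw [← a1]
        rintro _ ⟨k, hk, rfl⟩
        rw [← map_mul, hg.1 k hk, map_mul])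
    exact (QuotientGroup.eq_one_iff g).1 (((isPElt_of_mem hP hg.2).map π).eq_one_of_isPRegular
      fun h => not_dvd_card_pPrimeCore p _ (h.trans (orderOf_dvd_natCard _ a2)))
  rw [← inf_relIndex_right]
  refine dvd_trans ?_ (relIndex_dvd_of_le_left _ h7)
  have h8 : (pCore p G).index = (pCore p G).relIndex P * (P ⊔ pCore p G).index := by
    rw [← relIndex_sup_right, relIndex_mul_index le_sup_right]
  have h9 : ¬ p ∣ (P ⊔ pCore p G).index := fun h => h6 (h.trans (by
    rw [← relIndex_top_right, ← hN]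
    exact relIndex_sup_sup_dvd h5 le_normalizer_of_normal))
  refine (Nat.Coprime.pow_left _ (hp.out.coprime_iff_not_dvd.2 h9)).dvd_of_dvd_mul_right ?_
  rw [← h8]
  exact Nat.ordProj_dvd _ _

/-- Let the finite p-solvable group G have a faithful character of degree n, and let p^a be the index of O_p(G) in a Sylow p-subgroup of G (the p-part of [G : O_p(G)]). Then a ≤ Σ_{i ≥ 0} ⌊n / ((p − 1) p^i)⌋ (a finite sum; the terms vanish for p^i > n). -/
theorem result {G : Type*} [Group G] [Finite G] (χ : G → ℂ) (hχ : Cfsg.IsCharacter G χ) (hfaith : ∀ g : G, χ g = χ 1 → g = 1) (n : ℕ) (hn : Cfsg.charDegree χ = n) (p : ℕ) (hp : p.Prime) (hsolv : Cfsg.IsPSolvable p G) : ((Cfsg.pCore p G).index).factorization p ≤ ∑ i ∈ Finset.range (n + 1), n / ((p - 1) * p ^ i) := by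
  have := Fact.mk hp
  subst hn
  obtain ⟨K, P, h1, h2, h3, h4⟩ := exists_pair hsolv
  have : (K.subgroupOf (P ⊔ K)).Normal :=
    (normal_subgroupOf_iff_le_normalizer le_sup_right).2 (sup_le h3 le_normalizer)
  have h5 := relIndex_centralizer_dvd (K := K.subgroupOf (P ⊔ K)) (P := P.subgroupOf (P ⊔ K))
    (by rwa [Nat.card_congr (subgroupOfEquivOfLe le_sup_right).toEquiv]) h2.comap_subtype
    subgroupOf_sup_subgroupOf_eq_top' (hχ.comp (P ⊔ K).subtype)
    (IsCharacter.comp_faithful hfaith (subtype_injective _))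
  have h6 : centralizer (K.subgroupOf (P ⊔ K) : Set (P ⊔ K : Subgroup G)) =
      (centralizer (K : Set G)).subgroupOf (P ⊔ K) := by
    ext g
    exact ⟨fun h k hk => congrArg Subtype.val (h ⟨k, mem_sup_right hk⟩ hk),
      fun h k hk => Subtype.ext (h k hk)⟩
  rw [h6, relIndex_subgroupOf le_sup_left, charDegree_comp] at h5
  set M := charDegree χ / (p - 1) with hM
  have h7 := (hp.pow_dvd_iff_le_factorization
    (mul_ne_zero (pow_ne_zero _ hp.ne_zero) M.factorial_ne_zero)).1 (h4.trans h5)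
  rw [Nat.factorization_mul (pow_ne_zero _ hp.ne_zero) M.factorial_ne_zero, Finsupp.add_apply,
    hp.factorization_pow, Finsupp.single_eq_same, Nat.factorization_factorial hp
      (b := charDegree χ + 1) (Nat.lt_succ_of_le ((Nat.log_le_self _ _).trans
        (Nat.div_le_self _ _)))] at h7
  rw [Finset.range_eq_Ico, Finset.sum_eq_sum_Ico_succ_bot (Nat.succ_pos _)]
  simpa only [← Nat.div_div_eq_div_mul, pow_zero, Nat.div_one, zero_add] using h7

end Cfsg.Agent.S4472
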