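import Cfsg.Statements.S4473
import Cfsg.Agent.Char.Degrees

set_option autoImplicit false
open Cfsg

namespace Cfsg.Agent.S4473

open Subgroup

theorem arith_sorted {N m₁ m₂ m₃ n₁ n₂ n₃ : ℕ} (h₁ : n₁ * m₁ = N) (h₂ : n₂ * m₂ = N)
    (h₃ : n₃ * m₃ = N) (hn : 2 ≤ n₁) (h12 : n₁ ≤ n₂) (h23 : n₂ ≤ n₃) (hm : 3 ≤ m₃)
    (h : m₁ + m₂ + m₃ = N + 2) : N = 12 ∨ N = 24 ∨ N = 60 := by
  have key : ∀ {k n m : ℕ}, n * m = N → k ≤ n → k * m ≤ N := fun h1 h2 =>
    h1 ▸ Nat.mul_le_mul_right _ h2
  obtain rfl : n₁ = 2 := by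
    by_contra h0
    have := key h₁ (show 3 ≤ n₁ by omega)
    have := key h₂ (show 3 ≤ n₂ by omega)
    have := key h₃ (show 3 ≤ n₃ by omega)
    omega
  obtain rfl : n₂ = 3 := by
    by_contra h0
    rcases Nat.lt_or_ge n₂ 3 with h1 | h1
    · obtain rfl : n₂ = 2 := by omega
      omega
    have := key h₂ (show 4 ≤ n₂ by omega)
    have := key h₃ (show 4 ≤ n₃ by omega)
    omega
  have h6 : n₃ < 6 := by
    by_contra h0
    have := key h₃ (show 6 ≤ n₃ by omega)
    omega
  interval_cases n₃ <;> omega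

theorem arith {N : ℕ} (m n : Fin 3 → ℕ) (h1 : ∀ i, n i * m i = N) (h2 : ∀ i, 2 ≤ n i)
    (h3 : ∀ i, 3 ≤ m i) (h : m 0 + m 1 + m 2 = N + 2) : N = 12 ∨ N = 24 ∨ N = 60 := by
  rcases le_total (n 0) (n 1) with a | a <;> rcases le_total (n 1) (n 2) with b | b <;>
    rcases le_total (n 0) (n 2) with c | c
  · exact arith_sorted (h1 0) (h1 1) (h1 2) (h2 _) a b (h3 _) (by omega)
  · exact arith_sorted (h1 0) (h1 1) (h1 2) (h2 _) a b (h3 _) (by omega)
  · exact arith_sorted (h1 0) (h1 2) (h1 1) (h2 _) c b (h3 _) (by omega)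
  · exact arith_sorted (h1 2) (h1 0) (h1 1) (h2 _) c a (h3 _) (by omega)
  · exact arith_sorted (h1 1) (h1 0) (h1 2) (h2 _) a c (h3 _) (by omega)
  · exact arith_sorted (h1 1) (h1 2) (h1 0) (h2 _) b c (h3 _) (by omega)
  · exact arith_sorted (h1 2) (h1 1) (h1 0) (h2 _) b a (h3 _) (by omega)
  · exact arith_sorted (h1 2) (h1 1) (h1 0) (h2 _) b a (h3 _) (by omega)

theorem count {G : Type*} [Group G] [Finite G] {Ω : Type*} [Finite Ω] [MulAction G Ω]
    (Z : Subgroup G) (hZ : 2 ≤ Z.index) (h1 : ∀ g ∈ Z, ∀ ω : Ω, g • ω = ω)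
    (h2 : ∀ g, g ∉ Z → Nat.card {ω : Ω // g • ω = ω} = 2)
    (h3 : ∀ ω : Ω, ∃ g, g ∉ Z ∧ g • ω = ω) (h4 : ∀ ω : Ω, 3 ≤ (MulAction.stabilizer G ω).index) :
    Z.index = 12 ∨ Z.index = 24 ∨ Z.index = 60 := by
  classical
  have := Fintype.ofFinite G
  have := Fintype.ofFinite (MulAction.orbitRel.Quotient G Ω)
  set r := Nat.card (MulAction.orbitRel.Quotient G Ω) with hr
  have e1 := sum_natCard_fixedBy (A := G) Ω
  have e2 : ∑ g : G, Nat.card {ω : Ω // g • ω = ω} + 2 * Nat.card Z =
      Nat.card Ω * Nat.card Z + 2 * Nat.card G := by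
    have hc : ∑ g : G, (if g ∈ Z then 1 else 0) = Nat.card Z := by
      rw [← Finset.card_filter, Nat.card_eq_fintype_card, Fintype.card_subtype]
    rw [← hc, Finset.mul_sum, Finset.mul_sum, Nat.card_eq_fintype_card (α := G), ← Finset.card_univ,
      Finset.card_eq_sum_ones, Finset.mul_sum, ← Finset.sum_add_distrib, ← Finset.sum_add_distrib]
    refine Finset.sum_congr rfl fun g _ => ?_
    split_ifs with hg
    · rw [Nat.card_congr (Equiv.subtypeUnivEquiv (h1 g hg))]
      simp
    · simp [h2 g hg]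
  have e3 : r * Z.index + 2 = Nat.card Ω + 2 * Z.index := by
    rw [e1, ← Z.card_mul_index] at e2
    apply Nat.eq_of_mul_eq_mul_left (Nat.card_pos (α := Z))
    linarith
  have e4 : Nat.card Ω = ∑ o : MulAction.orbitRel.Quotient G Ω,
      (MulAction.stabilizer G o.out).index := by
    rw [Nat.card_congr (MulAction.selfEquivSigmaOrbits G Ω), Nat.card_sigma]
    exact Finset.sum_congr rfl fun o _ => (MulAction.index_stabilizer G o.out).symm
  have e5 : ∀ ω : Ω, Z.relIndex (MulAction.stabilizer G ω) * (MulAction.stabilizer G ω).index =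
      Z.index := fun ω => relIndex_mul_index fun g hg => h1 g hg ω
  have e6 : ∀ ω : Ω, 2 ≤ Z.relIndex (MulAction.stabilizer G ω) := fun ω => by
    obtain ⟨g, hg, hg'⟩ := h3 ω
    have := relIndex_pos Z (MulAction.stabilizer G ω)
    have : Z.relIndex (MulAction.stabilizer G ω) ≠ 1 := fun h => hg (relIndex_eq_one.1 h hg')
    omega
  have e7 : 2 * Nat.card Ω ≤ r * Z.index := by
    rw [e4, Finset.mul_sum, hr, Nat.card_eq_fintype_card, ← smul_eq_mul (Fintype.card _),
      ← Finset.card_univ]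
    exact Finset.sum_le_card_nsmul _ _ _ fun o _ => (e5 o.out) ▸ Nat.mul_le_mul_right _ (e6 _)
  have e8 : r * 3 ≤ Nat.card Ω := by
    rw [e4, hr, Nat.card_eq_fintype_card, ← smul_eq_mul (Fintype.card _), ← Finset.card_univ]
    exact Finset.card_nsmul_le_sum _ _ _ fun o _ => h4 _
  have e9 : r = 3 := by
    have : r < 4 := by
      by_contra h
      have := Nat.mul_le_mul_right Z.index (not_lt.1 h)
      omega
    interval_cases r <;> omega
  obtain ⟨e⟩ : Nonempty (Fin 3 ≃ MulAction.orbitRel.Quotient G Ω) :=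
    ⟨(Finite.equivFinOfCardEq e9).symm⟩
  refine arith (fun i => (MulAction.stabilizer G (e i).out).index)
    (fun i => Z.relIndex (MulAction.stabilizer G (e i).out)) (fun i => e5 _) (fun i => e6 _)
    (fun i => h4 _) ?_
  rw [← e.sum_comp, Fin.sum_univ_three] at e4
  rw [e9] at e3
  omega

theorem card_lines {V : Type*} [AddCommGroup V] [Module ℂ V] (b : Module.Basis (Fin 2) ℂ V)
    {T : V →ₗ[ℂ] V} {ε : Fin 2 → ℂ} (hb : ∀ i, T (b i) = ε i • b i) (h0 : ∀ i, ε i ≠ 0)
    (hε : ε 0 ≠ ε 1) :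
    Nat.card {W : Submodule ℂ V // Module.finrank ℂ W = 1 ∧ W.map T = W} = 2 := by
  have : FiniteDimensional ℂ V := Module.Finite.of_basis b
  have hf : Function.Bijective fun i : Fin 2 => (⟨ℂ ∙ b i, finrank_span_singleton (b.ne_zero i), by
      rw [Submodule.map_span, Set.image_singleton, hb,
        Submodule.span_singleton_smul_eq (IsUnit.mk0 _ (h0 i))]⟩ :
      {W : Submodule ℂ V // Module.finrank ℂ W = 1 ∧ W.map T = W}) := by
    constructor
    · intro i j hij
      have h0' : (ℂ ∙ b i) = ℂ ∙ b j := congrArg Subtype.val hij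
      have h1 : b i ∈ ℂ ∙ b j := h0' ▸ Submodule.mem_span_singleton_self _
      obtain ⟨c, hc⟩ := Submodule.mem_span_singleton.1 h1
      by_contra hne
      have := congrArg (fun v => b.repr v i) hc
      simp [Ne.symm hne] at this
    · rintro ⟨W, h1, h2⟩
      obtain ⟨⟨v, hv⟩, hv0, hW⟩ := finrank_eq_one_iff'.1 h1
      have hv0' : v ≠ 0 := fun h => hv0 (Subtype.ext h)
      have hWv : W = ℂ ∙ v := le_antisymm (fun w hw => by
        obtain ⟨c, hc⟩ := hW ⟨w, hw⟩
        exact Submodule.mem_span_singleton.2 ⟨c, congrArg Subtype.val hc⟩)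
        ((Submodule.span_singleton_le_iff_mem _ _).2 hv)
      obtain ⟨c, hc⟩ := Submodule.mem_span_singleton.1
        (hWv ▸ h2 ▸ Submodule.mem_map_of_mem hv : T v ∈ ℂ ∙ v)
      have h3 := b.sum_repr v
      rw [Fin.sum_univ_two] at h3
      have h4 : ∀ i, c * b.repr v i = b.repr v i * ε i := fun i => by
        have h4 := congrArg (fun w => b.repr w i) hc
        nth_rewrite 2 [← h3] at h4
        fin_cases i <;> simpa [hb, smul_smul] using h4
      by_cases h5 : b.repr v 0 = 0
      · rw [h5, zero_smul, zero_add] at h3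
        refine ⟨1, Subtype.ext ?_⟩
        have h6 : b.repr v 1 ≠ 0 := fun h6 => hv0' (by rw [← h3, h6, zero_smul])
        simp only [hWv]
        rw [← h3, Submodule.span_singleton_smul_eq (IsUnit.mk0 _ h6)]
      · have h6 : b.repr v 1 = 0 := by
          by_contra h6
          exact hε ((mul_left_cancel₀ h5 ((h4 0).symm.trans (mul_comm _ _))).trans
            (mul_left_cancel₀ h6 ((h4 1).symm.trans (mul_comm _ _))).symm)
        rw [h6, zero_smul, add_zero] at h3
        refine ⟨0, Subtype.ext ?_⟩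
        simp only [hWv]
        rw [← h3, Submodule.span_singleton_smul_eq (IsUnit.mk0 _ h5)]
  rw [← Nat.card_eq_of_bijective _ hf, Nat.card_eq_fintype_card, Fintype.card_fin]

/-- Let the finite group G have a faithful irreducible character χ of degree 2 that is primitive: χ is not induced from a character of any proper subgroup. Then the centre of G has index 12, 24 or 60. -/
theorem result {G : Type*} [Group G] [Fintype G] (χ : Cfsg.IrrCharacter G) (hfaith : ∀ g : G, (χ : G → ℂ) g = (χ : G → ℂ) 1 → g = 1) (h2 : Cfsg.charDegree (χ : G → ℂ) = 2) (hprim : ∀ H : Subgroup G, H ≠ ⊤ → ∀ θ : H → ℂ, Cfsg.IsCharacter H θ → (χ : G → ℂ) ≠ Cfsg.indFun H θ) : (Subgroup.center G).index = 12 ∨ (Subgroup.center G).index = 24 ∨ (Subgroup.center G).index = 60 := by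
  obtain ⟨n, ρ, hirr, hρ⟩ := χ.2
  have hn : Module.finrank ℂ (Fin n → ℂ) = 2 := by rw [← charDegree_character ρ, hρ, h2]
  have hZ := χ.charCenter_eq_center_of_faithful (χ.isCharacter.charKer_eq_bot_iff.2 hfaith)
  have hsc : ∀ g, g ∈ center G ↔ ∃ c : ℂ, ρ g = c • (1 : Module.End ℂ (Fin n → ℂ)) := fun g => by
    rw [← hZ, ← hρ, mem_charCenter_character]
  have hmap : ∀ (g x : G) (W : Submodule ℂ (Fin n → ℂ)),
      W.map (ρ (g * x)) = (W.map (ρ x)).map (ρ g) := fun g x W => by
    rw [map_mul, Module.End.mul_eq_comp, Submodule.map_comp]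
  have hone : ∀ W : Submodule ℂ (Fin n → ℂ), W.map (ρ 1) = W := fun W => by
    rw [map_one, Module.End.one_eq_id, Submodule.map_id]
  have hrank : ∀ (g : G) (W : Submodule ℂ (Fin n → ℂ)),
      Module.finrank ℂ (W.map (ρ g)) = Module.finrank ℂ W := fun g W =>
    le_antisymm (Submodule.finrank_map_le _ _) (by
      have := Submodule.finrank_map_le (ρ g⁻¹) (W.map (ρ g))
      rwa [← hmap, inv_mul_cancel, hone] at this)
  have hfix : ∀ g, g ∉ center G → Nat.card {W : Submodule ℂ (Fin n → ℂ) //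
      Module.finrank ℂ W = 1 ∧ W.map (ρ g) = W} = 2 := fun g hg => by
    obtain ⟨b, ε, h1, h3⟩ := rep_exists_eigenbasis ρ g
    revert b ε
    rw [hn]
    intro b ε h1 h3
    refine card_lines b h3 (fun i h => ?_) fun h => hg ((hsc g).2 ⟨ε 0, b.ext fun i => ?_⟩)
    · have := h1 i
      rw [h, zero_pow (orderOf_pos g).ne'] at this
      exact zero_ne_one this
    · rw [h3]
      fin_cases i <;> simp [h]
  let Ω := {W : Submodule ℂ (Fin n → ℂ) // Module.finrank ℂ W = 1 ∧
    ∃ g, g ∉ center G ∧ W.map (ρ g) = W}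
  let _ : MulAction G Ω :=
    { smul := fun x W => ⟨W.1.map (ρ x), (hrank x _).trans W.2.1, by
        obtain ⟨g, hg, h⟩ := W.2.2
        refine ⟨x * g * x⁻¹, fun h1 => hg ?_, ?_⟩
        · simpa [mul_assoc] using Normal.conj_mem' inferInstance _ h1 x
        · rw [← hmap, inv_mul_cancel_right, hmap, h]⟩
      one_smul := fun W => Subtype.ext (hone _)
      mul_smul := fun g x W => Subtype.ext (hmap g x _) }
  have hsmul : ∀ (g : G) (W : Ω), g • W = W ↔ W.1.map (ρ g) = W.1 := fun g W => Subtype.ext_iff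
  have hfix' : ∀ g, g ∉ center G → Nat.card {ω : Ω // g • ω = ω} = 2 := fun g hg => by
    rw [← hfix g hg]
    exact Nat.card_congr
      { toFun := fun W => ⟨W.1.1, W.1.2.1, (hsmul g _).1 W.2⟩
        invFun := fun W => ⟨⟨W.1, W.2.1, g, hg, W.2.2⟩, (hsmul g _).2 W.2.2⟩
        left_inv := fun _ => rfl
        right_inv := fun _ => rfl }
  have : Finite Ω := by
    have : ∀ g : {g // g ∉ center G}, Finite {ω : Ω // g.1 • ω = ω} := fun g =>
      Nat.finite_of_card_ne_zero (by rw [hfix' g.1 g.2]; exact two_ne_zero)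
    refine Finite.of_surjective
      (fun x : Σ g : {g // g ∉ center G}, {ω : Ω // g.1 • ω = ω} => x.2.1) fun W => ?_
    obtain ⟨g, hg, h⟩ := W.2.2
    exact ⟨⟨⟨g, hg⟩, W, (hsmul g W).2 h⟩, rfl⟩
  refine count (Ω := Ω) _ ?_ (fun g hg W => ?_) hfix' (fun W => ?_) fun W => ?_
  · have := χ.sq_charDegree_le_index_of_le χ.center_le_charCenter
    rw [h2] at this
    omega
  · obtain ⟨c, hc⟩ := (hsc g).1 hg
    rw [hsmul]
    refine Submodule.eq_of_le_of_finrank_eq ?_ (hrank g _)
    rintro _ ⟨v, hv, rfl⟩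
    rw [hc]
    exact W.1.smul_mem c hv
  · obtain ⟨g, hg, h⟩ := W.2.2
    exact ⟨g, hg, (hsmul g W).2 h⟩
  · by_contra h3
    set H := MulAction.stabilizer G W
    obtain ⟨θ, hθ⟩ := χ.exists_liesOver_below H.subtype
    have h4 : charDegree θ.1 < 2 := by
      by_contra h4
      have h5 := hθ.comp_eq_of_charDegree_le χ.isCharacter (by omega)
      have h6 : Representation.IsIrreducible (ρ.comp H.subtype : Representation ℂ H _) :=
        rep_isIrreducible_of_isIrrCharacter (by
          have := θ.2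
          rwa [← h5, ← hρ] at this)
      have h7 := W.2.1
      rcases ((rep_isIrreducible_iff _).1 h6).2 W.1 (fun g v hv =>
        (hsmul g W).1 g.2 ▸ Submodule.mem_map_of_mem hv) with h8 | h8 <;> rw [h8] at h7
      · simp at h7
      · rw [finrank_top, hn] at h7
        omega
    have h5 := hθ.charDegree_le_index_mul H.subtype_injective θ.isCharacter
    have h6 := θ.charDegree_pos
    have h7 : charDegree θ.1 = 1 := by omega
    rw [range_subtype, h7, h2] at h5
    refine hprim H (fun h => ?_) θ.1 θ.isCharacter ?_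
    · rw [h, index_top] at h5
      omega
    · rw [indFun_eq_ind, hθ.ind_eq_of_le_charDegree H.subtype_injective θ.isCharacter]
      rw [range_subtype, h7, h2]
      omega

end Cfsg.Agent.S4473
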