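import Cfsg.Statements.S4477
import Cfsg.Agent.Char.FrobSchur
import Cfsg.Agent.Char.Abelian
import Cfsg.Agent.Char.Central
import Cfsg.Agent.Grp.MinNormal

set_option autoImplicit false
open Cfsg

namespace Cfsg.Agent.S4477

theorem exists_normal_index_eq {G : Type*} [Group G] [Finite G] {p : ℕ} [hp : Fact p.Prime]
    (hG : IsPGroup p G) {H : Subgroup G} (hH : H ≠ ⊤) :
    ∃ (M : Subgroup G) (_ : M.Normal), H ≤ M ∧ M.index = p := by
  have := hG.isNilpotent
  obtain ⟨M, hM, hHM⟩ := (eq_top_or_exists_le_coatom H).resolve_left hH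
  have hn : M.Normal :=
    Subgroup.NormalizerCondition.normal_of_coatom M Group.normalizerCondition_of_isNilpotent hM
  obtain ⟨K, hK, hMK, hp'⟩ := exists_normal_prime_index_ge M hM.1
  refine ⟨K, hK, hHM.trans hMK, ?_⟩
  obtain ⟨k, hk⟩ := hG.exists_card_eq
  have := K.index_dvd_card
  rw [hk] at this
  exact (Nat.prime_dvd_prime_iff_eq hp' hp.out).1 (hp'.dvd_of_dvd_pow this)

theorem four_dvd {G : Type*} [Group G] [Finite G] (hG : IsPGroup 2 G) (hc : ¬ IsCyclic G) :
    4 ∣ Nat.card {l : G →* ℂˣ // l ^ 2 = 1} ∧ 4 ≤ Nat.card (G →* ℂˣ) := by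
  have : Fact (Nat.Prime 2) := ⟨Nat.prime_two⟩
  have hz : ∀ g : G, Subgroup.zpowers g ≠ ⊤ := fun g hg =>
    hc ⟨g, fun x => by rw [← Subgroup.mem_zpowers_iff, hg]; trivial⟩
  obtain ⟨M, hM, -, hMi⟩ := exists_normal_index_eq hG (hz 1)
  obtain ⟨g, hg⟩ : ∃ g, g ∉ M := by
    by_contra h
    push Not at h
    rw [(Subgroup.eq_top_iff' M).2 h] at hMi
    simp at hMi
  obtain ⟨K, hK, hgK, hKi⟩ := exists_normal_index_eq hG (hz g)
  have key : ∀ (N : Subgroup G) [N.Normal], N.index = 2 →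
      ∃ l : G →* ℂˣ, l.ker = N ∧ l ^ 2 = 1 ∧ l ≠ 1 := by
    intro N _ hN
    have : IsCyclic (G ⧸ N) := isCyclic_of_prime_card (p := 2) hN
    obtain ⟨l, hl⟩ := exists_linear_ker_eq N
    have h2 : orderOf l = 2 := by rw [orderOf_linear_eq_index_ker, hl, hN]
    refine ⟨l, hl, by rw [← h2, pow_orderOf_eq_one], ?_⟩
    rintro rfl
    simp at h2
  obtain ⟨l, hl, hl2, hl1⟩ := key M hMi
  obtain ⟨m, hm, hm2, hm1⟩ := key K hKi
  have hlm : l ≠ m := by
    rintro rfl
    exact hg (hl ▸ hm ▸ hgK (Subgroup.mem_zpowers g))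
  let Ω : Subgroup (G →* ℂˣ) := (powMonoidHom 2).ker
  have hΩ : IsPGroup 2 Ω := fun x => ⟨1, Subtype.ext (by rw [pow_one]; exact x.2)⟩
  obtain ⟨k, hk⟩ := hΩ.exists_card_eq
  have h3 : 2 < Nat.card Ω := by
    classical
    cases nonempty_fintype Ω
    rw [Nat.card_eq_fintype_card, Fintype.two_lt_card_iff]
    exact ⟨1, ⟨l, hl2⟩, ⟨m, hm2⟩, fun h => hl1 (congrArg Subtype.val h).symm,
      fun h => hm1 (congrArg Subtype.val h).symm, fun h => hlm (congrArg Subtype.val h)⟩
  have h4 : 4 ∣ Nat.card Ω := by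
    rw [hk] at h3 ⊢
    have : 2 ≤ k := by
      by_contra h
      interval_cases k <;> omega
    exact pow_dvd_pow 2 this
  exact ⟨h4, Nat.le_of_dvd Nat.card_pos (h4.trans Ω.card_subgroup_dvd_card)⟩

theorem odd_card_degree_two {G : Type*} [Group G] [Finite G] (hG : IsPGroup 2 G)
    (ht : Nat.card {x : G // orderOf x = 2} % 4 = 1)
    (h4 : 4 ∣ Nat.card {l : G →* ℂˣ // l ^ 2 = 1}) :
    ¬ 2 ∣ Nat.card {χ : IrrCharacter G // charDegree χ.1 = 2} := by
  classical
  have : Fact (Nat.Prime 2) := ⟨Nat.prime_two⟩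
  have h := card_involutions_add_one_eq_sum (G := G)
  let R : IrrCharacter G → Prop := fun χ => ∀ g, (χ g).im = 0
  have h1 : ∀ χ : IrrCharacter G, (4 : ℤ) ∣ χ.fsInt * (charDegree χ.1 : ℤ) -
      ((if charDegree χ.1 = 1 ∧ R χ then 1 else 0) +
        2 * (if charDegree χ.1 = 2 ∧ R χ then 1 else 0)) := by
    intro χ
    by_cases hr : R χ
    · obtain ⟨k, hk⟩ := χ.exists_charDegree_eq_pow hG
      have h0 := χ.fsInt_ne_zero_iff.2 hr
      rcases k with _ | _ | k
      · have : fsInd χ.1 = 1 := IrrCharacter.fsInd_eq_one_of_odd hr (by rw [hk]; simp)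
        have : χ.fsInt = 1 := by
          rw [← χ.fsInt_cast] at this
          exact_mod_cast this
        simp [hk, hr, this]
      · rcases χ.fsInt_cases with h | h | h <;> simp [hk, hr, h] at h0 ⊢
      · have e1 : charDegree χ.1 ≠ 1 := by rw [hk, pow_succ]; omega
        have e2 : charDegree χ.1 ≠ 2 := by rw [hk, pow_succ, pow_succ]; omega
        rw [if_neg (fun h => e1 h.1), if_neg (fun h => e2 h.1), hk]
        exact ⟨χ.fsInt * 2 ^ k, by push_cast; ring⟩
    · have : χ.fsInt = 0 := by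
        by_contra h0
        exact hr (χ.fsInt_ne_zero_iff.1 h0)
      simp [this, hr]
  have h2 := Finset.dvd_sum (s := Finset.univ) fun χ _ => h1 χ
  rw [Finset.sum_sub_distrib, ← h, Finset.sum_add_distrib, ← Finset.mul_sum, Finset.sum_boole,
    Finset.sum_boole] at h2
  have h3 : (Finset.univ.filter fun χ : IrrCharacter G => charDegree χ.1 = 1 ∧ R χ).card =
      Nat.card {l : G →* ℂˣ // l ^ 2 = 1} := by
    rw [← Fintype.card_subtype, ← Nat.card_eq_fintype_card]
    have hiff : ∀ l : G →* ℂˣ, l ^ 2 = 1 ↔ R (IrrCharacter.ofLinear l) := by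
      intro l
      simp only [R]
      rw [IrrCharacter.real_iff_bar_eq, IrrCharacter.bar_ofLinear, IrrCharacter.ofLinear_inj, sq]
      exact (inv_eq_iff_mul_eq_one (a := l) (b := l)).symm
    symm
    refine Nat.card_congr (Equiv.ofBijective
      (fun l => ⟨IrrCharacter.ofLinear l.1, by simp, (hiff _).1 l.2⟩) ⟨fun l m hlm => ?_, ?_⟩)
    · exact Subtype.ext (IrrCharacter.ofLinear_injective (congrArg Subtype.val hlm))
    · rintro ⟨χ, hχ, hr⟩
      obtain ⟨l, rfl⟩ := IrrCharacter.exists_ofLinear_eq_of_charDegree hχ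
      exact ⟨⟨l, (hiff _).2 hr⟩, rfl⟩
  rw [h3] at h2
  have hbar : ∀ χ : IrrCharacter G, charDegree χ.bar.1 = charDegree χ.1 := fun χ =>
    charDegree_eq_of_apply_one (by
      change χ.bar 1 = _
      rw [IrrCharacter.bar_apply, χ.apply_one]; simp)
  let f : Function.End {χ : IrrCharacter G // charDegree χ.1 = 2} :=
    fun χ => ⟨χ.1.bar, by rw [hbar, χ.2]⟩
  have h5 := Equiv.Perm.card_fixedPoints_modEq (f := f) (p := 2) (n := 1) (by
    funext χ
    exact Subtype.ext χ.1.bar_bar_eq)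
  have h6 : Fintype.card (Function.fixedPoints f) =
      (Finset.univ.filter fun χ : IrrCharacter G => charDegree χ.1 = 2 ∧ R χ).card := by
    rw [← Fintype.card_subtype]
    refine Fintype.card_congr ⟨fun χ => ⟨χ.1.1, χ.1.2,
      χ.1.1.real_iff_bar_eq.2 (congrArg Subtype.val χ.2)⟩,
      fun χ => ⟨⟨χ.1, χ.2.1⟩, Subtype.ext (χ.1.real_iff_bar_eq.1 χ.2.2)⟩, fun _ => rfl, fun _ => rfl⟩
  rw [h6, ← Nat.card_eq_fintype_card] at h5
  unfold Nat.ModEq at h5
  omega

/-- Let G be a finite 2-group whose number of involutions is congruent to 1 modulo 4. Then G is cyclic or its commutator subgroup has index 4. -/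
theorem result {G : Type*} [Group G] [Finite G] (hG : IsPGroup 2 G) (ht : Nat.card {x : G // orderOf x = 2} % 4 = 1) : IsCyclic G ∨ (commutator G).index = 4 := by
  classical
  have : Fact (Nat.Prime 2) := ⟨Nat.prime_two⟩
  refine or_iff_not_imp_left.2 fun hc => ?_
  obtain ⟨h4, h4'⟩ := four_dvd hG hc
  have hodd := odd_card_degree_two hG ht h4
  have hL : IsPGroup 2 (G →* ℂˣ) := by
    obtain ⟨k, hk⟩ := hG.exists_card_eq
    intro l
    exact ⟨k, by rw [← hk, linear_pow_card]⟩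
  let act : MulAction (G →* ℂˣ) {χ : IrrCharacter G // charDegree χ.1 = 2} :=
    { smul := fun l χ => ⟨l • χ.1, by simp [χ.2]⟩
      one_smul := fun χ => Subtype.ext (one_smul _ χ.1)
      mul_smul := fun l m χ => Subtype.ext (mul_smul l m χ.1) }
  obtain ⟨⟨χ, hχ⟩, hfix⟩ := hL.nonempty_fixed_point_of_prime_not_dvd_card _ hodd
  have hv : ∀ g, g ∉ commutator G → χ g = 0 := by
    intro g hg
    rw [mem_commutator_iff_forall_linear] at hg
    push Not at hg
    obtain ⟨l, hl⟩ := hg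
    exact (IrrCharacter.linear_smul_eq_iff l χ).1 (congrArg Subtype.val (hfix l)) g hl
  have h1 := (ip_comp_subtype_eq_iff χ.1 (commutator G)).2 hv
  rw [χ.ip_self, mul_one] at h1
  cases nonempty_fintype (commutator G)
  rw [ip_self_eq] at h1
  have h2 : ((Nat.card (commutator G) : ℝ)⁻¹ * ∑ g, ‖(χ.1 ∘ (commutator G).subtype) g‖ ^ 2) =
      (commutator G).index := by exact_mod_cast h1
  have h3 : ∑ g, ‖(χ.1 ∘ (commutator G).subtype) g‖ ^ 2 ≤ Nat.card (commutator G) * 4 := by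
    rw [Nat.card_eq_fintype_card, ← nsmul_eq_mul, ← Finset.card_univ]
    refine Finset.sum_le_card_nsmul _ _ _ fun g _ => ?_
    have := χ.norm_le (g : G)
    rw [hχ] at this
    have h0 := norm_nonneg (χ g)
    simp only [Function.comp_apply, Subgroup.subtype_apply]
    push_cast at this
    nlinarith
  have hpos : (0 : ℝ) < Nat.card (commutator G) := by exact_mod_cast Nat.card_pos
  have h5 : ((commutator G).index : ℝ) ≤ 4 := by
    rw [← h2, inv_mul_le_iff₀ hpos]
    exact h3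
  rw [card_linear] at h4'
  have : (commutator G).index ≤ 4 := by exact_mod_cast h5
  omega

end Cfsg.Agent.S4477
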