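import Cfsg.Statements.S4478
import Cfsg.Agent.Char.FrobSchur
import Cfsg.Agent.Char.BrauerApp
import Cfsg.Agent.Char.Abelian
import Cfsg.Agent.Grp.MinNormal

set_option autoImplicit false
open Cfsg

namespace Cfsg.Agent.S4478

theorem sum_sq_odd {G : Type*} [Group G] [Fintype G] (φ : G → ℂ) :
    ∑ g ∈ Finset.univ.filter (fun g : G => ¬ 2 ∣ orderOf g), φ (g * g) =
      ∑ g ∈ Finset.univ.filter (fun g : G => ¬ 2 ∣ orderOf g), φ g := by
  classical
  have hinj : ∀ a ∈ Finset.univ.filter (fun g : G => ¬ 2 ∣ orderOf g),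
      ∀ b ∈ Finset.univ.filter (fun g : G => ¬ 2 ∣ orderOf g), a * a = b * b → a = b := by
    intro a ha b hb hab
    rw [Finset.mem_filter] at ha hb
    have key : ∀ c : G, ¬ 2 ∣ orderOf c → c = (c * c) ^ ((orderOf (c * c) + 1) / 2) := by
      intro c hc
      have h1 : orderOf (c * c) = orderOf c := by
        rw [← sq]
        exact Nat.Coprime.orderOf_pow ((Nat.Prime.coprime_iff_not_dvd Nat.prime_two).2 hc).symm
      rw [h1, ← sq, ← pow_mul, Nat.mul_div_cancel' (by omega), pow_succ, pow_orderOf_eq_one,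
        one_mul]
    rw [key a ha.2, key b hb.2, hab]
  have hmem : ∀ a ∈ Finset.univ.filter (fun g : G => ¬ 2 ∣ orderOf g),
      a * a ∈ Finset.univ.filter (fun g : G => ¬ 2 ∣ orderOf g) := by
    intro a ha
    rw [Finset.mem_filter] at ha ⊢
    refine ⟨Finset.mem_univ _, fun h => ha.2 (h.trans ?_)⟩
    rw [← sq]
    exact orderOf_pow_dvd 2
  refine Finset.sum_bij (fun a _ => a * a) hmem (fun a ha b hb => hinj a ha b hb) ?_
    (fun _ _ => rfl)
  intro b hb
  obtain ⟨a, ha, hab⟩ := Finset.surj_on_of_inj_on_of_card_le (fun a _ => a * a) hmem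
    (fun a b ha hb => hinj a ha b hb) le_rfl b hb
  exact ⟨a, ha, hab.symm⟩

/-- Let G be a finite group of even order and χ an irreducible character of G whose degree x is divisible by the full power of 2 dividing the order of G and, for every odd prime p such that G has an element of order 2p, by the full power of p dividing the order of G. Then all involutions of G are conjugate, the centralizer of every involution has order exactly x with x coprime to its index, and the Frobenius–Schur indicator of χ equals 1. -/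
theorem result {G : Type*} [Group G] [Fintype G] (heven : Even (Nat.card G)) (χ : Cfsg.IrrCharacter G) (h2 : 2 ^ (Nat.card G).factorization 2 ∣ Cfsg.charDegree (χ : G → ℂ)) (hp : ∀ p : ℕ, p.Prime → p ≠ 2 → (∃ g : G, orderOf g = 2 * p) → p ^ (Nat.card G).factorization p ∣ Cfsg.charDegree (χ : G → ℂ)) : (∀ s t : G, orderOf s = 2 → orderOf t = 2 → IsConj s t) ∧ (∀ s : G, orderOf s = 2 → Nat.card (Subgroup.centralizer ({s} : Set G)) = Cfsg.charDegree (χ : G → ℂ) ∧ (Nat.card (Subgroup.centralizer ({s} : Set G))).Coprime (Subgroup.centralizer ({s} : Set G)).index) ∧ (Nat.card G : ℂ)⁻¹ * ∑ g : G, (χ : G → ℂ) (g * g) = 1 := by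
  classical
  have f2 : Fact (Nat.Prime 2) := ⟨Nat.prime_two⟩
  have hG0 : Nat.card G ≠ 0 := Nat.card_pos.ne'
  have hv2 : ∀ g : G, 2 ∣ orderOf g → χ g = 0 := fun g hg => χ.eq_zero_of_defect_zero 2 h2 hg
  have hp' : ∀ (p : ℕ) (g : G), p.Prime → 2 ∣ orderOf g → p ∣ orderOf g →
      p ^ (Nat.card G).factorization p ∣ charDegree χ.1 := by
    intro p g hpp hg2 hgp
    by_cases h : p = 2
    · rw [h]; exact h2
    · have hd : 2 * p ∣ orderOf g :=
        ((Nat.coprime_primes Nat.prime_two hpp).2 (Ne.symm h)).mul_dvd_of_dvd_of_dvd hg2 hgp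
      exact hp p hpp h ⟨g ^ (orderOf g / (2 * p)), orderOf_pow_orderOf_div (orderOf_pos g).ne' hd⟩
  have hχ1 : χ ≠ IrrCharacter.one G := by
    rintro rfl
    rw [IrrCharacter.charDegree_one, Nat.dvd_one, pow_eq_one_iff] at h2
    have := (Nat.Prime.dvd_iff_one_le_factorization Nat.prime_two hG0).1 heven.two_dvd
    omega
  set t := (Finset.univ.filter fun g : G => orderOf g = 2).card with ht
  have hsum : ∑ g : G, χ (g * g) = t * charDegree χ.1 := by
    have e0 : ∑ g : G, χ g = 0 := by
      have := IrrCharacter.ip_of_ne hχ1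
      rw [ip_def] at this
      simpa using this
    rw [← Finset.sum_filter_add_sum_filter_not _ (fun g : G => 2 ∣ orderOf g)] at e0 ⊢
    rw [Finset.sum_eq_zero (fun g hg => hv2 g (Finset.mem_filter.1 hg).2), zero_add] at e0
    rw [sum_sq_odd, e0, add_zero, ← Finset.sum_subset (s₁ := Finset.univ.filter
      fun g : G => orderOf g = 2)]
    · rw [Finset.sum_congr rfl (g := fun _ => (charDegree χ.1 : ℂ)), Finset.sum_const,
        nsmul_eq_mul]
      intro g hg
      rw [← sq, ← (Finset.mem_filter.1 hg).2, pow_orderOf_eq_one, χ.apply_one]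
    · intro g hg
      simp [(Finset.mem_filter.1 hg).2]
    · intro g hg hg'
      simp only [Finset.mem_filter, Finset.mem_univ, true_and] at hg hg'
      have h1 : orderOf (g * g) = orderOf g / 2 := by
        rw [← sq, orderOf_pow, Nat.gcd_eq_right hg]
      have h3 : orderOf (g * g) ≠ 1 := by omega
      obtain ⟨p, hpp, hpd⟩ := Nat.exists_prime_and_dvd h3
      have : Fact p.Prime := ⟨hpp⟩
      refine χ.eq_zero_of_defect_zero p (hp' p g hpp hg (hpd.trans ?_)) hpd
      rw [← sq]
      exact orderOf_pow_dvd 2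
  obtain ⟨x0, hx0⟩ := exists_prime_orderOf_dvd_card' (G := G) 2 heven.two_dvd
  have htpos : 0 < t := Finset.card_pos.2 ⟨x0, by simp [hx0]⟩
  have hν : (Nat.card G : ℤ) * χ.fsInt = t * charDegree χ.1 := by
    have : (Nat.card G : ℂ) * χ.fsInt = t * charDegree χ.1 := by
      rw [χ.fsInt_cast, fsInd_def, hsum, mul_inv_cancel_left₀ (natCard_cast_ne_zero G)]
    exact_mod_cast this
  have hx := χ.charDegree_pos
  have hν1 : χ.fsInt = 1 := by
    have : (0 : ℤ) < t * charDegree χ.1 := by positivity
    rcases χ.fsInt_cases with h | h | h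
    · rw [h] at hν; omega
    · exact h
    · rw [h] at hν; omega
  have hcard : Nat.card G = t * charDegree χ.1 := by
    rw [hν1, mul_one] at hν
    exact_mod_cast hν
  have hpC : ∀ s : G, orderOf s = 2 → ∀ p : ℕ, p.Prime →
      p ∣ Nat.card (Subgroup.centralizer ({s} : Set G)) →
      p ^ (Nat.card G).factorization p ∣ charDegree χ.1 := by
    intro s hs p hpp hpd
    have : Fact p.Prime := ⟨hpp⟩
    by_cases h : p = 2
    · rw [h]; exact h2
    obtain ⟨z, hz, hzp⟩ := exists_mem_orderOf_eq_prime hpd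
    refine hp p hpp h ⟨s * z, ?_⟩
    rw [Commute.orderOf_mul_eq_mul_orderOf_of_coprime
      (Subgroup.mem_centralizer_singleton_iff.1 hz).symm, hs, hzp]
    rw [hs, hzp]
    exact (Nat.coprime_primes Nat.prime_two hpp).2 (Ne.symm h)
  have key : ∀ s : G, orderOf s = 2 →
      (Finset.univ.filter (IsConj s)) = Finset.univ.filter (fun g : G => orderOf g = 2) ∧
      Nat.card (Subgroup.centralizer ({s} : Set G)) = charDegree χ.1 := by
    intro s hs
    have h1 : Nat.card (Subgroup.centralizer ({s} : Set G)) ∣ charDegree χ.1 := by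
      rw [Nat.dvd_iff_prime_pow_dvd_dvd]
      intro p k hpp hk
      rcases k with _ | k
      · simp
      refine dvd_trans (pow_dvd_pow p ?_) (hpC s hs p hpp ((dvd_pow_self p k.succ_ne_zero).trans hk))
      exact (hpp.pow_dvd_iff_le_factorization hG0).1 (hk.trans (Subgroup.card_subgroup_dvd_card _))
    have h3 := card_filter_isConj_mul_card_centralizer s
    have hsub : (Finset.univ.filter (IsConj s)) ⊆
        Finset.univ.filter (fun g : G => orderOf g = 2) := by
      intro g hg
      simp only [Finset.mem_filter, Finset.mem_univ, true_and] at hg ⊢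
      rw [← hs]
      obtain ⟨c, rfl⟩ := isConj_iff.1 hg
      exact orderOf_injective (MulAut.conj c).toMonoidHom (MulAut.conj c).injective s
    have h4 := Finset.card_le_card hsub
    have h5 := Nat.le_of_dvd hx h1
    rw [hcard] at h3
    have h6 : t ≤ (Finset.univ.filter (IsConj s)).card := by
      by_contra hlt
      push Not at hlt
      have := Nat.mul_lt_mul_of_lt_of_le hlt h5 hx
      omega
    refine ⟨Finset.eq_of_subset_of_card_le hsub h6, ?_⟩
    rw [le_antisymm h4 h6] at h3
    exact Nat.eq_of_mul_eq_mul_left htpos h3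
  refine ⟨fun s u hs hu => ?_, fun s hs => ⟨(key s hs).2, ?_⟩, ?_⟩
  · have : u ∈ Finset.univ.filter (IsConj s) := by rw [(key s hs).1]; simp [hu]
    exact (Finset.mem_filter.1 this).2
  · refine Nat.coprime_of_dvd fun p hpp hp1 hp2 => ?_
    have h1 := hpC s hs p hpp hp1
    rw [← (key s hs).2] at h1
    have h3 := Nat.mul_dvd_mul h1 hp2
    rw [Subgroup.card_mul_index, ← pow_succ] at h3
    exact Nat.pow_succ_factorization_not_dvd hG0 hpp h3
  · rw [← fsInd_def, ← χ.fsInt_cast, hν1, Int.cast_one]

end Cfsg.Agent.S4478
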