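import Cfsg.Statements.S4480
import Cfsg.Agent.S4479
import Cfsg.Agent.Char.FrobSchur

set_option autoImplicit false
open Cfsg

namespace Cfsg.Agent.S4480

open Cfsg Subgroup in
theorem fs_rel {G : Type*} [Group G] [Finite G] {M : Ideal AlgInt} (hM : IsPModular 2 M)
    (P : Sylow 2 G) (hP : Nat.card (P : Subgroup G) = 4) (hn : ¬ HasNormalPComplement 2 G)
    {J : G} (hJ : J ∈ (P : Subgroup G)) (hJ2 : orderOf J = 2) :
    ∑ᶠ χ ∈ principalBlock M G, fsInd χ.1 * χ J = 0 := by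
  classical
  haveI := Fintype.ofFinite G
  obtain ⟨hexp, hone⟩ := klein_of_not_hasNormalPComplement P hP hn hJ hJ2
  obtain ⟨τ, h⟩ := exists_isDihPair_of_card_four hP hexp hJ hJ2
  have hm := mem_zpowers J
  have hJe := isPElt_two_of_orderOf hJ2
  have hC := h.hasNormalPComplement P.isPGroup' P.not_dvd_index hm hJ2
  have h1 : ip (secOne 2 J) (fun g => (Nat.card {x : G // x * x = g} : ℂ)) = 0 := by
    rw [ip_def]
    refine mul_eq_zero_of_right _ (Finset.sum_eq_zero fun g _ => ?_)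
    by_cases hg : g ∈ pSection 2 J
    · have : IsEmpty {x : G // x * x = g} := ⟨fun ⟨x, hx⟩ => by
        rw [mem_pSection, ← hx, pPart_mul_of_commute 2 (Commute.refl x)] at hg
        obtain ⟨y, hy⟩ := (isPElt_pPart 2 x).exists_conj_mem P
        have h2 := hexp _ hy
        rw [conj_mul, conj_eq_one_iff] at h2
        rw [h2, isConj_one_right] at hg
        simp [hg] at hJ2⟩
      simp
    · simp [secOne_of_notMem hg]
  have e : (fun g => (Nat.card {x : G // x * x = g} : ℂ)) =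
      ∑ χ : IrrCharacter G, fsInd χ.1 • χ.1 := by
    funext g
    rw [card_sqrt_eq_sum, Finset.sum_apply]; rfl
  rw [e, ip_sum_right] at h1
  have h2 : ∑ χ : IrrCharacter G, ip (secOne 2 J) (fsInd χ.1 • χ.1) =
      (∑ᶠ χ ∈ principalBlock M G, fsInd χ.1 * χ J) /
        ((2 : ℕ) : ℂ) ^ (Nat.card (Subgroup.centralizer ({J} : Set G))).factorization 2 := by
    rw [finsum_mem_irr_eq_sum, Finset.sum_filter, Finset.sum_div]
    refine Finset.sum_congr rfl fun χ _ => ?_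
    rw [ip_smul_right, χ.conj_fsInd]
    split_ifs with hχ
    · rw [ip_secOne_irr hM hJe hC hχ, h.conj_irr_apply χ hm]; ring
    · rw [ip_secOne_of_notMem hM J hχ]; simp
  rw [h2] at h1
  simpa using h1

/-- Same setting as the Klein-four order formula: G of order 4·g₀ (g₀ odd) with no normal 2-complement, P a Sylow 2-subgroup, J an involution of P, M over 2, principal 2-block {1, χ₁, χ₂, χ₃} with χ_i(J) = ε_i = ±1. Suppose ε₁ε₂ε₃ = −1 and ε₃ = −1, and put q = x₃ = χ₃(1). Then there is a natural number m with 4·c(J) = m·c(P)·(q + 1), and the order of G equals (m³·c(P)/4)·(q³ − q)/2, that is 8·#G = m³·c(P)·(q³ − q). -/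
theorem result {G : Type*} [Group G] [Finite G] (M : Ideal Cfsg.AlgInt) (hM : Cfsg.IsPModular 2 M) (g₀ : ℕ) (hg₀ : Odd g₀) (hG : Nat.card G = 4 * g₀) (hnc : ¬ ∃ N : Subgroup G, N.Normal ∧ Nat.card N = g₀) (P : Sylow 2 G) (J : G) (hJ : J ∈ (P : Subgroup G)) (hJ2 : orderOf J = 2) (χ₁ χ₂ χ₃ : Cfsg.IrrCharacter G) (ε₁ ε₂ ε₃ : ℤ) (hB : Cfsg.principalBlock M G = {χ : Cfsg.IrrCharacter G | (χ : G → ℂ) = (fun _ => 1) ∨ χ = χ₁ ∨ χ = χ₂ ∨ χ = χ₃}) (hdist : (χ₁ : G → ℂ) ≠ (fun _ => 1) ∧ (χ₂ : G → ℂ) ≠ (fun _ => 1) ∧ (χ₃ : G → ℂ) ≠ (fun _ => 1) ∧ χ₁ ≠ χ₂ ∧ χ₁ ≠ χ₃ ∧ χ₂ ≠ χ₃) (hε : (ε₁ = 1 ∨ ε₁ = -1) ∧ (ε₂ = 1 ∨ ε₂ = -1) ∧ (ε₃ = 1 ∨ ε₃ = -1)) (hval : (χ₁ : G → ℂ) J = ε₁ ∧ (χ₂ : G → ℂ) J = ε₂ ∧ (χ₃ : G → ℂ) J = ε₃) (hprod : ε₁ * ε₂ * ε₃ = -1) (hε₃ : ε₃ = -1) : ∃ m : ℕ, 4 * Nat.card (Subgroup.centralizer ({J} : Set G)) = m * Nat.card (Subgroup.centralizer ((P : Subgroup G) : Set G)) * (Cfsg.charDegree (χ₃ : G → ℂ) + 1) ∧ 8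 * Nat.card G = m ^ 3 * Nat.card (Subgroup.centralizer ((P : Subgroup G) : Set G)) * (Cfsg.charDegree (χ₃ : G → ℂ) ^ 3 - Cfsg.charDegree (χ₃ : G → ℂ)) := by
  have h0 := S4479.result M hM g₀ hg₀ hG hnc P J hJ hJ2 χ₁ χ₂ χ₃ ε₁ ε₂ ε₃ hB hdist hε hval
  obtain ⟨hP, hn⟩ := S4479.setup g₀ hg₀ hG hnc P
  have h1 := fs_rel hM P hP hn hJ hJ2
  have h2 := S4479.deg_rel (G := G) hM hJ2
  rw [S4479.finsum_four hB hdist] at h1 h2
  simp only [IrrCharacter.one_apply, hval.1, hval.2.1, hval.2.2, IrrCharacter.apply_one,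
    ← IrrCharacter.fsInt_cast, IrrCharacter.fsInt_one] at h1 h2
  have p1 := χ₁.charDegree_pos
  have p2 := χ₂.charDegree_pos
  have p3 := χ₃.charDegree_pos
  have q2 : (1 : ℤ) + charDegree χ₁.1 * ε₁ + charDegree χ₂.1 * ε₂ + charDegree χ₃.1 * ε₃ = 0 := by
    apply Int.cast_injective (α := ℂ)
    push_cast
    rw [← h2]; simp
  have q1 : (1 : ℤ) + χ₁.fsInt * ε₁ + χ₂.fsInt * ε₂ + χ₃.fsInt * ε₃ = 0 := by
    apply Int.cast_injective (α := ℂ)
    push_cast
    rw [← h1]; simp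
  subst hε₃
  obtain ⟨rfl, rfl⟩ : ε₁ = 1 ∧ ε₂ = 1 := by
    rcases hε.1 with rfl | rfl <;> rcases hε.2.1 with rfl | rfl <;> omega
  have hfs : ∀ (χ : IrrCharacter G) (ε : ℤ), (ε = 1 ∨ ε = -1) → χ J = ε → χ.fsInt ≠ -1 := by
    intro χ ε hε' hv hf
    have a1 := IrrCharacter.even_charDegree_of_fsInd_eq_neg_one (χ := χ)
      (by rw [← χ.fsInt_cast, hf]; simp)
    obtain ⟨m, hm, hm2, -⟩ := χ.isCharacter.exists_int_of_sq_eq_one (g := J)
      (by rw [← hJ2, pow_orderOf_eq_one])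
    have a2 : m = ε := by
      have : (m : ℂ) = ε := hm.symm.trans hv
      exact_mod_cast this
    obtain ⟨k, hk⟩ := a1
    rw [Int.ModEq, hk, a2] at hm2
    push_cast at hm2
    omega
  have f1 := hfs χ₁ 1 (Or.inl rfl) hval.1
  have f2 := hfs χ₂ 1 (Or.inl rfl) hval.2.1
  have f3 : χ₁.fsInt = 0 := by
    have := χ₁.fsInt_cases
    have := χ₂.fsInt_cases
    have := χ₃.fsInt_cases
    omega
  have hbar : χ₁.bar ≠ χ₁ := fun hb =>
    χ₁.fsInt_ne_zero_iff.2 (χ₁.real_iff_bar_eq.2 hb) f3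
  have hmem : χ₁.bar ∈ principalBlock M G :=
    (bar_mem_principalBlock_iff hM χ₁).2 (by rw [hB]; simp)
  have hbv : ∀ g, χ₁.bar g = (starRingEnd ℂ) (χ₁ g) := fun g => rfl
  have hx : charDegree χ₂.1 = charDegree χ₁.1 := by
    rw [hB] at hmem
    rcases hmem with hb | hb | hb | hb
    · refine absurd (funext fun g => ?_) hdist.1
      have := congrArg (starRingEnd ℂ) (congrFun hb g)
      simpa [hbv] using this
    · exact absurd hb hbar
    · have := hbv 1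
      rw [hb, χ₁.apply_one, χ₂.apply_one, map_natCast] at this
      exact_mod_cast this
    · have := hbv J
      rw [hb, hval.1, hval.2.2] at this
      norm_num at this
  have hi := (Subgroup.centralizer ({J} : Set G)).card_mul_index
  have hr := card_mul_relIndex (Subgroup.centralizer_le (Set.singleton_subset_iff.2 hJ) :
    Subgroup.centralizer ((P : Subgroup G) : Set G) ≤ Subgroup.centralizer {J})
  have p4 : 0 < Nat.card (Subgroup.centralizer ((P : Subgroup G) : Set G)) := Nat.card_pos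
  have p5 : 0 < Nat.card (Subgroup.centralizer ({J} : Set G)) := Nat.card_pos
  rw [hx] at h0 q2
  have hq : charDegree χ₃.1 = 2 * charDegree χ₁.1 + 1 := by omega
  rw [hq] at h0 ⊢
  generalize charDegree χ₁.1 = x at *
  generalize (Subgroup.centralizer ((P : Subgroup G) : Set G)).relIndex
    (Subgroup.centralizer ({J} : Set G)) = r at *
  generalize Nat.card (Subgroup.centralizer ((P : Subgroup G) : Set G)) = d at *
  generalize (Subgroup.centralizer ({J} : Set G)).index = i at *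
  generalize Nat.card (Subgroup.centralizer ({J} : Set G)) = c at *
  generalize Nat.card G = g at *
  subst hr hi
  have hr0 : 0 < r := Nat.pos_of_mul_pos_left p5
  have e1 : i * (x + 1) ^ 2 = x * (2 * x + 1) * (2 * r) ^ 2 := by
    have r1 : (x : ℚ) ≠ 0 := by positivity
    have r2 : (d : ℚ) ≠ 0 := by positivity
    have r3 : (r : ℚ) ≠ 0 := by positivity
    have r4 : (x : ℚ) + 1 ≠ 0 := by positivity
    have : (i : ℚ) * (x + 1) ^ 2 = x * (2 * x + 1) * (2 * r) ^ 2 := by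
      push_cast at h0
      rw [show (2 * x + 1 + -1 : ℚ) = 2 * x by ring] at h0
      field_simp at h0
      linear_combination h0 / 2
    exact_mod_cast this
  have c1 : Nat.Coprime (x + 1) (x * (2 * x + 1)) := by
    refine Nat.Coprime.mul_right (by simp) ?_
    rw [show 2 * x + 1 = x + (x + 1) by ring, Nat.coprime_add_self_right]
    simp
  have e2 : (x + 1) ^ 2 ∣ (2 * r) ^ 2 :=
    (Nat.Coprime.pow_left 2 c1).dvd_of_dvd_mul_left (e1 ▸ Dvd.intro_left _ rfl)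
  obtain ⟨m, hm⟩ := (Nat.pow_dvd_pow_iff two_ne_zero).1 e2
  refine ⟨m, by nlinarith, ?_⟩
  have e3 : i = x * (2 * x + 1) * m ^ 2 := by
    rw [hm] at e1
    have : 0 < (x + 1) ^ 2 := by positivity
    apply Nat.eq_of_mul_eq_mul_right this
    rw [e1]; ring
  have e4 : (2 * x + 1) ^ 3 - (2 * x + 1) = 4 * x * (2 * x + 1) * (x + 1) :=
    Nat.sub_eq_of_eq_add (by ring)
  rw [e4, e3]
  calc 8 * (d * r * (x * (2 * x + 1) * m ^ 2)) = 4 * d * (2 * r) * (x * (2 * x + 1) * m ^ 2) := by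
        ring
    _ = _ := by rw [hm]; ring

end Cfsg.Agent.S4480
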