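import Cfsg.Statements.S4483
import Cfsg.Agent.Blk.Real

set_option autoImplicit false
open Cfsg

namespace Cfsg.Agent.S4483

/-- Let G be a finite group of order 2^n·g₀ with g₀ odd, and M a maximal ideal of the algebraic integers containing 2. Every real-valued irreducible character of G of odd degree lies in the principal 2-block; consequently G has at most 2^(2n) real-valued irreducible characters of odd degree. -/
theorem result {G : Type*} [Group G] [Finite G] (M : Ideal Cfsg.AlgInt) (hM : Cfsg.IsPModular 2 M) : (∀ χ : Cfsg.IrrCharacter G, (∀ g : G, ((χ : G → ℂ) g).im = 0) → Odd (Cfsg.charDegree (χ : G → ℂ)) → χ ∈ Cfsg.principalBlock M G) ∧ Nat.card {χ : Cfsg.IrrCharacter G // (∀ g : G, ((χ : G → ℂ) g).im = 0) ∧ Odd (Cfsg.charDegree (χ : G → ℂ))} ≤ 2 ^ (2 * (Nat.card G).factorization 2) := by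
  classical
  have h1 : ∀ χ : IrrCharacter G, (∀ g : G, ((χ : G → ℂ) g).im = 0) →
      Odd (charDegree (χ : G → ℂ)) → χ ∈ principalBlock M G := fun χ hr hodd =>
    hM.mem_principalBlock_of_real hodd.not_two_dvd_nat fun g _ => by
      rw [χ.centralChar_inv, Complex.conj_eq_iff_im.2]
      simp [centralChar, χ.apply_one, hr g]
  refine ⟨h1, ?_⟩
  have h2 := (isPBlock_principalBlock (M := M) (G := G)).four_mul_sum_le hM
  rw [hM.blockDefect_principalBlock, finsum_mem_irr_eq_sum] at h2
  have h3 : Nat.card {χ : IrrCharacter G // (∀ g : G, ((χ : G → ℂ) g).im = 0) ∧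
      Odd (charDegree (χ : G → ℂ))} ≤ ∑ χ : IrrCharacter G with χ ∈ principalBlock M G,
        2 ^ (2 * blockHeight 2 (principalBlock M G) χ.1) := by
    rw [Nat.subtype_card (Finset.univ.filter fun χ : IrrCharacter G =>
      (∀ g : G, ((χ : G → ℂ) g).im = 0) ∧ Odd (charDegree (χ : G → ℂ))) (by simp),
      Finset.card_eq_sum_ones]
    refine le_trans (Finset.sum_le_sum_of_subset fun χ hχ => ?_)
      (Finset.sum_le_sum fun χ _ => Nat.one_le_two_pow)
    simp only [Finset.mem_filter, Finset.mem_univ, true_and] at hχ ⊢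
    exact h1 χ hχ.1 hχ.2
  have h4 : 1 ≤ 2 ^ (2 * (Nat.card G).factorization 2) := Nat.one_le_two_pow
  omega

end Cfsg.Agent.S4483
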