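import Cfsg.Statements.S4484
import Cfsg.Agent.Char.Sixty
import Cfsg.Agent.Blk.Orth
import Cfsg.Agent.Grp.MinNormal
import Cfsg.Agent.Grp.Basic

set_option autoImplicit false
open Cfsg

namespace Cfsg.Agent.S4484

theorem norm_sub_one_lt_of_arc {z w : ℂ} (hz : ‖z‖ = 1) (hw : ‖w‖ = 1)
    (h : ⌈z.arg / (Real.pi / 3)⌉ = ⌈w.arg / (Real.pi / 3)⌉) : ‖z⁻¹ * w - 1‖ < 1 := by
  have hpi : 0 < Real.pi / 3 := by positivity
  have h1 : |w.arg - z.arg| < Real.pi / 3 := by
    have : |w.arg / (Real.pi / 3) - z.arg / (Real.pi / 3)| < 1 := by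
      have a1 := Int.le_ceil (w.arg / (Real.pi / 3))
      have a2 := Int.le_ceil (z.arg / (Real.pi / 3))
      have a3 := Int.ceil_lt_add_one (w.arg / (Real.pi / 3))
      have a4 := Int.ceil_lt_add_one (z.arg / (Real.pi / 3))
      rw [h] at a2 a4
      rw [abs_lt]
      constructor <;> linarith
    rwa [← sub_div, abs_div, abs_of_pos hpi, div_lt_one hpi] at this
  have h2 : z⁻¹ * w = Complex.exp ((w.arg - z.arg : ℝ) * Complex.I) := by
    conv_lhs => rw [← Complex.norm_mul_exp_arg_mul_I z, ← Complex.norm_mul_exp_arg_mul_I w]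
    rw [hz, hw]
    push_cast
    rw [one_mul, one_mul, sub_mul, Complex.exp_sub, div_eq_inv_mul]
  have h3 : 1 / 2 < Real.cos (w.arg - z.arg) := by
    rw [← Real.cos_pi_div_three, ← Real.cos_abs (w.arg - z.arg)]
    exact Real.cos_lt_cos_of_nonneg_of_le_pi (abs_nonneg _) (by linarith) h1
  rw [h2, ← sq_lt_sq₀ (norm_nonneg _) (by norm_num), Complex.sq_norm, Complex.normSq_apply]
  simp only [Complex.sub_re, Complex.exp_ofReal_mul_I_re, Complex.one_re, Complex.sub_im,
    Complex.exp_ofReal_mul_I_im, Complex.one_im, sub_zero]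
  have h4 := Real.sin_sq_add_cos_sq (w.arg - z.arg)
  nlinarith

theorem arc_mem (z : ℂ) : ⌈z.arg / (Real.pi / 3)⌉ ∈ Finset.Icc (-2 : ℤ) 3 := by
  have hpi : 0 < Real.pi / 3 := by positivity
  rw [Finset.mem_Icc]
  constructor
  · have : (-3 : ℤ) < ⌈z.arg / (Real.pi / 3)⌉ := by
      rw [Int.lt_ceil, lt_div_iff₀ hpi]
      have := Complex.neg_pi_lt_arg z
      push_cast
      linarith
    omega
  · rw [Int.ceil_le, div_le_iff₀ hpi]
    have := Complex.arg_le_pi z
    push_cast
    linarith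

theorem exists_pow_near_one {ι : Type*} [Fintype ι] (z : ι → ℂ) (hz : ∀ i, ‖z i‖ = 1) {p : ℕ}
    (h : 6 ^ Fintype.card ι < p) : ∃ k, 0 < k ∧ k < p ∧ ∀ i, ‖z i ^ k - 1‖ < 1 := by
  classical
  let κ : Fin p → (ι → Finset.Icc (-2 : ℤ) 3) := fun k i => ⟨_, arc_mem (z i ^ k.1)⟩
  obtain ⟨a, b, hab, he⟩ := Fintype.exists_ne_map_eq_of_card_lt κ (by simpa using h)
  wlog hlt : a < b generalizing a b
  · exact this b a hab.symm he.symm (lt_of_le_of_ne (not_lt.1 hlt) hab.symm)
  refine ⟨b.1 - a.1, Nat.sub_pos_of_lt hlt, by omega, fun i => ?_⟩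
  have h0 : z i ≠ 0 := fun h => by simpa [h] using hz i
  have := norm_sub_one_lt_of_arc (z := z i ^ a.1) (w := z i ^ b.1) (by simp [hz]) (by simp [hz])
    (congrArg Subtype.val (congrFun he i))
  rwa [pow_sub₀ _ h0 (le_of_lt hlt), mul_comm]

theorem pow_le_count {G : Type*} [Group G] [Finite G] {p : ℕ} {M : Ideal AlgInt}
    (hM : IsPModular p M) {χ : IrrCharacter G} (hχ : χ ∈ principalBlock M G) {x : G}
    (hx : orderOf x = p) (hK : ¬ p ∣ (Subgroup.centralizer ({x} : Set G)).index)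
    {ι : Type*} [Fintype ι] [DecidableEq ℂ] {ε : ι → ℂ} (hε : ∀ i, ε i ^ p = 1)
    (hχε : ∀ k : ℕ, χ (x ^ k) = ∑ i, ε i ^ k) (j : ι) :
    p ^ (charDegree χ.1).factorization p ≤ Multiset.count (ε j) (Finset.univ.val.map ε) := by
  have hp := hM.prime
  have := hM.charP
  set m := Multiset.count (ε j) (Finset.univ.val.map ε) with hm
  set K := (Subgroup.centralizer ({x} : Set G)).index with hKdef
  have hm0 : m ≠ 0 := Multiset.count_ne_zero.2 (Multiset.mem_map_of_mem _ (Finset.mem_univ_val j))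
  have hK0 : K ≠ 0 := Subgroup.index_ne_zero_of_finite
  have hn0 : charDegree χ.1 ≠ 0 := χ.charDegree_pos.ne'
  have e1 := mul_count_roots_eq hp.ne_zero ε hε (hε j)
  have hterm : ∀ k ∈ Finset.range p, (K : ℂ) * χ (x ^ k) / χ 1 ∈ locO M ∧
      red M ((K : ℂ) * χ (x ^ k) / χ 1) = K := by
    intro k hk
    rcases Nat.eq_zero_or_pos k with rfl | hk0
    · rw [pow_zero, mul_div_cancel_right₀ _ χ.apply_one_ne_zero]
      exact ⟨natCast_mem _ _, red_natCast _⟩
    · have hc : Subgroup.centralizer ({x ^ k} : Set G) = Subgroup.centralizer ({x} : Set G) := by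
        rw [← centralizer_zpowers, ← centralizer_zpowers x]
        have : Subgroup.zpowers (x ^ k) = Subgroup.zpowers x := by
          refine Subgroup.eq_of_le_of_card_ge (Subgroup.zpowers_le.2 (Subgroup.npow_mem_zpowers _ _))
            (le_of_eq ?_)
          rw [Nat.card_zpowers, Nat.card_zpowers, Nat.Coprime.orderOf_pow]
          rw [hx]
          exact (Nat.coprime_of_lt_prime hk0.ne' (Finset.mem_range.1 hk) hp)
        rw [this]
      have e : (K : ℂ) * χ (x ^ k) / χ 1 = centralChar χ.1 (x ^ k) := by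
        rw [centralChar, hc]
      rw [e]
      refine ⟨centralChar_mem_locO _ _, ?_⟩
      have := (hM.sameBlock_iff (IrrCharacter.one G) χ).1 hχ (x ^ k)
      rw [← this]
      change red M (centralChar (fun _ : G => (1 : ℂ)) (x ^ k)) = _
      rw [centralChar_one_fun, hc, red_natCast]
  have hroot : ∀ k : ℕ, ((ε j)⁻¹ ^ k) ^ p ^ 1 = 1 := fun k => by
    rw [pow_one, ← pow_mul, mul_comm, pow_mul, inv_pow, hε, inv_one, one_pow]
  have hmem : ∀ k ∈ Finset.range p, (K : ℂ) * χ (x ^ k) / χ 1 * (ε j)⁻¹ ^ k ∈ locO M :=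
    fun k hk => mul_mem (hterm k hk).1
      (mem_locO_of_pow_eq_one (pow_ne_zero _ hp.ne_zero) (hroot k))
  have e2 : (((K * p * m : ℕ) : ℂ) / (charDegree χ.1 : ℕ)) =
      ∑ k ∈ Finset.range p, (K : ℂ) * χ (x ^ k) / χ 1 * (ε j)⁻¹ ^ k := by
    push_cast
    rw [mul_assoc, e1, Finset.mul_sum, Finset.sum_div, χ.apply_one]
    refine Finset.sum_congr rfl fun k _ => ?_
    rw [hχε]
    ring
  have e3 : vM M (((K * p * m : ℕ) : ℂ) / (charDegree χ.1 : ℕ)) < 1 := by
    rw [e2, ← red_eq_zero_iff (sum_mem hmem), red_sum hmem,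
      Finset.sum_congr rfl (g := fun _ => (K : ResK M))]
    · simp
    · intro k hk
      rw [red_mul (hterm k hk).1 (mem_locO_of_pow_eq_one (pow_ne_zero _ hp.ne_zero) (hroot k)),
        (hterm k hk).2, hM.red_eq_one_of_pow (hroot k), mul_one]
  rw [hM.vM_natCast_div_lt_one_iff (mul_ne_zero (mul_ne_zero hK0 hp.ne_zero) hm0) hn0,
    Nat.factorization_mul (mul_ne_zero hK0 hp.ne_zero) hm0, Nat.factorization_mul hK0 hp.ne_zero]
    at e3
  simp only [Finsupp.add_apply, Nat.factorization_eq_zero_of_not_dvd hK,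
    hp.factorization_self] at e3
  exact Nat.le_of_dvd (Nat.pos_of_ne_zero hm0)
    ((hp.pow_dvd_iff_le_factorization hm0).2 (by omega))

/-- A refinement of Burnside's result on simple groups of order divisible by only two primes. Let G be a finite simple group of order p^a · q^b · g₀ with p, q distinct primes, a > 0, g₀ coprime to p and q, and the order of G different from p. Then g₀ − 1 > log p / log 6, that is 6^(g₀ − 1) > p. -/
theorem result {G : Type*} [Group G] [Finite G] [IsSimpleGroup G] (p q a b g₀ : ℕ) (hp : p.Prime) (hq : q.Prime) (hpq : p ≠ q) (ha : 0 < a) (hg : Nat.card G = p ^ a * q ^ b * g₀) (hcop : ¬ p ∣ g₀) (hcoq : ¬ q ∣ g₀) (hne : Nat.card G ≠ p) : p < 6 ^ (g₀ - 1) := by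
  classical
  have := Fact.mk hp
  by_contra hlt
  have hpG : p ∣ Nat.card G := by
    rw [hg, mul_assoc]
    exact (dvd_pow_self p ha.ne').mul_right _
  have hZ : Subgroup.center G = ⊥ := by
    refine (Subgroup.Normal.eq_bot_or_eq_top (Hn := inferInstanceAs (Subgroup.center G).Normal)).resolve_right fun h => hne ?_
    have : IsMulCommutative G := ⟨⟨fun a b =>
      (Subgroup.mem_center_iff.1 (h ▸ Subgroup.mem_top b : b ∈ Subgroup.center G) a)⟩⟩
    have : Group.IsSolvable G := isSolvable_of_comm fun a b => mul_comm' a b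
    exact ((Nat.prime_dvd_prime_iff_eq hp
      (prime_card_of_isSimpleGroup_of_isSolvable G)).1 hpG).symm
  obtain ⟨M, hM⟩ := exists_isPModular hp
  obtain ⟨P⟩ : Nonempty (Sylow p G) := inferInstance
  have hPnt : Nontrivial P := (Subgroup.nontrivial_iff_ne_bot _).2 (P.ne_bot_of_dvd_card hpG)
  have hZP : Nontrivial (Subgroup.center P) := P.isPGroup'.center_nontrivial
  obtain ⟨x', hx'⟩ := exists_prime_orderOf_dvd_card' (G := Subgroup.center P) p (by
    obtain ⟨k, hk0, hk⟩ := (P.isPGroup'.to_subgroup (Subgroup.center P)).nontrivial_iff_card.1 hZP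
    rw [hk]
    exact dvd_pow_self p hk0.ne')
  set x : G := ((x' : P) : G) with hxdef
  have hx : orderOf x = p := by rw [hxdef, Subgroup.orderOf_coe, Subgroup.orderOf_coe, hx']
  have hK : ¬ p ∣ (Subgroup.centralizer ({x} : Set G)).index := fun h => P.not_dvd_index
    (h.trans (Subgroup.index_dvd_of_le fun g hg => Subgroup.mem_centralizer_singleton_iff.2
      (congrArg Subtype.val (Subgroup.mem_center_iff.1 x'.2 ⟨g, hg⟩))))
  obtain ⟨χ, hχB, hχ1, hχq⟩ : ∃ χ ∈ principalBlock M G, χ ≠ IrrCharacter.one G ∧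
      ¬ q ∣ charDegree χ.1 := by
    by_contra hall
    push Not at hall
    have e := isPBlock_principalBlock.finsum_mul_conj_eq_zero_of_regular hM (g := (1 : G)) (h := x)
      (by simp [hp.ne_one]) (by rw [hx])
    rw [finsum_mem_irr_eq_sum, ← Finset.add_sum_erase _ _ (a := IrrCharacter.one G)
      (by simp [hM.one_mem_principalBlock])] at e
    have e2 : IsIntegral ℤ (((1 : ℕ) : ℂ) / ((q : ℕ) : ℂ)) := by
      simp only [IrrCharacter.one_apply, map_one, mul_one] at e
      rw [Nat.cast_one, eq_neg_of_add_eq_zero_left e, neg_div, Finset.sum_div]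
      refine IsIntegral.neg (IsIntegral.sum _ fun ψ hψ => ?_)
      simp only [Finset.mem_erase, Finset.mem_filter] at hψ
      obtain ⟨c, hc⟩ := hall ψ hψ.2.2 hψ.1
      rw [ψ.apply_one, hc]
      have hq0 : (q : ℂ) ≠ 0 := by exact_mod_cast hq.ne_zero
      rw [show ((q * c : ℕ) : ℂ) * (starRingEnd ℂ) (ψ x) / q = c * (starRingEnd ℂ) (ψ x) by
        push_cast; field_simp]
      exact (isIntegral_natCast _).mul (isIntegral_conj (ψ.isIntegral x))
    exact hq.one_lt.ne' (Nat.dvd_one.1 (nat_dvd_of_isIntegral_div hq.ne_zero e2))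
  have hf : ∀ g : G, χ g = χ 1 → g = 1 := χ.isCharacter.charKer_eq_bot_iff.1
    ((charKer_normal χ.1).eq_bot_or_eq_top.resolve_right fun h => hχ1 (χ.charKer_eq_top_iff.1 h))
  set n := charDegree χ.1 with hn
  obtain ⟨ε, hε, hχε, -⟩ : ∃ ε : Fin n → ℂ, _ := χ.isCharacter.exists_roots x
  rw [hx] at hε
  have hn0 : 0 < n := χ.charDegree_pos
  let S := Finset.univ.image ε
  have hS : S.card ≤ g₀ := by
    have e1 : S.card * p ^ n.factorization p ≤ n := by
      have e2 : ∑ α ∈ S, Multiset.count α (Finset.univ.val.map ε) = n := by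
        rw [Multiset.sum_count_eq_card]
        · simp
        · intro α hα
          obtain ⟨i, -, rfl⟩ := Multiset.mem_map.1 hα
          exact Finset.mem_image_of_mem _ (Finset.mem_univ i)
      rw [← smul_eq_mul]
      refine (Finset.card_nsmul_le_sum _ _ _ fun α hα => ?_).trans e2.le
      obtain ⟨i, -, rfl⟩ := Finset.mem_image.1 hα
      exact pow_le_count hM hχB hx hK hε hχε i
    have e2 : n / p ^ n.factorization p ∣ g₀ := by
      have a1 : n / p ^ n.factorization p ∣ p ^ a * q ^ b * g₀ :=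
        (Nat.ordCompl_dvd n p).trans (hg ▸ χ.charDegree_dvd_card)
      refine Nat.Coprime.dvd_of_dvd_mul_left (Nat.Coprime.mul_right ?_ ?_) a1
      · exact (Nat.coprime_ordCompl hp hn0.ne').symm.pow_right _
      · exact ((hq.coprime_iff_not_dvd.2 fun h =>
          hχq (h.trans (Nat.ordCompl_dvd n p))).symm).pow_right _
    have e3 : g₀ ≠ 0 := fun h => hcop (h ▸ dvd_zero p)
    exact ((Nat.le_div_iff_mul_le (pow_pos hp.pos _)).2 e1).trans
      (Nat.le_of_dvd (Nat.pos_of_ne_zero e3) e2)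
  let j : Fin n := ⟨0, hn0⟩
  have hεn : ∀ i, ‖ε i‖ = 1 := fun i => Complex.norm_eq_one_of_pow_eq_one (hε i) hp.ne_zero
  have hε0 : ε j ≠ 0 := fun h => by simpa [h] using hεn j
  obtain ⟨k, hk0, hkp, hk⟩ := exists_pow_near_one (ι := S.erase (ε j)) (fun α => α.1 / ε j)
    (fun α => by
      obtain ⟨i, -, hi⟩ := Finset.mem_image.1 (Finset.mem_of_mem_erase α.2)
      rw [norm_div, ← hi, hεn, hεn, div_one]) (p := p) (by
      rw [Fintype.card_coe, Finset.card_erase_of_mem (Finset.mem_image_of_mem _ (Finset.mem_univ j))]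
      refine (Nat.pow_le_pow_right (by norm_num) (Nat.sub_le_sub_right hS 1)).trans_lt
        (lt_of_le_of_ne (not_lt.1 hlt) fun h => ?_)
      have := (Nat.Prime.pow_eq_iff hp).1 h
      have h6 : Nat.Prime 6 := this.1 ▸ hp
      norm_num at h6)
  have hxk : x ^ k ≠ 1 := pow_ne_one_of_lt_orderOf hk0.ne' (hx ▸ hkp)
  have hox : orderOf (x ^ k) = p := by
    rw [Nat.Coprime.orderOf_pow, hx]
    rw [hx]
    exact Nat.coprime_of_lt_prime hk0.ne' hkp hp
  refine hxk (Subgroup.mem_bot.1 (hZ ▸ χ.mem_center_of_sixty hf (ε := fun i => ε i ^ k) ?_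
    (fun i => ?_) (fun l => ?_) j fun i => ?_))
  · refine (Subgroup.normalClosure_normal.eq_bot_or_eq_top).resolve_left fun h => hxk ?_
    exact Subgroup.mem_bot.1 (h ▸ Subgroup.subset_normalClosure (Set.mem_singleton _))
  · rw [hox, ← pow_mul, mul_comm, pow_mul, hε, one_pow]
  · rw [← pow_mul]
    simp only [← pow_mul]
    exact hχε _
  · by_cases hi : ε i = ε j
    · simp [hi]
    · have := hk ⟨ε i, Finset.mem_erase.2 ⟨hi, Finset.mem_image_of_mem _ (Finset.mem_univ i)⟩⟩
      rw [show ε i ^ k - ε j ^ k = ((ε i / ε j) ^ k - 1) * ε j ^ k by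
        rw [div_pow]; field_simp, norm_mul, norm_pow, hεn, one_pow, mul_one]
      exact this

end Cfsg.Agent.S4484
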