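import Cfsg.Statements.S4485
import Cfsg.Agent.Blk.BrauerLeonard
-- import your own Cfsg.Agent.* helpers here

set_option autoImplicit false
open Cfsg

namespace Cfsg.Agent.S4485

section Aux

universe u_1

theorem aux (p : ℕ) [Fact p.Prime] : ∀ (m : ℕ) (G : Type u_1) [Group G] [Finite G],
    Nat.card G = m → ∀ (P : Sylow p G), (P : Subgroup G) ≠ ⊥ →
    (∀ x ∈ (P : Subgroup G), x ≠ 1 → Subgroup.centralizer ({x} : Set G) =
      Subgroup.centralizer ((P : Subgroup G) : Set G)) → ∀ χ : G → ℂ, Cfsg.IsCharacter G χ →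
    (∀ g : G, χ g = χ 1 → g = 1) → Cfsg.charDegree χ ^ 2 + 1 < Nat.card P →
    (P : Subgroup G).Normal := by
  intro m
  induction m using Nat.strong_induction_on with
  | _ m ih =>
  intro G _ _ hm P hP1 hstar χ hχ hf hd
  by_cases hK : ∀ K : Subgroup G, K.Normal → (P : Subgroup G) ≤ K → K = ⊤
  · have h1 : ∀ g ∈ commutator G, g = 1 := by
      intro g hg
      apply hf
      rw [hχ.eq_sum_ipNat]
      simp only [Finset.sum_apply, Pi.smul_apply]
      refine Finset.sum_congr rfl fun ψ _ => ?_
      by_cases h0 : Cfsg.ipNat χ ψ.1 = 0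
      · simp [h0]
      congr 1
      by_cases h2 : ψ = Cfsg.IrrCharacter.one G
      · rw [h2]; rfl
      have h3 := (Nat.le_mul_of_pos_left _ (Nat.pos_of_ne_zero h0)).trans
        (hχ.ipNat_mul_charDegree_le ψ)
      have h4 := (Cfsg.brauerLeonard P hP1 hstar hK h2
        ((Nat.add_le_add_right (Nat.pow_le_pow_left h3 2) 1).trans_lt hd)).2
      rw [← ψ.apply_one_eq_one_iff] at h4
      rw [h4]
      exact ψ.isCharacter.apply_of_mem_commutator h4 hg
    refine ⟨fun x hx g => ?_⟩
    have := h1 _ (Subgroup.commutator_mem_commutator (Subgroup.mem_top g) (Subgroup.mem_top x))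
    rw [commutatorElement_def, mul_inv_eq_one] at this
    rwa [this]
  · push Not at hK
    obtain ⟨K, h2, h3, h4⟩ := hK
    have hc : Nat.card (P.subtype h3) = Nat.card P :=
      Nat.card_congr (Subgroup.subgroupOfEquivOfLe h3).toEquiv
    have h5 := ih (Nat.card K) (by
      rw [← hm, ← Subgroup.card_top (G := G)]
      exact Cfsg.card_lt_of_lt (lt_top_iff_ne_top.2 h4)) K rfl (P.subtype h3)
      (fun e => hP1 (by rw [← Subgroup.card_eq_one, ← hc, e, Subgroup.card_bot]))
      (fun x hx hx1 => by
        ext y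
        have := SetLike.ext_iff.1 (hstar x hx fun e => hx1 (Subtype.ext e)) (y : G)
        rw [Subgroup.mem_centralizer_singleton_iff, Subgroup.mem_centralizer_iff] at this ⊢
        rw [Subtype.ext_iff]
        refine this.trans ⟨fun h z hz => Subtype.ext (h z hz), fun h z hz => ?_⟩
        exact congrArg Subtype.val (h ⟨z, h3 hz⟩ hz))
      (χ ∘ K.subtype) (hχ.comp _) (fun g hg => Subtype.ext (hf g hg))
      (by rwa [Cfsg.charDegree_comp, hc])
    have h6 := Sylow.characteristic_of_normal (P.subtype h3) h5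
    have h7 := ConjAct.normal_of_characteristic_of_normal (H := K) (K := P.subtype h3)
    rwa [Sylow.coe_subtype, Subgroup.map_subgroupOf_eq_of_le h3] at h7

end Aux

/-- Let G be a finite group and p a prime dividing its order such that every non-identity element of a Sylow p-subgroup P has the same centralizer as P itself (so P is abelian); let p^n be the order of P. If G has a faithful character of degree x with x² < p^n − 1, then P is normal in G. -/
theorem result {G : Type*} [Group G] [Finite G] (p : ℕ) (hp : p.Prime) (hpG : p ∣ Nat.card G) (P : Sylow p G) (hstar : ∀ x ∈ (P : Subgroup G), x ≠ 1 → Subgroup.centralizer ({x} : Set G) = Subgroup.centralizer ((P : Subgroup G) : Set G)) (n : ℕ) (hn : Nat.card P = p ^ n) (χ : G → ℂ) (hχ : Cfsg.IsCharacter G χ) (hfaith : ∀ g : G, χ g = χ 1 → g = 1) (hdeg : Cfsg.charDegree χ ^ 2 + 1 < p ^ n) : (P : Subgroup G).Normal := by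
  have : Fact p.Prime := ⟨hp⟩
  exact aux p _ G rfl P (P.ne_bot_of_dvd_card hpG) hstar χ hχ hfaith (by rwa [hn])

end Cfsg.Agent.S4485
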