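import Cfsg.Statements.S4486
import Cfsg.Agent.Blk.BrauerLeonard
-- import your own Cfsg.Agent.* helpers here

set_option autoImplicit false
open Cfsg

namespace Cfsg.Agent.S4486

/-- Let G be a finite group and p a prime dividing its order such that every non-identity element of a Sylow p-subgroup P has the same centralizer as P; let p^n be the order of P. If G has a non-principal irreducible character χ of degree x with x² < p^n − 1, then either G has a proper normal subgroup containing P, or G has a normal subgroup of index p^n and x = 1. -/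
theorem result {G : Type*} [Group G] [Finite G] (p : ℕ) (hp : p.Prime) (hpG : p ∣ Nat.card G) (P : Sylow p G) (hstar : ∀ x ∈ (P : Subgroup G), x ≠ 1 → Subgroup.centralizer ({x} : Set G) = Subgroup.centralizer ((P : Subgroup G) : Set G)) (n : ℕ) (hn : Nat.card P = p ^ n) (χ : Cfsg.IrrCharacter G) (h1 : (χ : G → ℂ) ≠ fun _ => 1) (hdeg : Cfsg.charDegree (χ : G → ℂ) ^ 2 + 1 < p ^ n) : (∃ K : Subgroup G, K.Normal ∧ K ≠ ⊤ ∧ (P : Subgroup G) ≤ K) ∨ ((∃ N : Subgroup G, N.Normal ∧ N.index = p ^ n) ∧ Cfsg.charDegree (χ : G → ℂ) = 1) := by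
  have : Fact p.Prime := ⟨hp⟩
  by_cases hK : ∀ K : Subgroup G, K.Normal → (P : Subgroup G) ≤ K → K = ⊤
  · obtain ⟨h2, h3⟩ := Cfsg.brauerLeonard P (P.ne_bot_of_dvd_card hpG) hstar hK (χ := χ)
      (fun e => h1 (by rw [e]; rfl)) (by rwa [hn])
    exact Or.inr ⟨⟨_, MonoidHom.normal_ker _,
      (MonoidHom.ker_transferSylow_isComplement' P h2).symm.index_eq_card.trans hn⟩, h3⟩
  · push Not at hK
    obtain ⟨K, h2, h3, h4⟩ := hK
    exact Or.inl ⟨K, h2, h4, h3⟩

end Cfsg.Agent.S4486
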