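import Cfsg.Statements.S4488
import Cfsg.Agent.Char.Arith

set_option autoImplicit false
open Cfsg

namespace Cfsg.Agent.S4488

theorem lower_bound {G : Type*} [Group G] [Finite G] {p : ℕ} (hp : p.Prime) {χ : G → ℂ}
    (hχ : IsCharacter G χ) {g : G} {k : ℕ} (hg : orderOf g = p ^ (k + 1)) {m : ℤ}
    (hm : ∀ j : ℕ, j.Coprime p → χ (g ^ j) = m) :
    0 ≤ (charDegree χ : ℤ) + ((p - 1 : ℕ) : ℤ) * m := by
  classical
  obtain ⟨ε, h1, h2, -⟩ := hχ.exists_roots g
  have hN : p ^ (k + 1) ≠ 0 := pow_ne_zero _ hp.ne_zero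
  have e1 : 0 ≤ (∑ j ∈ Finset.range (p ^ (k + 1)), χ (g ^ j)).re := by
    simp only [h2]
    rw [Finset.sum_comm, Complex.re_sum]
    refine Finset.sum_nonneg fun i _ => ?_
    have := sum_range_pow_mul_inv_pow hN (one_pow _) (hg ▸ h1 i)
    simp only [inv_one, one_pow, mul_one] at this
    rw [this]
    split_ifs
    · rw [Complex.natCast_re]; positivity
    · simp
  rw [← Finset.sum_filter_add_sum_filter_not _ (fun j => (p ^ (k + 1)).Coprime j),
    Complex.add_re] at e1
  have c1 : ((Finset.range (p ^ (k + 1))).filter fun j => (p ^ (k + 1)).Coprime j).card =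
      p ^ k * (p - 1) := by
    rw [← Nat.totient_eq_card_coprime, Nat.totient_prime_pow_succ hp]
  have c2 : ((Finset.range (p ^ (k + 1))).filter fun j => ¬ (p ^ (k + 1)).Coprime j).card =
      p ^ k := by
    have := Finset.card_filter_add_card_filter_not (s := Finset.range (p ^ (k + 1)))
      (fun j => (p ^ (k + 1)).Coprime j)
    rw [c1, Finset.card_range] at this
    obtain ⟨q, rfl⟩ : ∃ q, p = q + 1 := ⟨p - 1, (Nat.sub_add_cancel hp.pos).symm⟩
    simp only [Nat.add_sub_cancel] at this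
    rw [pow_succ, mul_add, mul_one] at this
    simp only [pow_succ, mul_add, mul_one]
    omega
  have e2 : ∑ j ∈ (Finset.range (p ^ (k + 1))).filter (fun j => (p ^ (k + 1)).Coprime j),
      χ (g ^ j) = ((p ^ k * (p - 1) : ℕ) : ℂ) * m := by
    rw [Finset.sum_congr rfl (g := fun _ => (m : ℂ)), Finset.sum_const, c1, nsmul_eq_mul]
    intro j hj
    exact hm j ((Nat.coprime_pow_left_iff (by omega) _ _).1 (Finset.mem_filter.1 hj).2).symm
  have e3 : (∑ j ∈ (Finset.range (p ^ (k + 1))).filter (fun j => ¬ (p ^ (k + 1)).Coprime j),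
      χ (g ^ j)).re ≤ ((p ^ k : ℕ) : ℝ) * charDegree χ := by
    rw [Complex.re_sum]
    refine (Finset.sum_le_card_nsmul _ _ _ fun j _ => hχ.re_le _).trans ?_
    rw [c2, nsmul_eq_mul]
  rw [e2] at e1
  have e4 : (((p ^ k * (p - 1) : ℕ) : ℂ) * m).re = ((p ^ k * (p - 1) : ℕ) : ℝ) * m := by
    rw [← Complex.ofReal_natCast, ← Complex.ofReal_intCast, ← Complex.ofReal_mul,
      Complex.ofReal_re]
  rw [e4] at e1
  have e5 : (0 : ℝ) ≤ ((p ^ k : ℕ) : ℝ) * (charDegree χ + ((p - 1 : ℕ) : ℝ) * m) := by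
    rw [Nat.cast_mul] at e1
    nlinarith
  have e6 : (0 : ℝ) < ((p ^ k : ℕ) : ℝ) := by exact_mod_cast pow_pos hp.pos k
  have e7 := nonneg_of_mul_nonneg_right e5 e6
  exact_mod_cast e7

/-- Let the finite group G have a faithful p-rational character χ of degree n (all values of χ lie in the field generated over ℚ by a root of unity of order prime to p), and let p^a be the order of a Sylow p-subgroup of G. Then a ≤ Σ_{i ≥ 0} ⌊n / ((p − 1)·p^i)⌋ (a finite sum; the terms vanish once (p − 1)p^i > n). -/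
theorem result {G : Type*} [Group G] [Finite G] (p : ℕ) (hp : p.Prime) (χ : G → ℂ) (hχ : Cfsg.IsCharacter G χ) (hfaith : ∀ g : G, χ g = χ 1 → g = 1) (hrat : (∃ r : ℕ, 0 < r ∧ ¬ p ∣ r ∧ ∀ g : G, χ g ∈ IntermediateField.adjoin ℚ ({Complex.exp (2 * Real.pi * Complex.I / r)} : Set ℂ))) (n : ℕ) (hn : Cfsg.charDegree χ = n) : (Nat.card G).factorization p ≤ ∑ i ∈ Finset.range (n + 1), n / ((p - 1) * p ^ i) := by
  classical
  have : Fact p.Prime := ⟨hp⟩
  obtain ⟨r, -, hr, hrat⟩ := hrat
  have hG0 : Nat.card G ≠ 0 := Nat.card_pos.ne'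
  have h1 := (hχ.isGen.pRational_iff hp).1 ⟨r, hr, hrat⟩
  -- invariance under powers on `p`-elements
  have h2 : ∀ (g : G) (k : ℕ), orderOf g = p ^ k → ∀ j : ℕ, j.Coprime (p ^ k) →
      χ (g ^ j) = χ g := by
    intro g k hg j hj
    rcases k with _ | k
    · rw [pow_zero, orderOf_eq_one_iff] at hg
      rw [hg, one_pow]
    have hj' : j.Coprime (ordProj[p] (Nat.card G)) :=
      Nat.Coprime.pow_right _ ((Nat.coprime_pow_right_iff (by omega) _ _).1 hj)
    obtain ⟨l, hl1, hl2, hl3⟩ := exists_coprime_modEq_modEq_one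
      (m := ordCompl[p] (Nat.card G)) (Nat.ordCompl_pos p hG0).ne' (Nat.ordProj_pos _ _).ne' hj'
      (by rw [(Nat.Coprime.pow_left _ (Nat.coprime_ordCompl hp hG0)).symm]; exact Nat.modEq_one)
    rw [mul_comm, Nat.ordProj_mul_ordCompl_eq_self] at hl1
    rw [← h1 l hl1 hl2 g]
    congr 1
    rw [pow_eq_pow_iff_modEq, hg]
    refine (hl3.of_dvd (pow_dvd_pow _ ?_)).symm
    rw [← hp.pow_dvd_iff_le_factorization hG0, ← hg]
    exact orderOf_dvd_natCard g
  obtain ⟨P⟩ : Nonempty (Sylow p G) := inferInstance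
  set M := n / (p - 1) with hM
  have hχ1 : χ 1 = n := by rw [hχ.apply_one, hn]
  have hc : ∀ m : ℤ, IsGeneralizedCharacter G (χ - (m : ℂ) • fun _ => (1 : ℂ)) := fun m =>
    hχ.isGen.sub (IsCharacter.one.isGen.zsmul m)
  have hθ : IsGeneralizedCharacter G (∏ i ∈ Finset.range M,
      (χ - (((n : ℤ) - p * (i + 1 : ℕ) : ℤ) : ℂ) • fun _ => (1 : ℂ))) :=
    Finset.prod_induction _ _ (fun _ _ => IsGeneralizedCharacter.mul) IsCharacter.one.isGen
      fun i _ => hc _
  have h3 := hθ.card_dvd_of_vanish P (m := ((p ^ M * M.factorial : ℕ) : ℤ)) ?_ ?_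
  · have h4 : p ^ (Nat.card G).factorization p ∣ p ^ M * M.factorial := by
      rw [← P.card_eq_multiplicity]
      exact_mod_cast h3
    have h5 := (hp.pow_dvd_iff_le_factorization
      (mul_ne_zero (pow_ne_zero _ hp.ne_zero) M.factorial_ne_zero)).1 h4
    rw [Nat.factorization_mul (pow_ne_zero _ hp.ne_zero) M.factorial_ne_zero, hp.factorization_pow,
      Finsupp.add_apply, Finsupp.single_eq_same,
      Nat.factorization_factorial hp (b := n + 1)
        (Nat.lt_succ_of_le ((Nat.log_le_self _ _).trans (Nat.div_le_self _ _)))] at h5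
    refine h5.trans (le_of_eq ?_)
    rw [Finset.range_eq_Ico, Finset.sum_eq_sum_Ico_succ_bot (Nat.succ_pos n)]
    simp only [pow_zero, mul_one, hM, Nat.div_div_eq_div_mul, zero_add]
  · intro g hg hg1
    obtain ⟨k, hk⟩ := (IsPGroup.iff_orderOf.1 P.isPGroup') ⟨g, hg⟩
    rw [← Subgroup.orderOf_coe] at hk
    simp only at hk
    obtain ⟨m, hm⟩ := hχ.isGen.exists_int_of_forall_pow (g := g)
      (fun j hj => h2 g k hk j (hk ▸ hj))
    rcases k with _ | k
    · exact absurd (orderOf_eq_one_iff.1 hk) hg1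
    have h4 := lower_bound hp hχ hk (m := m) fun j hj => by
      rw [h2 g _ hk j (Nat.Coprime.pow_right _ hj), hm]
    obtain ⟨c, hc⟩ := (hχ.int_modEq_charDegree hp (hk ▸ pow_orderOf_eq_one g) hm).dvd
    rw [hn] at h4 hc
    have h5 : m ≤ n := by
      have := hχ.re_le g
      rw [hm, hn, Complex.intCast_re] at this
      exact_mod_cast this
    have h6 : m ≠ n := fun h => hg1 (hfaith g (by rw [hm, hχ1, h]; simp))
    have hp0 : (0 : ℤ) < p := by exact_mod_cast hp.pos
    have h7 : 0 < c := by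
      by_contra hh
      have : (p : ℤ) * c ≤ 0 := mul_nonpos_of_nonneg_of_nonpos hp0.le (by omega)
      omega
    obtain ⟨d, rfl⟩ : ∃ d : ℕ, c = (d + 1 : ℕ) := ⟨(c - 1).toNat, by omega⟩
    have h8 : d < M := by
      rw [hM, Nat.lt_iff_add_one_le, Nat.le_div_iff_mul_le (by have := hp.two_le; omega)]
      have h9 : (p : ℤ) * (((d + 1) * (p - 1) : ℕ) : ℤ) ≤ p * n := by
        have : ((p - 1 : ℕ) : ℤ) = p - 1 := by rw [Nat.cast_sub hp.pos]; simp
        rw [Nat.cast_mul, this]
        rw [this] at h4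
        have : m = n - p * (d + 1 : ℕ) := by omega
        rw [this] at h4
        nlinarith
      exact_mod_cast le_of_mul_le_mul_left h9 hp0
    rw [Finset.prod_apply]
    refine Finset.prod_eq_zero (Finset.mem_range.2 h8) ?_
    simp only [Pi.sub_apply, Pi.smul_apply, smul_eq_mul, mul_one, hm]
    rw [← hc]
    simp
  · rw [Finset.prod_apply]
    simp only [Pi.sub_apply, Pi.smul_apply, smul_eq_mul, mul_one, hχ1]
    rw [← Finset.prod_range_add_one_eq_factorial]
    push_cast
    rw [← Finset.card_range M, ← Finset.prod_const, Finset.card_range, ← Finset.prod_mul_distrib]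
    exact Finset.prod_congr rfl fun i _ => by ring

end Cfsg.Agent.S4488
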