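import Cfsg.Statements.S4489
import Cfsg.Agent.Char.GalClifford
import Cfsg.Agent.Char.Clifford
import Cfsg.Agent.Grp.MinNormal

set_option autoImplicit false
open Cfsg

namespace Cfsg.Agent.S4489

theorem linear_case {p : ℕ} [hp : Fact p.Prime] {P : Type*} [Group P] [Finite P]
    (hP : IsPGroup p P) (lam : P →* ℂˣ) {a t : ℕ}
    (ha : (charKer (IrrCharacter.ofLinear lam).1).index = p ^ a)
    (ht : Nat.card (MulAction.orbit (ℂ ≃+* ℂ) (IrrCharacter.ofLinear lam)) ≤ (p - 1) * p ^ t) :
    a ≤ t + 1 := by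
  classical
  rcases a with _ | a
  · omega
  have hk : charKer (IrrCharacter.ofLinear lam).1 = lam.ker := by
    ext g
    rw [IrrCharacter.mem_charKer, MonoidHom.mem_ker]
    rw [IrrCharacter.ofLinear_apply_one, IrrCharacter.ofLinear_apply, Units.val_eq_one]
  rw [hk, ← orderOf_linear_eq_index_ker] at ha
  obtain ⟨n, hn⟩ := IsPGroup.iff_card.1 hP
  have h1 : ∀ k ∈ (Finset.range (p ^ (a + 1))).filter (p ^ (a + 1)).Coprime,
      IrrCharacter.ofLinear (lam ^ k) ∈
        MulAction.orbit (ℂ ≃+* ℂ) (IrrCharacter.ofLinear lam) := by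
    intro k hk
    refine (IrrCharacter.exists_gal_smul_iff _ _).2 ⟨k, ?_, fun g => by simp⟩
    rw [hn]
    exact Nat.Coprime.pow_right _
      ((Nat.coprime_pow_left_iff (by omega) _ _).1 (Finset.mem_filter.1 hk).2).symm
  have h2 := Nat.card_le_card_of_injective
    (fun k : (Finset.range (p ^ (a + 1))).filter (p ^ (a + 1)).Coprime =>
      (⟨_, h1 k.1 k.2⟩ : MulAction.orbit (ℂ ≃+* ℂ) (IrrCharacter.ofLinear lam))) (by
      intro k l h
      have h3 := IrrCharacter.ofLinear_injective (congrArg Subtype.val h)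
      have h4 := (pow_eq_pow_iff_modEq (x := lam)).1 h3
      rw [ha] at h4
      exact Subtype.ext (Nat.ModEq.eq_of_lt_of_lt h4
        (Finset.mem_range.1 (Finset.mem_filter.1 k.2).1)
        (Finset.mem_range.1 (Finset.mem_filter.1 l.2).1)))
  rw [Nat.card_eq_fintype_card, Fintype.card_coe, ← Nat.totient_eq_card_coprime,
    Nat.totient_prime_pow_succ hp.1, mul_comm] at h2
  have h3 := Nat.le_of_mul_le_mul_left (h2.trans ht) (by have := hp.1.two_le; omega)
  have := (Nat.pow_le_pow_iff_right hp.1.one_lt).1 h3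
  omega

universe u in
theorem main_bound {p : ℕ} [hp : Fact p.Prime] (P : Type u) [Group P] [Finite P] :
    IsPGroup p P → ∀ (χ : IrrCharacter P) (a t : ℕ), (charKer χ.1).index = p ^ a →
      Nat.card (MulAction.orbit (ℂ ≃+* ℂ) χ) ≤ (p - 1) * p ^ t →
      (p - 1) * a + 1 ≤ charDegree χ.1 + (p - 1) * (t + 1) * charDegree χ.1 := by
  refine card_induction (P := fun P _ _ => IsPGroup p P → ∀ (χ : IrrCharacter P) (a t : ℕ),
      (charKer χ.1).index = p ^ a →
      Nat.card (MulAction.orbit (ℂ ≃+* ℂ) χ) ≤ (p - 1) * p ^ t →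
      (p - 1) * a + 1 ≤ charDegree χ.1 + (p - 1) * (t + 1) * charDegree χ.1) ?_ P
  intro P _ _ ih hP χ a t ha ht
  classical
  by_cases h1 : charDegree χ.1 = 1
  · obtain ⟨lam, rfl⟩ := IrrCharacter.exists_ofLinear_eq_of_charDegree h1
    have := Nat.mul_le_mul_left (p - 1) (linear_case hP lam ha ht)
    rw [h1]
    omega
  obtain ⟨L, lam, hL⟩ := isMGroup_of_isPGroup hP χ
  have hLt : L ≠ ⊤ := by
    rintro rfl
    apply h1
    rw [hL, (isCharacter_linear lam).charDegree_ind_subtype]
    simp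
  have := hP.isNilpotent
  obtain ⟨H, hH, hLH⟩ := (eq_top_or_exists_le_coatom L).resolve_left hLt
  have := isNilpotent_iff_forall_coatom_normal.1 inferInstance H hH
  obtain ⟨M, _, hHM, hM⟩ := exists_normal_prime_index_ge H hH.1
  have hMp : M.index = p := by
    obtain ⟨n, hn⟩ := IsPGroup.iff_card.1 hP
    exact (Nat.prime_dvd_prime_iff_eq hM hp.1).1 (hM.dvd_of_dvd_pow (hn ▸ M.index_dvd_card))
  have hLM := hLH.trans hHM
  have hc := (isCharacter_linear lam).ind (Subgroup.inclusion hLM)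
  have he : ind M.subtype (ind (Subgroup.inclusion hLM) fun h => (lam h : ℂ)) = χ.1 := by
    rw [ind_subtype_ind_inclusion, hL]
  set ψ : IrrCharacter M := ⟨_, hc.isIrr_of_ind M.subtype_injective (he ▸ χ.2)⟩ with hψ
  replace he : ind M.subtype ψ.1 = χ.1 := he
  clear_value ψ
  have hT : inertia M.subtype ψ = M := by
    rw [(isIrr_ind_iff M.subtype ψ).1 (he ▸ χ.2), Subgroup.range_subtype]
  have hcard : (conjOrbit M.subtype ψ).card = p := by rw [card_conjOrbit, hT, hMp]
  have hdeg : charDegree χ.1 = p * charDegree ψ.1 := by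
    rw [← he, ψ.isCharacter.charDegree_ind_subtype, hMp]
  have hMlt : Nat.card M < Nat.card P := card_lt_of_ne_top (by
    rintro rfl
    rw [Subgroup.index_top] at hMp
    exact hp.1.one_lt.ne hMp)
  obtain ⟨b, hb⟩ := (hP.to_subgroup M).index (charKer ψ.1)
  have hres : χ.1 ∘ M.subtype = ∑ θ ∈ conjOrbit M.subtype ψ, θ.1 := by
    rw [← he, ind_comp_eq_smul_sum_conjOrbit, hT, Subgroup.range_subtype, Subgroup.relIndex_self]
    simp
  have hker : ∀ K : Subgroup M, (∀ θ ∈ conjOrbit M.subtype ψ, K ≤ charKer θ.1) →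
      p ^ a ≤ K.index * p := fun K hK => by
    rw [← ha, ← hMp, ← Subgroup.index_map_subtype]
    refine Nat.le_of_dvd (index_pos _) (Subgroup.index_dvd_of_le ?_)
    rintro _ ⟨m, hm, rfl⟩
    rw [χ.mem_charKer]
    have e1 := congrFun hres m
    have e2 := congrFun hres 1
    simp only [Function.comp_apply, map_one, Finset.sum_apply] at e1 e2
    rw [e1, e2]
    exact Finset.sum_congr rfl fun θ hθ => θ.mem_charKer.1 (hK θ hθ hm)
  -- the map from Galois conjugates of `ψ` to those of `χ`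
  have hgal : ∀ σ : ℂ ≃+* ℂ, ind M.subtype (σ • ψ).1 = (σ • χ).1 := fun σ => by
    rw [IrrCharacter.gal_smul_coe', IrrCharacter.gal_smul_coe', ind_map_ringHom, he]
  have hp2 := hp.1.two_le
  have hf := ψ.charDegree_pos
  obtain ⟨q, rfl⟩ : ∃ q, p = q + 1 := ⟨p - 1, by omega⟩
  simp only [Nat.add_sub_cancel] at *
  by_cases hcase : ∀ σ : ℂ ≃+* ℂ, σ • χ = χ → σ • ψ = ψ
  · have h2 : Nat.card (MulAction.orbit (ℂ ≃+* ℂ) ψ) ≤
        Nat.card (MulAction.orbit (ℂ ≃+* ℂ) χ) := by
      refine Nat.card_le_card_of_injective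
        (fun x => ⟨x.2.choose • χ, MulAction.mem_orbit _ _⟩) fun x y h => ?_
      have h3 : x.2.choose • χ = y.2.choose • χ := congrArg Subtype.val h
      have h4 := hcase (y.2.choose⁻¹ * x.2.choose) (by rw [mul_smul, h3, inv_smul_smul])
      rw [mul_smul, inv_smul_eq_iff] at h4
      exact Subtype.ext (x.2.choose_spec.symm.trans (h4.trans y.2.choose_spec))
    have h3 := ih M hMlt (hP.to_subgroup M) ψ b t hb (h2.trans ht)
    have h4 := hker (⨅ θ : conjOrbit M.subtype ψ, charKer θ.1.1)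
      fun θ hθ => iInf_le (fun θ : conjOrbit M.subtype ψ => charKer θ.1.1) ⟨θ, hθ⟩
    have h5 := Subgroup.index_iInf_le (fun θ : conjOrbit M.subtype ψ => charKer θ.1.1)
    rw [Finset.prod_congr rfl (g := fun _ => (q + 1) ^ b), Finset.prod_const, Finset.card_univ,
      Fintype.card_coe, hcard, ← pow_mul] at h5
    · have h6 := h4.trans (Nat.mul_le_mul_right _ h5)
      rw [← pow_succ] at h6
      have h7 := (Nat.pow_le_pow_iff_right hp.1.one_lt).1 h6
      rw [hdeg]
      have h8 := Nat.mul_le_mul_left (q + 1) h3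
      have h9 := Nat.mul_le_mul_left q h7
      nlinarith
    · rintro ⟨θ, hθ⟩ -
      obtain ⟨g, rfl⟩ := mem_conjOrbit.1 hθ
      rw [IrrCharacter.index_charKer_smul, hb]
  · push Not at hcase
    obtain ⟨σ, hσ1, hσ2⟩ := hcase
    have hL0 : LiesOver M.subtype χ.1 ψ.1 := liesOver_of_ind_eq he
    obtain ⟨g, hg⟩ := mem_conjOrbit.1 (hL0.gal_smul_mem_conjOrbit hσ1)
    -- the elements preserving the kernel of `ψ`
    let S : Subgroup P :=
      { carrier := {x | ∀ m : M, m ∈ charKer ψ.1 ↔ conjAut M.subtype x m ∈ charKer ψ.1}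
        one_mem' := fun m => by simp
        mul_mem' := fun {x y} hx hy m => by rw [map_mul, MulAut.mul_apply, ← hx, ← hy]
        inv_mem' := fun {x} hx m => by
          rw [hx (conjAut M.subtype x⁻¹ m), map_inv, MulAut.apply_inv_self] }
    have hMS : M ≤ S := fun x hx m => by
      have : conjAut M.subtype x = MulAut.conj (⟨x, hx⟩ : M) := conjAut_map M.subtype ⟨x, hx⟩
      rw [this, MulAut.conj_apply]
      exact ((charKer_normal ψ.1).mem_comm_iff.trans (by simp)).symm
    have hgS : g⁻¹ ∈ S := fun m => by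
      conv_lhs => rw [← ψ.charKer_gal_smul σ, ← hg]
      rw [IrrCharacter.mem_charKer, IrrCharacter.mem_charKer, map_inv]
      simp
    have hS : S = ⊤ := by
      have h2 := Subgroup.index_dvd_of_le hMS
      rw [hMp] at h2
      rcases (Nat.dvd_prime hp.1).1 h2 with h3 | h3
      · exact Subgroup.index_eq_one.1 h3
      · exfalso
        have h4 : M = S := by
          refine Subgroup.eq_of_le_of_card_ge hMS (le_of_eq ?_)
          have e1 := M.card_mul_index
          have e2 := S.card_mul_index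
          rw [hMp] at e1
          rw [h3, ← e1] at e2
          exact Nat.eq_of_mul_eq_mul_right hp.1.pos e2
        rw [← h4, inv_mem_iff, ← hT, mem_inertia] at hgS
        exact hσ2 (hg.symm.trans hgS)
    have h4 := hker (charKer ψ.1) fun θ hθ m hm => by
      obtain ⟨x, rfl⟩ := mem_conjOrbit.1 hθ
      have h5 : x⁻¹ ∈ S := hS ▸ Subgroup.mem_top _
      have h6 := (h5 m).1 hm
      rw [IrrCharacter.mem_charKer] at h6 ⊢
      rw [map_inv] at h6
      simpa using h6
    rw [hb, ← pow_succ] at h4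
    have h7 := (Nat.pow_le_pow_iff_right hp.1.one_lt).1 h4
    have h2 : Nat.card (MulAction.orbit (ℂ ≃+* ℂ) ψ) ≤
        Nat.card (MulAction.orbit (ℂ ≃+* ℂ) χ × conjOrbit M.subtype ψ) := by
      choose rep hrep using fun x : MulAction.orbit (ℂ ≃+* ℂ) χ => x.2
      have hmem : ∀ x : MulAction.orbit (ℂ ≃+* ℂ) ψ,
          (rep ⟨x.2.choose • χ, MulAction.mem_orbit _ _⟩)⁻¹ • x.1 ∈ conjOrbit M.subtype ψ := by
        intro x
        conv => enter [2, 2]; rw [← x.2.choose_spec]
        simp only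
        rw [← mul_smul]
        refine hL0.gal_smul_mem_conjOrbit ?_
        rw [mul_smul, inv_smul_eq_iff]
        exact (hrep ⟨x.2.choose • χ, MulAction.mem_orbit _ _⟩).symm
      refine Nat.card_le_card_of_injective
        (fun x => (⟨x.2.choose • χ, MulAction.mem_orbit _ _⟩, ⟨_, hmem x⟩)) fun x y h => ?_
      have h3 := congrArg Prod.fst h
      have h4 := congrArg (fun z => z.2.1) h
      simp only at h3 h4
      rw [h3, smul_left_cancel_iff] at h4
      exact Subtype.ext h4
    rw [Nat.card_prod, Nat.card_eq_fintype_card (α := conjOrbit M.subtype ψ), Fintype.card_coe,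
      hcard] at h2
    have h3 := ih M hMlt (hP.to_subgroup M) ψ b (t + 1) hb
      (h2.trans (by rw [pow_succ, ← mul_assoc]; exact Nat.mul_le_mul_right _ ht))
    rw [hdeg]
    have h9 := Nat.mul_le_mul_left q h7
    have h10 : q * 1 ≤ q * (q * (t + 1) * charDegree ψ.1) :=
      Nat.mul_le_mul_left q (Nat.mul_pos (Nat.mul_pos (by omega) (by omega)) hf)
    nlinarith

/-- Let P be a finite p-group of order p^a with a > 0, and χ a faithful irreducible character of P of degree f whose field of values ℚ(χ) has degree (p − 1)·p^t over ℚ. Then a ≤ (f − 1)/(p − 1) + (t + 1)·f; in integer form, (p − 1)·a ≤ (f − 1) + (p − 1)(t + 1)·f. -/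
theorem result {P : Type*} [Group P] [Finite P] (p a : ℕ) (hp : p.Prime) (ha : 0 < a) (hP : Nat.card P = p ^ a) (χ : Cfsg.IrrCharacter P) (hfaith : ∀ g : P, (χ : P → ℂ) g = (χ : P → ℂ) 1 → g = 1) (f t : ℕ) (hf : Cfsg.charDegree (χ : P → ℂ) = f) (hfield : Module.finrank ℚ (IntermediateField.adjoin ℚ (Set.range (χ : P → ℂ))) = (p - 1) * p ^ t) : (p - 1) * a ≤ (f - 1) + (p - 1) * (t + 1) * f := by
  have : Fact p.Prime := ⟨hp⟩
  have h := main_bound P (IsPGroup.of_card hP) χ a t
    (by rw [χ.isCharacter.charKer_eq_bot_iff.2 hfaith, Subgroup.index_bot, hP])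
    (by rw [χ.card_gal_orbit, hfield])
  have := χ.charDegree_pos
  rw [hf] at h this
  omega

end Cfsg.Agent.S4489
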