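import Cfsg.Statements.S4495
import Cfsg.Agent.Grp.SelfCent

set_option autoImplicit false
open Cfsg

namespace Cfsg.Agent.S4495

/-- Let the finite group G contain an element x of prime order p with C_G(x) = ⟨x⟩, and let t be the number of conjugacy classes of elements of order p. If t ≠ p − 1 then the commutator subgroup has index at most (p − 1)/t; if t = p − 1 it has index exactly p. -/
theorem result {G : Type*} [Group G] [Finite G] (p : ℕ) (hp : p.Prime) (x : G) (hx : orderOf x = p) (hC : Subgroup.centralizer ({x} : Set G) = Subgroup.zpowers x) (t : ℕ) (ht : Nat.card {C : ConjClasses G // ∃ g ∈ C.carrier, orderOf g = p} = t) : (t ≠ p - 1 → (commutator G).index * t ≤ p - 1) ∧ (t = p - 1 → (commutator G).index = p) := by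
  have : Fact p.Prime := ⟨hp⟩
  have h : SelfCent p x := ⟨hx, hC⟩
  subst ht
  refine ⟨fun ht => ?_, fun ht => ?_⟩
  · have h1 := h.le_commutator_of_ne (mt h.card_classes_eq_iff.mpr ht)
    rw [← h.card_classes_mul, mul_comm]
    refine Nat.mul_le_mul_left _ (Nat.le_of_dvd (relIndex_pos _ _) ?_)
    rw [← Subgroup.relIndex_top_right, ← h.normalizer_sup_eq_top h1, Subgroup.relIndex_sup_right]
    exact Subgroup.relIndex_dvd_of_le_left _ h1
  · have h1 := h.card_classes_eq_iff.mp ht
    rw [h.commutator_eq_pPrimeCore h1, h.index_pPrimeCore h1]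

end Cfsg.Agent.S4495
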