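import Cfsg.Statements.S4496
import Cfsg.Agent.Grp.SelfCent

set_option autoImplicit false
open Cfsg

namespace Cfsg.Agent.S4496

/-- Let the finite group G contain an element x of prime order p with C_G(x) = ⟨x⟩. Then: (a) every normal subgroup of order divisible by p contains the commutator subgroup; (b) every normal subgroup S of order prime to p has order dividing the number of subgroups of order p of G and congruent to 1 modulo p, and in G/S the image of x again has prime order p and commutes only with its own powers. -/
theorem result {G : Type*} [Group G] [Finite G] (p : ℕ) (hp : p.Prime) (x : G) (hx : orderOf x = p) (hC : Subgroup.centralizer ({x} : Set G) = Subgroup.zpowers x) (S : Subgroup G) [S.Normal] : (p ∣ Nat.card S → commutator G ≤ S) ∧ (¬ p ∣ Nat.card S → Nat.card S ∣ Nat.card {H : Subgroup G // Nat.card H = p} ∧ Nat.card S % p = 1 ∧ orderOf (QuotientGroup.mk x : G ⧸ S) = p ∧ Subgroup.centralizer ({(QuotientGroup.mk x : G ⧸ S)} : Set (G ⧸ S)) = Subgroup.zpowers (QuotientGroup.mk x : G ⧸ S)) := by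
  have : Fact p.Prime := ⟨hp⟩
  have h : SelfCent p x := ⟨hx, hC⟩
  refine ⟨h.commutator_le, fun hS => ⟨?_, ?_, (h.quotient hS).order, (h.quotient hS).cent⟩⟩
  · rw [h.card_subgroups]
    refine Dvd.dvd.trans (dvd_of_eq ?_) (relIndex_normal_dvd_index _ S)
    rw [← Subgroup.inf_relIndex_right, inf_comm,
      h.inf_normalizer_eq_bot hS Subgroup.le_normalizer_of_normal, Subgroup.relIndex_bot_left]
  · exact Eq.trans (h.card_modEq_one hS Subgroup.le_normalizer_of_normal) (Nat.mod_eq_of_lt hp.one_lt)

end Cfsg.Agent.S4496
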