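import Cfsg.Statements.S4731
import Cfsg.Agent.Blk.Contrib

set_option autoImplicit false
open Cfsg

namespace Cfsg.Agent.S4731

theorem integral_div {G : Type*} [Group G] [Finite G] {q : ℕ} [Fact q.Prime] {θ : G → ℂ}
    (hθ : IsClassFunction G θ) (hO : ∀ χ : IrrCharacter G, IsIntegral ℤ (ip θ χ.1))
    (hv : ∀ g, q ∣ orderOf g → θ g = 0) :
    IsIntegral ℤ (θ 1 / (q : ℂ) ^ (Nat.card G).factorization q) := by
  obtain ⟨P, hP⟩ := GA.exists_isSylowIn q (Subgroup.centralizer ({1} : Set G))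
  have := Fintype.ofFinite P
  have h : IsIntegral ℤ ((Nat.card P : ℂ)⁻¹ * ∑ u : P, θ (1 * u)) := by
    simp only [hθ.apply_eq_sum]
    rw [Finset.sum_comm, Finset.mul_sum]
    refine IsIntegral.sum _ fun χ _ => ?_
    rw [← Finset.mul_sum, mul_left_comm]
    exact (hO χ).mul (χ.isCharacter.isGen.isIntegral_avg hP.le)
  rwa [sum_mul_eq_of_vanish hv hP.isPGroup hP.le (by
    simpa using (Fact.out : q.Prime).ne_one), hP.card_eq, card_centralizer_one, Nat.cast_pow,
    mul_comm, ← div_eq_mul_inv] at h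

/-- Let p ≠ q be primes, M_p and M_q maximal ideals of the algebraic integers containing p and q respectively, and G a finite group with no element of order pq; let q^b be the q-part of the order of G. For a p-block B_p (relative to M_p), a q-block B_q (relative to M_q) and a p-singular element y, the sum of χ(1)χ(y) over the irreducible characters χ lying in both B_p and B_q is q^b times an algebraic integer. -/
theorem result {G : Type*} [Group G] [Finite G] (p q : ℕ) [Fact p.Prime] [Fact q.Prime] (hpq : p ≠ q) (Mp Mq : Ideal Cfsg.AlgInt) (hMp : Cfsg.IsPModular p Mp) (hMq : Cfsg.IsPModular q Mq) (hno : ∀ g : G, orderOf g ≠ p * q) (b : ℕ) (hb : (Nat.card G).factorization q = b) (Bp : Set (Cfsg.IrrCharacter G)) (hBp : Cfsg.IsPBlock Mp Bp) (Bq : Set (Cfsg.IrrCharacter G)) (hBq : Cfsg.IsPBlock Mq Bq) (y : G) (hy : p ∣ orderOf y) : ∃ ω : Cfsg.AlgInt, ∑ᶠ χ ∈ Bp ∩ Bq, (Cfsg.charDegree (χ : G → ℂ) : ℂ) * (χ : G → ℂ) y = (q : ℂ) ^ b * (ω : ℂ) := by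
  classical
  set θ : G → ℂ := ∑ χ : IrrCharacter G, (if χ ∈ Bp then χ y else 0) • χ.1 with hθ
  have hcl : IsClassFunction G θ := IsClassFunction.sum fun χ _ => χ.isClassFunction.smul _
  have hip : ∀ χ : IrrCharacter G, ip θ χ.1 = if χ ∈ Bp then χ y else 0 :=
    fun χ => ip_sum_smul_irr _ χ
  have hv : ∀ g, q ∣ orderOf g → θ g = 0 := fun g hg => by
    have hpg : ¬ p ∣ orderOf g := fun hp => by
      have hd : p * q ∣ orderOf g := Nat.Coprime.mul_dvd_of_dvd_of_dvd
        ((Nat.coprime_primes Fact.out Fact.out).2 hpq) hp hg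
      exact hno _ (orderOf_pow_orderOf_div (orderOf_pos g).ne' hd)
    have h0 := hBp.finsum_mul_conj_eq_zero_of_regular hMp hpg (h := y⁻¹) (by rwa [orderOf_inv])
    rw [finsum_mem_irr_eq_sum, Finset.sum_filter] at h0
    rw [hθ, Finset.sum_apply]
    refine (Finset.sum_congr rfl fun χ _ => ?_).trans h0
    rw [χ.apply_inv, Complex.conj_conj]
    split_ifs <;> simp [mul_comm]
  have hreg : pRegularPart q θ = θ := funext fun g => by
    rw [pRegularPart_apply]
    split_ifs with h
    exacts [(hv g h).symm, rfl]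
  have hv' : ∀ g, q ∣ orderOf g → blockPart Bq θ g = 0 := fun g hg => by
    rw [← hreg, hBq.blockPart_pRegularPart hMq hcl, pRegularPart_of_dvd _ hg]
  have hint := integral_div (isClassFunction_blockPart Bq θ) (fun χ => ?_) hv'
  · rw [hb] at hint
    refine ⟨⟨_, hint⟩, ?_⟩
    rw [mul_div_cancel₀ _ (pow_ne_zero _ (Nat.cast_ne_zero.2 hMq.prime.ne_zero)),
      blockPart_eq_sum, Finset.sum_apply, finsum_mem_irr_eq_sum, Finset.sum_filter,
      Finset.sum_filter]
    refine Finset.sum_congr rfl fun χ _ => ?_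
    rw [hip, ← χ.apply_one]
    by_cases h1 : χ ∈ Bp <;> by_cases h2 : χ ∈ Bq <;> simp [h1, h2, mul_comm]
  · by_cases h2 : χ ∈ Bq
    · rw [ip_blockPart_of_mem _ h2, hip]
      split_ifs
      exacts [χ.isIntegral y, isIntegral_zero]
    · rw [ip_blockPart_of_notMem _ h2]
      exact isIntegral_zero

end Cfsg.Agent.S4731
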