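import Cfsg.Statements.S4498
import Cfsg.Agent.S4731

set_option autoImplicit false
open Cfsg

namespace Cfsg.Agent.S4498

/-- Let p and q be distinct primes dividing the order of the finite group G, and suppose G has no element of order p·q. Fix maximal ideals M_p over p and M_q over q of the algebraic integers. Then the principal p-block and the principal q-block of G have a non-principal irreducible character in common. -/
theorem result {G : Type*} [Group G] [Finite G] (p q : ℕ) [Fact p.Prime] [Fact q.Prime] (hpq : p ≠ q) (hp : p ∣ Nat.card G) (hq : q ∣ Nat.card G) (hno : ∀ g : G, orderOf g ≠ p * q) (Mp Mq : Ideal Cfsg.AlgInt) (hMp : Cfsg.IsPModular p Mp) (hMq : Cfsg.IsPModular q Mq) : ∃ χ : Cfsg.IrrCharacter G, (χ : G → ℂ) ≠ (fun _ => 1) ∧ χ ∈ Cfsg.principalBlock Mp G ∧ χ ∈ Cfsg.principalBlock Mq G := by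
  by_contra hcon
  push Not at hcon
  obtain ⟨y, hy⟩ := exists_prime_orderOf_dvd_card' (G := G) p hp
  obtain ⟨ω, hω⟩ := S4731.result p q hpq Mp Mq hMp hMq hno _ rfl _ isPBlock_principalBlock _
    isPBlock_principalBlock y (hy ▸ dvd_rfl)
  have h1 : principalBlock Mp G ∩ principalBlock Mq G = {IrrCharacter.one G} := by
    refine Set.eq_singleton_iff_unique_mem.2
      ⟨⟨hMp.one_mem_principalBlock, hMq.one_mem_principalBlock⟩, fun χ hχ => ?_⟩
    by_contra hne
    exact hcon χ (fun h => hne (Subtype.ext h)) hχ.1 hχ.2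
  rw [h1, finsum_mem_singleton, charDegree_one_irr] at hω
  have h2 : vM Mq ((q : ℂ) ^ (Nat.card G).factorization q * ω) < 1 := by
    obtain ⟨k, hk⟩ := Nat.exists_eq_succ_of_ne_zero
      (hMq.prime.factorization_pos_of_dvd Nat.card_pos.ne' hq).ne'
    rw [hk, pow_succ', mul_assoc]
    exact vM_mul_lt_one hMq.vM_prime_lt_one
      (mul_mem (pow_mem (natCast_mem _ _) _) (mem_locO_of_isIntegral ω.2))
  rw [← hω] at h2
  simp at h2

end Cfsg.Agent.S4498
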