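import Cfsg.Statements.S4500
import Cfsg.Agent.Blk.BrauerFeit
import Cfsg.Agent.Blk.Principal
import Cfsg.Agent.Char.Burnside
import Cfsg.Agent.Char.Abelian

set_option autoImplicit false
open Cfsg

namespace Cfsg.Agent.S4500

open Cfsg in
open scoped ComplexConjugate in
theorem aux {G : Type*} [Group G] [Finite G] [Nontrivial G] (p q r a b c : ℕ) (hp : p.Prime)
    (hq : q.Prime) (hr : r.Prime) (hpq : p ≠ q) (hpr : p ≠ r) (ha : a ≤ 2)
    (hG : Nat.card G = p ^ a * q ^ b * r ^ c) :
    ∃ χ : IrrCharacter G, (χ : G → ℂ) ≠ (fun _ => 1) ∧ ∃ k : ℕ, charDegree (χ : G → ℂ) = q ^ k := by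
  classical
  rcases Nat.eq_zero_or_pos a with rfl | ha0
  · have hs : Group.IsSolvable G :=
      isSolvable_of_card_eq_pow_mul_pow (a := b) (b := c) hq hr (by simpa using hG)
    have hne : commutator G ≠ ⊤ := (IsSolvable.commutator_lt_top_of_nontrivial G).ne
    obtain ⟨lam, hlam⟩ := exists_linear_ne_one_of_commutator_ne_top hne
    refine ⟨IrrCharacter.ofLinear lam, fun h => hlam ?_, 0, by simp⟩
    exact IrrCharacter.ofLinear_eq_one_iff.1 (Subtype.ext h)
  have := Fact.mk hp
  obtain ⟨M, hM⟩ := exists_isPModular hp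
  have hfac : (Nat.card G).factorization p = a := by
    rw [hG, Nat.factorization_mul (by positivity [hp.pos, hq.pos]) (by positivity [hr.pos]),
      Nat.factorization_mul (by positivity [hp.pos]) (by positivity [hq.pos])]
    simp [hp.factorization_pow, hq.factorization_pow, hr.factorization_pow, hpq.symm, hpr.symm]
  have hdvd : p ∣ Nat.card G := by
    rw [hG, mul_assoc]
    exact (dvd_pow_self p ha0.ne').mul_right _
  obtain ⟨u, hu⟩ := exists_prime_orderOf_dvd_card' p hdvd
  have hB : IsPBlock M (principalBlock M G) := isPBlock_principalBlock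
  have h0 := hB.finsum_mul_conj_eq_zero_of_regular hM (g := 1) (h := u)
    (by rw [orderOf_one]; exact hp.one_lt.ne' ∘ Nat.dvd_one.1) (by rw [hu])
  have hex : ∃ χ ∈ principalBlock M G, χ ≠ IrrCharacter.one G ∧ ¬ r ∣ charDegree χ.1 := by
    by_contra hcon
    push Not at hcon
    rw [finsum_mem_irr_eq_sum, ← Finset.add_sum_erase _ _ (a := IrrCharacter.one G)
      (by simpa using hM.one_mem_principalBlock)] at h0
    have hint : IsIntegral ℤ (((1 : ℕ) : ℂ) / (r : ℂ)) := by
      have hr0 : (r : ℂ) ≠ 0 := Nat.cast_ne_zero.2 hr.ne_zero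
      have : ((1 : ℕ) : ℂ) / (r : ℂ) = -∑ χ ∈ (Finset.univ.filter
          (· ∈ principalBlock M G)).erase (IrrCharacter.one G),
          ((charDegree χ.1 / r : ℕ) : ℂ) * conj (χ u) := by
        rw [div_eq_iff hr0, neg_mul, Finset.sum_mul, eq_neg_iff_add_eq_zero, ← h0]
        congr 1
        · simp
        · refine Finset.sum_congr rfl fun χ hχ => ?_
          have h1 := Finset.mem_erase.1 hχ
          rw [Nat.cast_div (hcon χ (by simpa using h1.2) h1.1) hr0, χ.apply_one]
          field_simp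
      rw [this]
      exact (IsIntegral.sum _ fun χ _ => (isIntegral_natCast _).mul
        (isIntegral_conj (χ.isIntegral u))).neg
    exact hr.one_lt.ne' (Nat.dvd_one.1 (nat_dvd_of_isIntegral_div hr.ne_zero hint))
  obtain ⟨χ, hχB, hχ1, hχr⟩ := hex
  have hht := hB.blockHeight_eq_zero_of_le_two hM
    (by rw [hM.blockDefect_principalBlock, hfac]; exact ha) hχB
  rw [blockHeight_principalBlock_eq hM] at hht
  have hχp : ¬ p ∣ charDegree χ.1 := fun h => by
    have := (hp.dvd_iff_one_le_factorization χ.charDegree_pos.ne').1 h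
    omega
  have hd : charDegree χ.1 ∣ p ^ a * q ^ b * r ^ c := hG ▸ χ.charDegree_dvd_card
  have h1 : charDegree χ.1 ∣ q ^ b := by
    have h2 := ((Nat.Coprime.pow_right c ((Nat.Prime.coprime_iff_not_dvd hr).2 hχr).symm)).dvd_of_dvd_mul_right hd
    exact ((Nat.Coprime.pow_right a ((Nat.Prime.coprime_iff_not_dvd hp).2 hχp).symm)).dvd_of_dvd_mul_left h2
  obtain ⟨k, -, hk⟩ := (Nat.dvd_prime_pow hq).1 h1
  exact ⟨χ, fun h => hχ1 (Subtype.ext h), k, hk⟩

/-- Let G be a non-trivial finite group of order p^a · q^b · r^c with p, q, r distinct primes and a ≤ 2. Then G has a non-principal irreducible character whose degree is a power of q, and a non-principal irreducible character whose degree is a power of r; the power may be the zeroth, so a non-principal linear character serves for both. -/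
theorem result {G : Type*} [Group G] [Finite G] [Nontrivial G] (p q r a b c : ℕ) (hp : p.Prime) (hq : q.Prime) (hr : r.Prime) (hpq : p ≠ q) (hpr : p ≠ r) (hqr : q ≠ r) (ha : a ≤ 2) (hG : Nat.card G = p ^ a * q ^ b * r ^ c) : (∃ χ : Cfsg.IrrCharacter G, (χ : G → ℂ) ≠ (fun _ => 1) ∧ ∃ k : ℕ, Cfsg.charDegree (χ : G → ℂ) = q ^ k) ∧ ∃ χ : Cfsg.IrrCharacter G, (χ : G → ℂ) ≠ (fun _ => 1) ∧ ∃ k : ℕ, Cfsg.charDegree (χ : G → ℂ) = r ^ k := by
  exact ⟨aux p q r a b c hp hq hr hpq hpr ha hG,
    aux p r q a c b hp hr hq hpr hpq ha (by rw [hG]; ring)⟩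

end Cfsg.Agent.S4500
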