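import Cfsg.Statements.S4501
import Cfsg.Agent.Char.SimpleFour
import Cfsg.Agent.Char.SimpleThree
import Cfsg.Agent.Char.BrauerDeg
import Cfsg.Agent.Char.Blichfeldt
import Cfsg.Agent.S4500

set_option autoImplicit false
open Cfsg

namespace Cfsg.Agent.S4501

set_option linter.unusedSectionVars false

open Subgroup

variable {G : Type*} [Group G] [Finite G] [IsSimpleGroup G]

theorem fact_mul {r k m : ℕ} (hr : r.Prime) (hm : ¬ r ∣ m) : (r ^ k * m).factorization r = k := by
  have h0 : m ≠ 0 := by rintro rfl; exact hm (dvd_zero _)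
  rw [Nat.factorization_mul (pow_ne_zero _ hr.ne_zero) h0, Finsupp.add_apply,
    Nat.factorization_eq_zero_of_not_dvd hm, hr.factorization_pow]
  simp

theorem eq_or_eq {r p q a b : ℕ} (hr : r.Prime) (hp : p.Prime) (hq : q.Prime)
    (h : r ∣ p ^ a * q ^ b) : r = p ∨ r = q :=
  ((hr.dvd_mul).1 h).imp (fun h => (Nat.prime_dvd_prime_iff_eq hr hp).1 (hr.dvd_of_dvd_pow h))
    fun h => (Nat.prime_dvd_prime_iff_eq hr hq).1 (hr.dvd_of_dvd_pow h)

theorem exists_char (hna : ¬ IsMulCommutative G) {p q r a b c : ℕ} (hp : p.Prime) (hq : q.Prime)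
    (hr : r.Prime) (hpq : p ≠ q) (ha : a ≤ 2) (hG : Nat.card G = r ^ c * (p ^ a * q ^ b)) :
    p ≠ r ∧ q ≠ r ∧ (Nat.card G).factorization r = c ∧
      ∃ (χ : IrrCharacter G) (k : ℕ), 0 < k ∧ k ≤ c ∧ charDegree χ.1 = r ^ k := by
  have hs := not_isSolvable_of_isSimpleGroup hna
  have hpr : p ≠ r := by
    rintro rfl
    exact hs (isSolvable_of_card_eq_pow_mul_pow hp hq (a := c + a) (b := b) (by rw [hG]; ring))
  have hqr : q ≠ r := by
    rintro rfl
    exact hs (isSolvable_of_card_eq_pow_mul_pow hp hq (a := a) (b := c + b) (by rw [hG]; ring))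
  have hn : ¬ r ∣ p ^ a * q ^ b := fun h => (eq_or_eq hr hp hq h).elim hpr.symm hqr.symm
  refine ⟨hpr, hqr, hG ▸ fact_mul hr hn, ?_⟩
  obtain ⟨-, χ, h1, k, hk⟩ := S4500.result (G := G) p q r a b c hp hq hr hpq hpr hqr ha
    (by rw [hG]; ring)
  have h2 := IrrCharacter.one_lt_charDegree_of_isSimpleGroup hna (χ := χ) (by rintro rfl; exact h1 rfl)
  refine ⟨χ, k, Nat.pos_of_ne_zero fun e => by simp [e] at hk; omega, ?_, hk⟩
  have h3 := χ.charDegree_dvd_card
  rw [hk, hG] at h3
  exact (Nat.pow_dvd_pow_iff_le_right hr.one_lt).1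
    (((hr.coprime_iff_not_dvd.2 hn).pow_left k).dvd_of_dvd_mul_right h3)

theorem four (hna : ¬ IsMulCommutative G) {p q a b : ℕ} (hp : p.Prime) (hq : q.Prime)
    (hpq : p ≠ q) (ha : a ≤ 2) (hG : Nat.card G = 4 * p ^ a * q ^ b) :
    Nonempty (G ≃* alternatingGroup (Fin 5)) := by
  obtain ⟨-, -, h4, χ, k, hk0, hk, hd⟩ := exists_char (b := b) (c := 2) hna hp hq Nat.prime_two hpq ha
    (by rw [hG]; ring)
  have h2 := χ.charDegree_ne_two_of_isSimpleGroup hna ⟨2 * p ^ a * q ^ b, by rw [hG]; ring⟩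
  have hk2 : k = 2 := by
    by_contra h
    have : k = 1 := by omega
    exact h2 (by rw [hd, this, pow_one])
  have h3 : ∀ r s t : ℕ, r.Prime → s.Prime → t.Prime → r < s → s < t → ∀ m,
      Nat.card G = 4 * (r * s * t * m) → False := by
    intro r s t hr hs ht h1 h2 m hm
    have e : p ^ a * q ^ b = r * s * t * m := by
      rw [hG, mul_assoc] at hm
      omega
    have a1 := eq_or_eq hr hp hq ⟨s * t * m, e.trans (by ring)⟩
    have a2 := eq_or_eq hs hp hq ⟨r * t * m, e.trans (by ring)⟩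
    have a3 := eq_or_eq ht hp hq ⟨r * s * m, e.trans (by ring)⟩
    omega
  rcases card_eq_of_charDegree_four hna h4 χ (by rw [hd, hk2]; rfl) with e | e | e | e | e
  · exact nonempty_equiv_alternatingGroup_of_card_eq_sixty hna e
  · exact (h3 3 5 11 (by norm_num) (by norm_num) (by norm_num) (by norm_num) (by norm_num) 1 e).elim
  · exact (h3 3 7 13 (by norm_num) (by norm_num) (by norm_num) (by norm_num) (by norm_num) 1 e).elim
  · exact (h3 3 5 19 (by norm_num) (by norm_num) (by norm_num) (by norm_num) (by norm_num) 3 e).elim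
  · exact (h3 3 5 7 (by norm_num) (by norm_num) (by norm_num) (by norm_num) (by norm_num) 11 e).elim

theorem four_dvd (hna : ¬ IsMulCommutative G) (h2 : 2 ∣ Nat.card G) : 4 ∣ Nat.card G := by
  by_contra h4
  obtain ⟨P⟩ : Nonempty (Sylow 2 G) := inferInstance
  have h1 : (Nat.card G).factorization 2 = 1 := by
    have a1 := (Nat.prime_two.pow_dvd_iff_le_factorization (k := 1) (Nat.card_pos (α := G)).ne').1 h2
    have a2 := mt (Nat.prime_two.pow_dvd_iff_le_factorization (k := 2)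
      (Nat.card_pos (α := G)).ne').2 h4
    omega
  haveI : IsCyclic (P : Subgroup G) :=
    isCyclic_of_prime_card (p := 2) (by rw [P.card_eq_multiplicity, h1]; rfl)
  exact not_hasNormalPComplement_of_isSimpleGroup hna h2 (hasNormalPComplement_two_of_isCyclic P)

theorem exists_invol (h2 : 2 ∣ Nat.card G) : ∃ t : G, orderOf t = 2 ∧
    2 ^ (Nat.card G).factorization 2 ∣ Nat.card (centralizer ({t} : Set G)) := by
  obtain ⟨P⟩ : Nonempty (Sylow 2 G) := inferInstance
  haveI : Nontrivial (P : Subgroup G) := (nontrivial_iff_ne_bot _).2 (P.ne_bot_of_dvd_card h2)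
  haveI := P.isPGroup'.center_nontrivial
  obtain ⟨n, hn0, hn⟩ := (P.isPGroup'.to_subgroup (center _)).nontrivial_iff_card.1 inferInstance
  obtain ⟨t, ht⟩ := exists_prime_orderOf_dvd_card' (G := center (P : Subgroup G)) 2
    (hn ▸ dvd_pow_self 2 hn0.ne')
  refine ⟨(t : (P : Subgroup G)), by rw [orderOf_coe, orderOf_coe, ht], ?_⟩
  rw [← P.card_eq_multiplicity]
  exact card_dvd_of_le fun g hg => mem_centralizer_singleton_iff.2
    (congrArg Subtype.val (mem_center_iff.1 t.2 ⟨g, hg⟩))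

theorem split {p a b v w : ℕ} (hp : p.Prime) (hv : v ∣ p ^ a * 2 ^ b) (hw : w ∣ p ^ a * 2 ^ b)
    (hc : v.Coprime w) (h2 : 2 ∣ v) (h1 : 1 < w) :
    (∃ i, v = 2 ^ i) ∧ ∃ j, 0 < j ∧ w = p ^ j := by
  have a1 : w.Coprime 2 := (hc.coprime_dvd_left h2).symm
  obtain ⟨j, -, hj⟩ := (Nat.dvd_prime_pow hp).1 ((a1.pow_right b).dvd_of_dvd_mul_right hw)
  have hj0 : 0 < j := Nat.pos_of_ne_zero fun e => by simp [e] at hj; omega
  have a2 : v.Coprime p := hc.coprime_dvd_right (hj ▸ dvd_pow_self p hj0.ne')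
  obtain ⟨i, -, hi⟩ := (Nat.dvd_prime_pow Nat.prime_two).1
    ((a2.pow_right a).dvd_of_dvd_mul_left hv)
  exact ⟨⟨i, hi⟩, j, hj0, hj⟩

/-- Let G be a non-abelian finite simple group and p, q distinct primes. If the order of G is 4·p^a·q^b with a ≤ 2, then G is isomorphic to the alternating group of degree 5. If the order of G is 3·p^a·q^b with a ≤ 2, then G is isomorphic to the alternating group of degree 5 or to PSL(2,7). -/
theorem result {G : Type*} [Group G] [Finite G] [IsSimpleGroup G] (hna : ∃ x y : G, x * y ≠ y * x) (p q a b : ℕ) (hp : p.Prime) (hq : q.Prime) (hpq : p ≠ q) (ha : a ≤ 2) : (Nat.card G = 4 * p ^ a * q ^ b → Nonempty (G ≃* alternatingGroup (Fin 5))) ∧ (Nat.card G = 3 * p ^ a * q ^ b → Nonempty (G ≃* alternatingGroup (Fin 5)) ∨ Nonempty (G ≃* Matrix.ProjectiveSpecialLinearGroup (Fin 2) (ZMod 7))) := by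
  have hna' : ¬ IsMulCommutative G := fun h => by
    obtain ⟨x, y, hxy⟩ := hna
    exact hxy (h.1.1 x y)
  refine ⟨four hna' hp hq hpq ha, fun hG => ?_⟩
  obtain ⟨hp3, hq3, h3, χ, k, hk0, hk, hd⟩ := exists_char (b := b) (c := 1) hna' hp hq Nat.prime_three hpq ha
    (by rw [hG]; ring)
  replace hd : charDegree χ.1 = 3 := by rw [hd, show k = 1 by omega, pow_one]
  have hχ1 : χ ≠ IrrCharacter.one G := by
    rintro rfl
    have := (IrrCharacter.one G).apply_one_eq_one_iff.1 rfl
    omega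
  have hfa := IrrCharacter.faithful_of_isSimpleGroup hχ1
  obtain ⟨u, hu⟩ := exists_selfCent_three hna' h3 χ hd
  obtain ⟨ψ₁, ψ₂, x, n1, n2, d1, d2, hx, hcount⟩ := hu.exists_pair_three hna'
  have l1 : 1 < x := d1 ▸ IrrCharacter.one_lt_charDegree_of_isSimpleGroup hna' n1
  have hdv : ∀ ψ : IrrCharacter G, ¬ 3 ∣ charDegree ψ.1 → charDegree ψ.1 ∣ p ^ a * q ^ b :=
    fun ψ h => ((Nat.prime_three.coprime_iff_not_dvd.2 h).symm).dvd_of_dvd_mul_left
      (by rw [← mul_assoc, ← hG]; exact ψ.charDegree_dvd_card)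
  have v1 : x ∣ p ^ a * q ^ b := d1 ▸ hdv ψ₁ (by omega)
  have v2 : x + 1 ∣ p ^ a * q ^ b := d2 ▸ hdv ψ₂ (by omega)
  have h2 : 2 ∣ p ^ a * q ^ b := by
    rcases Nat.even_or_odd x with h | h
    · exact h.two_dvd.trans v1
    · exact h.add_one.two_dvd.trans v2
  have h2G : 2 ∣ Nat.card G := by rw [hG, mul_assoc]; exact h2.mul_left 3
  have h4 := four_dvd hna' h2G
  rcases eq_or_eq Nat.prime_two hp hq h2 with rfl | rfl
  · left
    have hf : (Nat.card G).factorization 2 = a := by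
      rw [hG, show 3 * 2 ^ a * q ^ b = 2 ^ a * (3 ^ 1 * q ^ b) by ring]
      exact fact_mul hp fun h => (eq_or_eq hp Nat.prime_three hq h).elim (by norm_num) hpq
    have ha2 := (Nat.prime_two.pow_dvd_iff_le_factorization (k := 2)
      (Nat.card_pos (α := G)).ne').1 h4
    exact four hna' Nat.prime_three hq hq3.symm (a := 1) (b := b) (by norm_num) (by
      rw [hG, show a = 2 by omega]
      ring)
  haveI : Fact p.Prime := ⟨hp⟩
  have hp5 : 5 ≤ p := hp.five_le_of_ne_two_of_ne_three hpq hp3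
  have hfp : (Nat.card G).factorization p = a := by
    rw [hG, show 3 * p ^ a * 2 ^ b = p ^ a * (3 ^ 1 * 2 ^ b) by ring]
    exact fact_mul hp fun h => (eq_or_eq hp Nat.prime_three hq h).elim hp3 hpq
  have hf2 : (Nat.card G).factorization 2 = b := by
    rw [hG, show 3 * p ^ a * 2 ^ b = 2 ^ b * (3 ^ 1 * p ^ a) by ring]
    exact fact_mul hq fun h => (eq_or_eq hq Nat.prime_three hp h).elim (by norm_num) hpq.symm
  have hZ := center_eq_bot_of_isSimpleGroup hna'
  have hpow : ∀ ψ : IrrCharacter G, ψ ≠ IrrCharacter.one G → ∀ j, charDegree ψ.1 = p ^ j →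
      j = a := fun ψ h j hj => by
    obtain ⟨P⟩ : Nonempty (Sylow p G) := inferInstance
    have := ψ.factorization_index_center_eq (IrrCharacter.charKer_eq_bot_of_isSimpleGroup h) hj P
      ⟨⟨fun s t => Subtype.ext
        (χ.isCharacter.comm_of_isPGroup hfa (by omega) P.isPGroup' s s.2 t t.2)⟩⟩
    rw [hZ, index_bot, hfp] at this
    exact this.symm
  have hodd : p % 2 = 1 := Nat.odd_iff.1 (hp.odd_of_ne_two hpq)
  have hcase : a = 1 ∧ (p = x ∨ p = x + 1) := by
    have hc : x.Coprime (x + 1) := by simp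
    rcases Nat.even_or_odd x with h | h
    · obtain ⟨-, j, hj0, hj⟩ := split hp v1 v2 hc h.two_dvd (by omega)
      obtain rfl := hpow ψ₂ n2 j (d2.trans hj)
      have : j ≠ 2 := by
        rintro rfl
        have e1 : p ^ 2 % 3 = 2 := by omega
        rw [Nat.pow_mod] at e1
        have : p % 3 < 3 := Nat.mod_lt _ (by norm_num)
        interval_cases p % 3 <;> simp at e1
      obtain rfl : j = 1 := by omega
      exact ⟨rfl, Or.inr (by simpa using hj.symm)⟩
    · obtain ⟨⟨i, hi⟩, j, hj0, hj⟩ := split hp v2 v1 hc.symm h.add_one.two_dvd l1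
      obtain rfl := hpow ψ₁ n1 j (d1.trans hj)
      have : j ≠ 2 := by
        rintro rfl
        have e1 : p ^ 2 % 4 = 1 := by
          rw [Nat.pow_mod]
          have : p % 4 = 1 ∨ p % 4 = 3 := by omega
          rcases this with e | e <;> rw [e]
        rcases Nat.lt_or_ge i 2 with h2 | h2
        · interval_cases i <;> omega
        · have := Nat.pow_dvd_pow 2 h2
          omega
      obtain rfl : j = 1 := by omega
      exact ⟨rfl, Or.inl (by simpa using hj.symm)⟩
  obtain ⟨rfl, hpx⟩ := hcase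
  have hsq : ¬ p ^ 2 ∣ Nat.card G := by
    rw [hp.pow_dvd_iff_le_factorization Nat.card_pos.ne', hfp]
    norm_num
  obtain ⟨g, hg⟩ := exists_prime_orderOf_dvd_card' (G := G) p ⟨3 * 2 ^ b, by rw [hG]; ring⟩
  have hnn : ¬ (zpowers g).Normal := fun h => by
    have hc := Nat.card_zpowers g
    rcases IsSimpleGroup.eq_bot_or_eq_top_of_normal _ h with e | e
    · rw [e, card_bot] at hc
      omega
    · rw [e, card_top, hg] at hc
      omega
  have h7 := χ.isCharacter.le_two_mul_charDegree_add_one hfa hg hsq hnn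
  have h57 : p = 5 ∨ p = 7 := by omega
  rcases h57 with rfl | rfl
  · left
    obtain rfl : x = 4 := by omega
    obtain ⟨t, ht, c, hc⟩ := exists_invol h2G
    obtain ⟨N, z, hz, h⟩ := hcount t ht
    rw [hc, hf2, hG] at h
    have hb : b ≤ 2 := by
      by_contra hb
      obtain ⟨e, rfl⟩ : ∃ e, b = e + 3 := ⟨b - 3, by omega⟩
      have h5 : (32 : ℤ) ∣ 3 * (4 - z) ^ 2 := ⟨N * 2 ^ e * c ^ 2, by
        refine mul_left_cancel₀ (a := (5 * 2 ^ (e + 3) : ℤ)) (by positivity) ?_
        push_cast at h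
        linear_combination -h⟩
      rw [abs_lt] at hz
      obtain ⟨z1, z2⟩ := hz
      push_cast at z1 z2
      interval_cases z <;> omega
    have hb2 := (Nat.prime_two.pow_dvd_iff_le_factorization (k := 2)
      (Nat.card_pos (α := G)).ne').1 h4
    exact nonempty_equiv_alternatingGroup_of_card_eq_sixty hna' (by
      rw [hG, show b = 2 by omega]
      rfl)
  · right
    obtain ⟨-, ⟨e⟩⟩ := χ.isCharacter.nonempty_quotient_center_equiv_psl hfa hg hsq hnn (by rw [hd])
    exact ⟨(QuotientGroup.quotientBot.symm.trans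
      (QuotientGroup.quotientMulEquivOfEq hZ.symm)).trans e⟩

end Cfsg.Agent.S4501
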