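import Cfsg.Statements.S4502
import Cfsg.Agent.Blk.FrobCorr
-- import your own Cfsg.Agent.* helpers here

set_option autoImplicit false
open Cfsg

namespace Cfsg.Agent.S4502

/-- Let G be a finite group whose order is divisible by the prime p exactly once, and let P be a Sylow p-subgroup. Then the number of irreducible characters of G of degree not divisible by p equals the number of conjugacy classes of the normalizer of P. -/
theorem result {G : Type*} [Group G] [Finite G] (p : ℕ) [Fact p.Prime] (hdiv : p ∣ Nat.card G) (hsq : ¬ p ^ 2 ∣ Nat.card G) (P : Sylow p G) : Nat.card {χ : Cfsg.IrrCharacter G // ¬ p ∣ Cfsg.charDegree (χ : G → ℂ)} = Nat.card (ConjClasses (Subgroup.normalizer ((P : Subgroup G) : Set G))) := by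
  have hp : p.Prime := Fact.out
  have h1 : (Nat.card G).factorization p = 1 := by
    have h2 := (hp.dvd_iff_one_le_factorization Nat.card_pos.ne').1 hdiv
    rw [hp.pow_dvd_iff_le_factorization Nat.card_pos.ne'] at hsq
    omega
  have hP : Nat.card P = p := by rw [P.card_eq_multiplicity, h1, pow_one]
  have : IsCyclic P := isCyclic_of_prime_card hP
  have hP1 : (P : Subgroup G) ≠ ⊥ := fun h => hp.one_lt.ne (by
    rw [← hP]; exact (Subgroup.card_eq_one.2 h).symm)
  rw [Cfsg.card_not_dvd_charDegree_of_isCyclic P hP1 rfl, Cfsg.card_irr_eq_card_conjClasses]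

end Cfsg.Agent.S4502
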