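import Cfsg.Statements.S4504
import Cfsg.Agent.Char.BrauerDeg
-- import your own Cfsg.Agent.* helpers here

set_option autoImplicit false
open Cfsg

namespace Cfsg.Agent.S4504

/-- Let G be a finite group whose order is divisible by the prime p exactly once and which has no normal subgroup of order p. If G has a faithful character of degree exactly (p − 1)/2, then G modulo its centre is isomorphic to PSL(2, p). -/
theorem result {G : Type*} [Group G] [Finite G] (p : ℕ) (hp : p.Prime) (hdiv : p ∣ Nat.card G) (hsq : ¬ p ^ 2 ∣ Nat.card G) (hnn : ∀ H : Subgroup G, H.Normal → Nat.card H ≠ p) (χ : G → ℂ) (hχ : Cfsg.IsCharacter G χ) (hfaith : ∀ g : G, χ g = χ 1 → g = 1) (hdeg : 2 * Cfsg.charDegree χ + 1 = p) : Nonempty ((G ⧸ Subgroup.center G) ≃* Matrix.ProjectiveSpecialLinearGroup (Fin 2) (ZMod p)) := by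
  haveI : Fact p.Prime := ⟨hp⟩
  obtain ⟨x, hx⟩ := exists_prime_orderOf_dvd_card' p hdiv
  exact (hχ.nonempty_quotient_center_equiv_psl hfaith hx hsq (fun h =>
    hnn _ h (by rw [Nat.card_zpowers, hx])) hdeg).2

end Cfsg.Agent.S4504
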