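import Cfsg.Statements.S4505
import Cfsg.Agent.Blk.Contrib

set_option autoImplicit false
open Cfsg

namespace Cfsg.Agent.S4505

/-- Let G be a finite group, p a prime and M a maximal ideal of the algebraic integers containing p. For every σ, the number of p-blocks of defect exactly σ is at most the number of conjugacy classes of p-regular elements whose centralizer has order divisible by p^σ but not by p^(σ+1). -/
theorem result {G : Type*} [Group G] [Finite G] (p : ℕ) [Fact p.Prime] (M : Ideal Cfsg.AlgInt) (hM : Cfsg.IsPModular p M) (σ : ℕ) : Nat.card {B : Set (Cfsg.IrrCharacter G) // Cfsg.IsPBlock M B ∧ Cfsg.blockDefect p B = σ} ≤ Nat.card {C : ConjClasses G // ∃ g : G, ConjClasses.mk g = C ∧ ¬ p ∣ orderOf g ∧ (Nat.card (Subgroup.centralizer ({g} : Set G))).factorization p = σ} := by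
  classical
  have := Fintype.ofFinite (ConjClasses G)
  set X := {B : Set (IrrCharacter G) // IsPBlock M B ∧ blockDefect p B = σ}
  set Y := {C : ConjClasses G // ∃ g : G, ConjClasses.mk g = C ∧ ¬ p ∣ orderOf g ∧
    (Nat.card (Subgroup.centralizer ({g} : Set G))).factorization p = σ}
  have := Fintype.ofFinite X
  have := Fintype.ofFinite Y
  choose χ hχ using fun B : X => B.2.1.nonempty hM
  let A : Matrix X Y (ResK M) := Matrix.of fun B C => red M (blockCoeff B.1 C.1.out)
  let L : Matrix Y X (ResK M) := Matrix.of fun C B => red M (centralChar (χ B).1 C.1.out)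
  have hAL : A * L = 1 := by
    ext B B'
    have h1 : lam M (χ B').1 (blockIdem M B.1) = (A * L) B B' := by
      rw [lam_apply, Matrix.mul_apply]
      simp only [A, L, Matrix.of_apply, coeff_blockIdem]
      refine (Fintype.sum_of_injective (Subtype.val : Y → ConjClasses G) Subtype.val_injective _ _
        (fun C hC => ?_) fun _ => rfl).symm
      by_contra hc
      have := B.2.1.red_mul_red_ne_zero B'.2.1 hM (hχ B') hc
      have h2 := B.2.2
      have h3 := B'.2.2
      exact hC ⟨⟨C, C.out, Quotient.out_eq C, this.1, by omega⟩, rfl⟩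
    rw [← h1, Matrix.one_apply]
    split_ifs with h
    · exact B.2.1.lam_blockIdem_of_mem hM (h ▸ hχ B)
    · exact B.2.1.lam_blockIdem_of_notMem hM fun h' =>
        h (Subtype.ext (B.2.1.eq_of_mem B'.2.1 hM h' (hχ B')))
  rw [Nat.card_eq_fintype_card, Nat.card_eq_fintype_card, ← Matrix.rank_one (R := ResK M), ← hAL]
  exact (Matrix.rank_mul_le_left A L).trans (Matrix.rank_le_card_width A)

end Cfsg.Agent.S4505
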