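import Cfsg.Statements.S4506
import Cfsg.Agent.Char.GalClifford
import Cfsg.Agent.Blk.Defect
import Cfsg.Agent.Grp.MinNormal

set_option autoImplicit false
open Cfsg

namespace Cfsg.Agent.S4506

open scoped ComplexConjugate

theorem ramanujan {p : ℕ} (hp : p.Prime) (a : ℕ) {z : ℂ} (hz : z ^ p ^ (a + 1) = 1)
    [DecidableEq ℂ] :
    ∑ j ∈ (Finset.range (p ^ (a + 1))).filter (p ^ (a + 1)).Coprime, z ^ j =
      (p : ℂ) ^ a * ((if 1 = z then (p : ℂ) else 0) - if 1 = z ^ p then 1 else 0) := by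
  have h1 := sum_range_pow_mul_inv_pow (pow_ne_zero (a + 1) hp.ne_zero) (one_pow _) hz
  have h2 := sum_range_pow_mul_inv_pow (pow_ne_zero a hp.ne_zero) (one_pow _)
    (w := z ^ p) (by rw [← pow_mul, ← pow_succ', hz])
  simp only [inv_one, one_pow, mul_one] at h1 h2
  rw [← Finset.sum_filter_add_sum_filter_not _ (fun j => (p ^ (a + 1)).Coprime j)] at h1
  have h3 : ∑ j ∈ (Finset.range (p ^ (a + 1))).filter (fun j => ¬ (p ^ (a + 1)).Coprime j),
      z ^ j = ∑ j ∈ Finset.range (p ^ a), (z ^ p) ^ j := by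
    symm
    refine Finset.sum_bij (fun j _ => p * j) ?_ ?_ ?_ ?_
    · intro j hj
      rw [Finset.mem_filter, Finset.mem_range, pow_succ', Nat.coprime_mul_iff_left]
      exact ⟨Nat.mul_lt_mul_of_pos_left (Finset.mem_range.1 hj) hp.pos,
        fun h => hp.coprime_iff_not_dvd.1 h.1 (dvd_mul_right _ _)⟩
    · intro i _ j _ h
      exact Nat.eq_of_mul_eq_mul_left hp.pos h
    · intro j hj
      rw [Finset.mem_filter, Finset.mem_range, Nat.coprime_pow_left_iff (by omega),
        hp.coprime_iff_not_dvd, not_not, pow_succ'] at hj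
      obtain ⟨h, i, rfl⟩ := hj
      exact ⟨i, Finset.mem_range.2 (Nat.lt_of_mul_lt_mul_left h), rfl⟩
    · intro j _
      rw [pow_mul]
  rw [h3, h2, ← eq_sub_iff_add_eq] at h1
  rw [h1]
  split_ifs <;> push_cast <;> ring

theorem ramanujan_int {p : ℕ} (hp : p.Prime) (a : ℕ) {z : ℂ} (hz : z ^ p ^ a = 1) :
    ∃ c : ℤ, ∑ j ∈ (Finset.range (p ^ a)).filter (p ^ a).Coprime, z ^ j =
      (p : ℂ) ^ (a - 1) * c := by
  classical
  rcases a with _ | a
  · exact ⟨1, by simp⟩
  · rw [ramanujan hp a hz]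
    refine ⟨(if 1 = z then (p : ℤ) else 0) - if 1 = z ^ p then 1 else 0, ?_⟩
    simp

/-- Let G be a finite group, p a prime, p^a the p-part of the order of G and g′ its p′-part. Call two irreducible characters p-conjugate when one is obtained from the other by applying a field automorphism of ℂ that fixes the g′-th roots of unity, and let r be the number of characters p-conjugate to the irreducible character χ (χ included). Then the exponent of p in r·χ(1) is at most a; and if p^a divides r·χ(1) then p^a already divides χ(1). -/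
theorem result {G : Type*} [Group G] [Finite G] (p : ℕ) (hp : p.Prime) (χ : Cfsg.IrrCharacter G) (r : ℕ) (hr : Nat.card {ψ : Cfsg.IrrCharacter G // ∃ σ : ℂ ≃+* ℂ, σ (Complex.exp (2 * Real.pi * Complex.I / ((Nat.card G / p ^ (Nat.card G).factorization p) : ℕ))) = Complex.exp (2 * Real.pi * Complex.I / ((Nat.card G / p ^ (Nat.card G).factorization p) : ℕ)) ∧ (ψ : G → ℂ) = fun g => σ ((χ : G → ℂ) g)} = r) : (r * Cfsg.charDegree (χ : G → ℂ)).factorization p ≤ (Nat.card G).factorization p ∧ (p ^ (Nat.card G).factorization p ∣ r * Cfsg.charDegree (χ : G → ℂ) → p ^ (Nat.card G).factorization p ∣ Cfsg.charDegree (χ : G → ℂ)) := by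
  classical
  have : Fact p.Prime := ⟨hp⟩
  have := Fintype.ofFinite G
  have := Fintype.ofFinite (ConjClasses G)
  have hG0 : Nat.card G ≠ 0 := Nat.card_pos.ne'
  set a := (Nat.card G).factorization p with ha
  set m := Nat.card G / p ^ a with hm
  have hm0 : m ≠ 0 := (Nat.ordCompl_pos p hG0).ne'
  have hpa : p ^ a ≠ 0 := pow_ne_zero _ hp.ne_zero
  have hmul : m * p ^ a = Nat.card G := by rw [mul_comm]; exact Nat.ordProj_mul_ordCompl_eq_self _ _
  have hcop : m.Coprime (p ^ a) := (Nat.Coprime.pow_left _ (Nat.coprime_ordCompl hp hG0)).symm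
  set ζ := Complex.exp (2 * Real.pi * Complex.I / (m : ℕ)) with hζ
  have hζp : IsPrimitiveRoot ζ m := isPrimitiveRoot_exp_nat hm0
  have hl : ∀ j : ℕ, ∃ l : ℕ, l.Coprime (Nat.card G) ∧ l ≡ 1 [MOD m] ∧
      ((p ^ a).Coprime j → l ≡ j [MOD p ^ a]) := fun j => by
    by_cases hj : (p ^ a).Coprime j
    · obtain ⟨l, h1, h2, h3⟩ := exists_coprime_modEq_modEq_one hm0 hpa hj.symm
        (by rw [hcop]; exact Nat.modEq_one)
      exact ⟨l, hmul ▸ h1, h2, fun _ => h3⟩
    · exact ⟨1, Nat.coprime_one_left _, Nat.ModEq.refl _, fun h => absurd h hj⟩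
  choose l hl1 hl2 hl3 using hl
  set T := (Finset.range (p ^ a)).filter (p ^ a).Coprime with hT
  set Θ : G → ℂ := ∑ j ∈ T, (χ.galPow (l j) (hl1 j)).1 with hΘ
  have hΘc : IsCharacter G Θ := IsCharacter.sum fun j _ => IrrCharacter.isCharacter _
  set O : Finset (IrrCharacter G) := Finset.univ.filter fun ψ => ∃ σ : ℂ ≃+* ℂ, σ ζ = ζ ∧ σ • χ = ψ
    with hO
  have hmemO : ∀ ψ, ψ ∈ O ↔ ∃ σ : ℂ ≃+* ℂ, σ ζ = ζ ∧ σ • χ = ψ := fun ψ => by simp [hO]
  have hrO : O.card = r := by
    rw [← hr, hO, ← Fintype.card_subtype, ← Nat.card_eq_fintype_card]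
    refine Nat.card_congr (Equiv.subtypeEquivRight fun ψ => exists_congr fun σ =>
      and_congr_right fun _ => ?_)
    rw [eq_comm, Subtype.ext_iff]
    rfl
  have hFO : ∀ j, χ.galPow (l j) (hl1 j) ∈ O := fun j => by
    obtain ⟨σ, hσ⟩ := exists_ringEquiv_pow hG0 (hl1 j)
    exact (hmemO _).2 ⟨σ, (fix_primitiveRoot_iff_modEq hG0 hσ (Dvd.intro _ hmul) hζp).2 (hl2 j),
      χ.gal_smul_eq_galPow σ (hl1 j) hσ⟩
  -- values of `Θ`
  have hval : ∀ u x : G, Commute u x → u ^ p ^ a = 1 → x ^ m = 1 →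
      ∃ ε δ : Fin (charDegree χ.1) → ℂ, (∀ i, ε i ^ orderOf u = 1) ∧ (∀ i, δ i ^ m = 1) ∧
        χ x = ∑ i, δ i ∧ Θ (u * x) = ∑ i, (∑ j ∈ T, ε i ^ j) * δ i := by
    intro u x hux hu hx
    obtain ⟨ε, δ, h1, h2, h3⟩ := χ.isCharacter.exists_roots₂ hux
    refine ⟨ε, δ, h1, fun i => ?_, by simpa using h3 0 1, ?_⟩
    · obtain ⟨c, hc⟩ := orderOf_dvd_of_pow_eq_one hx
      rw [hc, pow_mul, h2, one_pow]
    · simp only [hΘ, Finset.sum_apply, Finset.sum_mul]
      rw [Finset.sum_comm]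
      refine Finset.sum_congr rfl fun j hj => ?_
      change χ ((u * x) ^ l j) = _
      rw [hux.mul_pow, pow_eq_pow_of_modEq (hl3 j (Finset.mem_filter.1 hj).2) hu,
        pow_eq_pow_of_modEq (hl2 j) hx, h3]
      simp
  have hdec : ∀ g : G, (pPart p g) ^ p ^ a = 1 ∧ (pPrimePart p g) ^ m = 1 := fun g => by
    constructor
    · rw [← orderOf_dvd_iff_pow_eq_one, orderOf_pPart]
      exact pow_dvd_pow _ ((Nat.factorization_le_iff_dvd (orderOf_pos g).ne' hG0).2
        (orderOf_dvd_natCard g) p)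
    · rw [← orderOf_dvd_iff_pow_eq_one]
      refine Nat.Coprime.dvd_of_dvd_mul_right (k := orderOf (pPrimePart p g)) (n := p ^ a) ?_
        (hmul ▸ orderOf_dvd_natCard _)
      exact Nat.Coprime.pow_right _ (hp.coprime_iff_not_dvd.2 (isPRegular_pPrimePart p g)).symm
  have hval2 : ∀ g : G, ∃ (c : Fin (charDegree χ.1) → ℤ) (δ : Fin (charDegree χ.1) → ℂ),
      (∀ i, δ i ^ m = 1) ∧ Θ g = (p : ℂ) ^ (a - 1) * ∑ i, c i * δ i := fun g => by
    obtain ⟨ε, δ, h1, h2, -, h3⟩ := hval _ _ (commute_pPart_pPrimePart p g) (hdec g).1 (hdec g).2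
    have h4 : ∀ i, ε i ^ p ^ a = 1 := fun i => by
      obtain ⟨c, hc⟩ := orderOf_dvd_of_pow_eq_one (hdec g).1
      rw [hc, pow_mul, h1, one_pow]
    choose c hc using fun i => ramanujan_int hp a (h4 i)
    refine ⟨c, δ, h2, ?_⟩
    rw [pPart_mul_pPrimePart] at h3
    rw [h3, Finset.mul_sum]
    exact Finset.sum_congr rfl fun i _ => by rw [hc, mul_assoc]
  have hfix : ∀ σ : ℂ ≃+* ℂ, σ ζ = ζ → σ.toRingHom ∘ Θ = Θ := fun σ hσ => by
    ext g
    obtain ⟨c, δ, h1, h2⟩ := hval2 g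
    have : NeZero m := ⟨hm0⟩
    simp only [Function.comp_apply, h2, map_mul, map_pow, map_natCast, map_sum, map_intCast]
    congr 1
    refine Finset.sum_congr rfl fun i _ => ?_
    obtain ⟨k, -, hk⟩ := hζp.eq_pow_of_pow_eq_one (h1 i)
    rw [← hk, map_pow]
    exact congrArg (fun z => (c i : ℂ) * z ^ k) hσ
  have hip0 : ∀ ψ, ψ ∉ O → ip Θ ψ.1 = 0 := fun ψ hψ => by
    rw [hΘ, ip_sum_left]
    exact Finset.sum_eq_zero fun j _ => IrrCharacter.ip_of_ne fun h => hψ (h ▸ hFO j)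
  have hip1 : ∀ ψ ∈ O, ip Θ ψ.1 = ip Θ χ.1 := fun ψ hψ => by
    obtain ⟨σ, h1, rfl⟩ := (hmemO ψ).1 hψ
    conv_lhs => rw [← hfix σ h1]
    exact hΘc.isGen.ip_map_ringHom χ.isCharacter.isGen σ.toRingHom
  have hdegO : ∀ ψ ∈ O, charDegree ψ.1 = charDegree χ.1 := fun ψ hψ => by
    obtain ⟨σ, -, rfl⟩ := (hmemO ψ).1 hψ
    simp
  set h := ipNat Θ χ.1 with hh
  have hhc : (h : ℂ) = ip Θ χ.1 := hΘc.ipNat_cast χ.isCharacter
  have hΘO : Θ = ∑ ψ ∈ O, (h : ℂ) • ψ.1 := by
    conv_lhs => rw [hΘc.isClassFunction.eq_sum]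
    rw [← Finset.sum_subset (Finset.subset_univ O) fun ψ _ hψ => by rw [hip0 ψ hψ, zero_smul]]
    exact Finset.sum_congr rfl fun ψ hψ => by rw [hip1 ψ hψ, hhc]
  have hcount : r * h = Nat.totient (p ^ a) := by
    have e1 : Θ 1 = Nat.totient (p ^ a) * χ 1 := by
      simp only [hΘ, Finset.sum_apply]
      rw [Finset.sum_congr rfl (g := fun _ => χ 1), Finset.sum_const, nsmul_eq_mul,
        Nat.totient_eq_card_coprime]
      intro j _
      change χ (1 ^ l j) = _
      rw [one_pow]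
    have e2 : Θ 1 = (r * h : ℕ) * χ 1 := by
      rw [hΘO, Finset.sum_apply, Finset.sum_congr rfl (g := fun _ => h * χ 1), Finset.sum_const,
        hrO, nsmul_eq_mul, Nat.cast_mul, mul_assoc]
      intro ψ hψ
      rw [Pi.smul_apply, smul_eq_mul, ψ.apply_one, χ.apply_one, hdegO ψ hψ]
    exact_mod_cast mul_right_cancel₀ χ.apply_one_ne_zero (e2.symm.trans e1)
  have hd0 := χ.charDegree_pos.ne'
  obtain ⟨N, hN⟩ := χ.charDegree_dvd_card
  have hN0 : N ≠ 0 := by rintro rfl; exact hG0 hN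
  have hfN : (charDegree χ.1).factorization p + N.factorization p = a := by
    rw [ha, hN, Nat.factorization_mul hd0 hN0, Finsupp.add_apply]
  rcases hc : a with _ | b
  · rw [hc] at hcount hfN
    simp only [pow_zero, Nat.totient_one, mul_eq_one] at hcount
    rw [hcount.1, one_mul]
    exact ⟨by omega, fun h => h⟩
  rw [hc, Nat.totient_prime_pow_succ hp] at hcount
  have hp1 : p - 1 ≠ 0 := by have := hp.two_le; omega
  have hrh : r * h ≠ 0 := hcount ▸ mul_ne_zero (pow_ne_zero _ hp.ne_zero) hp1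
  have hr0 : r ≠ 0 := left_ne_zero_of_mul hrh
  have hh0 : h ≠ 0 := right_ne_zero_of_mul hrh
  have hf1 : r.factorization p + h.factorization p = b := by
    have := congrArg (fun n => n.factorization p) hcount
    simp only [Nat.factorization_mul hr0 hh0, Finsupp.add_apply,
      Nat.factorization_mul (pow_ne_zero b hp.ne_zero) hp1, hp.factorization_pow,
      Finsupp.single_eq_same] at this
    rw [this, Nat.factorization_eq_zero_of_lt (by omega), add_zero]
  obtain ⟨M, hM⟩ := exists_isPModular hp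
  have hpc : (p : ℂ) ^ b ≠ 0 := pow_ne_zero _ (Nat.cast_ne_zero.2 hp.ne_zero)
  set A : G → ℂ := fun g => conj (Θ g) / (p : ℂ) ^ b with hA
  have hAc : IsClassFunction G A := fun g x => by simp only [hA, hΘc.isClassFunction g x]
  have hAO : ∀ g, A g ∈ locO M := fun g => by
    obtain ⟨c, δ, h1, h2⟩ := hval2 g⁻¹
    simp only [hA]
    rw [← hΘc.apply_inv, h2, hc, Nat.add_sub_cancel, mul_div_cancel_left₀ _ hpc]
    exact sum_mem fun i _ => mul_mem (intCast_mem _ _) (mem_locO_of_pow_eq_one hm0 (h1 i))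
  have hS : ∀ ψ : IrrCharacter G, ∑ K : ConjClasses G, A K.out * centralChar ψ.1 K.out =
      Nat.card G * ip Θ ψ.1 / ((p : ℂ) ^ b * ψ 1) := fun ψ => by
    rw [← sum_classFunction_eq_sum_centralChar ψ.isClassFunction hAc, hΘc.ip_comm ψ.isCharacter,
      ip_def, mul_inv_cancel_left₀ (natCard_cast_ne_zero G), ← div_div, Finset.sum_div _ _ (_ ^ _)]
    congr 1
    exact Finset.sum_congr rfl fun g _ => by simp only [hA]; ring
  have hSχ : ∑ K : ConjClasses G, A K.out * centralChar χ.1 K.out =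
      ((N * h : ℕ) : ℂ) / (p ^ b : ℕ) := by
    rw [hS, ← hhc, hN, χ.apply_one]
    have : (charDegree χ.1 : ℂ) ≠ 0 := Nat.cast_ne_zero.2 hd0
    push_cast
    field_simp
  have hSO : ∀ ψ : IrrCharacter G, ∑ K : ConjClasses G, A K.out * centralChar ψ.1 K.out ∈ locO M :=
    fun ψ => sum_mem fun K _ => mul_mem (hAO _) (centralChar_mem_locO ψ _)
  have hle := (hM.natCast_div_mem_iff (mul_ne_zero hN0 hh0) (pow_ne_zero b hp.ne_zero)).1
    (hSχ ▸ hSO χ)
  rw [hp.factorization_pow, Finsupp.single_eq_same, Nat.factorization_mul hN0 hh0,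
    Finsupp.add_apply] at hle
  rw [Nat.factorization_mul hr0 hd0, Finsupp.add_apply]
  refine ⟨by omega, fun hdvd => ?_⟩
  rw [hp.pow_dvd_iff_le_factorization (mul_ne_zero hr0 hd0), Nat.factorization_mul hr0 hd0,
    Finsupp.add_apply] at hdvd
  rw [hp.pow_dvd_iff_le_factorization hd0]
  by_contra hlt
  have hB := isPBlock_blockOf (M := M) χ
  have hχB := hM.mem_blockOf_self χ
  set B := blockOf M χ.1 with hBdef
  -- the block consists of `p`-conjugates of `χ`
  have hBO : ∀ ψ ∈ B, ψ ∈ O := fun ψ hψ => by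
    by_contra hψO
    have e1 : red M (∑ K : ConjClasses G, A K.out * centralChar χ.1 K.out) =
        red M (∑ K : ConjClasses G, A K.out * centralChar ψ.1 K.out) := by
      refine (red_sum fun K _ => mul_mem (hAO _) (centralChar_mem_locO χ _)).trans
        (Eq.trans ?_ (red_sum fun K _ => mul_mem (hAO _) (centralChar_mem_locO ψ _)).symm)
      refine Finset.sum_congr rfl fun K _ => ?_
      rw [red_mul (hAO _) (centralChar_mem_locO χ _), red_mul (hAO _) (centralChar_mem_locO ψ _),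
        hB.red_centralChar_eq hM hχB hψ]
    rw [hS ψ, hip0 ψ hψO, mul_zero, zero_div, red_zero, red_eq_zero_iff (hSO χ), hSχ,
      hM.vM_natCast_div_lt_one_iff (mul_ne_zero hN0 hh0) (pow_ne_zero b hp.ne_zero),
      hp.factorization_pow, Finsupp.single_eq_same, Nat.factorization_mul hN0 hh0,
      Finsupp.add_apply] at e1
    omega
  obtain ⟨χ₀, hχ₀, hht⟩ := exists_blockHeight_eq_zero (p := p) (hB.nonempty hM)
  have hht' : blockHeight p B χ.1 = 0 := by
    rw [blockHeight_eq_zero_iff hχB, ← hdegO χ₀ (hBO χ₀ hχ₀), ← blockHeight_eq_zero_iff hχ₀, hht]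
  obtain ⟨x, hx⟩ := hB.exists_isDefectClass hM
  have hx1 := (hx.red_ne_zero_iff hB hM hχB).2 hht'
  have hx2 := hx.factorization_card_centralizer hB hM
  have hx3 := factorization_charDegree_add_blockDefect (p := p) hχB
  have hx4 := hx.not_dvd_orderOf hB hM
  obtain ⟨u, hu, hup⟩ := exists_mem_orderOf_eq_prime (p := p)
    (H := Subgroup.centralizer ({x} : Set G))
    (Nat.dvd_of_factorization_pos (by rw [hx2]; omega))
  have hux : Commute u x := (Subgroup.mem_centralizer_singleton_iff.1 hu)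
  have hxm : x ^ m = 1 := by
    have := (hdec x).2
    rwa [pPrimePart_eq_self_iff.2 hx4] at this
  have hu1 : u ^ p = 1 := hup ▸ pow_orderOf_eq_one u
  obtain ⟨ε, δ, h1, h2, h3, h4⟩ := hval u x hux
    (by rw [hc, pow_succ', pow_mul, hu1, one_pow]) hxm
  rw [hup] at h1
  -- `Θ` vanishes at `u * x`
  have hsing : p ∣ orderOf (u * x) := by
    by_contra hcon
    have e1 := pPart_mul_eq (p := p) hux ⟨1, by rw [hup, pow_one]⟩ hx4
    rw [pPart_eq_one_iff.2 hcon] at e1
    rw [← e1, orderOf_one] at hup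
    exact hp.one_lt.ne hup
  have hOB : ∀ ψ ∈ O, ψ ∈ B := fun ψ hψ => by
    by_contra hψB
    have e1 := hB.ip_pRegularPart_eq_zero hM hχB hψB
    obtain ⟨σ, hσ, rfl⟩ := (hmemO ψ).1 hψ
    have e2 : ip (pRegularPart p χ.1) (pRegularPart p χ.1) = 0 := by
      rw [← e1, ip_def, ip_def]
      congr 1
      refine Finset.sum_congr rfl fun g _ => ?_
      by_cases hg : p ∣ orderOf g
      · simp [pRegularPart_of_dvd _ hg]
      · have e3 : σ (χ g) = χ g := by
          refine χ.isCharacter.isGen.ringHom_apply_eq_self σ.toRingHom fun z hz => ?_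
          have := (hdec g).2
          rw [pPrimePart_eq_self_iff.2 hg] at this
          obtain ⟨c, hc⟩ := orderOf_dvd_of_pow_eq_one this
          have : NeZero m := ⟨hm0⟩
          obtain ⟨k, -, hk⟩ := hζp.eq_pow_of_pow_eq_one (ξ := z) (by rw [hc, pow_mul, hz, one_pow])
          rw [← hk, map_pow]
          exact congrArg (· ^ k) hσ
        simp [pRegularPart_of_not_dvd _ hg, e3]
    have e4 := congrFun (ip_self_eq_zero.1 e2) 1
    rw [pRegularPart_of_not_dvd _ (by rw [orderOf_one]; exact hp.one_lt.ne' ∘ Nat.dvd_one.1)] at e4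
    exact χ.apply_one_ne_zero e4
  have h5 := hB.finsum_mul_conj_eq_zero_of_regular hM (g := 1)
    (by rw [orderOf_one]; exact hp.one_lt.ne' ∘ Nat.dvd_one.1) hsing
  have h6 : Θ (u * x) = 0 := by
    rw [finsum_mem_irr_eq_sum] at h5
    have e1 : (Finset.univ.filter fun ψ => ψ ∈ B) = O := by
      ext ψ
      simp only [Finset.mem_filter, Finset.mem_univ, true_and]
      exact ⟨hBO ψ, hOB ψ⟩
    rw [e1, Finset.sum_congr rfl (g := fun ψ => χ 1 * conj (ψ (u * x))), ← Finset.mul_sum,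
      mul_eq_zero, or_iff_right χ.apply_one_ne_zero, ← map_sum, map_eq_zero] at h5
    · rw [hΘO, Finset.sum_apply]
      simp only [Pi.smul_apply, smul_eq_mul]
      rw [← Finset.mul_sum, h5, mul_zero]
    · intro ψ hψ
      rw [ψ.apply_one, χ.apply_one, hdegO ψ hψ]
  rw [h6, hT, hc] at h4
  have h7 : ∀ i, ∑ j ∈ (Finset.range (p ^ (b + 1))).filter (p ^ (b + 1)).Coprime, ε i ^ j =
      (p : ℂ) ^ b * ((if 1 = ε i then (p : ℂ) else 0) - 1) := fun i => by
    rw [ramanujan hp b (by rw [pow_succ', pow_mul, h1, one_pow]), h1, if_pos rfl]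
  simp only [h7, mul_assoc, ← Finset.mul_sum, sub_mul, Finset.sum_sub_distrib, one_mul] at h4
  have h8 := (mul_eq_zero.1 h4.symm).resolve_left hpc
  rw [← h3, sub_eq_zero] at h8
  apply hx1
  rw [← h8]
  refine red_eq_zero_of_vM_lt_one (vM_sum_lt_one fun i _ => ?_)
  refine vM_mul_lt_one ?_ (mem_locO_of_pow_eq_one hm0 (h2 i))
  split_ifs
  · exact hM.vM_prime_lt_one
  · simp

end Cfsg.Agent.S4506
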