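import Cfsg.Statements.S4507
import Cfsg.Agent.Blk.FrobGal
-- import your own Cfsg.Agent.* helpers here

set_option autoImplicit false
open Cfsg

namespace Cfsg.Agent.S4507

/-- Let G be a finite group whose order g is divisible by the prime p exactly once, g′ = g/p, and fix a maximal ideal M of the algebraic integers containing p. Call two irreducible characters p-conjugate when a field automorphism of ℂ fixing the g′-th roots of unity carries one to the other. Let B be a p-block of positive defect (its defect group is a Sylow p-subgroup). Then B contains a subset Y (the exceptional family) such that: Y is a full p-conjugacy class (its members are pairwise p-conjugate and every p-conjugate of a member of Y lies in Y); every member of B outside Y is p-conjugate only to itself; the size t of Y divides p − 1 and B has exactly t + (p − 1)/t members; and there are signs δ_χ = ±1 (χ ∈ B) such that for every p-regular element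 x and every θ ∈ Y, Σ_{χ ∈ B ∖ Y} δ_χ χ(x) + δ_θ θ(x) = 0. -/
theorem result {G : Type*} [Group G] [Finite G] (p : ℕ) [Fact p.Prime] (M : Ideal Cfsg.AlgInt) (hM : Cfsg.IsPModular p M) (hdiv : p ∣ Nat.card G) (hsq : ¬ p ^ 2 ∣ Nat.card G) (B : Set (Cfsg.IrrCharacter G)) (hB : Cfsg.IsPBlock M B) (hd : 0 < Cfsg.blockDefect p B) : ∃ Y : Set (Cfsg.IrrCharacter G), Y ⊆ B ∧ Y.Nonempty ∧ (∀ θ ∈ Y, ∀ ψ : Cfsg.IrrCharacter G, (∃ σ : ℂ ≃+* ℂ, σ (Complex.exp (2 * Real.pi * Complex.I / ((Nat.card G / p ^ (Nat.card G).factorization p) : ℕ))) = Complex.exp (2 * Real.pi * Complex.I / ((Nat.card G / p ^ (Nat.card G).factorization p) : ℕ)) ∧ (ψ : G → ℂ) = fun g => σ ((θ : G → ℂ) g)) ↔ ψ ∈ Y) ∧ (∀ χ ∈ B, χ ∉ Y → ∀ ψ : Cfsg.IrrCharacter G, (∃ σ : ℂ ≃+* ℂ, σ (Complex.exp (2 * Real.pi * Complex.I / ((Nat.card G / p ^ (Nat.card G).factorization p) : ℕ))) = Complex.exp (2 * Real.pi * Complex.I / ((Nat.card G / p ^ (Nat.card G).factorization p) :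 ℕ)) ∧ (ψ : G → ℂ) = fun g => σ ((χ : G → ℂ) g)) → ψ = χ) ∧ Nat.card Y ∣ p - 1 ∧ Nat.card B = Nat.card Y + (p - 1) / Nat.card Y ∧ ∃ δ : Cfsg.IrrCharacter G → ℤ, (∀ χ ∈ B, δ χ = 1 ∨ δ χ = -1) ∧ ∀ x : G, ¬ p ∣ orderOf x → ∀ θ ∈ Y, (∑ᶠ χ ∈ B \ Y, (δ χ : ℂ) * (χ : G → ℂ) x) + (δ θ : ℂ) * (θ : G → ℂ) x = 0 := by
  classical
  have hp : p.Prime := Fact.out
  have := hM.charP
  have h1 : (Nat.card G).factorization p = 1 := by
    have h2 := (hp.dvd_iff_one_le_factorization Nat.card_pos.ne').1 hdiv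
    rw [hp.pow_dvd_iff_le_factorization Nat.card_pos.ne'] at hsq
    omega
  obtain ⟨P, hPD⟩ := hB.exists_isDefectGroup hM
  have hP : Nat.card P = p := by
    have h2 := Cfsg.blockDefect_le (p := p) B
    rw [hPD.card_eq hB hM, show Cfsg.blockDefect p B = 1 by omega, pow_one]
  have : IsCyclic P := isCyclic_of_prime_card hP
  have hP1 : P ≠ ⊥ := fun h => hp.one_lt.ne (by
    rw [← hP]; exact (Subgroup.card_eq_one.2 h).symm)
  let _ := Fintype.ofFinite P
  obtain ⟨e, he⟩ := (hB.isBlockIdem hM).exists_isMaxPair ((hB.isDefectGroup_iff hM _).1 hPD)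
  obtain ⟨S, X, Y, δ, ζ, α, h, hS, o, h2, h3⟩ := he.exists_out_cyclic hM hB hP1
    (j := P.subtype) (MulEquiv.refl _) (fun _ => rfl)
  have hm0 : ordCompl[p] (Nat.card G) ≠ 0 := (Nat.ordCompl_pos p Nat.card_pos.ne').ne'
  have hprim := Cfsg.isPrimitiveRoot_exp_nat hm0
  have hfix : ∀ σ : ℂ ≃+* ℂ, σ (Complex.exp (2 * Real.pi * Complex.I /
      ((Nat.card G / p ^ (Nat.card G).factorization p) : ℕ))) = Complex.exp (2 * Real.pi *
      Complex.I / ((Nat.card G / p ^ (Nat.card G).factorization p) : ℕ)) →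
      ∀ z : ℂ, z ^ ordCompl[p] (Nat.card G) = 1 → σ z = z := by
    intro σ hσ z hz
    have : NeZero (ordCompl[p] (Nat.card G)) := ⟨hm0⟩
    obtain ⟨k, -, rfl⟩ := hprim.eq_pow_of_pow_eq_one hz
    rw [map_pow, hσ]
  have h4 := o.cardY
  have hY := o.Y_nonempty h
  have hYpos : 0 < Nat.card Y := (Nat.card_pos_iff).2 ⟨hY.to_subtype, inferInstance⟩
  rw [← h2, hP] at h4
  have h5 : p - 1 = Nat.card Y * Nat.card X := by rw [mul_comm]; omega
  refine ⟨Y, o.Y_subset, hY, fun θ hθ ψ => ?_, fun χ hχ hχ' ψ => ?_, ⟨_, h5⟩, ?_,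
    fun χ => if χ ∈ Y then -δ else α χ, fun χ hχ => ?_, fun x hx θ hθ => ?_⟩
  · obtain ⟨lam, hl, rfl⟩ := o.surj θ hθ
    constructor
    · rintro ⟨σ, hσ, hψ⟩
      have h6 : ψ = σ • ζ lam := Subtype.ext hψ
      rw [h6, o.gal_smul_zeta h σ (fun u _ => hS σ.toRingHom (hfix σ hσ) u) (hfix σ hσ) hl]
      exact o.mem _ (Cfsg.Exc.galHom_ne_one σ hl)
    · intro hψ
      obtain ⟨mu, hm, rfl⟩ := o.surj ψ hψ
      obtain ⟨σ, hσ, rfl⟩ := Cfsg.Exc.exists_galHom_eq hP (Nat.not_dvd_ordCompl hp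
        (Nat.card_pos (α := G)).ne') hl hm
      refine ⟨σ, hσ _ hprim.pow_eq_one, ?_⟩
      rw [← o.gal_smul_zeta h σ (fun u _ => hS σ.toRingHom hσ u) hσ hl]
      rfl
  · rintro ⟨σ, hσ, hψ⟩
    have h6 : ψ = σ • χ := Subtype.ext hψ
    rw [h6, o.gal_smul_X h σ (fun u _ => hS σ.toRingHom (hfix σ hσ) u) (hfix σ hσ)
      (o.diff_eq ▸ ⟨hχ, hχ'⟩)]
  · rw [h5, Nat.mul_div_cancel_left _ hYpos, o.card_eq, add_comm]
  · beta_reduce
    split_ifs with h6
    · rcases o.sign with h | h <;> simp [h]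
    · exact h3 χ (o.diff_eq ▸ ⟨hχ, h6⟩)
  · have h6 := o.reg_rel θ hθ x hx
    beta_reduce
    rw [o.diff_eq, finsum_mem_congr rfl (g := fun χ => (α χ : ℂ) * χ.1 x) (fun χ hχ => by
      rw [if_neg (Set.disjoint_left.1 o.disj hχ)]), if_pos hθ]
    simp only [Int.cast_zero, mul_zero, zero_sub] at h6
    push_cast
    linear_combination h6

end Cfsg.Agent.S4507
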