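import Cfsg.Statements.S4508
import Cfsg.Agent.Grp.SelfCent
import Cfsg.Agent.Blk.FrobPrinCyc
import Cfsg.Agent.Blk.FrobPrime
import Cfsg.Agent.Char.Isotypic
import Cfsg.Agent.Char.Det

set_option autoImplicit false
open Cfsg

namespace Cfsg.Agent.S4508

set_option linter.unusedSectionVars false

open Subgroup Exc
open scoped ComplexConjugate Classical

variable {G : Type*} [Group G] [Finite G] {p : ℕ} [hp : Fact p.Prime] {x : G}

theorem cent_eq (h : SelfCent p x) {u : G} (hu : u ∈ zpowers x) (h1 : u ≠ 1) :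
    centralizer ({u} : Set G) = zpowers x := by
  have ho : orderOf u = p := by
    have h2 : orderOf u ∣ p := by
      rw [← h.card_zpowers]
      exact Subgroup.orderOf_dvd_natCard _ hu
    exact ((Nat.dvd_prime hp.out).1 h2).resolve_left (by simpa using h1)
  rw [(h.of_orderOf ho).cent]
  exact zpowers_eq_of_card_eq_prime h.card_zpowers hu h1

theorem mem_principal (h : SelfCent p x) {M : Ideal AlgInt} (hM : IsPModular p M)
    {χ : IrrCharacter G} (hχ : ¬ p ∣ charDegree χ.1) : χ ∈ principalBlock M G := by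
  by_contra hn
  have h0 := ip_secOne_of_notMem hM x hn
  have hxp : x ^ p ^ 1 = 1 := by rw [pow_one, ← h.order, pow_orderOf_eq_one]
  have hx : IsPElt p x := isPElt_iff_pow_eq_one.2 ⟨1, hxp⟩
  have hC : HasNormalPComplement p (centralizer ({x} : Set G)) :=
    hasNormalPComplement_of_isPGroup (h.cent ▸ h.isPGroup)
  have hc : ∀ g ∈ pSection p x, χ.1 g = χ.1 x := by
    intro g hg
    rw [mem_pSection] at hg
    obtain ⟨c, hc⟩ := isConj_iff.1 hg
    have h1 : c * g * c⁻¹ ∈ centralizer ({x} : Set G) := by
      rw [mem_centralizer_singleton_iff, ← hc]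
      have := (commute_pPart_of_commute (p := p) (Commute.refl g)).eq
      calc c * g * c⁻¹ * (c * pPart p g * c⁻¹) = c * (g * pPart p g) * c⁻¹ := by group
        _ = c * (pPart p g * g) * c⁻¹ := by rw [this]
        _ = _ := by group
    rw [h.cent] at h1
    rw [pPart_eq_self_iff.2 (isPElt_conj_iff.1 (isPElt_of_mem h.isPGroup h1))] at hc
    rw [← hc]
    exact (χ.isCharacter.isClassFunction _ _).symm
  rw [ip_secOne_of_const hc, ip_secOne_one hx hC] at h0
  have h1 : χ.1 x = 0 := by
    rcases mul_eq_zero.1 h0 with e | e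
    · simpa using e
    · exact absurd e (inv_ne_zero (pow_ne_zero _ (Nat.cast_ne_zero.2 hp.out.ne_zero)))
  have := χ.isCharacter.int_modEq_charDegree hp.out hxp (m := 0) (by simpa using h1)
  exact hχ (Int.natCast_dvd_natCast.1 (by simpa using this.dvd))

/-- The sum of an irreducible character over the nontrivial elements of `⟨x⟩`. -/
theorem sum_cases (h : SelfCent p x) [Fintype (zpowers x)] {χ : IrrCharacter G}
    (hχ : ¬ p ∣ charDegree χ.1) :
    ∃ δ : ℤ, (δ = 1 ∨ δ = -1) ∧ (∑ u : zpowers x with u ≠ 1, χ u = δ * ((p : ℂ) - 1) ∨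
      ∑ u : zpowers x with u ≠ 1, χ u =
        δ * (zpowers x).relIndex (normalizer ((zpowers x : Subgroup G) : Set G))) := by
  obtain ⟨M, hM⟩ := exists_isPModular hp.out
  have hB := mem_principal h hM hχ
  letI : Fintype h.sylow := ‹Fintype (zpowers x)›
  haveI : IsCyclic h.sylow := (inferInstance : IsCyclic (zpowers x))
  obtain ⟨X, Y, δ, ζ, a, o, -, ha⟩ := exists_out_principal_cyclic hM h.sylow h.ne_bot
  have hs := excSys_principal_cyclic hM h.sylow h.ne_bot
  have hab : (h.sylow : Subgroup G) ≤ centralizer ((h.sylow : Subgroup G) : Set G) :=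
    h.centralizer_eq.ge
  have hd : ∀ u : zpowers x, u ≠ 1 →
      excDec (fun u : (h.sylow : Subgroup G) => secOne p (u : G)) χ.1 u = χ u := fun u hu =>
    excDec_principal hM hab (free_of_isCyclic_sylow hM h.sylow) hB hu
  have hcard : (Finset.univ.filter fun u : zpowers x => u ≠ 1).card = p - 1 := by
    rw [Finset.filter_ne', Finset.card_erase_of_mem (Finset.mem_univ _), Finset.card_univ,
      ← Nat.card_eq_fintype_card, h.card_zpowers]
  rw [o.union] at hB
  rcases hB with hX | hY
  · refine ⟨a χ, ha χ hX, Or.inl ?_⟩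
    rw [Finset.sum_congr rfl fun u hu => (hd u (Finset.mem_filter.1 hu).2).symm.trans
      (o.nonexc χ hX u (Finset.mem_filter.1 hu).2), Finset.sum_const, hcard, nsmul_eq_mul,
      Nat.cast_sub hp.out.one_le, Nat.cast_one, mul_comm]
  · obtain ⟨lam, hl, rfl⟩ := o.surj χ hY
    refine ⟨-δ, by rcases o.sign with e | e <;> simp [e], Or.inr ?_⟩
    rw [Finset.sum_congr rfl fun u hu => (hd u (Finset.mem_filter.1 hu).2).symm.trans
      (o.exc lam hl u (Finset.mem_filter.1 hu).2)]
    set E := autOf (h.sylow : Subgroup G).subtype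
      (normalizer (((h.sylow : Subgroup G)) : Set G)) with hE
    letI : Fintype E := Fintype.ofFinite _
    have h0 : ∑ u : (h.sylow : Subgroup G), osum E lam u = 0 := by
      simp only [hs.free.osum_eq hs.comm hl]
      rw [Finset.sum_comm]
      refine Finset.sum_eq_zero fun σ _ => ?_
      refine (Equiv.sum_comp σ.1.toEquiv (fun u => ((lam u : ℂˣ) : ℂ))).trans ?_
      exact sum_hom_units_eq_zero ((Units.coeHom ℂ).comp lam) fun e => hl (by
        ext u
        simpa using DFunLike.congr_fun e u)
    have h1 := hs.free.osum_one hs.comm hl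
    have h2 : Nat.card E = (zpowers x).relIndex (normalizer ((zpowers x : Subgroup G) : Set G)) := by
      rw [hE, card_autOf_subtype le_rfl]
      exact congrArg (fun K => relIndex K _) h.centralizer_eq
    rw [← Finset.add_sum_erase _ _ (Finset.mem_univ 1), h1, h2, ← Finset.filter_ne'] at h0
    simp only [Int.cast_zero, zero_add, Int.cast_neg]
    have h3 : ∑ u : zpowers x with u ≠ 1, osum E lam u =
        -((zpowers x).relIndex (normalizer ((zpowers x : Subgroup G) : Set G)) : ℂ) :=
      eq_neg_of_add_eq_zero_right h0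
    refine (Finset.mul_sum _ _ _).symm.trans ?_
    refine (congrArg ((δ : ℂ) * ·) h3).trans ?_
    ring

/-- A character without `⟨x⟩`-fixed points vanishes on `N(⟨x⟩) \ ⟨x⟩`. -/
theorem apply_eq_zero (h : SelfCent p x) {χ : G → ℂ} (hχ : IsCharacter G χ)
    (h0 : ip (χ ∘ (zpowers x).subtype) (IrrCharacter.one _).1 = 0) {y : G}
    (hy : y ∈ normalizer ((zpowers x : Subgroup G) : Set G)) (hy' : y ∉ zpowers x) : χ y = 0 := by
  letI : Fintype (zpowers x) := Fintype.ofFinite _
  have h1 := hχ.sum_conj_mul_apply_mul_eq_zero (zpowers x).subtype _ h0 y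
  let f : zpowers x → zpowers x := fun u =>
    ⟨y⁻¹ * u * y * u⁻¹, mul_mem ((mem_normalizer_iff''.1 hy u).1 u.2) (inv_mem u.2)⟩
  have hf : Function.Injective f := by
    intro u v huv
    have e : y⁻¹ * u * y * (u : G)⁻¹ = y⁻¹ * v * y * (v : G)⁻¹ := congrArg Subtype.val huv
    by_contra hne
    have hw : ((v⁻¹ * u : zpowers x) : G) ≠ 1 := by
      intro e'
      have : v⁻¹ * u = 1 := Subtype.ext e'
      exact hne (inv_mul_eq_one.1 this).symm
    apply hy'
    rw [← cent_eq h (v⁻¹ * u).2 hw, mem_centralizer_singleton_iff]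
    have e2 : (u : G) * y * (u : G)⁻¹ = v * y * (v : G)⁻¹ := by
      have := congrArg (y * ·) e
      simpa [mul_assoc] using this
    simp only [coe_mul, coe_inv]
    calc y * ((v : G)⁻¹ * u) = (v : G)⁻¹ * (v * y * (v : G)⁻¹) * u := by group
      _ = (v : G)⁻¹ * (u * y * (u : G)⁻¹) * u := by rw [e2]
      _ = _ := by group
  have hb : Function.Bijective f := Finite.injective_iff_bijective.1 hf
  rw [← hb.sum_comp] at h1
  have h2 : ∀ u : zpowers x, conj (IrrCharacter.one (zpowers x) (f u)) *
      χ (y * (zpowers x).subtype (f u)) = χ y := fun u => by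
    rw [IrrCharacter.one_apply, map_one, one_mul, ← hχ.isClassFunction y u]
    congr 1
    simp only [f, coe_subtype, coe_inv]
    group
  rw [Finset.sum_congr rfl fun u _ => h2 u, Finset.sum_const, nsmul_eq_mul, Finset.card_univ] at h1
  exact (mul_eq_zero.1 h1).resolve_left (Nat.cast_ne_zero.2 Fintype.card_ne_zero)

theorem exists_gen (h : SelfCent p x) :
    ∃ g ∈ normalizer ((zpowers x : Subgroup G) : Set G), ∀ k : ℕ, g ^ k ∈ zpowers x ↔
      (zpowers x).relIndex (normalizer ((zpowers x : Subgroup G) : Set G)) ∣ k := by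
  set N := normalizer ((zpowers x : Subgroup G) : Set G) with hN
  have hj : Function.Injective (zpowers x).subtype := subtype_injective _
  have hT : N ≤ normalizer (((zpowers x).subtype.range : Subgroup G) : Set G) := by
    rw [range_subtype]
  haveI : IsCyclic (MulAut (zpowers x)) := by
    haveI : Fact (Nat.card (zpowers x)).Prime := ⟨h.prime_card⟩
    exact isCyclic_of_surjective (IsCyclic.mulAutMulEquiv (zpowers x)).symm.toMonoidHom
      (IsCyclic.mulAutMulEquiv (zpowers x)).symm.surjective
  obtain ⟨σ, hσ⟩ := IsCyclic.exists_generator (α := (autHom hj hT).range)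
  obtain ⟨g, hg⟩ := σ.2
  refine ⟨g, g.2, fun k => ?_⟩
  have h1 : orderOf σ = (zpowers x).relIndex N := by
    rw [orderOf_eq_card_of_forall_mem_zpowers hσ, range_autHom, card_autOf_subtype le_rfl,
      h.centralizer_eq]
  rw [← h1, orderOf_dvd_iff_pow_eq_one, Subtype.ext_iff, coe_pow, ← hg, ← map_pow, OneMemClass.coe_one,
    ← MonoidHom.mem_ker, ker_autHom, mem_subgroupOf, range_subtype, h.centralizer_eq, coe_pow]

theorem det_eq {χ : G → ℂ} (hχ : IsCharacter G χ) {g : G} {n m : ℕ} (hn : orderOf g = n)
    (h1 : charDegree χ = n * m) (h0 : ∀ k : ℕ, ¬ n ∣ k → χ (g ^ k) = 0) (he : Even n)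
    (hm : Odd m) : detChar χ g = -1 := by
  have hn0 : n ≠ 0 := hn ▸ (orderOf_pos g).ne'
  have hω := Complex.isPrimitiveRoot_exp n hn0
  set ω := Complex.exp (2 * Real.pi * Complex.I / n)
  rw [hχ.detChar_eq_prod (ι := Fin m × Fin n) (fun i => ω ^ (i.2 : ℕ))
    (fun i => by rw [hn, ← pow_mul, mul_comm, pow_mul, hω.pow_eq_one, one_pow]) (fun k => ?_)]
  · rw [Fintype.prod_prod_type]
    dsimp only
    rw [Finset.prod_const, Finset.card_univ, Fintype.card_fin,
      Finset.prod_pow_eq_pow_sum, Fin.sum_univ_eq_sum_range (fun i => i), Finset.sum_range_id]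
    obtain ⟨r, rfl⟩ := he
    have hr : r ≠ 0 := by omega
    have e1 : (r + r) * (r + r - 1) / 2 = r * (r + r - 1) := by
      rw [← two_mul, mul_assoc, Nat.mul_div_cancel_left _ two_pos]
    have e2 : ω ^ r = -1 := by
      have : IsPrimitiveRoot (ω ^ r) 2 := hω.pow (by omega) (by ring)
      exact this.eq_neg_one_of_two_right
    rw [e1, pow_mul, e2, ← pow_mul]
    refine Odd.neg_one_pow (Odd.mul ?_ hm)
    exact ⟨r - 1, by omega⟩
  · rw [Fintype.sum_prod_type]
    dsimp only
    rw [Finset.sum_const, Finset.card_univ, Fintype.card_fin,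
      Fin.sum_univ_eq_sum_range (fun i => (ω ^ i) ^ k)]
    by_cases hk : n ∣ k
    · obtain ⟨c, rfl⟩ := hk
      have : g ^ (n * c) = 1 := by rw [pow_mul, ← hn, pow_orderOf_eq_one, one_pow]
      rw [this, hχ.apply_one, h1, Finset.sum_congr rfl (g := fun _ => (1 : ℂ)) fun i _ => by
        rw [← pow_mul, show i * (n * c) = n * (i * c) by ring, pow_mul, hω.pow_eq_one, one_pow]]
      simp [mul_comm]
    · rw [h0 k hk]
      have h2 : ω ^ k ≠ 1 := fun e => hk (hω.dvd_of_pow_eq_one k e)
      have h3 : ∑ i ∈ Finset.range n, (ω ^ i) ^ k = 0 := by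
        simp only [← pow_mul, mul_comm _ k]
        simp only [pow_mul]
        rw [geom_sum_eq h2, ← pow_mul, mul_comm, pow_mul, hω.pow_eq_one, one_pow, sub_self, zero_div]
      rw [h3, smul_zero]

/-- Let the finite group G contain an element x of prime order p with C_G(x) = ⟨x⟩, and let t be the number of conjugacy classes of elements of order p. If G has an irreducible character of degree p − 1, then t is even or the commutator subgroup has even index. -/
theorem result {G : Type*} [Group G] [Finite G] (p : ℕ) (hp : p.Prime) (x : G) (hx : orderOf x = p) (hC : Subgroup.centralizer ({x} : Set G) = Subgroup.zpowers x) (t : ℕ) (ht : Nat.card {C : ConjClasses G // ∃ g ∈ C.carrier, orderOf g = p} = t) (χ : Cfsg.IrrCharacter G) (hχ : Cfsg.charDegree (χ : G → ℂ) + 1 = p) : Even t ∨ Even (commutator G).index := by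
  haveI : Fact p.Prime := ⟨hp⟩
  have h : SelfCent p x := ⟨hx, hC⟩
  subst ht
  have hte := h.card_classes_mul
  set t := Nat.card {C : ConjClasses G // ∃ g ∈ C.carrier, orderOf g = p}
  set N := normalizer ((zpowers x : Subgroup G) : Set G) with hN
  set e := (zpowers x).relIndex N with he
  have hp2 := hp.two_le
  by_cases he1 : e = 1
  · have hNP : N = zpowers x := le_antisymm (relIndex_eq_one.1 he1) le_normalizer
    rcases hp.eq_two_or_odd' with rfl | ho
    · right
      rw [h.commutator_eq_pPrimeCore hNP, h.index_pPrimeCore hNP]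
      exact even_two
    · left
      rw [he1, mul_one] at hte
      rw [hte]
      exact Nat.Odd.sub_odd ho odd_one
  have he0 : e ≠ 0 := (relIndex_pos _ _).ne'
  have hed : e ≤ p - 1 := Nat.le_of_dvd (by omega) (Dvd.intro_left _ hte)
  rcases Nat.even_or_odd t with ht | ht
  · exact Or.inl ht
  right
  have hee : Even e := by
    have ho : Odd p := hp.odd_of_ne_two (by omega)
    have : Even (t * e) := hte ▸ Nat.Odd.sub_odd ho odd_one
    exact (Nat.even_mul.1 this).resolve_left (Nat.not_even_iff_odd.2 ht)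
  letI : Fintype (zpowers x) := Fintype.ofFinite _
  have hnd : ¬ p ∣ charDegree χ.1 := fun hd => by
    have := Nat.le_of_dvd χ.charDegree_pos hd
    change charDegree χ.1 + 1 = p at hχ
    omega
  have hdeg : χ.1 1 = (p : ℂ) - 1 := by
    rw [χ.isCharacter.apply_one, ← hχ]
    push_cast
    ring
  have h0 : ip (χ.1 ∘ (zpowers x).subtype) (IrrCharacter.one _).1 = 0 := by
    obtain ⟨m, hm⟩ := (χ.isCharacter.comp (zpowers x).subtype).exists_ip_eq_nat
      (IrrCharacter.one (zpowers x)).isCharacter
    rw [hm]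
    have h1 : (p : ℂ) * m = (p - 1) + ∑ u : zpowers x with u ≠ 1, χ u := by
      rw [← hm, ip_def, h.card_zpowers, mul_inv_cancel_left₀ (Nat.cast_ne_zero.2 hp.ne_zero),
        ← Finset.add_sum_erase _ _ (Finset.mem_univ 1), ← Finset.filter_ne', ← hdeg]
      simp
    obtain ⟨δ, hδ, h2 | h2⟩ := sum_cases h hnd
    · rw [h2] at h1
      have h3 : (p : ℤ) * m = (p - 1) + δ * (p - 1) := by exact_mod_cast h1
      rcases hδ with rfl | rfl
      · exfalso
        have h4 : (p : ℤ) ∣ 2 := ⟨2 - m, by linear_combination h3⟩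
        have := Int.le_of_dvd two_pos h4
        omega
      · have : (p : ℤ) * m = 0 := by linear_combination h3
        have : m = 0 := by
          rcases mul_eq_zero.1 this with e | e <;> omega
        simp [this]
    · rw [h2] at h1
      have h3 : (p : ℤ) * m = (p - 1) + δ * e := by exact_mod_cast h1
      have h4 : m = 0 := by
        rcases hδ with rfl | rfl
        · exfalso
          have h5 : m < 2 := by
            by_contra h6
            have : (p : ℤ) * 2 ≤ p * m := by gcongr; omega
            omega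
          interval_cases m <;> omega
        · by_contra h6
          have : (p : ℤ) * 1 ≤ p * m := by gcongr; omega
          omega
      simp [h4]
  obtain ⟨g, hg, hk⟩ := exists_gen h
  have hgP : g ∉ zpowers x := fun hh => he1 (Nat.dvd_one.1 ((hk 1).1 (by simpa using hh)))
  have hord : orderOf g = e := by
    refine Nat.dvd_antisymm ?_ ((hk _).1 (by rw [pow_orderOf_eq_one]; exact one_mem _))
    rw [orderOf_dvd_iff_pow_eq_one]
    by_contra hne
    apply hgP
    rw [← cent_eq h ((hk e).2 dvd_rfl) hne, mem_centralizer_singleton_iff]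
    exact (Commute.self_pow g e).eq
  have hdet : detChar χ.1 g = -1 :=
    det_eq χ.isCharacter hord (m := t) (by change charDegree χ.1 + 1 = p at hχ; rw [mul_comm]; omega)
      (fun k hk' => apply_eq_zero h χ.isCharacter h0 (pow_mem hg k) (mt (hk k).1 hk')) hee ht
  by_contra hodd
  have h5 := detOrder_dvd_iff.1 (detOrder_dvd_index_commutator χ.1) g
  rw [hdet, (Nat.not_even_iff_odd.1 hodd).neg_one_pow] at h5
  norm_num at h5

end Cfsg.Agent.S4508
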