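import Cfsg.Statements.S4509
import Cfsg.Agent.Grp.SelfCent

set_option autoImplicit false
open Cfsg

namespace Cfsg.Agent.S4509

open Subgroup

/-- Let the finite group G contain an element x of prime order p with C_G(x) = ⟨x⟩; let t be the number of conjugacy classes of elements of order p and 1 + n·p the number of subgroups of order p. Then G has a normal subgroup of order 1 + n·p if and only if either t = p − 1, or t < p − 1 and G″ ≠ G′. Moreover, if t = p − 1 then G′ has order 1 + n·p and G/G′ is cyclic of order p; and if t < p − 1 and G″ ≠ G′ then G″ has order 1 + n·p and G′ has order p·(1 + n·p). -/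
theorem result {G : Type*} [Group G] [Finite G] (p : ℕ) (hp : p.Prime) (x : G) (hx : orderOf x = p) (hC : Subgroup.centralizer ({x} : Set G) = Subgroup.zpowers x) (t : ℕ) (ht : Nat.card {C : ConjClasses G // ∃ g ∈ C.carrier, orderOf g = p} = t) (n : ℕ) (hn : Nat.card {H : Subgroup G // Nat.card H = p} = 1 + n * p) : ((∃ S : Subgroup G, S.Normal ∧ Nat.card S = 1 + n * p) ↔ (t = p - 1 ∨ (t < p - 1 ∧ derivedSeries G 2 ≠ derivedSeries G 1))) ∧ (t = p - 1 → Nat.card (commutator G) = 1 + n * p ∧ IsCyclic (G ⧸ commutator G) ∧ (commutator G).index = p) ∧ (t < p - 1 → derivedSeries G 2 ≠ derivedSeries G 1 → Nat.card (derivedSeries G 2) = 1 + n * p ∧ Nat.card (commutator G) = p * (1 + n * p)) := by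
  have : Fact p.Prime := ⟨hp⟩
  have h : SelfCent p x := ⟨hx, hC⟩
  subst ht
  rw [← hn, h.card_subgroups]
  set N := normalizer ((zpowers x : Subgroup G) : Set G) with hN
  have e1 : derivedSeries G 1 = commutator G := derivedSeries_one G
  have e2 : derivedSeries G 2 = ⁅commutator G, commutator G⁆ := by
    rw [derivedSeries_succ, e1]
  rw [e1, e2]
  have hrel : ∀ S : Subgroup G, S.Normal → ¬ p ∣ Nat.card S → N.relIndex S = Nat.card S :=
    fun S _ hS => by
      rw [← inf_relIndex_right, inf_comm, h.inf_normalizer_eq_bot hS le_normalizer_of_normal,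
        relIndex_bot_left]
  have h2 : Nat.card {C : ConjClasses G // ∃ g ∈ C.carrier, orderOf g = p} = p - 1 →
      Nat.card (commutator G) = N.index ∧ IsCyclic (G ⧸ commutator G) ∧
        (commutator G).index = p := fun ht => by
    have h1 := h.card_classes_eq_iff.mp ht
    have h3 : (commutator G).index = p := by
      rw [h.commutator_eq_pPrimeCore h1, h.index_pPrimeCore h1]
    refine ⟨Nat.eq_of_mul_eq_mul_right hp.pos ?_, isCyclic_of_prime_card h3, h3⟩
    rw [hN, h1, h.index_zpowers_mul, ← h3, card_mul_index]
  have h3 : Nat.card {C : ConjClasses G // ∃ g ∈ C.carrier, orderOf g = p} < p - 1 →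
      ⁅commutator G, commutator G⁆ ≠ commutator G →
      Nat.card (⁅commutator G, commutator G⁆ : Subgroup G) = N.index ∧
        Nat.card (commutator G) = p * N.index := fun ht hne => by
    have h1 := h.le_commutator_of_ne (mt h.card_classes_eq_iff.mpr ht.ne)
    have hx' := h1 (mem_zpowers x)
    have hS := not_dvd_card_pPrimeCore p G
    have h4 : commutator (commutator G) = (pPrimeCore p G).subgroupOf (commutator G) :=
      (h.eq_or_eq_top hx' _ (pPrimeCore_eq_subgroupOf_of_normal (p := p) (commutator G) ▸
        (h.subgroup hx').pPrimeCore_le_commutator)).resolve_right fun e => hne (by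
          rw [← map_subtype_commutator, e, ← MonoidHom.range_eq_map, range_subtype])
    have h5 : ⁅commutator G, commutator G⁆ = pPrimeCore p G := by
      rw [← map_subtype_commutator, h4, map_subgroupOf_eq_of_le h.pPrimeCore_le_commutator]
    have h6 : zpowers x ⊔ pPrimeCore p G = commutator G := by
      have hle : zpowers x ⊔ pPrimeCore p G ≤ commutator G := sup_le h1 h.pPrimeCore_le_commutator
      have : ((zpowers x ⊔ pPrimeCore p G).subgroupOf (commutator G)).Normal :=
        Normal.of_commutator_le _ (h4 ▸ comap_mono le_sup_right)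
      rcases h.eq_or_eq_top hx' ((zpowers x ⊔ pPrimeCore p G).subgroupOf (commutator G))
        (comap_mono le_sup_right) with e | e
      · have : (⟨x, hx'⟩ : commutator G) ∈ (pPrimeCore p G).subgroupOf (commutator G) :=
          e ▸ mem_sup_left (mem_zpowers x)
        exact absurd (h.dvd_of_le (zpowers_le.mpr this)) hS
      · exact le_antisymm hle (subgroupOf_eq_top.mp e)
    have h7 : Nat.card (pPrimeCore p G) = N.index := by
      rw [← hrel _ inferInstance hS, ← relIndex_sup_normal_eq_relIndex, ← relIndex_top_right,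
        ← h.normalizer_sup_eq_top h1, ← h6, ← sup_assoc, sup_eq_left.mpr (le_normalizer : zpowers x ≤ _)]
    refine ⟨h5 ▸ h7, ?_⟩
    rw [← h6, card_sup_of_le_normalizer_of_disjoint le_normalizer_of_normal
      (inf_eq_bot_of_isPGroup_of_not_dvd h.isPGroup hS), h.card_zpowers, h7]
  refine ⟨⟨fun ⟨S, hS, hc⟩ => ?_, ?_⟩, h2, h3⟩
  · have ht := Nat.le_of_dvd (Nat.sub_pos_of_lt hp.one_lt) (Dvd.intro _ h.card_classes_mul)
    refine ht.eq_or_lt.imp_right fun ht => ⟨ht, fun e => ?_⟩
    have h1 := h.le_commutator_of_ne (mt h.card_classes_eq_iff.mpr ht.ne)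
    have hSp : ¬ p ∣ Nat.card S := hc ▸ not_dvd_index_of_sylow_le h.sylow le_normalizer
    have h4 : N ⊔ S = ⊤ := by
      have := relIndex_mul_index (le_sup_left : N ≤ N ⊔ S)
      rw [relIndex_sup_normal_eq_relIndex, hrel S hS hSp, hc, mul_eq_left₀ (index_pos _).ne'] at this
      exact index_eq_one.mp this
    have hsurj := QuotientGroup.mk'_surjective S
    have h5 : (commutator G).map (QuotientGroup.mk' S) ≤ (zpowers x).map (QuotientGroup.mk' S) := by
      rw [_root_.commutator_def, map_commutator, map_top_of_surjective _ hsurj,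
        ← map_mk'_eq_top_iff.mpr h4, ← map_commutator]
      exact map_mono h.commutator_normalizer_le
    have h6 : ⁅commutator G, commutator G⁆ ≤ S := by
      rw [← map_mk'_eq_bot_iff, map_commutator, eq_bot_iff]
      exact (commutator_mono h5 h5).trans (commutator_self_eq_bot_iff.mpr inferInstance).le
    exact hSp (h.dvd_of_le (h1.trans (e ▸ h6)))
  · rintro (ht | ⟨ht, hne⟩)
    · exact ⟨_, inferInstance, (h2 ht).1⟩
    · exact ⟨_, inferInstance, (h3 ht hne).1⟩

end Cfsg.Agent.S4509
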