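import Cfsg.Statements.S4510
import Cfsg.Agent.Blk.Contrib

set_option autoImplicit false
open Cfsg

namespace Cfsg.Agent.S4510

/-- Let G be a finite group, p a prime, M a maximal ideal of the algebraic integers containing p, and call the defect of a conjugacy class the exponent of p in the order of the centralizer of its elements. Two irreducible characters lying in p-blocks of defect exactly d lie in the same block if and only if their central characters (class size times χ(x)/χ(1)) agree modulo the local ideal at M at every p-regular element x whose class has defect exactly d. -/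
theorem result {G : Type*} [Group G] [Finite G] (p : ℕ) [Fact p.Prime] (M : Ideal Cfsg.AlgInt) (hM : Cfsg.IsPModular p M) (d : ℕ) (χ ψ : Cfsg.IrrCharacter G) (hχ : Cfsg.blockDefect p (Cfsg.blockOf M (χ : G → ℂ)) = d) (hψ : Cfsg.blockDefect p (Cfsg.blockOf M (ψ : G → ℂ)) = d) : Cfsg.SameBlock M (χ : G → ℂ) (ψ : G → ℂ) ↔ ∀ x : G, ¬ p ∣ orderOf x → (Nat.card (Subgroup.centralizer ({x} : Set G))).factorization p = d → Cfsg.MemLocalIdeal M (Cfsg.centralChar (χ : G → ℂ) x - Cfsg.centralChar (ψ : G → ℂ) x) := by
  refine ⟨fun h x _ _ => h x, fun h => ?_⟩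
  have := Fintype.ofFinite (ConjClasses G)
  have hB := isPBlock_blockOf (M := M) χ
  have hB' := isPBlock_blockOf (M := M) ψ
  by_contra hne
  have h1 := hB.lam_blockIdem_of_mem hM (hM.mem_blockOf_self χ)
  have h0 := hB.lam_blockIdem_of_notMem hM (χ := ψ) hne
  refine one_ne_zero (h1.symm.trans (Eq.trans ?_ h0))
  rw [lam_apply, lam_apply]
  refine Finset.sum_congr rfl fun K _ => ?_
  simp only [coeff_blockIdem]
  by_cases hK : ¬ p ∣ orderOf K.out ∧
      (Nat.card (Subgroup.centralizer ({K.out} : Set G))).factorization p = d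
  · rw [(hM.memLocalIdeal_sub_iff (centralChar_mem_locO χ _) (centralChar_mem_locO ψ _)
      (χ.isAlgebraic_centralChar _) (ψ.isAlgebraic_centralChar _)).1 (h _ hK.1 hK.2)]
  · have e1 : red M (blockCoeff (blockOf M χ.1) K.out) * red M (centralChar χ.1 K.out) = 0 := by
      by_contra hc
      have := hB.red_mul_red_ne_zero hB hM (hM.mem_blockOf_self χ) hc
      exact hK ⟨this.1, by omega⟩
    have e2 : red M (blockCoeff (blockOf M χ.1) K.out) * red M (centralChar ψ.1 K.out) = 0 := by
      by_contra hc
      have := hB.red_mul_red_ne_zero hB' hM (hM.mem_blockOf_self ψ) hc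
      exact hK ⟨this.1, by omega⟩
    rw [e1, e2]

end Cfsg.Agent.S4510
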