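import Cfsg.Statements.S4512
import Cfsg.Agent.Blk.PrinDih

set_option autoImplicit false
open Cfsg

namespace Cfsg.Agent.S4512

/-- If G is a finite group with a Sylow 2-subgroup that is a Klein four-group and a single conjugacy class of involutions, then its principal 2-block (relative to a maximal ideal M of the algebraic integers containing 2) has 2-regular rank 3: the restrictions of its irreducible characters to the elements of odd order span a space of dimension 3 (it has three irreducible Brauer characters). -/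
theorem result {G : Type*} [Group G] [Finite G] (M : Ideal Cfsg.AlgInt) (hM : Cfsg.IsPModular 2 M) (P : Sylow 2 G)
    (hP : Nat.card P = 4) (hexp : ∀ x : P, x * x = 1)
    (hone : ∀ s t : G, orderOf s = 2 → orderOf t = 2 → IsConj s t) :
    Cfsg.blockRank 2 (Cfsg.principalBlock M G) = 3 := by
  classical
  have hexp' : ∀ x ∈ (P : Subgroup G), x * x = 1 := fun x hx =>
    congrArg Subtype.val (hexp ⟨x, hx⟩)
  have hP' : Nat.card (P : Subgroup G) = 4 := hP
  obtain ⟨J, hJ, hJ1⟩ : ∃ J ∈ (P : Subgroup G), J ≠ 1 := by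
    by_contra hc
    push Not at hc
    have : (P : Subgroup G) = ⊥ := (Subgroup.eq_bot_iff_forall _).2 hc
    rw [this] at hP'
    simp at hP'
  have hJ2 := orderOf_eq_two_of_mul_self (hexp' J hJ) hJ1
  obtain ⟨τ, h⟩ := exists_isDihPair_of_card_four hP' hexp' hJ hJ2
  have hm := Subgroup.mem_zpowers J
  have hinv : J⁻¹ = J := inv_eq_of_mul_eq_one_right (hexp' J hJ)
  have h1 := h.finsum_mul hM P.isPGroup' P.not_dvd_index hm hJ2 hm hm hJ1
  rw [hJ2, hinv, if_pos rfl, finsum_mem_irr_eq_sum] at h1
  have hC := h.hasNormalPComplement P.isPGroup' P.not_dvd_index hm hJ2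
  have hf : ((2 : ℕ) : ℂ) ^ (Nat.card (Subgroup.centralizer ({J} : Set G))).factorization 2 = 4 := by
    have := h.factorization_centralizer_J P.isPGroup' P.not_dvd_index hm hJ2
    rw [hJ2] at this
    exact_mod_cast this
  have h2 : ∀ χ ∈ principalBlock M G, ip (pRegularPart 2 χ.1) χ.1 = 1 - χ J * χ J / 4 := by
    intro χ hχ
    have e : pRegularPart 2 χ.1 = χ.1 - χ J • secOne 2 J := by
      funext g
      by_cases hg : IsPRegular 2 g
      · have : g ∉ pSection 2 J := by
          rw [mem_pSection, pPart_eq_one_iff.2 hg, isConj_one_right]; exact hJ1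
        simp [pRegularPart, hg, secOne_of_notMem this]
      · obtain ⟨a, ha, hc⟩ := h.exists_isConj P.isPGroup' P.not_dvd_index hm
          (fun t ht => hone J t hJ2 ht) (isPElt_pPart 2 g)
        rcases eq_one_or_eq_of_mem_zpowers_of_orderOf_two hJ2 ha with rfl | rfl
        · exact absurd (pPart_eq_one_iff.1 (isConj_one_left.1 hc)) hg
        · have := irr_apply_of_mem_pSection hM (isPElt_two_of_orderOf hJ2) hC hχ hc
          simp [pRegularPart, hg, secOne_of_mem (mem_pSection.2 hc), this]
    rw [e, ip_sub_left, ip_smul_left, χ.ip_self,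
      ip_secOne_irr hM (isPElt_two_of_orderOf hJ2) hC hχ, hf, h.conj_irr_apply χ hm, mul_div_assoc]
  have h3 := isPBlock_principalBlock.blockRank_eq_finsum (G := G) hM
  rw [finsum_mem_irr_eq_sum, Finset.sum_congr rfl fun χ hχ => h2 χ (Finset.mem_filter.1 hχ).2,
    Finset.sum_sub_distrib, ← Finset.sum_div, h1] at h3
  have hz : ∀ χ : IrrCharacter G, ∃ z : ℤ, χ J = z := fun χ => by
    obtain ⟨z, hz, -⟩ := χ.isCharacter.exists_int_of_sq_eq_one (g := J)
      (by rw [pow_two, hexp' J hJ])
    exact ⟨z, hz⟩
  choose z hz using hz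
  set B := Finset.univ.filter (· ∈ principalBlock M G) with hB
  have hone' : IrrCharacter.one G ∈ B := by simpa [hB] using hM.one_mem_principalBlock
  have h4 : ∑ χ ∈ B, z χ * z χ = 4 := by
    simp only [hz] at h1
    have : ((∑ χ ∈ B, z χ * z χ : ℤ) : ℂ) = (4 : ℤ) := by
      push_cast; rw [h1]; norm_num
    exact_mod_cast this
  have hz1 : z (IrrCharacter.one G) = 1 := by
    have := hz (IrrCharacter.one G)
    rw [IrrCharacter.one_apply] at this
    exact_mod_cast this.symm
  rw [← Finset.add_sum_erase _ _ hone', hz1] at h4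
  have h5 : ∀ χ ∈ B.erase (IrrCharacter.one G), z χ * z χ = 1 := by
    intro χ hχ
    have a1 : z χ * z χ ≤ 3 := by
      have := Finset.single_le_sum (f := fun χ => z χ * z χ) (fun ψ _ => mul_self_nonneg _) hχ
      omega
    have a2 : z χ ≠ 0 := by
      intro h0
      have := h.irr_apply_ne_zero hM P.isPGroup' P.not_dvd_index hm hJ2
        (Finset.mem_filter.1 (Finset.mem_of_mem_erase hχ)).2
      rw [hz, h0] at this
      simp at this
    have a3 : z χ ≤ 1 := by nlinarith
    have a4 : -1 ≤ z χ := by nlinarith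
    rcases (by omega : z χ = 1 ∨ z χ = -1) with a | a <;> rw [a] <;> norm_num
  rw [Finset.sum_congr rfl h5, Finset.sum_const, Finset.card_erase_of_mem hone'] at h4
  have h6 : B.card = 4 := by
    have := Finset.card_pos.2 ⟨_, hone'⟩
    simp only [nsmul_eq_mul, mul_one] at h4
    omega
  rw [Finset.sum_const, h6] at h3
  have : (blockRank 2 (principalBlock M G) : ℂ) = (3 : ℕ) := by rw [h3]; norm_num
  exact_mod_cast this

end Cfsg.Agent.S4512
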