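import Cfsg.Statements.S4513
import Cfsg.Agent.Blk.RankOne

set_option autoImplicit false
open Cfsg

namespace Cfsg.Agent.S4513

theorem aux {G H : Type*} [Group G] [Finite G] [Group H] [Finite H]
    {M : Ideal AlgInt} (hM : IsPModular 2 M) {f : H →* G} {x : G} (h : IsSec 2 f x)
    (hx : orderOf x = 2) {B : Set (IrrCharacter G)} {b : Set (IrrCharacter H)}
    (hi : Induces M f b B) (hd : blockDefect 2 B = 1) {θ : IrrCharacter H} (hθ : θ ∈ b) :
    ∃ χ₁ ∈ B, ∃ χ₂ ∈ B, χ₁ ≠ χ₂ ∧ ∃ ε₁ ε₂ : ℤ, (ε₁ = 1 ∨ ε₁ = -1) ∧ (ε₂ = 1 ∨ ε₂ = -1) ∧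
      ε₁ * ε₂ = -1 ∧ ∀ y : H, ¬ 2 ∣ orderOf y →
        χ₁ (x * f y) = (ε₁ : ℂ) * θ y ∧ χ₂ (x * f y) = (ε₂ : ℂ) * θ y := by
  classical
  have hB := hi.right
  obtain ⟨φ, -, -, hφ⟩ := hB.exists_ibr_of_defect_one hM hd
  have h2 := hB.card_eq_two_of_defect_one hM hd
  rw [Nat.card_coe_set_eq, Set.ncard_eq_two] at h2
  obtain ⟨χ₁, χ₂, hne, hBe⟩ := h2
  have h1 : χ₁ ∈ B := by simp [hBe]
  have h2 : χ₂ ∈ B := by simp [hBe]
  obtain ⟨z, hz⟩ := h.exists_eq
  have hx1 : x ≠ 1 := by rintro rfl; simp at hx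
  have hdb : blockDefect 2 b = 1 := by
    refine le_antisymm (hd ▸ hi.blockDefect_le hM h.inj) (Nat.pos_of_ne_zero fun h0 => ?_)
    have h3 := (θ.defect_zero_iff_vanish (p := 2)).1 (IsPBlock.blockDefect_singleton
      (hi.left.eq_singleton_of_defect_zero hM h0 hθ ▸ hi.left) hM) z
      (by rw [← orderOf_injective f h.inj z, hz, hx])
    have h4 := θ.div_pow_eq_one_of_mem_center (h.mem_center hz) (pow_orderOf_eq_one z)
    rw [h3, zero_div, zero_pow (orderOf_pos z).ne'] at h4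
    exact zero_ne_one h4
  obtain ⟨μ, -, hμ, hμ'⟩ := hi.left.exists_ibr_of_defect_one hM hdb
  have hη := pRegularPart_mem_regLat (p := 2) hθ
  set Θ := secInd 2 f x (pRegularPart 2 θ.1) with hΘ
  have hΘB : Θ = ip Θ χ₁.1 • χ₁.1 + ip Θ χ₂.1 • χ₂.1 := by
    refine (blockPart_eq_sum_of_eq (h.blockPart_secInd_of_induces hM hi
      (hi.left.regLat_blockPart hM hη))).trans ?_
    rw [show (Finset.univ.filter (· ∈ B)) = {χ₁, χ₂} by ext; simp [hBe], Finset.sum_pair hne]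
  have hdeg : χ₂ 1 = χ₁ 1 := by
    rw [← pRegularPart_apply_one (p := 2) χ₂.1, ← pRegularPart_apply_one (p := 2) χ₁.1, hφ _ h1,
      hφ _ h2]
  have ha : ip Θ χ₂.1 = -ip Θ χ₁.1 := by
    have h3 := (h.secInd_apply_of_notMem _ (g := 1)
      (by simpa [mem_pSection] using hx1.symm)).symm.trans (congrFun hΘB 1)
    simp only [Pi.add_apply, Pi.smul_apply, smul_eq_mul, hdeg, ← add_mul] at h3
    exact eq_neg_of_add_eq_zero_right ((mul_eq_zero.1 h3.symm).resolve_right χ₁.apply_one_ne_zero)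
  obtain ⟨ε, hε⟩ : ∃ ε : ℤ, 2 * ip Θ χ₁.1 = ε := by
    rw [hΘ, ip_secInd_irr, pRegularPart_idem, h.secFun_eq_sum hz χ₁.isClassFunction, ip_sum_right,
      Finset.mul_sum]
    refine (Int.castRingHom ℂ).mem_range.1 (sum_mem fun ψ _ => ?_) |>.imp fun _ h => h.symm
    obtain ⟨a, ha⟩ := exists_int_contrib (p := 2) hθ ψ
    obtain ⟨c, hc⟩ := (χ₁.isCharacter.comp f).exists_ip_eq_nat ψ.isCharacter
    have h4 := h.div_pow_orderOf hz ψ
    rw [hdb, pow_one, Nat.cast_ofNat] at ha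
    rw [ip_smul_right, mul_left_comm, ha, hc]
    rw [hx] at h4
    rcases sq_eq_one_iff.1 h4 with h5 | h5 <;> rw [h5]
    · exact ⟨c * a, by simp⟩
    · exact ⟨-c * a, by simp⟩
  have hε1 : ε * ε = 1 := by
    have h3 := h.ip_secInd_secInd (pRegularPart 2 θ.1) (regLat_isClassFunction hη)
    rw [← hΘ, pRegularPart_idem, hμ' θ hθ] at h3
    have h4 : ip Θ χ₁.1 = ε / 2 := by rw [← hε]; ring
    rw [hΘB, ha, h4] at h3
    simp only [ip_add_left, ip_add_right, ip_smul_left, ip_smul_right, IrrCharacter.ip_self,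
      IrrCharacter.ip_of_ne hne, IrrCharacter.ip_of_ne hne.symm, map_neg, map_div₀, map_intCast,
      map_ofNat] at h3
    apply Int.cast_injective (α := ℂ)
    push_cast
    linear_combination 2 * h3 + hμ
  refine ⟨χ₁, h1, χ₂, h2, hne, ε, -ε, Int.eq_one_or_neg_one_of_mul_eq_one hε1,
    Int.eq_one_or_neg_one_of_mul_eq_one (v := -ε) (by rw [neg_mul_neg, hε1]),
    by rw [mul_neg, hε1], fun y hy => ?_⟩
  have h3 := (h.secInd_apply (regLat_isClassFunction hη) hy).symm.trans (congrFun hΘB (x * f y))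
  rw [pRegularPart_of_not_dvd _ hy, ha] at h3
  have h4 := hB.finsum_mul_conj_eq_zero' hM (g := x * f y) (h := 1) (by
    rw [h.pPart_eq hy]; simpa using hx1)
  rw [hBe, finsum_mem_pair hne, hdeg, ← add_mul] at h4
  have h5 := (mul_eq_zero.1 h4).resolve_right (by simpa using χ₁.apply_one_ne_zero)
  have h6 : (ε : ℂ) * ε = 1 := by exact_mod_cast hε1
  simp only [Pi.add_apply, Pi.smul_apply, smul_eq_mul] at h3
  push_cast
  constructor
  · linear_combination -(ε : ℂ) * h3 + ε * ip Θ χ₁.1 * h5 - ε * χ₁ (x * f y) * hε -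
      χ₁ (x * f y) * h6
  · linear_combination (ε : ℂ) * h3 + ε * ip Θ χ₁.1 * h5 - ε * χ₂ (x * f y) * hε -
      χ₂ (x * f y) * h6

/-- Blocks of defect one for p = 2. Let M be a maximal ideal of the algebraic integers containing 2, B a 2-block of the finite group G whose defect group is the subgroup generated by an involution x, C = C_G(x), b a block of C inducing B and θ a member of b taking the same value at x as at 1 (there is exactly one). Then B consists of exactly two irreducible characters, which agree on every element of odd order, and they can be labelled χ₁, χ₂ with signs ε₁, ε₂ = ±1, ε₁ε₂ = −1, such that χᵢ(x y) = εᵢ θ(y) for every element y of C of odd order. -/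
theorem result {G : Type*} [Group G] [Finite G] (M : Ideal Cfsg.AlgInt) (hM : Cfsg.IsPModular 2 M) (x : G) (hx : orderOf x = 2)
    (B : Set (Cfsg.IrrCharacter G)) (hB : Cfsg.IsPBlock M B) (hBD : Cfsg.IsDefectGroup 2 M B (Subgroup.zpowers x))
    (b : Set (Cfsg.IrrCharacter ↥(Subgroup.centralizer ({x} : Set G)))) (hb : Cfsg.IsInducedBlock M (Subgroup.centralizer ({x} : Set G)) b B)
    (θ : Cfsg.IrrCharacter ↥(Subgroup.centralizer ({x} : Set G))) (hθ : θ ∈ b)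
    (hθx : ∀ z : ↥(Subgroup.centralizer ({x} : Set G)), (z : G) = x → (θ : ↥(Subgroup.centralizer ({x} : Set G)) → ℂ) z = (θ : ↥(Subgroup.centralizer ({x} : Set G)) → ℂ) 1) :
    Nat.card B = 2 ∧ (∀ χ ∈ B, ∀ ψ ∈ B, ∀ g : G, ¬ 2 ∣ orderOf g → (χ : G → ℂ) g = (ψ : G → ℂ) g) ∧
      ∃ χ₁ ∈ B, ∃ χ₂ ∈ B, χ₁ ≠ χ₂ ∧ ∃ ε₁ ε₂ : ℤ, (ε₁ = 1 ∨ ε₁ = -1) ∧ (ε₂ = 1 ∨ ε₂ = -1) ∧ ε₁ * ε₂ = -1 ∧
        ∀ y : ↥(Subgroup.centralizer ({x} : Set G)), ¬ 2 ∣ orderOf y →
          (χ₁ : G → ℂ) (x * y) = (ε₁ : ℂ) * (θ : ↥(Subgroup.centralizer ({x} : Set G)) → ℂ) y ∧ (χ₂ : G → ℂ) (x * y) = (ε₂ : ℂ) * (θ : ↥(Subgroup.centralizer ({x} : Set G)) → ℂ) y := by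
  have hd : blockDefect 2 B = 1 := Nat.pow_right_injective le_rfl (by
    simp only [← hBD.card_eq hB hM, Nat.card_zpowers, hx])
  obtain ⟨φ, -, -, hφ⟩ := hB.exists_ibr_of_defect_one hM hd
  refine ⟨hB.card_eq_two_of_defect_one hM hd, fun χ hχ ψ hψ g hg => ?_,
    aux hM (isSec_centralizer ⟨1, by rw [hx, pow_one]⟩) hx ((isInducedBlock_iff hM).1 hb) hd hθ⟩
  rw [← pRegularPart_of_not_dvd χ.1 hg, ← pRegularPart_of_not_dvd ψ.1 hg, hφ χ hχ, hφ ψ hψ]

end Cfsg.Agent.S4513
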