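import Cfsg.Agent.Mod.AbLocal
-- Template for statement S4633 (row 4633; see /opt/grader/pristine/manifest.json for weights).
-- Copy to Cfsg/Agent/S4633.lean and replace the sorry. The statement below is byte-identical to the frozen
-- statement Cfsg.CfsgFrozen.S4633 (Cfsg/Statements/S4633.lean; the theorem Cfsg.blk6_cyclic_defect_inertial_quotient_structure);
-- the grader kernel-checks Cfsg.Agent.S4633.result against that frozen type. Keep the theorem IN THIS FILE
-- (a `result` declared elsewhere and merely imported here is not credited); helpers may live anywhere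
-- under Cfsg/Agent/.
import Cfsg.Statements.S4633
-- import your own Cfsg.Agent.* helpers here

set_option autoImplicit false
open Cfsg

namespace Cfsg.Agent.S4633

/-- Let B be a block of the finite group G relative to a maximal ideal M of the algebraic integers containing the prime p, with a nontrivial cyclic defect group P. Let c be a block of C_G(P) inducing B and T the stabilizer of c in N_G(P) (the elements of N_G(P) conjugating c to itself); T contains C_G(P). Then T/C_G(P) is cyclic of order dividing p − 1, and it acts freely on the non-identity elements of P: an element of T fixing some non-identity element of P under conjugation lies in C_G(P). -/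
theorem result {G : Type*} [Group G] [Finite G] (p : ℕ) [Fact p.Prime] (M : Ideal Cfsg.AlgInt) (hM : Cfsg.IsPModular p M) (B : Set (Cfsg.IrrCharacter G)) (hB : Cfsg.IsPBlock M B) (P : Subgroup G) (hPD : Cfsg.IsDefectGroup p M B P) (hP1 : P ≠ ⊥) (hcyc : IsCyclic P) (c : Set (Cfsg.IrrCharacter (Subgroup.centralizer (P : Set G)))) (hc : Cfsg.IsInducedBlock M (Subgroup.centralizer (P : Set G)) c B) (T : Subgroup G) (hT : ∀ g : G, g ∈ T ↔ (g ∈ Subgroup.normalizer (P : Set G) ∧ Cfsg.StabilizesBlock (Subgroup.centralizer (P : Set G)) c g)) [hn : ((Subgroup.centralizer (P : Set G)).subgroupOf T).Normal] : IsCyclic (T ⧸ (Subgroup.centralizer (P : Set G)).subgroupOf T) ∧ (Subgroup.centralizer (P : Set G)).relIndex T ∣ p - 1 ∧ ∀ g ∈ T, ∀ x ∈ P, x ≠ 1 → g * x * g⁻¹ = x → g ∈ Subgroup.centralizer (P : Set G) := by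
  obtain ⟨hc', hP⟩ := hc.isMaxPair_sub hM hPD
  obtain rfl := hc'.eq_normalizer_inf_cjStab hM hT
  obtain ⟨μ, hμ⟩ := hP.inertial_of_isCyclic hM hP1
  refine ⟨?_, ?_, fun g hg x hx hx1 h => hP.stab_inf_centralizer_le hM (Subgroup.zpowers_le.2 hx)
    (by simpa using hx1) ⟨hg, GA.mem_centralizer_sub_conj'.2 ?_⟩⟩
  · exact isCyclic_of_injective (QuotientGroup.lift _ μ fun x hx => by rwa [← hμ] at hx)
      ((QuotientGroup.injective_lift_iff ..).2 hμ.symm)
  · rw [Subgroup.relIndex, ← hμ, Subgroup.index_ker, ← ZMod.card_units p,
      ← Nat.card_eq_fintype_card]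
    exact Subgroup.card_subgroup_dvd_card _
  · rintro _ ⟨t, rfl⟩
    simp only
    rw [← conj_zpow, h]

end Cfsg.Agent.S4633
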