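import Cfsg.Statements.S4634
import Cfsg.Agent.Blk.FrobPrinCyc
-- import your own Cfsg.Agent.* helpers here

set_option autoImplicit false
open Cfsg

namespace Cfsg.Agent.S4634

/-- Let B be a block of the finite group G relative to a maximal ideal M of the algebraic integers containing the prime p, with a nontrivial cyclic defect group P, let c be a block of C_G(P) inducing B, T the stabilizer of c in N_G(P) and e the index of C_G(P) in T. Let F be any finite group of order #P · e having a cyclic subgroup Q of order #P that is its own centralizer (F is then the semidirect product of Q by a cyclic group of order e acting faithfully). Then there is a perfect isometry from the set of all irreducible characters of F onto B whose signs agree on all the characters of F that do not contain Q in their kernel. -/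
theorem result {G : Type*} [Group G] [Finite G] (p : ℕ) [Fact p.Prime] (M : Ideal Cfsg.AlgInt) (hM : Cfsg.IsPModular p M) (B : Set (Cfsg.IrrCharacter G)) (hB : Cfsg.IsPBlock M B) (P : Subgroup G) (hPD : Cfsg.IsDefectGroup p M B P) (hP1 : P ≠ ⊥) (hcyc : IsCyclic P) (c : Set (Cfsg.IrrCharacter (Subgroup.centralizer (P : Set G)))) (hc : Cfsg.IsInducedBlock M (Subgroup.centralizer (P : Set G)) c B) (T : Subgroup G) (hT : ∀ g : G, g ∈ T ↔ (g ∈ Subgroup.normalizer (P : Set G) ∧ Cfsg.StabilizesBlock (Subgroup.centralizer (P : Set G)) c g)) (e : ℕ) (he : (Subgroup.centralizer (P : Set G)).relIndex T = e) (F : Type*) [Group F] [Finite F] (hF : Nat.card F = Nat.card P * e) (Q : Subgroup F) (hQ : IsCyclic Q) (hQcard : Nat.card Q = Nat.card P) (hQC : Subgroup.centralizer (Q : Set F) = Q) : ∃ (I : Cfsg.IrrCharacter F → Cfsg.IrrCharacter G) (ε : Cfsg.IrrCharacter F → ℤ), Cfsg.IsPerfectIsometry p M (Set.univ : Set (Cfsg.IrrCharacter F)) B I ε ∧ ∀ η η' : Cfsg.IrrCharacter F, (∃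 x ∈ Q, (η : F → ℂ) x ≠ (η : F → ℂ) 1) → (∃ x ∈ Q, (η' : F → ℂ) x ≠ (η' : F → ℂ) 1) → ε η = ε η' := by
  classical
  let _ := Fintype.ofFinite Q
  have hp : p.Prime := Fact.out
  have hi := (Cfsg.isInducedBlock_iff hM).1 hc
  have hP := hi.isMaxPair hM hPD
  obtain rfl := hi.left.eq_normalizer_inf_cjStab hM hT
  let ι : Q ≃* P := mulEquivOfCyclicCardEq hQcard
  obtain ⟨S, X, Y, δ, ζ, α, h, -, o, h1, h2⟩ := hP.exists_out_cyclic hM hB hP1
    (j := P.subtype.comp ι.toMonoidHom) ι (fun _ => rfl)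
  have hE := (Cfsg.card_autOf_of_equiv (j := P.subtype.comp ι.toMonoidHom) ι (fun _ => rfl)
    inf_le_left).trans he
  have h5 := h.free.card_dvd_sub_one h.pgroup h.nontriv
  rw [hE] at h5
  have hep : e < p := by
    have := Nat.le_of_dvd (by have := hp.two_le; omega) h5
    have := hp.two_le
    omega
  have hidx : Q.index = e := by
    have := Q.card_mul_index
    rw [hF, hQcard] at this
    exact Nat.eq_of_mul_eq_mul_left Nat.card_pos this
  have he0 : 0 < e := hidx ▸ Nat.pos_of_ne_zero Subgroup.index_ne_zero_of_finite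
  obtain ⟨R, rfl⟩ : ∃ R : Sylow p F, (R : Subgroup F) = Q :=
    ⟨h.pgroup.toSylow (by rw [hidx]; exact Nat.not_dvd_of_pos_of_lt he0 hep), rfl⟩
  have hR : (R : Subgroup F).Normal := by
    have h3 := card_sylow_modEq_one p F
    have h4 := Nat.le_of_dvd (hidx ▸ he0) R.card_dvd_index
    rw [Nat.ModEq, Nat.mod_eq_of_lt (by omega), Nat.mod_eq_of_lt hp.one_lt] at h3
    have := (Nat.card_eq_one_iff_unique.1 h3).1
    exact R.normal_of_subsingleton
  have hR1 : (R : Subgroup F) ≠ ⊥ := fun e => hP1 (by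
    rw [← Subgroup.card_eq_one, ← hQcard, e, Subgroup.card_bot])
  have h' := Cfsg.excSys_principal_cyclic hM R hR1
  obtain ⟨X', Y', δ', ζ', α', o', h1', h2'⟩ := Cfsg.exists_out_principal_cyclic hM R hR1
  have hE' : Nat.card (Cfsg.autOf (R : Subgroup F).subtype
      (Subgroup.normalizer ((R : Subgroup F) : Set F))) = e := by
    rw [Cfsg.card_autOf_subtype le_rfl, hQC, Subgroup.normalizer_eq_top, Subgroup.relIndex_top_right,
      hidx]
  have hEE := h.free.eq_of_card_eq h.pgroup h.nontriv (hE.trans hE'.symm)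
  rw [hEE] at h o h1
  obtain ⟨I, ε, h3, h4, -⟩ := o.exists_isPerfectIsometry h h2 o' h' h2' (h1'.trans h1.symm)
  have hU := Cfsg.principalBlock_eq_univ_of_centralizer_le hM R.isPGroup' hQC.le
  refine ⟨I, ε, hU ▸ h3, fun η η' hη hη' => ?_⟩
  have hmem : ∀ χ : Cfsg.IrrCharacter F, χ ∈ X' ∨ χ ∈ Y' := fun χ => by
    rw [← Set.mem_union, ← o'.union, hU]; trivial
  by_cases hY : η ∈ Y' ∧ η' ∈ Y'
  · rw [h4 η hY.1, h4 η' hY.2]
  by_cases hne : η = η'
  · rw [hne]
  exfalso
  have hdec : ∀ (χ : Cfsg.IrrCharacter F) (u : (R : Subgroup F)), u ≠ 1 →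
      Cfsg.excDec (fun u : (R : Subgroup F) => Cfsg.secOne p (u : F)) χ.1 u = χ u :=
    fun χ u hu => Cfsg.excDec_principal hM (Subgroup.le_centralizer _)
      (Cfsg.free_of_isCyclic_sylow hM R) (by rw [hU]; trivial) hu
  have hcY := o'.cardY
  rw [hE', hQcard] at hcY
  have hYpos : 0 < Nat.card Y' := (Nat.card_pos_iff).2 ⟨(o'.Y_nonempty h').to_subtype, inferInstance⟩
  have hdeg : ∀ (χ : Cfsg.IrrCharacter F) (s : ℤ), (s = 1 ∨ s = -1) → (∃ x ∈ (R : Subgroup F),
      χ.1 x ≠ χ.1 1) → (∀ u : (R : Subgroup F), u ≠ 1 → χ u = s) →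
      Cfsg.charDegree χ.1 = e * Nat.card Y' := by
    intro χ s hs hχ hv
    have h6 := χ.sum_coset_eq_zero R (by push Not; exact hχ) 1
    simp only [one_mul] at h6
    rw [← Finset.add_sum_erase _ _ (Finset.mem_univ 1), Finset.sum_congr rfl
      (fun u hu => hv u (Finset.ne_of_mem_erase hu)), Finset.sum_const, Finset.card_erase_of_mem
      (Finset.mem_univ _), Finset.card_univ, ← Nat.card_eq_fintype_card, hQcard, ← hcY,
      OneMemClass.coe_one, χ.apply_one, Nat.add_sub_cancel, nsmul_eq_mul] at h6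
    have h7 : (Cfsg.charDegree χ.1 : ℤ) + (e * Nat.card Y' : ℕ) * s = 0 := by exact_mod_cast h6
    have := Nat.mul_pos he0 hYpos
    rcases hs with rfl | rfl <;> omega
  have hsq : Cfsg.charDegree η.1 ^ 2 + Cfsg.charDegree η'.1 ^ 2 + 1 ≤
      (e * Nat.card Y' + 1) * e := by
    have hn1 : ∀ χ : Cfsg.IrrCharacter F, (∃ x ∈ (R : Subgroup F), χ.1 x ≠ χ.1 1) →
        χ ≠ Cfsg.IrrCharacter.one F := by
      rintro χ ⟨x, -, hx⟩ rfl
      exact hx rfl
    rw [hcY, ← hF, ← Cfsg.sum_charDegree_sq]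
    refine le_trans (le_of_eq ?_) (Finset.sum_le_sum_of_subset
      (Finset.subset_univ {η, η', Cfsg.IrrCharacter.one F}))
    rw [Finset.sum_insert (by simp [hne, hn1 η hη]), Finset.sum_pair (hn1 η' hη'),
      Cfsg.charDegree_one_irr, add_assoc]
    rfl
  have hX : ∀ χ ∈ X', (∃ x ∈ (R : Subgroup F), χ.1 x ≠ χ.1 1) →
      Cfsg.charDegree χ.1 = e * Nat.card Y' := fun χ hχ hχ' =>
    hdeg χ _ (h2' χ hχ) hχ' fun u hu => by rw [← hdec χ u hu, o'.nonexc χ hχ u hu]
  have hY1 : Nat.card Y' = 1 := by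
    have h6 : (e * Nat.card Y') ^ 2 < (e * Nat.card Y' + 1) * e := by
      by_cases h7 : η ∈ Y'
      · have := hX η' ((hmem η').resolve_right fun h8 => hY ⟨h7, h8⟩) hη'
        rw [this] at hsq
        omega
      · have := hX η ((hmem η).resolve_right h7) hη
        rw [this] at hsq
        omega
    by_contra h7
    obtain ⟨y, hy⟩ : ∃ y, Nat.card Y' = y + 2 := ⟨Nat.card Y' - 2, by omega⟩
    rw [hy] at h6
    nlinarith [Nat.zero_le (e * e * y * y), Nat.zero_le (e * e * y), Nat.mul_le_mul_left e he0]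
  have hall : ∀ χ : Cfsg.IrrCharacter F, (∃ x ∈ (R : Subgroup F), χ.1 x ≠ χ.1 1) →
      Cfsg.charDegree χ.1 = e * Nat.card Y' := by
    intro χ hχ
    rcases hmem χ with h6 | h6
    · exact hX χ h6 hχ
    refine hdeg χ (-δ') (by rcases o'.sign with h | h <;> simp [h]) hχ fun u hu => ?_
    have h7 := o'.sumY u hu
    have h8 : Y' = {χ} := by
      obtain ⟨ψ, hψ⟩ := Set.ncard_eq_one.1 hY1
      rw [hψ] at h6 ⊢
      rw [h6]
    rw [h8, finsum_mem_singleton, hdec χ u hu] at h7
    simpa using h7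
  rw [hall η hη, hall η' hη', hY1] at hsq
  nlinarith

end Cfsg.Agent.S4634
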