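import Cfsg.Statements.S4635
import Cfsg.Agent.Blk.FrobCorr
-- import your own Cfsg.Agent.* helpers here

set_option autoImplicit false
open Cfsg

namespace Cfsg.Agent.S4635

/-- Let B be a block of the finite group G relative to a maximal ideal M of the algebraic integers containing the prime p, with a nontrivial cyclic defect group P; let Z be the subgroup of order p of P and H = N_G(Z), which contains N_G(P). Let c be the block of H with defect group P that induces B. Then B and c contain the same number of irreducible characters, have the same p-regular rank, and there is a perfect isometry from c onto B. -/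
theorem result {G : Type*} [Group G] [Finite G] (p : ℕ) [Fact p.Prime] (M : Ideal Cfsg.AlgInt) (hM : Cfsg.IsPModular p M) (B : Set (Cfsg.IrrCharacter G)) (hB : Cfsg.IsPBlock M B) (P : Subgroup G) (hPD : Cfsg.IsDefectGroup p M B P) (hP1 : P ≠ ⊥) (hcyc : IsCyclic P) (Z : Subgroup G) (hZ : Z ≤ P) (hZcard : Nat.card Z = p) (H : Subgroup G) (hH : H = Subgroup.normalizer (Z : Set G)) (c : Set (Cfsg.IrrCharacter H)) (hcD : Cfsg.IsDefectGroup p M c (P.subgroupOf H)) (hc : Cfsg.IsInducedBlock M H c B) : Nat.card c = Nat.card B ∧ Cfsg.blockRank p c = Cfsg.blockRank p B ∧ ∃ (I : Cfsg.IrrCharacter H → Cfsg.IrrCharacter G) (ε : Cfsg.IrrCharacter H → ℤ), Cfsg.IsPerfectIsometry p M c B I ε := by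
  let _ := Fintype.ofFinite (P.subgroupOf H)
  have hi := (Cfsg.isInducedBlock_iff hM).1 hc
  have hN : Subgroup.normalizer (P : Set G) ≤ H := by
    rw [hH]
    intro g hg
    have h1 : Z.map (MulAut.conj g).toMonoidHom ≤ P := by
      rintro _ ⟨z, hz, rfl⟩
      exact (Subgroup.mem_normalizer_iff.1 hg z).1 (hZ hz)
    have h2 : (Z.map (MulAut.conj g).toMonoidHom).subgroupOf P = Z.subgroupOf P := by
      apply Cfsg.subgroup_eq_of_card_eq_of_isCyclic
      rw [Nat.card_congr (Subgroup.subgroupOfEquivOfLe h1).toEquiv,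
        Nat.card_congr (Subgroup.subgroupOfEquivOfLe hZ).toEquiv,
        Subgroup.card_map_of_injective (MulAut.conj g).injective]
    rw [Subgroup.subgroupOf_inj, inf_eq_left.2 h1, inf_eq_left.2 hZ] at h2
    refine Subgroup.mem_normalizer_fintype fun z hz => ?_
    rw [← h2]
    exact ⟨z, hz, rfl⟩
  obtain ⟨e', e, hP', hP, hE⟩ := hi.exists_isMaxPair_both hM hN hcD hPD
  let ι := Subgroup.subgroupOfEquivOfLe (Subgroup.le_normalizer.trans hN)
  have hcyc' : IsCyclic (P.subgroupOf H) := isCyclic_of_injective ι.toMonoidHom ι.injective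
  have hP1' : P.subgroupOf H ≠ ⊥ := fun h => hP1 (by
    rw [← Subgroup.card_eq_one, ← Nat.card_congr ι.toEquiv, h, Subgroup.card_bot])
  obtain ⟨S', X', Y', δ', ζ', a', h', -, o', h1', h2'⟩ := hP'.exists_out_cyclic hM hi.left hP1'
    (j := Subgroup.subtype _) (MulEquiv.refl _) (fun _ => rfl)
  rw [hE] at h' o' h1'
  obtain ⟨S, X, Y, δ, ζ, a, h, -, o, h1, h2⟩ := hP.exists_out_cyclic hM hB hP1
    (j := (Subgroup.subtype _).comp (Subgroup.subtype _)) ι (fun _ => rfl)
  obtain ⟨I, ε, h3, -⟩ := o.exists_isPerfectIsometry h h2 o' h' h2' (h1'.trans h1.symm)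
  refine ⟨?_, ?_, I, ε, h3⟩
  · rw [o.card_eq, o'.card_eq, h1, h1', o.cardY_eq, o'.cardY_eq]
  · rw [o.rank, o'.rank, h1, h1']

end Cfsg.Agent.S4635
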