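import Cfsg.Statements.S4636
import Cfsg.Agent.Grp.MinNormal

set_option autoImplicit false
open scoped Pointwise
open Cfsg

namespace Cfsg.Agent.S4636

open Subgroup

theorem le_of_card_eq_prime {G : Type*} [Group G] [Finite G] {p : ℕ} [hp : Fact p.Prime]
    {P Z : Subgroup G} (hcyc : IsCyclic P) (hZ : Z ≤ P) (hZcard : Nat.card Z = p)
    {x : G} (hx : x ∈ P) (hxp : x ^ p = 1) : x ∈ Z := by
  classical
  have := Fintype.ofFinite P
  have h1 := IsCyclic.card_pow_eq_one_le (α := P) hp.out.pos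
  have hsub : (Finset.univ.filter fun a : P => (a : G) ∈ Z) ⊆ Finset.univ.filter fun a : P => a ^ p = 1 := by
    intro a ha
    simp only [Finset.mem_filter, Finset.mem_univ, true_and] at ha ⊢
    apply Subtype.ext
    have := pow_card_eq_one' (G := Z) (x := ⟨a, ha⟩)
    rw [hZcard] at this
    simpa using congrArg Subtype.val this
  have hc : (Finset.univ.filter fun a : P => (a : G) ∈ Z).card = p := by
    rw [← hZcard, ← card_subgroupOf_of_le hZ, ← Fintype.card_subtype, Nat.card_eq_fintype_card]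
    rfl
  have he := Finset.eq_of_subset_of_card_le hsub (hc ▸ h1)
  have : (⟨x, hx⟩ : P) ∈ Finset.univ.filter fun a : P => a ^ p = 1 := by
    simp only [Finset.mem_filter, Finset.mem_univ, true_and]
    exact Subtype.ext hxp
  rw [← he] at this
  simpa using this

theorem le_of_ne_bot {G : Type*} [Group G] [Finite G] {p : ℕ} [hp : Fact p.Prime]
    {P Z Q : Subgroup G} (hP : IsPGroup p P) (hcyc : IsCyclic P) (hZ : Z ≤ P)
    (hZcard : Nat.card Z = p) (hQ : Q ≤ P) (hQ1 : Q ≠ ⊥) : Z ≤ Q := by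
  obtain ⟨q, hq, hd⟩ := exists_prime_dvd_card_of_ne_bot hQ1
  obtain rfl : q = p := isPiGroup_singleton_iff.mpr (hP.to_le hQ) q hq hd
  obtain ⟨x, hx, ho⟩ := exists_mem_orderOf_eq_prime hd
  have h1 : zpowers x ≤ Z :=
    zpowers_le.mpr (le_of_card_eq_prime hcyc hZ hZcard (hQ hx) (ho ▸ pow_orderOf_eq_one x))
  rw [← eq_of_le_of_card_ge h1 (by rw [Nat.card_zpowers, ho, hZcard])]
  exact zpowers_le.mpr hx

/-- Let P be a nontrivial cyclic p-subgroup of the finite group G and Z its subgroup of order p. For every x outside N_G(Z), P meets its conjugate xPx⁻¹ trivially; consequently N_G(Q) ≤ N_G(Z) for every nontrivial subgroup Q of P. -/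
theorem result {G : Type*} [Group G] [Finite G] (p : ℕ) [Fact p.Prime] (P : Subgroup G) (hP : IsPGroup p P) (hP1 : P ≠ ⊥) (hcyc : IsCyclic P) (Z : Subgroup G) (hZ : Z ≤ P) (hZcard : Nat.card Z = p) : (∀ x : G, x ∉ Subgroup.normalizer (Z : Set G) → P ⊓ MulAut.conj x • P = ⊥) ∧ ∀ Q : Subgroup G, Q ≤ P → Q ≠ ⊥ → Subgroup.normalizer (Q : Set G) ≤ Subgroup.normalizer (Z : Set G) := by
  have key : ∀ x : G, P ⊓ MulAut.conj x • P ≠ ⊥ → x ∈ normalizer (Z : Set G) := fun x hx => by
    have h1 : Z ≤ P ⊓ MulAut.conj x • P := le_of_ne_bot hP hcyc hZ hZcard inf_le_left hx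
    have h2 : Z.map (MulAut.conj x⁻¹).toMonoidHom ≤ P := by
      rw [map_conj_le_iff_le_map_conj_inv, inv_inv]
      exact h1.trans inf_le_right
    have h3 : Z ≤ Z.map (MulAut.conj x⁻¹).toMonoidHom :=
      le_of_ne_bot hP hcyc hZ hZcard h2 (mt map_conj_eq_bot_iff.mp fun e => by
        rw [e, card_bot] at hZcard
        exact (Fact.out : p.Prime).one_lt.ne hZcard)
    exact mem_normalizer_of_map_conj_le (map_conj_le_iff_le_map_conj_inv.mpr h3)
  refine ⟨fun x hx => by_contra fun h => hx (key x h), fun Q hQ hQ1 x hx => key x ?_⟩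
  exact ne_bot_of_le_ne_bot hQ1 (le_inf hQ ((map_conj_eq_iff.mpr hx).ge.trans (map_mono hQ)))

end Cfsg.Agent.S4636
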