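import Cfsg.Statements.S4637
import Cfsg.Agent.Blk.FrobTwo
-- import your own Cfsg.Agent.* helpers here

set_option autoImplicit false
open Cfsg

namespace Cfsg.Agent.S4637

/-- Let B be a block of the finite group G relative to a maximal ideal M of the algebraic integers containing 2, with a Klein four defect group P. Let c be a block of C_G(P) inducing B, T the stabilizer of c in N_G(P) and e the index of C_G(P) in T (the inertial index). Then e is 1 or 3, B contains exactly four irreducible characters, and the 2-regular rank of B (its number of irreducible Brauer characters) equals e. -/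
theorem result {G : Type*} [Group G] [Finite G] (M : Ideal Cfsg.AlgInt) (hM : Cfsg.IsPModular 2 M) (B : Set (Cfsg.IrrCharacter G)) (hB : Cfsg.IsPBlock M B) (P : Subgroup G) (hPD : Cfsg.IsDefectGroup 2 M B P) (hV : IsKleinFour P) (c : Set (Cfsg.IrrCharacter (Subgroup.centralizer (P : Set G)))) (hc : Cfsg.IsInducedBlock M (Subgroup.centralizer (P : Set G)) c B) (T : Subgroup G) (hT : ∀ g : G, g ∈ T ↔ (g ∈ Subgroup.normalizer (P : Set G) ∧ Cfsg.StabilizesBlock (Subgroup.centralizer (P : Set G)) c g)) (e : ℕ) (he : (Subgroup.centralizer (P : Set G)).relIndex T = e) : (e = 1 ∨ e = 3) ∧ Nat.card B = 4 ∧ Cfsg.blockRank 2 B = e := by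
  let _ := Fintype.ofFinite P
  have hi := (Cfsg.isInducedBlock_iff hM).1 hc
  have hP := hi.isMaxPair hM hPD
  obtain rfl := hi.left.eq_normalizer_inf_cjStab hM hT
  have hab : P ≤ Subgroup.centralizer (P : Set G) := fun x hx y hy =>
    congrArg Subtype.val (IsKleinFour.isMulCommutative.is_comm.comm (⟨y, hy⟩ : P) ⟨x, hx⟩)
  obtain ⟨S, X, Y, δ, ζ, a, h, o, h1, -, h2⟩ := hP.exists_out_three_invol hM hB hab
    Cfsg.Exc.card_invol_of_isKleinFour (j := P.subtype) (MulEquiv.refl P) (fun _ => rfl)
  have hE := (Cfsg.card_autOf_subtype (P := P) inf_le_left).trans he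
  have h3 := o.card_eq
  have h4 := o.cardY
  have h5 := o.rank
  rw [hE] at h1 h4
  rw [hV.card_four] at h4
  rw [h1] at h2 h3 h5
  refine ⟨h2, ?_, h5⟩
  rcases h2 with rfl | rfl <;> omega

end Cfsg.Agent.S4637
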