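import Cfsg.Statements.S4638
import Cfsg.Agent.Blk.FrobCorr
import Cfsg.Agent.Blk.FrobTwo
-- import your own Cfsg.Agent.* helpers here

set_option autoImplicit false
open Cfsg

namespace Cfsg.Agent.S4638

/-- Let B be a block of the finite group G relative to a maximal ideal M of the algebraic integers containing 2, with a Klein four defect group P, and let c be its Brauer correspondent: the block of N_G(P) with defect group P that induces B. Then there is a perfect isometry from c onto B. -/
theorem result {G : Type*} [Group G] [Finite G] (M : Ideal Cfsg.AlgInt) (hM : Cfsg.IsPModular 2 M) (B : Set (Cfsg.IrrCharacter G)) (hB : Cfsg.IsPBlock M B) (P : Subgroup G) (hPD : Cfsg.IsDefectGroup 2 M B P) (hV : IsKleinFour P) (c : Set (Cfsg.IrrCharacter (Subgroup.normalizer (P : Set G)))) (hcD : Cfsg.IsDefectGroup 2 M c (P.subgroupOf (Subgroup.normalizer (P : Set G)))) (hc : Cfsg.IsInducedBlock M (Subgroup.normalizer (P : Set G)) c B) : ∃ (I : Cfsg.IrrCharacter (Subgroup.normalizer (P : Set G))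 → Cfsg.IrrCharacter G) (ε : Cfsg.IrrCharacter (Subgroup.normalizer (P : Set G)) → ℤ), Cfsg.IsPerfectIsometry 2 M c B I ε := by
  let _ := Fintype.ofFinite (P.subgroupOf (Subgroup.normalizer (P : Set G)))
  have hi := (Cfsg.isInducedBlock_iff hM).1 hc
  obtain ⟨e', e, hP', hP, hE⟩ := hi.exists_isMaxPair_both hM le_rfl hcD hPD
  let ι := Subgroup.subgroupOfEquivOfLe (Subgroup.le_normalizer (H := P))
  have hV' : IsKleinFour (P.subgroupOf (Subgroup.normalizer (P : Set G))) :=
    ⟨(Nat.card_congr ι.toEquiv).trans hV.card_four,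
      (Monoid.exponent_eq_of_mulEquiv ι).trans hV.exponent_two⟩
  have hab : ∀ {H : Type _} [Group H] (Q : Subgroup H), IsKleinFour Q →
      Q ≤ Subgroup.centralizer (Q : Set H) := fun Q hQ x hx y hy =>
    congrArg Subtype.val (IsKleinFour.isMulCommutative.is_comm.comm (⟨y, hy⟩ : Q) ⟨x, hx⟩)
  obtain ⟨S', X', Y', δ', ζ', a', h', o', h1', h2', -⟩ := hP'.exists_out_three_invol hM hi.left
    (hab _ hV') Cfsg.Exc.card_invol_of_isKleinFour (j := Subgroup.subtype _) (MulEquiv.refl _)
    (fun _ => rfl)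
  rw [hE] at h' o' h1'
  obtain ⟨S, X, Y, δ, ζ, a, h, o, h1, h2, -⟩ := hP.exists_out_three_invol hM hB
    (hab _ hV) Cfsg.Exc.card_invol_of_isKleinFour
    (j := (Subgroup.subtype _).comp (Subgroup.subtype _)) ι (fun _ => rfl)
  obtain ⟨I, ε, h3, -⟩ := o.exists_isPerfectIsometry h h2 o' h' h2' (h1'.trans h1.symm)
  exact ⟨I, ε, h3⟩

end Cfsg.Agent.S4638
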