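import Cfsg.Statements.S4639
import Cfsg.Agent.Blk.FrobGen
-- import your own Cfsg.Agent.* helpers here

set_option autoImplicit false
open Cfsg

namespace Cfsg.Agent.S4639

/-- Let B be a block of the finite group G relative to a maximal ideal M of the algebraic integers containing the prime p, with a nontrivial commutative defect group P. Let c be a block of C_G(P) inducing B, T the stabilizer of c in N_G(P) and e the index of C_G(P) in T. Suppose that T/C_G(P) is commutative (all commutators of elements of T lie in C_G(P)) and acts freely on the non-identity elements of P (an element of T fixing a non-identity element of P under conjugation lies in C_G(P)). Then B has at most e + (#P − 1)/e irreducible characters and p-regular rank at most e; equality holds in the first bound exactly when it holds in the second; and both equalities hold when e ≤ 3. -/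
theorem result {G : Type*} [Group G] [Finite G] (p : ℕ) [Fact p.Prime] (M : Ideal Cfsg.AlgInt) (hM : Cfsg.IsPModular p M) (B : Set (Cfsg.IrrCharacter G)) (hB : Cfsg.IsPBlock M B) (P : Subgroup G) (hPD : Cfsg.IsDefectGroup p M B P) (hP1 : P ≠ ⊥) (hPab : ∀ x ∈ P, ∀ y ∈ P, x * y = y * x) (c : Set (Cfsg.IrrCharacter (Subgroup.centralizer (P : Set G)))) (hc : Cfsg.IsInducedBlock M (Subgroup.centralizer (P : Set G)) c B) (T : Subgroup G) (hT : ∀ g : G, g ∈ T ↔ (g ∈ Subgroup.normalizer (P : Set G) ∧ Cfsg.StabilizesBlock (Subgroup.centralizer (P : Set G)) c g)) (e : ℕ) (he : (Subgroup.centralizer (P : Set G)).relIndex T = e) (hEab : ∀ g ∈ T, ∀ h ∈ T, g * h * g⁻¹ * h⁻¹ ∈ Subgroup.centralizer (P : Set G)) (hfree : ∀ g ∈ T, ∀ x ∈ P, x ≠ 1 → g * x * g⁻¹ = x → g ∈ Subgroup.centralizer (P : Set G)) : Nat.card B ≤ e + (Nat.card P - 1) / e ∧ Cfsg.blockRank p B ≤ e ∧ (Nat.card B = e + (Nat.card P - 1) / e ↔ Cfsg.blockRank p B = e) ∧ (e ≤ 3 → Nat.card B = e + (Nat.card P - 1) / e ∧ Cfsg.blockRank p B = e) := by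
  let _ := Fintype.ofFinite P
  have hi := (Cfsg.isInducedBlock_iff hM).1 hc
  have hP := hi.isMaxPair hM hPD
  obtain rfl := hi.left.eq_normalizer_inf_cjStab hM hT
  obtain ⟨S, h, -⟩ := hP.exists_excSys hM hB (fun x hx y hy => hPab y hy x hx) hP1 hfree
    (j := P.subtype) (MulEquiv.refl P) (fun _ => rfl)
  have hE := (Cfsg.card_autOf_subtype (P := P) inf_le_left).trans he
  have h1 := h.blockRank_add
  have h2 := h.blockRank_le
  have h3 := hP.blockRank_eq_of_le_three hM hB (MulEquiv.refl P) (fun _ => rfl) h
  rw [hE] at h1 h2 h3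
  refine ⟨by omega, h2, by omega, fun h4 => ?_⟩
  have := h3 h4
  omega

end Cfsg.Agent.S4639
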