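import Cfsg.Statements.S4640
import Cfsg.Agent.Blk.PExt
-- import your own Cfsg.Agent.* helpers here

set_option autoImplicit false
open Cfsg

namespace Cfsg.Agent.S4640

/-- Let N be a normal subgroup of the finite group G of index a power of the prime p, M a maximal ideal of the algebraic integers containing p, b a block of N stabilized by every element of G, and B a block of G covering b (some member of B has a member of b as a constituent of its restriction to N). Suppose that B has a commutative defect group P. Then G = NP and P ∩ N is a defect group of b; every member of B restricts to a member of b; every member of b is the restriction of exactly [G : N] members of B; B contains exactly [G : N] times as many irreducible characters as b; and B and b have the same p-regular rank. -/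
theorem result {G : Type*} [Group G] [Fintype G] (p : ℕ) [Fact p.Prime] (M : Ideal Cfsg.AlgInt) (hM : Cfsg.IsPModular p M) (N : Subgroup G) [N.Normal] [Fintype N] (hNi : ∃ k : ℕ, N.index = p ^ k) (b : Set (Cfsg.IrrCharacter N)) (hb : Cfsg.IsPBlock M b) (hstab : ∀ g : G, Cfsg.StabilizesBlock N b g) (B : Set (Cfsg.IrrCharacter G)) (hB : Cfsg.IsPBlock M B) (hcov : ∃ χ ∈ B, ∃ θ ∈ b, Cfsg.classInner (fun n : N => (χ : G → ℂ) n) (θ : N → ℂ) ≠ 0) (P : Subgroup G) (hPD : Cfsg.IsDefectGroup p M B P) (hPab : ∀ x ∈ P, ∀ y ∈ P, x * y = y * x) : N ⊔ P = ⊤ ∧ Cfsg.IsDefectGroup p M b ((P ⊓ N).subgroupOf N) ∧ (∀ χ ∈ B, ∃ θ ∈ b, ∀ n : N, (χ : G → ℂ) n = (θ : N → ℂ) n) ∧ (∀ θ ∈ b, Nat.card {χ : Cfsg.IrrCharacter G // χ ∈ B ∧ ∀ n : N, (χ : G → ℂ) n = (θ : N → ℂ) n} = N.index) ∧ Nat.card B = N.index * Nat.card b ∧ Cfsg.blockRank p B = Cfsg.blockRank p b := by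
  obtain ⟨k, hk⟩ := hNi
  have hp : ∀ x : G, ∃ n : ℕ, x ^ p ^ n ∈ N.subtype.range := by
    rw [Subgroup.range_subtype]; exact pow_mem_of_index_eq hk
  have hT : blockStab N.subtype b = ⊤ := by
    rw [blockStab_eq_top_iff]
    intro g θ hθ
    obtain ⟨θ', h1, h2⟩ := (hstab g).2 θ hθ
    rwa [(conjAut_smul_eq_iff N.subtype).2 h2]
  have hc : Covers N.subtype B b := covers_iff_classInner.2 hcov
  obtain rfl := hc.eq_irrOver hM hB (hb.isPBlock_irrOver_of_pow_mem hM hp)
  have h1 : ∀ χ ∈ irrOver N.subtype b, ∃ θ ∈ b, χ.1 ∘ N.subtype = θ.1 := fun χ hχ =>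
    hPD.comp_eq_of_comm hM hb hT hp hPab hχ
  refine ⟨?_, ?_, fun χ hχ => ?_, fun θ hθ => ?_, ?_,
    hb.blockRank_irrOver_of_forall_comp_eq hM hp h1⟩
  · have := hPD.sup_range_eq_top hM hb hT hp
    rwa [Subgroup.range_subtype, sup_comm] at this
  · rw [Subgroup.inf_subgroupOf_right]
    exact hc.isDefectGroup_comap hM hB hb hT hPD
  · obtain ⟨θ, hθ, h⟩ := h1 χ hχ
    exact ⟨θ, hθ, congrFun h⟩
  · have := card_extension_of_forall_comp_eq (f := N.subtype) (θ := θ)
      fun χ hχ => (h1 χ ⟨θ, hθ, hχ⟩).imp fun _ h => h.2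
    rw [Subgroup.range_subtype] at this
    rw [← this]
    exact Nat.card_congr (Equiv.subtypeEquivRight fun χ =>
      ⟨fun h => funext h.2, fun h => ⟨⟨θ, hθ, liesOver_of_comp_eq h⟩, congrFun h⟩⟩)
  · have := card_irrOver_of_forall_comp_eq h1
    rwa [Subgroup.range_subtype] at this

end Cfsg.Agent.S4640
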