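import Cfsg.Agent.Mod.Block
import Cfsg.Agent.Blk.Contrib
-- Template for statement S4641 (row 4641; see /opt/grader/pristine/manifest.json for weights).
-- Copy to Cfsg/Agent/S4641.lean and replace the sorry. The statement below is byte-identical to the frozen
-- statement Cfsg.CfsgFrozen.S4641 (Cfsg/Statements/S4641.lean; the theorem Cfsg.blk6_block_degree_square_sum_factorization);
-- the grader kernel-checks Cfsg.Agent.S4641.result against that frozen type. Keep the theorem IN THIS FILE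
-- (a `result` declared elsewhere and merely imported here is not credited); helpers may live anywhere
-- under Cfsg/Agent/.
import Cfsg.Statements.S4641
-- import your own Cfsg.Agent.* helpers here

set_option autoImplicit false
open Cfsg

namespace Cfsg.Agent.S4641

/-- Let B be a block of the finite group G relative to a maximal ideal M of the algebraic integers containing the prime p, let p^a be the p-part of the order of G and p^d the order of a defect group D of B, and let g be the greatest common divisor of the degrees of the members of B. Then the p-part of g is exactly p^(a−d), and writing g = p^(a−d)·u there is a positive integer v, prime to p and at least the p-regular rank of B (its number of irreducible Brauer characters), with Σ_{χ ∈ B} χ(1)² = p^(2a−d)·u²·v. -/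
theorem result {G : Type*} [Group G] [Finite G] (p : ℕ) [Fact p.Prime] (M : Ideal Cfsg.AlgInt) (hM : Cfsg.IsPModular p M) (B : Set (Cfsg.IrrCharacter G)) (hB : Cfsg.IsPBlock M B) (D : Subgroup G) (hD : Cfsg.IsDefectGroup p M B D) (a d : ℕ) (ha : (Nat.card G).factorization p = a) (hd : Nat.card D = p ^ d) (g : ℕ) (hg1 : ∀ χ ∈ B, g ∣ Cfsg.charDegree (χ : G → ℂ)) (hg2 : ∀ g' : ℕ, (∀ χ ∈ B, g' ∣ Cfsg.charDegree (χ : G → ℂ)) → g' ∣ g) : g.factorization p = a - d ∧ ∃ v : ℕ, 0 < v ∧ ¬ p ∣ v ∧ Cfsg.blockRank p B ≤ v ∧ ∑ᶠ χ ∈ B, Cfsg.charDegree (χ : G → ℂ) ^ 2 = p ^ (2 * a - d) * (g / p ^ (a - d)) ^ 2 * v := by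
  classical
  have hp : p.Prime := Fact.out
  have h1 : blockDefect p B = d :=
    Nat.pow_right_injective hp.two_le ((hD.card_eq hB hM).symm.trans hd)
  have h2 := minExp_add_blockDefect (p := p) B
  obtain ⟨χ₀, hχ₀, h3⟩ := exists_eq_minExp (p := p) (hB.nonempty hM)
  have hg0 : g ≠ 0 := fun h => χ₀.charDegree_pos.ne' (zero_dvd_iff.1 (h ▸ hg1 χ₀ hχ₀))
  have h4 : g.factorization p = a - d := by
    have h4 := (hp.pow_dvd_iff_le_factorization hg0).1 (hg2 _ fun χ => pow_minExp_dvd (p := p))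
    have h5 := (Nat.factorization_le_iff_dvd hg0 χ₀.charDegree_pos.ne').2 (hg1 χ₀ hχ₀) p
    omega
  refine ⟨h4, ?_⟩
  set u := g / p ^ (a - d) with hu
  have h5 : p ^ (a - d) * u = g := by rw [hu, ← h4, Nat.ordProj_mul_ordCompl_eq_self]
  have h6 : ¬ p ∣ u := by rw [hu, ← h4]; exact Nat.not_dvd_ordCompl hp hg0
  have h7 : ∀ φ ∈ ibrOf p M B, p ^ a * u ∣ charDegree (Phi φ) := fun φ hφ => by
    refine Nat.Coprime.mul_dvd_of_dvd_of_dvd (Nat.Coprime.pow_left _ ((hp.coprime_iff_not_dvd).2 h6))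
      (ha ▸ pow_dvd_charDegree_Phi hM φ) ((Dvd.intro_left _ h5).trans ?_)
    have h7 : charDegree (Phi φ) = ∑ χ : IrrCharacter G, decNum χ.1 φ * charDegree χ.1 := by
      apply Nat.cast_injective (R := ℂ)
      rw [← (Phi_isCharacter φ).apply_one, Phi]
      simp [IrrCharacter.apply_one]
    rw [h7]
    refine Finset.dvd_sum fun χ _ => ?_
    by_cases hχ : χ ∈ B
    · exact (hg1 χ hχ).mul_left _
    · rw [hB.decNum_eq_zero_of_notMem hM hφ hχ, zero_mul]
      exact dvd_zero _
  have h8 : ∑ᶠ χ ∈ B, charDegree χ.1 ^ 2 = p ^ (2 * a - d) * u ^ 2 *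
      ∑ φ : IBr p M G with φ ∈ ibrOf p M B, φ.deg / g * (charDegree (Phi φ) / (p ^ a * u)) := by
    have h8 := congrFun (hB.sum_one_smul_eq_sum_Phi hM) 1
    rw [finsum_mem_irr_eq_sum, finsum_mem_ibr_eq_sum] at h8
    simp only [Finset.sum_apply, Pi.smul_apply, smul_eq_mul, (Phi_isCharacter _).apply_one] at h8
    rw [finsum_mem_irr_eq_sum, Finset.mul_sum, Finset.sum_congr rfl
      (g := fun φ => φ.deg * charDegree (Phi φ)) fun φ hφ => ?_]
    · apply Nat.cast_injective (R := ℂ)
      push_cast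
      rw [← h8]
      exact Finset.sum_congr rfl fun χ _ => by simp [IrrCharacter.apply_one, sq]
    have h9 := (Finset.mem_filter.1 hφ).2
    nth_rw 2 [← Nat.mul_div_cancel' (h7 φ h9), ← Nat.mul_div_cancel' (hB.dvd_deg hM hg1 h9)]
    rw [show 2 * a - d = a - d + a by omega, pow_add]
    nth_rw 2 [← h5]
    ring
  have h9 : blockRank p B ≤ ∑ φ : IBr p M G with φ ∈ ibrOf p M B,
      φ.deg / g * (charDegree (Phi φ) / (p ^ a * u)) := by
    rw [hB.blockRank_eq_card hM, Nat.card_eq_fintype_card, Fintype.card_subtype,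
      Finset.card_eq_sum_ones]
    refine Finset.sum_le_sum fun φ hφ => Nat.mul_pos ?_ ?_
    · exact Nat.div_pos (Nat.le_of_dvd φ.deg_pos (hB.dvd_deg hM hg1 (Finset.mem_filter.1 hφ).2))
        (Nat.pos_of_ne_zero hg0)
    · have h9 := (Phi_isCharacter φ).charDegree_pos (Phi_ne_zero hM φ)
      have h10 := h7 φ (Finset.mem_filter.1 hφ).2
      exact Nat.div_pos (Nat.le_of_dvd h9 h10) (Nat.pos_of_dvd_of_pos h10 h9)
  refine ⟨_, (hB.blockRank_pos hM).trans_le h9, fun h => ?_, h9, h8⟩
  have h10 := hB.factorization_sum_sq hM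
  have h11 : p ^ (2 * a - d + 1) ∣ ∑ᶠ χ ∈ B, charDegree χ.1 ^ 2 := by
    rw [h8, pow_succ]
    exact mul_dvd_mul (dvd_mul_right _ _) h
  rw [hp.pow_dvd_iff_le_factorization (by
    rw [h8]
    exact (Nat.mul_pos (Nat.mul_pos (pow_pos hp.pos _) (pow_pos (Nat.pos_of_ne_zero fun h0 : u = 0 =>
      h6 (h0 ▸ dvd_zero p)) _)) ((hB.blockRank_pos hM).trans_le h9)).ne')] at h11
  omega

end Cfsg.Agent.S4641
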