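import Cfsg.Statements.S4642
import Cfsg.Agent.Blk.Fong
-- import your own Cfsg.Agent.* helpers here

set_option autoImplicit false
open Cfsg

namespace Cfsg.Agent.S4642

/-- Let G be a finite group, p a prime, M a maximal ideal of the algebraic integers containing p, K the largest normal subgroup of G of order prime to p, and L the preimage in G of the largest normal p-subgroup of G/K. Let Q be a Sylow p-subgroup of L and suppose C_G(Q) ≤ L. Let θ be an irreducible character of K invariant under conjugation by every element of G, and let B be the set of irreducible characters of G whose restriction to K contains θ. Then B is a block of G, every Sylow p-subgroup of G is a defect group of B, and B is of principal type: for every p-subgroup R of G exactly one block of C_G(R) induces B. -/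
theorem result {G : Type*} [Group G] [Fintype G] (p : ℕ) [Fact p.Prime] (M : Ideal Cfsg.AlgInt) (hM : Cfsg.IsPModular p M) (K : Subgroup G) (hK : K = Cfsg.pPrimeCore p G) [Fintype K] (L : Subgroup G) (hL : L = Cfsg.pPrimePCore p G) (Q : Subgroup G) (hQL : Q ≤ L) (hQp : IsPGroup p Q) (hQS : ¬ p ∣ Q.relIndex L) (hCQ : Subgroup.centralizer (Q : Set G) ≤ L) (θ : Cfsg.IrrCharacter K) (hθ : ∀ g : G, Cfsg.IsConjCharOf K g (θ : K → ℂ) (θ : K → ℂ)) (B : Set (Cfsg.IrrCharacter G)) (hBdef : ∀ χ : Cfsg.IrrCharacter G, χ ∈ B ↔ Cfsg.classInner (fun k : K => (χ : G → ℂ) k) (θ : K → ℂ) ≠ 0) : Cfsg.IsPBlock M B ∧ (∀ S : Sylow p G, Cfsg.IsDefectGroup p M B S) ∧ ∀ R : Subgroup G, IsPGroup p R → ∃! f : Set (Cfsg.IrrCharacter (Subgroup.centralizer (R : Set G))), Cfsg.IsInducedBlock M (Subgroup.centralizer (R : Set G)) f B := by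
  subst hK hL
  have hθ' : inertia (pPrimeCore p G).subtype θ = ⊤ :=
    inertia_eq_top_iff_forall.2 fun g n n' h => hθ g n n' h
  have hN' := not_dvd_card_pPrimeCore p G
  have hs : Q ⊔ (pPrimeCore p G).subtype.range = pPrimePCore p G := by
    rw [Subgroup.range_subtype, sup_pPrimeCore_eq_pPrimePCore hQL hQS]
  haveI : (Q ⊔ (pPrimeCore p G).subtype.range).Normal := hs ▸ inferInstance
  have hC := hCQ.trans hs.ge
  have e : B = irrOver (pPrimeCore p G).subtype {θ} := by
    ext χ
    rw [hBdef, mem_irrOver_singleton]
    exact (liesOver_iff_classInner (pPrimeCore p G).subtype χ.1 θ.1).symm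
  have hB := isPBlock_irrOver_of_constrained hM hN' hθ' hQp hC
  rw [e]
  refine ⟨hB, isDefectGroup_irrOver_sylow hM hN' hθ' hB, fun R hR => ?_⟩
  simp only [isInducedBlock_iff hM]
  exact existsUnique_induces_irrOver_of_constrained hM hN' hθ' hQp hC hR

end Cfsg.Agent.S4642
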