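import Cfsg.Statements.S4644
import Cfsg.Agent.Blk.Watanabe
import Cfsg.Agent.Blk.SubIdem
-- import your own Cfsg.Agent.* helpers here

set_option autoImplicit false
open Cfsg

namespace Cfsg.Agent.S4644

open GA MonoidAlgebra

/-- Let B be a block of the finite group G relative to a maximal ideal M of the algebraic integers containing the prime p, with a commutative defect group P; let c be a block of C_G(P) inducing B and T the stabilizer of c in N_G(P). Let u be an element of P fixed under conjugation by every element of T, H = C_G(u) (so C_G(P) ≤ H), and f the block of H induced by c inside H. Then B and f have the same p-regular rank and the same number of irreducible characters. -/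
theorem result {G : Type*} [Group G] [Finite G] (p : ℕ) [Fact p.Prime] (M : Ideal Cfsg.AlgInt) (hM : Cfsg.IsPModular p M) (B : Set (Cfsg.IrrCharacter G)) (hB : Cfsg.IsPBlock M B) (P : Subgroup G) (hPD : Cfsg.IsDefectGroup p M B P) (hPab : ∀ x ∈ P, ∀ y ∈ P, x * y = y * x) (c : Set (Cfsg.IrrCharacter (Subgroup.centralizer (P : Set G)))) (hc : Cfsg.IsInducedBlock M (Subgroup.centralizer (P : Set G)) c B) (T : Subgroup G) (hT : ∀ g : G, g ∈ T ↔ (g ∈ Subgroup.normalizer (P : Set G) ∧ Cfsg.StabilizesBlock (Subgroup.centralizer (P : Set G)) c g)) (u : G) (hu : u ∈ P) (huT : ∀ g ∈ T, g * u * g⁻¹ = u) (H : Subgroup G) (hH : H = Subgroup.centralizer ({u} : Set G)) (f : Set (Cfsg.IrrCharacter H)) (hf : Cfsg.IsInducedBlockIn M H (Subgroup.centralizer (P : Set G)) c f) : Cfsg.blockRank p B = Cfsg.blockRank p f ∧ Nat.card B = Nat.card f := by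
  have := hM.charP
  subst hH
  have hc' := (isInducedBlock_iff hM).1 hc
  have hab : P ≤ Subgroup.centralizer (P : Set G) := fun x hx y hy => hPab y hy x hx
  have hle : Subgroup.centralizer (P : Set G) ≤ Subgroup.centralizer ({u} : Set G) :=
    Subgroup.centralizer_le (Set.singleton_subset_iff.2 hu)
  have hf' := (isInducedBlockIn_iff hM hle).1 hf
  have hpair : IsBPair p P (subIdem M _ c) := ⟨hPD.isPGroup, hc'.left.isBlockIdem_subIdem hM⟩
  have hP : IsMaxPair p (blockIdem M B) P (subIdem M _ c) :=
    ⟨⟨hB.isBlockIdem hM, hpair, (induces_iff_Br_of_range_eq hM (Subgroup.subtype_injective _)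
      hPD.isPGroup (Subgroup.range_subtype _) hc'.left hB).1 hc'⟩, (hB.isDefectGroup_iff hM _).1 hPD⟩
  have hsec : IsSec p (Subgroup.centralizer ({u} : Set G)).subtype u :=
    isSec_centralizer (isPElt_of_mem hPD.isPGroup hu)
  obtain ⟨f', hl⟩ := hM.exists_isLoc_of_isSec hpair hu hsec
  have hT' := hc'.left.eq_normalizer_inf_cjStab hM hT
  have hPu := le_centralizer_zpowers_of_comm hab hu
  obtain ⟨s, hs, hs'⟩ := hl.exists_isMaxPair hM hpair (Subgroup.le_centralizer _)
    (hl.isDefGrp_of_le hM hP hPu)
  have hE := hl.isCentEmb_zpowers hpair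
  have h1 : IsLoc p M P (subIdem M _ c) P (Subgroup.centralizer (P : Set G)).subtype c :=
    ⟨Subgroup.subtype_injective _, Subgroup.range_subtype _, hc'.left, BPLe.refl _ _⟩
  have h2 := (hE.isLoc_iff hM hpair hl.le' hs' (Q := P.comap _) (ψ := Subgroup.inclusion hle)
    (c := c)).1 (by rw [hE.map_comap, inf_eq_left.2 hPu, sup_eq_left.2 hl.le']; exact h1)
  obtain rfl := hf'.unique hM (h2.induces hM hl.block hs.toIsPairOf)
  exact hl.watanabe hM hB hP hab (hT' ▸ huT)

end Cfsg.Agent.S4644
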