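import Cfsg.Agent.Mod.AbLocal
-- Template for statement S4645 (row 4645; see /opt/grader/pristine/manifest.json for weights).
-- Copy to Cfsg/Agent/S4645.lean and replace the sorry. The statement below is byte-identical to the frozen
-- statement Cfsg.CfsgFrozen.S4645 (Cfsg/Statements/S4645.lean; the theorem Cfsg.blk6_cyclic_defect_subpair_normalizers_and_local_blocks);
-- the grader kernel-checks Cfsg.Agent.S4645.result against that frozen type. Keep the theorem IN THIS FILE
-- (a `result` declared elsewhere and merely imported here is not credited); helpers may live anywhere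
-- under Cfsg/Agent/.
import Cfsg.Statements.S4645
-- import your own Cfsg.Agent.* helpers here

set_option autoImplicit false
open Cfsg

namespace Cfsg.Agent.S4645

/-- Let B be a block of the finite group G relative to a maximal ideal M of the algebraic integers containing the prime p, with a nontrivial cyclic defect group P; let c be a block of C_G(P) inducing B and T the stabilizer of c in N_G(P). Let Q be a nontrivial subgroup of P (so C_G(P) ≤ C_G(Q)), f the block of C_G(Q) induced by c inside C_G(Q), and T' the stabilizer of f in N_G(Q). Then T' = T·C_G(Q), the index of C_G(Q) in T' equals the index of C_G(P) in T, f has p-regular rank 1, and f is a nilpotent block of C_G(Q). -/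
theorem result {G : Type*} [Group G] [Finite G] (p : ℕ) [Fact p.Prime] (M : Ideal Cfsg.AlgInt) (hM : Cfsg.IsPModular p M) (B : Set (Cfsg.IrrCharacter G)) (hB : Cfsg.IsPBlock M B) (P : Subgroup G) (hPD : Cfsg.IsDefectGroup p M B P) (hP1 : P ≠ ⊥) (hcyc : IsCyclic P) (c : Set (Cfsg.IrrCharacter (Subgroup.centralizer (P : Set G)))) (hc : Cfsg.IsInducedBlock M (Subgroup.centralizer (P : Set G)) c B) (T : Subgroup G) (hT : ∀ g : G, g ∈ T ↔ (g ∈ Subgroup.normalizer (P : Set G) ∧ Cfsg.StabilizesBlock (Subgroup.centralizer (P : Set G)) c g)) (Q : Subgroup G) (hQP : Q ≤ P) (hQ1 : Q ≠ ⊥) (f : Set (Cfsg.IrrCharacter (Subgroup.centralizer (Q : Set G)))) (hf : Cfsg.IsInducedBlockIn M (Subgroup.centralizer (Q : Set G)) (Subgroup.centralizer (P : Set G)) c f) (T' : Subgroup G) (hT' : ∀ g : G, g ∈ T' ↔ (g ∈ Subgroup.normalizer (Q : Set G) ∧ Cfsg.StabilizesBlock (Subgroup.centralizer (Q : Set G)) f g)) : T' = T ⊔ Subgroup.centralizer (Q : Set G) ∧ (Subgroup.centralizer (Q : Set G)).relIndex T' = (Subgroup.centralizer (P : Set G)).relIndex T ∧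 Cfsg.blockRank p f = 1 ∧ Cfsg.IsNilpotentBlock p M f := by
  haveI := hM.charP
  obtain ⟨hc', hP⟩ := hc.isMaxPair_sub hM hPD
  obtain rfl := hc'.eq_normalizer_inf_cjStab hM hT
  have hab : P ≤ Subgroup.centralizer (P : Set G) := le_centralizer_self_of_isCyclic
  obtain ⟨hf', hle⟩ := (hM.isInducedBlockIn_iff_bpLe hPD.isPGroup hab hQP hc').1 hf
  obtain rfl := hf'.eq_normalizer_inf_cjStab hM hT'
  have hN := (inf_le_left (b := GA.cjStab (subIdem M _ c))).trans
    (normalizer_le_normalizer_of_isCyclic hQP)
  have h1 := hP.stab_eq_sup hab hle hN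
  have h2 := hP.stab_inf_centralizer_le hM hQP hQ1
  have h3 : IsNilpotentBlock p M f := (isNilpotentBlock_iff_sub hM).2
    ⟨hf', (hM.isNilpIn_centralizer_iff hP hab hle).2 h2⟩
  refine ⟨h1, ?_, ?_, h3⟩
  · rw [h1, relIndex_sup_of_le_normalizer (hN.trans (GA.normalizer_le_normalizer_centralizer' Q)),
      ← Subgroup.inf_relIndex_right, inf_comm, le_antisymm h2
        (le_inf hP.pair.isInertial_stab.centralizer_le (GA.centralizer_anti hQP))]
  · exact hf'.blockRank_eq_one_of_nilp hM ((isNilpotentBlock_iff hM).1 h3).2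

end Cfsg.Agent.S4645
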