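import Cfsg.Agent.Mod.PrinNilp
import Cfsg.Agent.Mod.Nilp
import Cfsg.Agent.S4691
-- Template for statement S4646 (row 4646; see /opt/grader/pristine/manifest.json for weights).
-- Copy to Cfsg/Agent/S4646.lean and replace the sorry. The statement below is byte-identical to the frozen
-- statement Cfsg.CfsgFrozen.S4646 (Cfsg/Statements/S4646.lean; the theorem Cfsg.blk6_principal_block_nilpotent_iff_rank_one);
-- the grader kernel-checks Cfsg.Agent.S4646.result against that frozen type. Keep the theorem IN THIS FILE
-- (a `result` declared elsewhere and merely imported here is not credited); helpers may live anywhere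
-- under Cfsg/Agent/.
import Cfsg.Statements.S4646
-- import your own Cfsg.Agent.* helpers here

set_option autoImplicit false
open Cfsg

namespace Cfsg.Agent.S4646

/-- For a finite group G, a prime p and a maximal ideal M of the algebraic integers containing p: the principal block of G is nilpotent if and only if its p-regular rank is 1 (the trivial Brauer character is its only irreducible Brauer character). -/
theorem result {G : Type*} [Group G] [Finite G] (p : ℕ) [Fact p.Prime] (M : Ideal Cfsg.AlgInt) (hM : Cfsg.IsPModular p M) : Cfsg.IsNilpotentBlock p M (Cfsg.principalBlock M G) ↔ Cfsg.blockRank p (Cfsg.principalBlock M G) = 1 := by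
  letI := Fintype.ofFinite G
  exact ⟨fun h => isPBlock_principalBlock.blockRank_eq_one_of_nilp hM
    ((isNilpotentBlock_iff hM).1 h).2,
    fun h => (S4691.result p M hM).1 (hM.hasNormalPComplement_of_blockRank h)⟩

end Cfsg.Agent.S4646
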