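import Cfsg.Agent.Mod.MinDim
import Cfsg.Agent.Blk.Fusion
-- Template for statement S4647 (row 4647; see /opt/grader/pristine/manifest.json for weights).
-- Copy to Cfsg/Agent/S4647.lean and replace the sorry. The statement below is byte-identical to the frozen
-- statement Cfsg.CfsgFrozen.S4647 (Cfsg/Statements/S4647.lean; the theorem Cfsg.blk6_minimal_degree_square_sum_block_nilpotent);
-- the grader kernel-checks Cfsg.Agent.S4647.result against that frozen type. Keep the theorem IN THIS FILE
-- (a `result` declared elsewhere and merely imported here is not credited); helpers may live anywhere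
-- under Cfsg/Agent/.
import Cfsg.Statements.S4647
-- import your own Cfsg.Agent.* helpers here

set_option autoImplicit false
open Cfsg

namespace Cfsg.Agent.S4647

/-- Let B be a block of the finite group G relative to a maximal ideal M of the algebraic integers containing the prime p, p^a the p-part of the order of G and p^d the order of a defect group D of B. If Σ_{χ ∈ B} χ(1)² = p^(2a−d) (the least possible value), then B is nilpotent. -/
theorem result {G : Type*} [Group G] [Finite G] (p : ℕ) [Fact p.Prime] (M : Ideal Cfsg.AlgInt) (hM : Cfsg.IsPModular p M) (B : Set (Cfsg.IrrCharacter G)) (hB : Cfsg.IsPBlock M B) (D : Subgroup G) (hD : Cfsg.IsDefectGroup p M B D) (a d : ℕ) (ha : (Nat.card G).factorization p = a) (hd : Nat.card D = p ^ d) (hmin : ∑ᶠ χ ∈ B, Cfsg.charDegree (χ : G → ℂ) ^ 2 = p ^ (2 * a - d)) : Cfsg.IsNilpotentBlock p M B := by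
  haveI := hM.charP
  refine (isNilpotentBlock_iff hM).2 ⟨hB, GA.IsDefGrp.isNilpIn_of_finrank_le (hB.isBlockIdem hM)
    ((hB.isDefectGroup_iff hM D).1 hD) ?_⟩
  have h1 : blockDefect p B = d :=
    Nat.pow_right_injective hM.prime.two_le ((hD.card_eq hB hM).symm.trans hd)
  have h2 := minExp_add_blockDefect (p := p) B
  rw [hB.finrank_range_mulLeft_eq hM, hmin, hd, ha, ← pow_add, ← pow_mul]
  exact Nat.pow_le_pow_right hM.prime.pos (by omega)

end Cfsg.Agent.S4647
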