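import Cfsg.Agent.Mod.AbLocal
-- Template for statement S4649 (row 4649; see /opt/grader/pristine/manifest.json for weights).
-- Copy to Cfsg/Agent/S4649.lean and replace the sorry. The statement below is byte-identical to the frozen
-- statement Cfsg.CfsgFrozen.S4649 (Cfsg/Statements/S4649.lean; the theorem Cfsg.blk6_cyclic_defect_nilpotent_iff_rank_one);
-- the grader kernel-checks Cfsg.Agent.S4649.result against that frozen type. Keep the theorem IN THIS FILE
-- (a `result` declared elsewhere and merely imported here is not credited); helpers may live anywhere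
-- under Cfsg/Agent/.
import Cfsg.Statements.S4649
-- import your own Cfsg.Agent.* helpers here

set_option autoImplicit false
open Cfsg

namespace Cfsg.Agent.S4649

/-- A block with cyclic defect group, of a finite group relative to a maximal ideal M of the algebraic integers containing the prime p, is nilpotent if and only if its p-regular rank is 1 (it has a unique irreducible Brauer character). -/
theorem result {G : Type*} [Group G] [Finite G] (p : ℕ) [Fact p.Prime] (M : Ideal Cfsg.AlgInt) (hM : Cfsg.IsPModular p M) (B : Set (Cfsg.IrrCharacter G)) (hB : Cfsg.IsPBlock M B) (P : Subgroup G) (hPD : Cfsg.IsDefectGroup p M B P) (hcyc : IsCyclic P) : Cfsg.IsNilpotentBlock p M B ↔ Cfsg.blockRank p B = 1 := by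
  haveI := hM.charP
  rw [isNilpotentBlock_iff hM, and_iff_right hB]
  refine ⟨hB.blockRank_eq_one_of_nilp hM, fun h => ?_⟩
  obtain ⟨e, hP⟩ := (hB.isBlockIdem hM).exists_isMaxPair ((hB.isDefectGroup_iff hM _).1 hPD)
  rw [hP.isNilpIn_iff_of_comm le_centralizer_self_of_isCyclic]
  by_cases hP1 : P = ⊥
  · rw [hP1, GA.centralizer_coe_bot]
    exact le_top
  have h1 := hP.relIndex_le_blockRank hM hB hP1
  have h2 : (Subgroup.centralizer (P : Set G)).relIndex
      (Subgroup.normalizer (P : Set G) ⊓ GA.cjStab e) ≠ 0 := Subgroup.index_ne_zero_of_finite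
  rw [← Subgroup.relIndex_eq_one]
  omega

end Cfsg.Agent.S4649
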