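import Cfsg.Agent.Mod.AbLocal
-- Template for statement S4650 (row 4650; see /opt/grader/pristine/manifest.json for weights).
-- Copy to Cfsg/Agent/S4650.lean and replace the sorry. The statement below is byte-identical to the frozen
-- statement Cfsg.CfsgFrozen.S4650 (Cfsg/Statements/S4650.lean; the theorem Cfsg.blk6_abelian_defect_free_inertial_action_iff_local_blocks_nilpotent);
-- the grader kernel-checks Cfsg.Agent.S4650.result against that frozen type. Keep the theorem IN THIS FILE
-- (a `result` declared elsewhere and merely imported here is not credited); helpers may live anywhere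
-- under Cfsg/Agent/.
import Cfsg.Statements.S4650
-- import your own Cfsg.Agent.* helpers here

set_option autoImplicit false
open Cfsg

namespace Cfsg.Agent.S4650

/-- Let B be a block of the finite group G relative to a maximal ideal M of the algebraic integers containing the prime p, with a nontrivial commutative defect group P; let c be a block of C_G(P) inducing B and T the stabilizer of c in N_G(P). Then T/C_G(P) acts freely on the non-identity elements of P (an element of T fixing a non-identity element of P under conjugation lies in C_G(P)) if and only if, for every nontrivial subgroup Q of P, the block of C_G(Q) induced by c inside C_G(Q) is a nilpotent block of C_G(Q). -/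
theorem result {G : Type*} [Group G] [Finite G] (p : ℕ) [Fact p.Prime] (M : Ideal Cfsg.AlgInt) (hM : Cfsg.IsPModular p M) (B : Set (Cfsg.IrrCharacter G)) (hB : Cfsg.IsPBlock M B) (P : Subgroup G) (hPD : Cfsg.IsDefectGroup p M B P) (hPab : ∀ x ∈ P, ∀ y ∈ P, x * y = y * x) (hP1 : P ≠ ⊥) (c : Set (Cfsg.IrrCharacter (Subgroup.centralizer (P : Set G)))) (hc : Cfsg.IsInducedBlock M (Subgroup.centralizer (P : Set G)) c B) (T : Subgroup G) (hT : ∀ g : G, g ∈ T ↔ (g ∈ Subgroup.normalizer (P : Set G) ∧ Cfsg.StabilizesBlock (Subgroup.centralizer (P : Set G)) c g)) : (∀ g ∈ T, ∀ x ∈ P, x ≠ 1 → g * x * g⁻¹ = x → g ∈ Subgroup.centralizer (P : Set G)) ↔ ∀ Q : Subgroup G, Q ≤ P → Q ≠ ⊥ → ∀ f : Set (Cfsg.IrrCharacter (Subgroup.centralizer (Q : Set G))), Cfsg.IsInducedBlockIn M (Subgroup.centralizer (Q : Set G)) (Subgroup.centralizer (P : Set G)) c f → Cfsg.IsNilpotentBlock p M f := by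
  haveI := hM.charP
  obtain ⟨hc', hP⟩ := hc.isMaxPair_sub hM hPD
  obtain rfl := hc'.eq_normalizer_inf_cjStab hM hT
  have hab : P ≤ Subgroup.centralizer (P : Set G) := fun x hx =>
    GA.mem_centralizer_sub.2 fun y hy => hPab y hy x hx
  constructor
  · intro h Q hQP hQ1 f hf
    obtain ⟨hf', hle⟩ := (hM.isInducedBlockIn_iff_bpLe hPD.isPGroup hab hQP hc').1 hf
    obtain ⟨⟨x, hx⟩, hx1⟩ := Subgroup.ne_bot_iff_exists_ne_one.1 hQ1
    exact (isNilpotentBlock_iff_sub hM).2 ⟨hf', (hM.isNilpIn_centralizer_iff hP hab hle).2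
      fun g hg => h g hg.1 x (hQP hx) (fun h => hx1 (Subtype.ext h))
        (GA.mem_centralizer_sub_conj'.1 hg.2 x hx)⟩
  · intro h g hg x hx hx1 hgx
    have hQP := Subgroup.zpowers_le.2 hx
    obtain ⟨r, hle⟩ := GA.exists_bpLe hP.pair hQP
    obtain ⟨f, hf, rfl⟩ := hM.exists_block_of_isBPair (hle.left hP.pair)
    refine (hM.isNilpIn_centralizer_iff hP hab hle).1 ((isNilpotentBlock_iff_sub hM).1
      (h _ hQP (by simpa using hx1) f ((hM.isInducedBlockIn_iff_bpLe hPD.isPGroup hab hQP hc').2
        ⟨hf, hle⟩))).2 ⟨hg, GA.mem_centralizer_sub_conj'.2 ?_⟩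
    rintro _ ⟨t, rfl⟩
    simp only
    rw [← conj_zpow, hgx]

end Cfsg.Agent.S4650
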