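import Cfsg.Statements.S4651
import Cfsg.Agent.Blk.SubContrib
import Cfsg.Agent.Blk.Covering

set_option autoImplicit false
open Cfsg

namespace Cfsg.Agent.S4651

section aux
set_option linter.unusedSectionVars false
open MonoidAlgebra GA
open scoped ComplexConjugate Classical

universe u v

section chars

variable {G : Type u} [Group G] [Finite G] {H : Type v} [Group H] [Finite H]
  {p : ℕ} [Fact p.Prime] {M : Ideal AlgInt}

theorem sum_fiber [Fintype G] {f : H →* G} {u : G} (h : IsSec p f u) (θ : G → ℂ) :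
    ∑ g with pPart p g = u, θ g * conj (θ g) =
      Nat.card H * ip (pRegularPart p (secFun f u θ)) (secFun f u θ) := by
  have := Fintype.ofFinite H
  rw [ip_def, mul_inv_cancel_left₀ (natCard_cast_ne_zero H)]
  have e : ∑ y : H, pRegularPart p (secFun f u θ) y * conj (secFun f u θ y) =
      ∑ y : H with IsPRegular p y, θ (u * f y) * conj (θ (u * f y)) := by
    rw [Finset.sum_filter]
    refine Finset.sum_congr rfl fun y _ => ?_
    by_cases hy : IsPRegular p y
    · rw [if_pos hy, pRegularPart_of_not_dvd _ hy]; rfl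
    · rw [if_neg hy, pRegularPart_of_dvd _ (not_not.1 hy), zero_mul]
  rw [e]
  symm
  refine Finset.sum_bij (fun y _ => u * f y) (fun y hy => ?_) (fun y _ y' _ hy => ?_)
    (fun g hg => ?_) (fun _ _ => rfl)
  · simpa using h.pPart_eq (by simpa using hy)
  · exact h.inj (mul_left_cancel hy)
  · obtain ⟨y, hy, rfl⟩ := h.exists_of_pPart_eq (g := g) (by simpa using hg)
    exact ⟨y, by simpa using hy, rfl⟩

theorem blockRank_eq_finsum (hM : IsPModular p M) {A : Set (IrrCharacter G)}
    (hA : IsBlockUnion M A) :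
    (blockRank p A : ℂ) = ∑ᶠ χ ∈ A, ip (pRegularPart p χ.1) χ.1 := by
  have hu : pRegularPart p (fun _ : G => (1 : ℂ)) * pRegularPart p (fun _ => 1) =
      pRegularPart p (fun _ => 1) := by
    rw [← pRegularPart_eq_mul]
    funext g
    by_cases hg : p ∣ orderOf g
    · rw [pRegularPart_of_dvd _ hg, pRegularPart_of_dvd _ hg]
    · rw [pRegularPart_of_not_dvd _ hg]
  have := finrank_span_mul_eq_finsum A hu fun χ hχ => by
    rw [← pRegularPart_eq_mul,
      blockPart_eq_self_iff (isClassFunction_pRegularPart χ.isClassFunction)]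
    exact fun ψ hψ => (isPBlock_blockOf χ).ip_pRegularPart_eq_zero hM (hM.mem_blockOf_self χ)
      fun h => hψ (hA.blockOf_subset hχ h)
  have e : (fun χ : IrrCharacter G => pRegularPart p (fun _ => 1) * χ.1) =
      fun χ => pRegularPart p χ.1 := funext fun χ => (pRegularPart_eq_mul p χ.1).symm
  rw [e] at this
  simp only [← pRegularPart_eq_mul] at this
  exact this

theorem card_mul_sub [Fintype G] (hM : IsPModular p M) {A : Set (IrrCharacter G)}
    (hA : IsBlockUnion M A) :
    (Nat.card G : ℂ) * (Nat.card A - blockRank p A) =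
      ∑ u with u ≠ 1 ∧ IsPElt p u, ∑ χ : IrrCharacter G with χ ∈ A,
        ∑ g with pPart p g = u, χ g * conj (χ g) := by
  have hc : (Nat.card A : ℂ) = ∑ χ : IrrCharacter G with χ ∈ A, ip χ.1 χ.1 := by
    simp only [IrrCharacter.ip_self, Finset.sum_const, nsmul_eq_mul, mul_one]
    rw [Nat.card_eq_fintype_card, Fintype.card_subtype]
  rw [hc, blockRank_eq_finsum hM hA, finsum_mem_irr_eq_sum, ← Finset.sum_sub_distrib,
    Finset.mul_sum, Finset.sum_comm]
  refine Finset.sum_congr rfl fun χ _ => ?_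
  rw [ip_def, ip_def, ← mul_sub, mul_inv_cancel_left₀ (natCard_cast_ne_zero G),
    ← Finset.sum_sub_distrib, Finset.sum_fiberwise_eq_sum_filter _ _ (pPart p)
      (fun g => χ g * conj (χ g)), Finset.sum_filter]
  refine Finset.sum_congr rfl fun g _ => ?_
  by_cases hg : IsPRegular p g
  · rw [pRegularPart_of_not_dvd _ hg, sub_self, if_neg]
    simp [pPart_eq_one_iff.2 hg]
  · rw [pRegularPart_of_dvd _ (not_not.1 hg), zero_mul, sub_zero, if_pos]
    simpa [isPElt_pPart p g] using fun h => hg (pPart_eq_one_iff.1 h)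

theorem sum_sec [Fintype G] (hM : IsPModular p M) {A : Set (IrrCharacter G)}
    (hA : IsBlockUnion M A) {f : H →* G} {u : G} (h : IsSec p f u) :
    ∑ χ : IrrCharacter G with χ ∈ A, ∑ g with pPart p g = u, χ g * conj (χ g) =
      Nat.card H * ∑ c : Blocks H M with (∃ B, B ⊆ A ∧ Induces M f c.1 B),
        (blockRank p c.1 : ℂ) := by
  have e : ∀ χ : IrrCharacter G, ∑ g with pPart p g = u, χ g * conj (χ g) =
      Nat.card H * ∑ c : Blocks H M, contrib p f u c.1 χ.1 χ.1 := fun χ => by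
    rw [h.sum_contrib_eq hM χ.isClassFunction χ.isClassFunction,
      h.ip_indicator_pSection χ.isClassFunction χ.isClassFunction]
    exact sum_fiber h χ.1
  simp only [e]
  rw [← Finset.mul_sum, Finset.sum_comm, Finset.sum_filter (s := Finset.univ (α := Blocks H M))]
  congr 1
  refine Finset.sum_congr rfl fun c _ => ?_
  obtain ⟨B, hB⟩ := h.exists_induces hM c.2
  split_ifs with hc
  · obtain ⟨B', hB'A, hB'⟩ := hc
    rw [← h.finsum_contrib_self hM hB', finsum_mem_irr_eq_sum]
    symm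
    refine Finset.sum_subset (fun χ hχ => ?_) fun χ _ hχ => ?_
    · simpa using hB'A (by simpa using hχ)
    · exact h.contrib_eq_zero_of_notMem_left hM hB' (by simpa using hχ) _
  · refine Finset.sum_eq_zero fun χ hχ => h.contrib_eq_zero_of_notMem_left hM hB (fun hχB => ?_) _
    exact hc ⟨B, hA.subset_of_mem hB.right hM hχB (by simpa using hχ), hB⟩

/-- Weighted sum of the ranks of the blocks of `L` whose idempotent is fixed by `w`. -/
noncomputable def Lam (p : ℕ) (M : Ideal AlgInt) (L : Subgroup G) (w : (ResK M)[G]) : ℂ :=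
  Nat.card L * ∑ c : Blocks L M with w * subIdem M L c.1 = subIdem M L c.1, (blockRank p c.1 : ℂ)

theorem top_eq [Fintype G] (hM : IsPModular p M) {b : Set (IrrCharacter G)} (hb : IsPBlock M b) :
    (Nat.card G : ℂ) * (Nat.card b - blockRank p b) =
      ∑ u with u ≠ 1 ∧ IsPElt p u, Lam p M (Subgroup.centralizer (Subgroup.zpowers u : Set G))
        (Br (Subgroup.zpowers u) (blockIdem M b)) := by
  rw [card_mul_sub hM (hb.isBlockUnion hM)]
  refine Finset.sum_congr rfl fun u hu => ?_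
  have hu' : IsPElt p u := (by simpa using hu : _ ∧ _).2
  have h := isSec_centralizer_zpowers hu'
  rw [sum_sec hM (hb.isBlockUnion hM) h, Lam]
  congr 1
  refine Finset.sum_congr (Finset.filter_congr fun c _ => ?_) fun _ _ => rfl
  rw [← induces_centralizer_iff_Br hM h.isPGroup c.2 hb]
  refine ⟨fun ⟨B, hBb, hB⟩ => ?_, fun hc => ⟨b, le_rfl, hc⟩⟩
  obtain ⟨χ, hχ⟩ := hB.right.nonempty hM
  rwa [← hB.right.eq_of_mem hb hM hχ (hBb hχ)]

theorem induces_iff (hM : IsPModular p M) {b : Set (IrrCharacter G)} (hb : IsPBlock M b)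
    {N T U L : Subgroup G} (hT : IsPGroup p T) (hTN : T ≤ N)
    (hN : N ≤ Subgroup.normalizer (T : Set G)) (hC : Subgroup.centralizer (T : Set G) ≤ N)
    (hU : IsPGroup p U) (hUN : U ≤ N) (hL : L = Subgroup.centralizer (U : Set G) ⊓ N)
    (hLN : L ≤ N) {c : Set (IrrCharacter L)} {β : Set (IrrCharacter N)}
    (hc : Induces M (Subgroup.inclusion hLN) c β) :
    Induces M N.subtype β b ↔
      Br (U ⊔ T) (blockIdem M b) * subIdem M L c = subIdem M L c := by
  have := hM.charP
  have hβ := hc.right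
  have he := hβ.isBlockIdem_subIdem hM
  have hBr : Br T (subIdem M N β) = subIdem M N β :=
    Br_eq_self_of_normal hT hTN hN le_rfl (subIdem_mem N β) he.idem
  have h1 := (induces_inclusion_iff_Br hM hLN hU hUN hL hc.left hβ).1 hc
  have key : ∀ b', Induces M N.subtype β b' →
      Br (U ⊔ T) (blockIdem M b') * subIdem M L c = subIdem M L c := fun b' hb' => by
    have h2 := (induces_subtype_iff_Br hM hT hTN hC hβ (by rw [hBr]; exact he.ne_zero)
      hb'.right).1 hb'
    rw [hBr] at h2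
    have h3 := congrArg (Br U) h2
    rw [Br_mul hU (Br_mem_fixedBy (hUN.trans hN)
      (fixedBy_anti le_top (blockIdem_mem b').2)) (fixedBy_anti hUN (subIdem_mem N β).2),
      Br_Br_eq_sup] at h3
    rw [← h1, ← mul_assoc, h3]
  refine ⟨key b, fun h => ?_⟩
  obtain ⟨b', hb'⟩ := exists_induces_subtype hM hT hTN hN hC hβ
  by_contra hne
  have hbb : b ≠ b' := fun e => hne (e ▸ hb')
  have hUT : IsPGroup p (U ⊔ T : Subgroup G) := by
    rw [sup_comm]; exact isPGroup_sup_of_le_normalizer hT hU (hUN.trans hN)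
  refine (hc.left.isBlockIdem_subIdem hM).ne_zero ?_
  rw [← h, ← key b' hb', ← mul_assoc, ← Br_mul hUT (fixedBy_anti le_top (blockIdem_mem b).2)
    (fixedBy_anti le_top (blockIdem_mem b').2), hb.blockIdem_mul_of_ne hb'.right hM hbb,
    map_zero, zero_mul]

theorem chain_eq [Fintype G] (hM : IsPModular p M) {b : Set (IrrCharacter G)}
    (hb : IsPBlock M b) {N T : Subgroup G} (hT : IsPGroup p T) (hTN : T ≤ N)
    (hN : N ≤ Subgroup.normalizer (T : Set G)) (hC : Subgroup.centralizer (T : Set G) ≤ N) :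
    (Nat.card N : ℂ) * (Nat.card {ψ : IrrCharacter N | ∃ β, ψ ∈ β ∧ IsInducedBlock M N β b} -
      blockRank p {ψ : IrrCharacter N | ∃ β, ψ ∈ β ∧ IsInducedBlock M N β b}) =
      ∑ u with u ≠ 1 ∧ IsPElt p u, if u ∈ N then
        Lam p M (Subgroup.centralizer (Subgroup.zpowers u : Set G) ⊓ N)
          (Br (Subgroup.zpowers u ⊔ T) (blockIdem M b)) else 0 := by
  have hA : IsBlockUnion M {ψ : IrrCharacter N | ∃ β, ψ ∈ β ∧ IsInducedBlock M N β b} := by
    rintro χ ⟨β, hχ, hβ⟩ ψ hψ
    exact ⟨β, (((isInducedBlock_iff hM).1 hβ).left.mem_iff_sameBlock hM hχ ψ).2 hψ, hβ⟩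
  rw [card_mul_sub hM hA, ← Finset.sum_filter, Finset.filter_filter]
  refine Finset.sum_bij (fun u _ => (u : G)) (fun u hu => ?_) (fun u _ u' _ h => Subtype.ext h)
    (fun u hu => ?_) fun u hu => ?_
  · obtain ⟨h1, k, hk⟩ : u ≠ 1 ∧ IsPElt p u := by simpa using hu
    simpa using ⟨h1, k, by rw [Subgroup.orderOf_coe, hk]⟩
  · obtain ⟨⟨h1, k, hk⟩, h2⟩ : (u ≠ 1 ∧ IsPElt p u) ∧ u ∈ N := by simpa using hu
    refine ⟨⟨u, h2⟩, ?_, rfl⟩
    simpa using ⟨h1, k, by rw [← Subgroup.orderOf_coe, hk]⟩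
  obtain ⟨-, hu'⟩ : u ≠ 1 ∧ IsPElt p u := by simpa using hu
  have hUN : Subgroup.zpowers (u : G) ≤ N := (Subgroup.zpowers_le_of_mem u.2)
  have h : IsSec p (Subgroup.inclusion (inf_le_right :
      Subgroup.centralizer (Subgroup.zpowers (u : G) : Set G) ⊓ N ≤ N)) u := by
    refine ⟨Subgroup.inclusion_injective _, hu', ?_⟩
    rw [range_inclusion_eq_centralizer _ hUN rfl, ← centralizer_zpowers_eq]
    congr 2
    ext x
    rw [Subgroup.mem_subgroupOf, ← N.subtype_apply, ← N.subtype_apply,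
      ← MonoidHom.map_zpowers, Subgroup.mem_map_iff_mem N.subtype_injective]
  have hU : IsPGroup p (Subgroup.zpowers (u : G)) := by
    obtain ⟨k, hk⟩ := hu'
    exact IsPGroup.of_card (n := k) (by rw [Nat.card_zpowers, Subgroup.orderOf_coe, hk])
  rw [sum_sec hM hA h, Lam]
  congr 1
  refine Finset.sum_congr (Finset.filter_congr fun c _ => ?_) fun _ _ => rfl
  refine ⟨fun ⟨B, hBb, hB⟩ => ?_, fun hc => ?_⟩
  · obtain ⟨χ, hχ⟩ := hB.right.nonempty hM
    obtain ⟨β, hχ', hβ⟩ := hBb hχ
    rw [isInducedBlock_iff hM] at hβ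
    rw [← hB.right.eq_of_mem hβ.left hM hχ hχ'] at hβ
    exact (induces_iff hM hb hT hTN hN hC hU hUN rfl _ hB).1 hβ
  · obtain ⟨β, hβ⟩ := h.exists_induces hM c.2
    exact ⟨β, fun χ hχ => ⟨β, hχ, (isInducedBlock_iff hM).2
      ((induces_iff hM hb hT hTN hN hC hU hUN rfl _ hβ).2 hc)⟩, hβ⟩

end chars

section chains

open Subgroup

variable {G : Type u} [Group G] [Finite G] {p : ℕ} [Fact p.Prime] {u : G}
  {s : Finset (Subgroup G)}

/-- The top of the chain joined with `u`. -/
def top (u : G) (s : Finset (Subgroup G)) : Subgroup G := zpowers u ⊔ s.sup id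
/-- The largest member not containing `u`. -/
noncomputable def low (u : G) (s : Finset (Subgroup G)) : Subgroup G :=
  (s.filter (u ∉ ·)).sup id
/-- The member that is toggled. -/
noncomputable def rho (u : G) (s : Finset (Subgroup G)) : Subgroup G :=
  low u s ⊔ closure {x | ∃ t ∈ top u s, t * u * t⁻¹ = x}
/-- Normal chains normalised by `u`. -/
structure Good (p : ℕ) (u : G) (s : Finset (Subgroup G)) : Prop where
  chain : ∀ Q ∈ s, ∀ R ∈ s, Q ≤ R ∨ R ≤ Q
  pgrp : ∀ Q ∈ s, Q ≠ ⊥ ∧ IsPGroup p Q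
  norm : ∀ Q ∈ s, top u s ≤ normalizer (Q : Set G)

theorem sup_mem (hs : ∀ Q ∈ s, ∀ R ∈ s, Q ≤ R ∨ R ≤ Q) (h0 : s.Nonempty) : s.sup id ∈ s := by
  obtain ⟨T, hT⟩ := s.exists_maximal h0
  have : s.sup id = T := le_antisymm (Finset.sup_le fun Q hQ =>
    (hs Q hQ T hT.prop).elim id fun h => hT.le_of_ge hQ h) (Finset.le_sup (f := id) hT.prop)
  rw [this]; exact hT.prop

theorem mem_normalizer_sup {x : G} (h : ∀ Q ∈ s, x ∈ normalizer (Q : Set G)) :
    x ∈ normalizer ((s.sup id : Subgroup G) : Set G) :=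
  Finset.sup_induction (p := fun Q : Subgroup G => x ∈ normalizer (Q : Set G))
    (le_normalizer_of_normal' ⊤ ⊥ (mem_top x))
    (fun _ h1 _ h2 => normalizer_inf_le_sup _ _ ⟨h1, h2⟩) h

theorem mem_top_self : u ∈ top u s := mem_sup_left (mem_zpowers u)

theorem le_top_of_mem {Q : Subgroup G} (hQ : Q ∈ s) : Q ≤ top u s :=
  (Finset.le_sup (f := id) hQ).trans le_sup_right

theorem low_le_top : low u s ≤ top u s :=
  Finset.sup_le fun _ hQ => le_top_of_mem (Finset.mem_filter.1 hQ).1

theorem mem_rho_self : u ∈ rho u s :=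
  mem_sup_right (subset_closure ⟨1, one_mem _, by simp⟩)

theorem rho_le {X : Subgroup G} (h1 : low u s ≤ X) (h2 : u ∈ X)
    (h3 : top u s ≤ normalizer (X : Set G)) : rho u s ≤ X :=
  sup_le h1 ((closure_le _).2 (by
    rintro _ ⟨t, ht, rfl⟩
    exact conj_mem_of_mem_normalizer (h3 ht) h2))

theorem rho_le_top : rho u s ≤ top u s := rho_le low_le_top mem_top_self le_normalizer

theorem mem_normalizer_rho {x : G} (h : ∀ Q ∈ s, x ∈ normalizer (Q : Set G))
    (h1 : x ∈ normalizer ((top u s : Subgroup G) : Set G))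
    (h2 : ∃ t ∈ top u s, t * u * t⁻¹ = x * u * x⁻¹) :
    x ∈ normalizer ((rho u s : Subgroup G) : Set G) := by
  refine normalizer_inf_le_sup _ _
    ⟨mem_normalizer_sup fun Q hQ => h Q (Finset.mem_filter.1 hQ).1, ?_⟩
  obtain ⟨t', ht', e⟩ := h2
  refine cjS_eq_self_iff.1 (eq_of_cjS_le ?_)
  rw [cjS_def, MonoidHom.map_closure, closure_le]
  rintro _ ⟨_, ⟨t, ht, rfl⟩, rfl⟩
  refine subset_closure ⟨x * t * x⁻¹ * t', mul_mem (conj_mem_of_mem_normalizer h1 ht) ht', ?_⟩
  have : u = x⁻¹ * (t' * u * t'⁻¹) * x := by rw [e]; group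
  conv_rhs => rw [this]
  simp only [MulEquiv.toMonoidHom_eq_coe, MonoidHom.coe_coe, MulAut.conj_apply]
  group

theorem Good.isPGroup_top (h : Good p u s) (hu : IsPElt p u) : IsPGroup p (top u s) := by
  have hU : IsPGroup p (zpowers u) := by
    obtain ⟨k, hk⟩ := hu
    exact IsPGroup.of_card (n := k) (by rw [Nat.card_zpowers, hk])
  rcases s.eq_empty_or_nonempty with rfl | h0
  · rwa [top, Finset.sup_empty, sup_bot_eq]
  · have hT := sup_mem h.chain h0
    rw [top, sup_comm]
    exact isPGroup_sup_of_le_normalizer (h.pgrp _ hT).2 hU (le_sup_left.trans (h.norm _ hT))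

theorem Good.le_or_le (h : Good p u s) {Q : Subgroup G} (hQ : Q ∈ s) :
    rho u s ≤ Q ∨ Q ≤ rho u s := by
  by_cases hu : u ∈ Q
  · refine Or.inl (rho_le (Finset.sup_le fun R hR => ?_) hu (h.norm Q hQ))
    obtain ⟨hR, huR⟩ := Finset.mem_filter.1 hR
    exact (h.chain R hR Q hQ).resolve_right fun e => huR (e hu)
  · exact Or.inr ((Finset.le_sup (f := id) (Finset.mem_filter.2 ⟨hQ, hu⟩)).trans le_sup_left)

theorem top_insert : top u (insert (rho u s) s) = top u s := by
  refine le_antisymm (sup_le le_sup_left (Finset.sup_le fun Q hQ => ?_))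
    (sup_le_sup_left (Finset.sup_mono (Finset.subset_insert _ _)) _)
  rcases Finset.mem_insert.1 hQ with rfl | hQ
  · exact rho_le_top
  · exact le_top_of_mem hQ

theorem rho_insert : rho u (insert (rho u s) s) = rho u s := by
  have : low u (insert (rho u s) s) = low u s := by
    rw [low, Finset.filter_insert, if_neg (not_not.2 mem_rho_self), low]
  conv_lhs => rw [rho, this, top_insert]
  rfl

theorem Good.insert (h : Good p u s) (hu : IsPElt p u) (h1 : u ≠ 1) :
    Good p u (insert (rho u s) s) := by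
  refine ⟨fun Q hQ R hR => ?_, fun Q hQ => ?_, fun Q hQ => ?_⟩
  · rcases Finset.mem_insert.1 hQ with rfl | hQ' <;> rcases Finset.mem_insert.1 hR with rfl | hR'
    · exact Or.inl le_rfl
    · exact h.le_or_le hR'
    · exact (h.le_or_le hQ').symm
    · exact h.chain Q hQ' R hR'
  · rcases Finset.mem_insert.1 hQ with rfl | hQ'
    · exact ⟨fun e => h1 (mem_bot.1 (e ▸ mem_rho_self)), (h.isPGroup_top hu).to_le rho_le_top⟩
    · exact h.pgrp Q hQ'
  · rw [top_insert]
    rcases Finset.mem_insert.1 hQ with rfl | hQ'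
    · exact fun x hx => mem_normalizer_rho (fun Q hQ => h.norm Q hQ hx) (le_normalizer hx)
        ⟨x, hx, rfl⟩
    · exact h.norm Q hQ'

theorem inf_insert : centralizer (zpowers u : Set G) ⊓
    (⨅ Q ∈ insert (rho u s) s, normalizer (Q : Set G)) =
      centralizer (zpowers u : Set G) ⊓ ⨅ Q ∈ s, normalizer (Q : Set G) := by
  rw [Finset.iInf_insert]
  refine le_antisymm (inf_le_inf_left _ inf_le_right) fun x hx => ⟨hx.1, ?_, hx.2⟩
  have h : ∀ Q ∈ s, x ∈ normalizer (Q : Set G) := by simpa [mem_iInf] using hx.2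
  refine mem_normalizer_rho h (normalizer_inf_le_sup _ _
    ⟨centralizer_le_normalizer' _ hx.1, mem_normalizer_sup h⟩) ⟨1, one_mem _, ?_⟩
  rw [mem_centralizer_sub_conj'.1 hx.1 u (mem_zpowers u)]
  simp

theorem low_erase : low u (s.erase (rho u s)) = low u s := by
  rw [low, Finset.filter_erase, Finset.erase_eq_of_notMem, low]
  exact fun h => (Finset.mem_filter.1 h).2 mem_rho_self

theorem Good.top_erase (h : Good p u s) (hu : IsPElt p u) :
    top u (s.erase (rho u s)) = top u s := by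
  have hle : top u (s.erase (rho u s)) ≤ top u s :=
    sup_le_sup_left (Finset.sup_mono (Finset.erase_subset _ _)) _
  by_contra hne
  obtain ⟨X, hX, hmax⟩ := Finite.exists_le_maximal (p := fun Y : Subgroup G => Y < top u s)
    (lt_of_le_of_ne hle hne)
  have h1 := lt_inf_normalizer (h.isPGroup_top hu) hmax.prop
  have h2 : top u s ≤ normalizer (X : Set G) := by
    by_contra h3
    refine h1.not_ge (hmax.le_of_ge (lt_of_le_of_ne inf_le_left fun e => h3 ?_) h1.le)
    rw [← e]; exact inf_le_right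
  have h3 : rho u s ≤ X := rho_le (by rw [← low_erase]; exact low_le_top.trans hX) (hX mem_top_self) h2
  refine hmax.prop.not_ge (sup_le (le_sup_left.trans hX) (Finset.sup_le fun Q hQ => ?_))
  by_cases e : Q = rho u s
  · exact e ▸ h3
  · exact (le_top_of_mem (Finset.mem_erase.2 ⟨e, hQ⟩)).trans hX

theorem Good.rho_erase (h : Good p u s) (hu : IsPElt p u) :
    rho u (s.erase (rho u s)) = rho u s := by
  conv_lhs => rw [rho, low_erase, h.top_erase hu]
  rfl

theorem Good.erase (h : Good p u s) (hu : IsPElt p u) : Good p u (s.erase (rho u s)) :=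
  ⟨fun Q hQ R hR => h.chain Q (Finset.mem_of_mem_erase hQ) R (Finset.mem_of_mem_erase hR),
    fun Q hQ => h.pgrp Q (Finset.mem_of_mem_erase hQ),
    fun Q hQ => h.top_erase hu ▸ h.norm Q (Finset.mem_of_mem_erase hQ)⟩

theorem sum_good [Fintype (Finset (Subgroup G))] (hu : IsPElt p u) (h1 : u ≠ 1)
    (F : Subgroup G → Subgroup G → ℂ) :
    ∑ s : Finset (Subgroup G) with Good p u s, (-1 : ℂ) ^ s.card *
      F (centralizer (zpowers u : Set G) ⊓ ⨅ Q ∈ s, normalizer (Q : Set G)) (top u s) = 0 := by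
  have key : ∀ s : Finset (Subgroup G), rho u s ∉ s → (-1 : ℂ) ^ s.card *
      F (centralizer (zpowers u : Set G) ⊓ ⨅ Q ∈ s, normalizer (Q : Set G)) (top u s) +
      (-1 : ℂ) ^ (insert (rho u s) s).card * F (centralizer (zpowers u : Set G) ⊓
        ⨅ Q ∈ insert (rho u s) s, normalizer (Q : Set G)) (top u (insert (rho u s) s)) = 0 :=
    fun s hs => by
      rw [inf_insert, top_insert, Finset.card_insert_of_notMem hs]; ring
  refine Finset.sum_involution
    (fun s _ => if rho u s ∈ s then s.erase (rho u s) else insert (rho u s) s)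
    (fun s hs => ?_) (fun s _ _ => ?_) (fun s hs => ?_) fun s hs => ?_
  · have h : Good p u s := by simpa using hs
    split_ifs with hr
    · have := key (s.erase (rho u s)) (by rw [h.rho_erase hu]; exact Finset.notMem_erase _ _)
      rw [h.rho_erase hu, Finset.insert_erase hr] at this
      rw [add_comm, this]
    · exact key s hr
  · split_ifs with hr
    · exact fun e => Finset.notMem_erase (rho u s) s (e.symm ▸ hr)
    · exact fun e => hr (e.subset (Finset.mem_insert_self _ _))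
  · have h : Good p u s := by simpa using hs
    split_ifs with hr
    · simpa using h.erase hu
    · simpa using h.insert hu h1
  · have h : Good p u s := by simpa using hs
    by_cases hr : rho u s ∈ s
    · simp only [if_pos hr]
      rw [h.rho_erase hu, if_neg (Finset.notMem_erase _ _), Finset.insert_erase hr]
    · simp only [if_neg hr]
      rw [rho_insert, if_pos (Finset.mem_insert_self _ _), Finset.erase_insert hr]

end chains


theorem main {G : Type u} [Group G] [Finite G] {p : ℕ} [Fact p.Prime] {M : Ideal AlgInt}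
    (hM : IsPModular p M) {b : Set (IrrCharacter G)} (hb : IsPBlock M b)
    (S : Finset (Finset (Subgroup G))) (hS : ∀ s, s ∈ S ↔ s.Nonempty ∧
      (∀ Q ∈ s, ∀ R ∈ s, Q ≤ R ∨ R ≤ Q) ∧ (∀ Q : Subgroup G, Q ∈ s → Q ≠ ⊥ ∧ IsPGroup p Q) ∧
        ∃ T : Subgroup G, T ∈ s ∧ ∀ Q : Subgroup G, Q ∈ s →
          Q ≤ T ∧ T ≤ Subgroup.normalizer (Q : Set G)) :
    (Nat.card G : ℂ) * (Nat.card b - blockRank p b) = ∑ s ∈ S,
      (-1 : ℂ) ^ (s.card - 1) *
        ((Nat.card (⨅ Q ∈ s, Subgroup.normalizer (Q : Set G) : Subgroup G) : ℂ) *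
          (Nat.card {ψ : IrrCharacter (⨅ Q ∈ s, Subgroup.normalizer (Q : Set G) : Subgroup G) |
            ∃ β, ψ ∈ β ∧ IsInducedBlock M (⨅ Q ∈ s, Subgroup.normalizer (Q : Set G)) β b} -
          blockRank p {ψ : IrrCharacter (⨅ Q ∈ s, Subgroup.normalizer (Q : Set G) : Subgroup G) |
            ∃ β, ψ ∈ β ∧ IsInducedBlock M (⨅ Q ∈ s, Subgroup.normalizer (Q : Set G)) β b})) := by
  have := Fintype.ofFinite G
  have := Fintype.ofFinite (Finset (Subgroup G))
  have hsup : ∀ {s : Finset (Subgroup G)} {T : Subgroup G}, T ∈ s → (∀ Q ∈ s, Q ≤ T) →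
      s.sup id = T := fun hT h =>
    le_antisymm (Finset.sup_le h) (Finset.le_sup (f := id) hT)
  rw [top_eq hM hb, Finset.sum_congr rfl fun (s : Finset (Subgroup G)) hs => congrArg _ (chain_eq hM hb (T := s.sup id)
    ?_ ?_ ?_ ?_)]
  rotate_left
  · obtain ⟨h0, h1, h2, -⟩ := (hS s).1 hs
    exact (h2 _ (sup_mem h1 h0)).2
  · obtain ⟨-, -, -, T, hT, h⟩ := (hS s).1 hs
    rw [hsup hT fun Q hQ => (h Q hQ).1]
    exact le_iInf₂ fun Q hQ => (h Q hQ).2
  · obtain ⟨h0, h1, -⟩ := (hS s).1 hs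
    exact iInf₂_le _ (sup_mem h1 h0)
  · exact le_iInf₂ fun Q hQ => (centralizer_anti (Finset.le_sup (f := id) hQ)).trans
      (centralizer_le_normalizer' Q)
  simp only [Finset.mul_sum]
  rw [Finset.sum_comm]
  refine Finset.sum_congr rfl fun u hu => ?_
  obtain ⟨h1, hu⟩ : u ≠ 1 ∧ IsPElt p u := by simpa using hu
  have key := sum_good hu h1 fun L T => Lam p M L (Br T (blockIdem M b))
  rw [← Finset.add_sum_erase _ _ (a := ∅) (by simpa using ⟨by simp, by simp, by simp⟩),
    add_eq_zero_iff_eq_neg, ← Finset.sum_neg_distrib] at key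
  simp only [Finset.card_empty, pow_zero, one_mul, top, Finset.sup_empty, sup_bot_eq,
    Finset.notMem_empty, iInf_false, iInf_top, inf_top_eq] at key
  rw [key]
  simp only [mul_ite, mul_zero]
  rw [← Finset.sum_filter]
  refine Finset.sum_congr ?_ fun s hs => ?_
  · ext s
    simp only [Finset.mem_erase, Finset.mem_filter, Finset.mem_univ, true_and, Subgroup.mem_iInf,
      ← Finset.nonempty_iff_ne_empty, hS]
    refine ⟨fun ⟨h0, h⟩ => ⟨⟨h0, h.chain, h.pgrp, _, sup_mem h.chain h0, fun Q hQ =>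
      ⟨Finset.le_sup (f := id) hQ, le_sup_right.trans (h.norm Q hQ)⟩⟩,
      fun Q hQ => h.norm Q hQ mem_top_self⟩, fun ⟨⟨h0, h1, h2, T, hT, h⟩, h3⟩ =>
      ⟨h0, h1, h2, fun Q hQ => sup_le (Subgroup.zpowers_le_of_mem (h3 Q hQ)) ?_⟩⟩
    rw [hsup hT fun Q hQ => (h Q hQ).1]
    exact (h Q hQ).2
  · obtain ⟨h0, -⟩ := (hS s).1 (Finset.mem_filter.1 hs).1
    obtain ⟨n, hn⟩ := Nat.exists_eq_succ_of_ne_zero h0.card_pos.ne'
    rw [hn, Nat.succ_sub_one, pow_succ]
    ring

end aux

/-- An alternating-sum identity over chains of p-subgroups (the character-count form behind the chain reformulation of Alperin's weight conjecture, which holds unconditionally for the difference k − l). Let b be a block of the finite group G relative to a maximal ideal M of the algebraic integers containing the prime p. Consider the nonempty chains s = {Q_0 < Q_1 < ⋯ < Q_m} of nontrivial p-subgroups of G in which every member is normal in the largest member; let N_G(s) be the intersection of the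 normalizers of the members (the stabilizer of the chain), and let b_s be the set of irreducible characters of N_G(s) lying in blocks of N_G(s) that induce b. Then #G · (k(b) − l(b)) equals the sum over all such chains s of (−1)^m · #N_G(s) · (k(b_s) − l(b_s)), where k counts irreducible characters and l is the p-regular rank; equivalently, k(b) − l(b) is the alternating sum of k(b_s) − l(b_s) over representatives of the conjugacy classes of such chains. -/
theorem result {G : Type*} [Group G] [Finite G] (p : ℕ) [Fact p.Prime] (M : Ideal Cfsg.AlgInt) (hM : Cfsg.IsPModular p M) (b : Set (Cfsg.IrrCharacter G)) (hb : Cfsg.IsPBlock M b) : (Nat.card G : ℤ) * ((Nat.card b : ℤ) - (Cfsg.blockRank p b : ℤ)) = ∑ᶠ s ∈ {s : Finset (Subgroup G) | s.Nonempty ∧ (∀ Q ∈ s, ∀ R ∈ s, Q ≤ R ∨ R ≤ Q) ∧ (∀ Q ∈ s, Q ≠ ⊥ ∧ IsPGroup p Q) ∧ ∃ T ∈ s, ∀ Q ∈ s, Q ≤ T ∧ T ≤ Subgroup.normalizer ((Q : Subgroup G) : Set G)}, (-1 : ℤ) ^ (s.card - 1) * (Nat.card (((⨅ Q ∈ s, Subgroup.normalizer ((Q : Subgroup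 G) : Set G) : Subgroup G))) : ℤ) * ((Nat.card {ψ : Cfsg.IrrCharacter (((⨅ Q ∈ s, Subgroup.normalizer ((Q : Subgroup G) : Set G) : Subgroup G))) | ∃ β : Set (Cfsg.IrrCharacter (((⨅ Q ∈ s, Subgroup.normalizer ((Q : Subgroup G) : Set G) : Subgroup G)))), ψ ∈ β ∧ Cfsg.IsInducedBlock M (((⨅ Q ∈ s, Subgroup.normalizer ((Q : Subgroup G) : Set G) : Subgroup G))) β b} : ℤ) - (Cfsg.blockRank p {ψ : Cfsg.IrrCharacter (((⨅ Q ∈ s, Subgroup.normalizer ((Q : Subgroup G) : Set G) : Subgroup G))) | ∃ β : Set (Cfsg.IrrCharacter (((⨅ Q ∈ s, Subgroup.normalizer ((Q : Subgroup G) : Set G) : Subgroup G)))), ψ ∈ β ∧ Cfsg.IsInducedBlock M (((⨅ Q ∈ s, Subgroup.normalizer ((Q : Subgroup G) : Set G) : Subgroup G))) β b} : ℤ)) := by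
  rw [finsum_mem_eq_finite_toFinset_sum _ (Set.toFinite _)]
  refine Int.cast_injective (α := ℂ) ?_
  push_cast
  rw [main hM hb _ fun s => Set.Finite.mem_toFinset (Set.toFinite _)]
  exact Finset.sum_congr rfl fun s _ => (mul_assoc _ _ _).symm

end Cfsg.Agent.S4651
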