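import Cfsg.Statements.S4654
import Cfsg.Agent.Blk.Pairs
-- import your own Cfsg.Agent.* helpers here

set_option autoImplicit false
open Cfsg

namespace Cfsg.Agent.S4654

open GA MonoidAlgebra

/-- Fix a prime p and a maximal ideal M of the algebraic integers containing p. Let P be a normal p-subgroup of the finite group G, B a p-block of G and e a p-block of C_G(P) such that (P, e) is a Brauer pair of B (as P is normal, this says that e occurs in the idempotent of B, which is supported on C_G(P)). Let T be the stabilizer of e in G under conjugation. Then the idempotent of e is a block idempotent of T: some block E of T has, at every element of T, the same idempotent coefficient as e (zero off C_G(P)); and the idempotent of B is the sum of the distinct G-conjugates of the idempotent of e: its coefficient at g is the sum over all x in G of the coefficient of e at x⁻¹ g x, divided by the order of T. -/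
theorem result {G : Type*} [Group G] [Fintype G] (p : ℕ) [Fact p.Prime] (M : Ideal Cfsg.AlgInt) (hM : Cfsg.IsPModular p M) (P : Subgroup G) [P.Normal] (hP : IsPGroup p P) (B : Set (Cfsg.IrrCharacter G)) (e : Set (Cfsg.IrrCharacter (Subgroup.centralizer (P : Set G)))) (hBe : Cfsg.IsBrauerPairOf p M B P e) (T : Subgroup G) (hT : ∀ x : G, x ∈ T ↔ Cfsg.StabilizesBlock (Subgroup.centralizer (P : Set G)) e x) : (∃ E : Set (Cfsg.IrrCharacter T), Cfsg.IsPBlock M E ∧ ∀ t : T, Cfsg.blockCoeff E t = Cfsg.subgroupBlockCoeff (Subgroup.centralizer (P : Set G)) e (t : G)) ∧ ∀ g : G, Cfsg.blockCoeff B g = (Nat.card T : ℂ)⁻¹ * ∑ x : G, Cfsg.subgroupBlockCoeff (Subgroup.centralizer (P : Set G)) e (x⁻¹ * g * x) := by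
  have := hM.charP
  obtain ⟨hB, he, h⟩ := (isBrauerPairOf_iff hM).1 hBe
  have hN : (⊤ : Subgroup G) ≤ Subgroup.normalizer (P : Set G) := le_normalizer_of_normal' _ _
  have hNC := hN.trans (normalizer_le_normalizer_centralizer' P)
  have hT' : T = Subgroup.normalizer (P : Set G) ⊓ cjStab (subIdem M _ e) :=
    he.eq_normalizer_inf_cjStab hM fun y => (hT y).trans (and_iff_right (hN trivial)).symm
  have hI := h.pair.isInertial_stab
  rw [← hT'] at hI
  constructor
  · obtain ⟨E, hE, -, h1⟩ := hM.exists_block_forall_blockCoeff_eq hI.centralizer_le he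
      (hI.isBlockIdem (hT' ▸ le_inf Subgroup.le_normalizer h.pair.mem_fixedBy))
    exact ⟨E, hE, h1⟩
  · intro g
    have h1 : IsPrimIdem (Zalg (ResK M) (Subgroup.centralizer (P : Set G)) ⊤) (blockIdem M B) :=
      (isBlockIdem_iff_centralizer hP le_top le_top hN).1 h.block
    have h2 : blockIdem M B = orbIdem ⊤ (subIdem M _ e) :=
      h.pair.block.eq_orbIdem le_rfl le_top hNC hNC h1 (by
        rw [← Br_of_mem_suppIn h1.mem.1, h.br]; exact h.pair.ne_zero)
    obtain ⟨h3, h4, h5⟩ := he.orbIdem_subIdemC hM hNC
    have h6 : blockIdemC B = orbIdem ⊤ (subIdemC _ e) :=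
      idem_eq_of_redGA_eq (hB.blockIdemC_mem_intGA hM) h3 (blockIdemC_mul_self B) h4
        (central_mul_comm (blockIdemC_mem B) _) (by rw [h5, ← h2]; rfl)
    have h7 : ⊤ ⊓ cjStab (subIdemC _ e) = T := by
      rw [hT']
      ext x
      exact and_congr (iff_of_true trivial (hN trivial)) (he.cj_subIdemC_eq_iff hM (hNC trivial))
    have : Fintype (⊤ : Subgroup G) := Fintype.ofFinite _
    have h8 := card_smul_relTr (R := ℂ) (le_top : T ≤ ⊤) (a := subIdemC _ e)
      (h7 ▸ fun _ h => h.2)
    rw [← h7, ← orbIdem, h7, ← h6] at h8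
    have h9 := congrArg (fun a => a.coeff g) h8
    simp only [coeff_finset_sum, coeff_cj, coeff_subIdemC] at h9
    rw [← Subgroup.topEquiv.toEquiv.sum_comp]
    refine (eq_inv_mul_iff_mul_eq₀ (natCard_cast_ne_zero T)).2 (Eq.trans ?_ h9)
    rw [← nsmul_eq_mul]
    rfl

end Cfsg.Agent.S4654
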