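import Cfsg.Statements.S4657
import Cfsg.Agent.Blk.Pairs
-- import your own Cfsg.Agent.* helpers here

set_option autoImplicit false
open Cfsg

namespace Cfsg.Agent.S4657

open GA MonoidAlgebra

/-- Fix a prime p and a maximal ideal M of the algebraic integers containing p. Every Brauer pair (P, e) of the finite group G is a Brauer pair of exactly one p-block B of G. -/
theorem result {G : Type*} [Group G] [Fintype G] (p : ℕ) [Fact p.Prime] (M : Ideal Cfsg.AlgInt) (hM : Cfsg.IsPModular p M) (P : Subgroup G) (e : Set (Cfsg.IrrCharacter (Subgroup.centralizer (P : Set G)))) (hPe : Cfsg.IsBrauerPair p M P e) : ∃! B : Set (Cfsg.IrrCharacter G), Cfsg.IsBrauerPairOf p M B P e := by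
  have := hM.charP
  obtain ⟨b, hb⟩ := (hPe.isBPair hM).exists_isPairOf
  obtain ⟨B, hB, rfl⟩ := hM.exists_block_of_isBlockIdem hb.block
  exact ⟨B, (isBrauerPairOf_iff hM).2 ⟨hB, hPe.2, hb⟩, fun B' hB' =>
    hB'.2.1.blockIdem_inj hB hM ((hB'.isPairOf hM).unique hb)⟩

end Cfsg.Agent.S4657
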