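import Cfsg.Statements.S4661
import Cfsg.Agent.Blk.Pairs
-- import your own Cfsg.Agent.* helpers here

set_option autoImplicit false
open Cfsg

namespace Cfsg.Agent.S4661

open GA MonoidAlgebra

/-- Fix a prime p and a maximal ideal M of the algebraic integers containing p. Let (P, e) be a maximal Brauer pair of the p-block B of the finite group G, Q ≤ P, and f the p-block of C_G(Q) with (Q, f) ≤ (P, e). Then C_P(Q) is contained in a defect group of f (as a block of the group C_G(Q)); and for some x in G the conjugate pair (x Q x⁻¹, conjugate of f) again lies below (P, e) and C_P(x Q x⁻¹) is a defect group of the conjugate of f in C_G(x Q x⁻¹). -/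
theorem result {G : Type*} [Group G] [Fintype G] (p : ℕ) [Fact p.Prime] (M : Ideal Cfsg.AlgInt) (hM : Cfsg.IsPModular p M) (B : Set (Cfsg.IrrCharacter G)) (P Q : Subgroup G) (e : Set (Cfsg.IrrCharacter (Subgroup.centralizer (P : Set G)))) (f : Set (Cfsg.IrrCharacter (Subgroup.centralizer (Q : Set G)))) (hmax : Cfsg.IsMaximalBrauerPair p M B P e) (hQP : Q ≤ P) (hf : Cfsg.IsPBlock M f) (hle : Cfsg.SubpairLE p M Q f P e) : (∃ D : Subgroup (Subgroup.centralizer (Q : Set G)), Cfsg.IsDefectGroup p M f D ∧ (P ⊓ Subgroup.centralizer (Q : Set G)).subgroupOf (Subgroup.centralizer (Q : Set G)) ≤ D) ∧ ∃ x : G, Cfsg.SubpairLE p M (Q.map (MulAut.conj x).toMonoidHom) (Cfsg.conjBlock Q x f) P e ∧ Cfsg.IsDefectGroup p M (Cfsg.conjBlock Q x f) ((P ⊓ Subgroup.centralizer ((Q.map (MulAut.conj x).toMonoidHom) : Set G)).subgroupOf (Subgroup.centralizer ((Q.map (MulAut.conj x).toMonoidHom) : Set G))) := by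
  have := hM.charP
  have h := hmax.isMaxPair hM
  have h1 := hle.bpLe hM
  have hI := (h1.left h.pair).isInertial_centralizer
  obtain ⟨D, hD, h2⟩ := hI.exists_isDefGrp_ge inf_le_right (h.pair.isPGroup.to_le inf_le_left)
    (h1.Br_ne_zero h.pair (inf_le_inf_left P (centralizer_le_normalizer' Q)))
  refine ⟨⟨D.subgroupOf _, (hf.isDefectGroup_subgroupOf_iff hM hD.le).2 hD,
    Subgroup.subgroupOf_mono _ h2⟩, ?_⟩
  obtain ⟨g, h3, h4⟩ := h.exists_cj_isDefGrp (h.toIsPairOf.of_le h1) hI hD
  have h5 := hD.cjMap g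
  rw [h4, cjS_centralizer] at h5
  exact ⟨g, (subpairLE_conjBlock_iff hM hf hmax.isPBlock_pair).2 h3,
    (hf.isDefectGroup_conjBlock_iff hM inf_le_right).2 h5⟩

end Cfsg.Agent.S4661
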