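import Cfsg.Statements.S4662
import Cfsg.Agent.Blk.Pairs
-- import your own Cfsg.Agent.* helpers here

set_option autoImplicit false
open Cfsg

namespace Cfsg.Agent.S4662

open GA MonoidAlgebra

/-- Fix a prime p and a maximal ideal M of the algebraic integers containing p. Let (P, e) be a maximal Brauer pair of the p-block B of the finite group G, Q ≤ P, and f the p-block of C_G(Q) with (Q, f) ≤ (P, e). Let T be the stabilizer of f in N_G(Q). Then the idempotent of f is a block idempotent of T, and N_P(Q) is contained in a defect group of that block of T; moreover for some x in G the conjugate pair (x Q x⁻¹, conjugate of f) again lies below (P, e) and, with T' the stabilizer of the conjugate of f in N_G(x Q x⁻¹), N_P(x Q x⁻¹) is a defect group of the block of T' whose idempotent is that of the conjugate of f. -/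
theorem result {G : Type*} [Group G] [Fintype G] (p : ℕ) [Fact p.Prime] (M : Ideal Cfsg.AlgInt) (hM : Cfsg.IsPModular p M) (B : Set (Cfsg.IrrCharacter G)) (P Q : Subgroup G) (e : Set (Cfsg.IrrCharacter (Subgroup.centralizer (P : Set G)))) (f : Set (Cfsg.IrrCharacter (Subgroup.centralizer (Q : Set G)))) (hmax : Cfsg.IsMaximalBrauerPair p M B P e) (hQP : Q ≤ P) (hf : Cfsg.IsPBlock M f) (hle : Cfsg.SubpairLE p M Q f P e) (T : Subgroup G) (hT : ∀ y : G, y ∈ T ↔ y ∈ Subgroup.normalizer (Q : Set G) ∧ Cfsg.StabilizesBlock (Subgroup.centralizer (Q : Set G)) f y) : (∃ F : Set (Cfsg.IrrCharacter T), Cfsg.IsPBlock M F ∧ (∀ t : T, Cfsg.blockCoeff F t = Cfsg.subgroupBlockCoeff (Subgroup.centralizer (Q : Set G)) f (t : G)) ∧ ∃ D : Subgroup T, Cfsg.IsDefectGroup p M F D ∧ (P ⊓ Subgroup.normalizer (Q : Set G)).subgroupOf T ≤ D) ∧ ∃ x : G, Cfsg.SubpairLE p M (Q.map (MulAut.conj x).toMonoidHom) (Cfsg.conjBlock Q x f) P e ∧ ∀ (T' : Subgroup G), (∀ y : G, y ∈ T' ↔ y ∈ Subgroup.normalizer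 ((Q.map (MulAut.conj x).toMonoidHom) : Set G) ∧ Cfsg.StabilizesBlock (Subgroup.centralizer ((Q.map (MulAut.conj x).toMonoidHom) : Set G)) (Cfsg.conjBlock Q x f) y) → ∃ F' : Set (Cfsg.IrrCharacter T'), Cfsg.IsPBlock M F' ∧ (∀ t : T', Cfsg.blockCoeff F' t = Cfsg.subgroupBlockCoeff (Subgroup.centralizer ((Q.map (MulAut.conj x).toMonoidHom) : Set G)) (Cfsg.conjBlock Q x f) (t : G)) ∧ Cfsg.IsDefectGroup p M F' ((P ⊓ Subgroup.normalizer ((Q.map (MulAut.conj x).toMonoidHom) : Set G)).subgroupOf T') := by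
  have := hM.charP
  have h := hmax.isMaxPair hM
  have h1 := hle.bpLe hM
  have hI := (h1.left h.pair).isInertial_stab
  obtain rfl := hf.eq_normalizer_inf_cjStab hM hT
  obtain ⟨D, hD, h2⟩ := hI.exists_isDefGrp_ge (le_inf inf_le_right (h1.mem_fixedBy h.pair))
    (h.pair.isPGroup.to_le inf_le_left) (h1.Br_ne_zero h.pair le_rfl)
  constructor
  · obtain ⟨F, hF, h3, h4⟩ := hM.exists_block_forall_blockCoeff_eq hI.centralizer_le hf
      (hI.isBlockIdem (le_inf Subgroup.le_normalizer hI.pair.mem_fixedBy))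
    exact ⟨F, hF, h4, D.subgroupOf _, (hF.isDefectGroup_subgroupOf_iff hM hD.le).2
      (by rw [h3]; exact hD),
      Subgroup.subgroupOf_mono _ h2⟩
  obtain ⟨g, h3, h4⟩ := h.exists_cj_isDefGrp (h.toIsPairOf.of_le h1) hI hD
  refine ⟨g, (subpairLE_conjBlock_iff hM hf hmax.isPBlock_pair).2 h3, fun T' hT' => ?_⟩
  have hI' := hI.cjMap g
  have h5 := hD.cjMap g
  have h6 := (hf.conjBlock g).eq_normalizer_inf_cjStab hM hT'
  rw [subIdem_conjBlock] at h6
  have h7 : cjS g (Subgroup.normalizer (Q : Set G) ⊓ cjStab (subIdem M _ f)) = T' := by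
    rw [h6, cjS_inf, cjS_normalizer, cjS_cjStab]; rfl
  rw [h7] at hI' h5 h4
  have h8 : cjS g D = P ⊓ Subgroup.normalizer (cjS g Q : Set G) := by
    rw [h4, h6, ← inf_assoc]
    exact inf_eq_left.2 (h3.mem_fixedBy h.pair)
  rw [← subIdem_conjBlock] at hI' h5
  obtain ⟨F, hF, h9, h10⟩ := hM.exists_block_forall_blockCoeff_eq hI'.centralizer_le
    (hf.conjBlock g) (hI'.isBlockIdem (h7 ▸ cjS_mono g
      (le_inf Subgroup.le_normalizer hI.pair.mem_fixedBy)))
  rw [h8] at h5
  exact ⟨F, hF, h10, (hF.isDefectGroup_subgroupOf_iff hM h5.le).2 (by rw [h9]; exact h5)⟩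

end Cfsg.Agent.S4662
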