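import Cfsg.Statements.S4666
import Cfsg.Agent.Blk.Contrib

set_option autoImplicit false
open Cfsg

namespace Cfsg.Agent.S4666

/-- Fix a prime p and a maximal ideal M of the algebraic integers containing p, and a p-block B of the finite group G of defect d. For every integer combination χ of the irreducible characters in B, p^d times the function that agrees with χ on p-regular elements and vanishes elsewhere is again an integer combination of the irreducible characters in B. -/
theorem result {G : Type*} [Group G] [Fintype G] (p : ℕ) [Fact p.Prime] (M : Ideal Cfsg.AlgInt) (hM : Cfsg.IsPModular p M) (B : Set (Cfsg.IrrCharacter G)) (hB : Cfsg.IsPBlock M B) (χ : G → ℂ) (hχ : (∃ n : Cfsg.IrrCharacter G → ℤ, ∀ g : G, χ g = ∑ᶠ ψ ∈ B, (n ψ : ℂ) * (ψ : G → ℂ) g)) : (∃ n : Cfsg.IrrCharacter G → ℤ, ∀ g : G, (p ^ Cfsg.blockDefect p B : ℂ) * Cfsg.pRegularPart p χ g = ∑ᶠ ψ ∈ B, (n ψ : ℂ) * (ψ : G → ℂ) g) := by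
  classical
  obtain ⟨n, hn⟩ := hχ
  have e : χ = ∑ ψ : IrrCharacter G with ψ ∈ B, (n ψ : ℂ) • ψ.1 := by
    funext g
    rw [hn, finsum_mem_irr_eq_sum, Finset.sum_apply]
    rfl
  have e2 : (p : ℂ) ^ blockDefect p B • pRegularPart p χ = ∑ ψ : IrrCharacter G with ψ ∈ B,
      (n ψ : ℂ) • (p : ℂ) ^ blockDefect p B • pRegularPart p ψ.1 := by
    funext g
    simp only [Finset.sum_apply, Pi.smul_apply, pRegularPart_apply, smul_eq_mul]
    split_ifs
    · simp
    · rw [hn, finsum_mem_irr_eq_sum, Finset.mul_sum]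
      exact Finset.sum_congr rfl fun _ _ => by ring
  have h1 : IsGeneralizedCharacter G ((p : ℂ) ^ blockDefect p B • pRegularPart p χ) :=
    e2 ▸ IsGeneralizedCharacter.sum fun ψ hψ =>
      (isGen_blockDefect_smul (Finset.mem_filter.1 hψ).2).zsmul _
  have h2 : blockPart B ((p : ℂ) ^ blockDefect p B • pRegularPart p χ) =
      (p : ℂ) ^ blockDefect p B • pRegularPart p χ := by
    rw [e2, blockPart_sum]
    exact Finset.sum_congr rfl fun ψ hψ => by
      rw [blockPart_smul, blockPart_smul,
        hB.blockPart_pRegularPart_irr hM (Finset.mem_filter.1 hψ).2]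
  obtain ⟨a, ha, -⟩ := h1.exists_eq_sum
  refine ⟨a, fun g => ?_⟩
  have := congrFun h2 g
  rw [blockPart_eq] at this
  simp only [ha] at this
  exact this.symm

end Cfsg.Agent.S4666
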