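import Cfsg.Statements.S4668
import Cfsg.Agent.Blk.SubIdem
import Cfsg.Agent.Grp.Coprime
-- import your own Cfsg.Agent.* helpers here

set_option autoImplicit false
open Cfsg

namespace Cfsg.Agent.S4668

open GA MonoidAlgebra

theorem le_centralizer_of_selfCentralizing {G : Type*} [Group G] [Finite G] {p : ℕ}
    [Fact p.Prime] {P : Subgroup G} (hP : IsPGroup p P) {x : G} (hx : ¬ p ∣ orderOf x)
    (hxP : x ∈ Subgroup.normalizer (P : Set G))
    (h : P ⊓ Subgroup.centralizer ((P ⊓ Subgroup.centralizer {x} : Subgroup G) : Set G) ≤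
      Subgroup.centralizer {x}) : P ≤ Subgroup.centralizer {x} := by
  by_contra hne
  have hlt : P ⊓ Subgroup.centralizer {x} < P :=
    lt_of_le_of_ne inf_le_left fun h => hne (inf_eq_left.1 h)
  refine (lt_inf_normalizer hP hlt).2 fun v ⟨hv, hvN⟩ => ⟨hv, ?_⟩
  have h1 : v⁻¹ * x * v * x⁻¹ ∈ P := by
    have := P.mul_mem (P.inv_mem hv) (conj_mem_of_mem_normalizer hxP hv)
    simpa only [mul_assoc] using this
  have h2 : v⁻¹ * x * v * x⁻¹ ∈
      Subgroup.centralizer ((P ⊓ Subgroup.centralizer {x} : Subgroup G) : Set G) := by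
    rw [mem_centralizer_sub_conj']
    intro u hu
    have h3 : x⁻¹ * u * x = u := by
      rw [mul_assoc, Subgroup.mem_centralizer_singleton_iff.1 hu.2, inv_mul_cancel_left]
    have h4 : x * (v * u * v⁻¹) * x⁻¹ = v * u * v⁻¹ := by
      rw [← Subgroup.mem_centralizer_singleton_iff.1 (conj_mem_of_mem_normalizer hvN hu).2,
        mul_inv_cancel_right]
    calc v⁻¹ * x * v * x⁻¹ * u * (v⁻¹ * x * v * x⁻¹)⁻¹
        = v⁻¹ * (x * (v * (x⁻¹ * u * x) * v⁻¹) * x⁻¹) * v := by group
      _ = u := by rw [h3, h4]; group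
  have h5 := commute_of_commutator_mem_of_coprime (M := P ⊓ Subgroup.centralizer {x})
    inf_le_right ⟨h1, h ⟨h1, h2⟩⟩ (IsPGroup.coprime_card_of_not_dvd hP.to_inf_left hx)
  exact Subgroup.mem_centralizer_singleton_iff.2 h5.symm.eq

/-- Fix a prime p and a maximal ideal M of the algebraic integers containing p. Let Q₀ < Q₁ < ⋯ < Q_m be a strictly increasing chain of p-subgroups of the finite group G and N the intersection of their normalizers. Then every block idempotent of N is supported on C_G(Q_m): for every p-block E of N, the idempotent coefficient of E vanishes at every element of N outside C_G(Q_m). -/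
theorem result {G : Type*} [Group G] [Fintype G] (p : ℕ) [Fact p.Prime] (M : Ideal Cfsg.AlgInt) (hM : Cfsg.IsPModular p M) (m : ℕ) (Q : Fin (m + 1) → Subgroup G) (hQ : StrictMono Q) (hQp : ∀ i, IsPGroup p (Q i)) (N : Subgroup G) (hN : ∀ g : G, g ∈ N ↔ ∀ i, g ∈ Subgroup.normalizer (Q i : Set G)) (E : Set (Cfsg.IrrCharacter N)) (hE : Cfsg.IsPBlock M E) (n : N) (hn : (n : G) ∉ Subgroup.centralizer (Q (Fin.last m) : Set G)) : Cfsg.blockCoeff E n = 0 := by
  have := hM.charP
  have he := hE.isBlockIdem_subIdem hM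
  have hNQ : ∀ i, N ≤ Subgroup.normalizer (Q i : Set G) := fun i g hg => (hN g).1 hg i
  have h1 : subIdem M N E ∈ suppIn (ResK M)
      (Subgroup.centralizer ((Q (Fin.last m) ⊓ N : Subgroup G) : Set G)) :=
    mem_suppIn_centralizer_of_normal (hQp _).to_inf_left inf_le_right
      ((le_inf (hNQ _) Subgroup.le_normalizer).trans (normalizer_inf_le _ _)) le_rfl he.mem he.idem
  have h2 : subIdem M N E ∈ suppIn (ResK M) (Subgroup.centralizer (Q (Fin.last m) : Set G)) := by
    intro x hx
    by_contra h0
    have hxN := mem_of_coeff_ne_zero he.mem.1 h0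
    have hxC := mem_centralizer_iff_le.1 (mem_of_coeff_ne_zero h1 h0)
    have hxp := isPRegular_of_coeff_ne_zero (p := p) he.mem he.idem h0
    refine hx (mem_centralizer_iff_le.2 ?_)
    have key : ∀ i, Q i ≤ Subgroup.centralizer {x} := by
      intro i
      induction i using Fin.induction with
      | zero =>
        refine le_trans (le_inf (hQ.monotone (Fin.zero_le _)) fun g hg => (hN g).2 fun j => ?_) hxC
        exact Subgroup.le_normalizer (hQ.monotone (Fin.zero_le j) hg)
      | succ i ih =>
        refine le_centralizer_of_selfCentralizing (hQp _) hxp (hNQ _ hxN) (le_trans ?_ hxC)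
        refine le_inf (inf_le_left.trans (hQ.monotone (Fin.le_last _)))
          fun g ⟨hg, hgC⟩ => (hN g).2 fun j => ?_
        by_cases hj : i.succ ≤ j
        · exact Subgroup.le_normalizer (hQ.monotone hj hg)
        · refine centralizer_le_normalizer' _ (centralizer_anti ?_ hgC)
          have hj' : j ≤ i.castSucc := Fin.le_castSucc_iff.2 (not_le.1 hj)
          exact (hQ.monotone hj').trans (le_inf (hQ.monotone Fin.castSucc_lt_succ.le) ih)
    exact key _
  have h3 := hE.subgroupBlockCoeff_eq_zero_of_mem_suppIn hM h2 hn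
  rwa [← coeff_emb_blockIdemC, coeff_emb_subtype] at h3

end Cfsg.Agent.S4668
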