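import Cfsg.Statements.S4670
import Cfsg.Agent.Blk.SubIdem
import Cfsg.Agent.Blk.Defect
import Cfsg.Agent.GA.Cover
-- import your own Cfsg.Agent.* helpers here

set_option autoImplicit false
open Cfsg

namespace Cfsg.Agent.S4670

open GA MonoidAlgebra

/-- Fix a prime p and a maximal ideal M of the algebraic integers containing p. Let P be a p-subgroup of the finite group G and H a subgroup containing N_G(P). For every p-block B of G with defect group P there is exactly one p-block c of H with defect group P whose idempotent agrees with that of B, modulo the local ideal at M, at every element of C_G(P) (their Brauer-map images at P coincide); and every p-block c of H with defect group P arises in this way from exactly one such B. This is the Brauer correspondence over H. -/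
theorem result {G : Type*} [Group G] [Fintype G] (p : ℕ) [Fact p.Prime] (M : Ideal Cfsg.AlgInt) (hM : Cfsg.IsPModular p M) (P H : Subgroup G) (hP : IsPGroup p P) (hH : Subgroup.normalizer (P : Set G) ≤ H) : (∀ B : Set (Cfsg.IrrCharacter G), Cfsg.IsPBlock M B → Cfsg.IsDefectGroup p M B P → ∃! c : Set (Cfsg.IrrCharacter H), Cfsg.IsPBlock M c ∧ Cfsg.IsDefectGroup p M c (P.subgroupOf H) ∧ ∀ x : G, x ∈ Subgroup.centralizer (P : Set G) → Cfsg.MemLocalIdeal M (Cfsg.blockCoeff B x - Cfsg.subgroupBlockCoeff H c x)) ∧ (∀ c : Set (Cfsg.IrrCharacter H), Cfsg.IsPBlock M c → Cfsg.IsDefectGroup p M c (P.subgroupOf H) → ∃! B : Set (Cfsg.IrrCharacter G), Cfsg.IsPBlock M B ∧ Cfsg.IsDefectGroup p M B P ∧ ∀ x : G, x ∈ Subgroup.centralizer (P : Set G) → Cfsg.MemLocalIdeal M (Cfsg.blockCoeff B x - Cfsg.subgroupBlockCoeff H c x)) := by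
  have := hM.charP
  have hPH : P ≤ H := Subgroup.le_normalizer.trans hH
  have hH' : ⊤ ⊓ Subgroup.normalizer (P : Set G) ≤ H := inf_le_right.trans hH
  have key : ∀ (B : Set (Cfsg.IrrCharacter G)) (c : Set (Cfsg.IrrCharacter H)), IsPBlock M B →
      IsPBlock M c → ((∀ x : G, x ∈ Subgroup.centralizer (P : Set G) →
        MemLocalIdeal M (blockCoeff B x - subgroupBlockCoeff H c x)) ↔
        Br P (blockIdem M B) = Br P (subIdem M H c)) := by
    intro B c hB hc
    rw [← sub_eq_zero, ← map_sub, Br_eq_zero_iff]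
    refine forall₂_congr fun x _ => ?_
    rw [hM.memLocalIdeal_sub_iff (hB.blockCoeff_mem hM x) (hc.subgroupBlockCoeff_mem hM x)
      (isAlgebraic_blockCoeff B x) (isAlgebraic_subgroupBlockCoeff c x), coeff_sub,
      Finsupp.sub_apply, sub_eq_zero, coeff_blockIdem, coeff_subIdem]
  refine ⟨fun B hB hD => ?_, fun c hc hD => ?_⟩
  · rw [hB.isDefectGroup_iff hM] at hD
    obtain ⟨e, he, heD, h⟩ := (hB.isBlockIdem hM).exists_Br_eq_of_le hD hH' le_top
    obtain ⟨c, hc, rfl⟩ := hM.exists_block_of_isBlockIdem_sub he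
    refine ⟨c, ⟨hc, (hc.isDefectGroup_subgroupOf_iff hM hPH).2 heD, (key B c hB hc).2 h.symm⟩,
      fun c' ⟨hc', _, h'⟩ => hc'.subIdem_inj hc hM ?_⟩
    rw [key B c' hB hc'] at h'
    exact (hc'.isBlockIdem_subIdem hM).eq_of_Br_eq he le_rfl hP hPH (h' ▸ hD.br_ne_zero)
      (h'.symm.trans h.symm)
  · rw [hc.isDefectGroup_subgroupOf_iff hM hPH] at hD
    obtain ⟨e, he, heD, h⟩ := (hc.isBlockIdem_subIdem hM).exists_Br_eq_of_ge hD hH' le_top
    obtain ⟨B, hB, rfl⟩ := hM.exists_block_of_isBlockIdem he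
    refine ⟨B, ⟨hB, (hB.isDefectGroup_iff hM P).2 heD, (key B c hB hc).2 h⟩,
      fun B' ⟨hB', _, h'⟩ => hB'.blockIdem_inj hB hM ?_⟩
    rw [key B' c hB' hc] at h'
    exact (hB'.isBlockIdem hM).eq_of_Br_eq he le_rfl hP le_top (h' ▸ hD.br_ne_zero)
      (h'.trans h.symm)

end Cfsg.Agent.S4670
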