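import Cfsg.Statements.S4671
import Cfsg.Agent.Blk.SubIdem
import Cfsg.Agent.Blk.Defect
import Cfsg.Agent.GA.Cover
-- import your own Cfsg.Agent.* helpers here

set_option autoImplicit false
open Cfsg

namespace Cfsg.Agent.S4671

open GA MonoidAlgebra

/-- Fix a prime p and a maximal ideal M of the algebraic integers containing p. Let N be a normal subgroup of the finite group G, B a p-block of G and P a defect group of B. Then there is a p-block c of N, stable under conjugation by P and covered by B (some member of B has a constituent in c on restriction to N), such that P ∩ N is a defect group of c. -/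
theorem result {G : Type*} [Group G] [Fintype G] (p : ℕ) [Fact p.Prime] (M : Ideal Cfsg.AlgInt) (hM : Cfsg.IsPModular p M) (N : Subgroup G) [N.Normal] [Fintype N] (B : Set (Cfsg.IrrCharacter G)) (hB : Cfsg.IsPBlock M B) (P : Subgroup G) (hP : Cfsg.IsDefectGroup p M B P) : ∃ c : Set (Cfsg.IrrCharacter N), Cfsg.IsPBlock M c ∧ (∀ x ∈ P, Cfsg.StabilizesBlock N c x) ∧ (∃ χ ∈ B, ∃ θ ∈ c, Cfsg.classInner (fun n : N => (χ : G → ℂ) n) (θ : N → ℂ) ≠ 0) ∧ Cfsg.IsDefectGroup p M c ((P ⊓ N).subgroupOf N) := by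
  have := hM.charP
  rw [hB.isDefectGroup_iff hM] at hP
  have hb := hB.isBlockIdem hM
  have hN := le_normalizer_of_normal' ⊤ N
  obtain ⟨e, he, h0⟩ := IsBlockIdem.exists_covered hb.ne_zero N
  rw [← mul_comm_of_fixedBy_top hb.mem.2] at h0
  obtain ⟨g, -, h1, h2, h3⟩ := hP.exists_inf_of_covers he le_top hN hb h0
  obtain ⟨c, hc, h4⟩ := hM.exists_block_of_isBlockIdem_sub
    (he.cj_of_mem_normalizer (hN (Subgroup.mem_top g)) (hN (Subgroup.mem_top g)))
  rw [← h4] at h1 h2 h3
  refine ⟨c, hc, fun x hx => (hc.stabilizesBlock_iff hM).2 ⟨hN (Subgroup.mem_top x), h1 x hx⟩,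
    (exists_classInner_subtype_iff hM hB hc).2 fun h => h2 ?_,
    (hc.isDefectGroup_subgroupOf_iff hM inf_le_right).2 h3⟩
  rw [← Br_mul hP.isPGroup h1 (fixedBy_anti le_top hb.mem.2), ← mul_comm_of_fixedBy_top hb.mem.2,
    h, map_zero]

end Cfsg.Agent.S4671
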