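import Cfsg.Statements.S4674
import Cfsg.Agent.Blk.SubIdem
import Cfsg.Agent.Blk.Induced
import Cfsg.Agent.GA.Cover
-- import your own Cfsg.Agent.* helpers here

set_option autoImplicit false
open Cfsg

namespace Cfsg.Agent.S4674

open GA MonoidAlgebra

/-- Fix a prime p and a maximal ideal M of the algebraic integers containing p. Let N be a normal subgroup of the finite group G, Q a p-subgroup of N, H = N_G(Q) and L = H ∩ N = N_N(Q). Let d be a p-block of N with defect group Q and e the p-block of L with defect group Q that induces d inside N (its Brauer correspondent). Then block induction from H to G is a bijection from the p-blocks of H covering e onto the p-blocks of G covering d: every block of H covering e induces exactly one block of G, and that block covers d; and every block of G covering d is induced by exactly one block of H covering e. -/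
theorem result {G : Type*} [Group G] [Fintype G] (p : ℕ) [Fact p.Prime] (M : Ideal Cfsg.AlgInt) (hM : Cfsg.IsPModular p M) (N : Subgroup G) [N.Normal] [Fintype N] (Q : Subgroup G) (hQ : IsPGroup p Q) (hQN : Q ≤ N) [Fintype ↥(Subgroup.normalizer (Q : Set G) ⊓ N)] (d : Set (Cfsg.IrrCharacter N)) (hd : Cfsg.IsPBlock M d) (hdQ : Cfsg.IsDefectGroup p M d (Q.subgroupOf N)) (e : Set (Cfsg.IrrCharacter ↥(Subgroup.normalizer (Q : Set G) ⊓ N))) (he : Cfsg.IsPBlock M e) (heQ : Cfsg.IsDefectGroup p M e (Q.subgroupOf (Subgroup.normalizer (Q : Set G) ⊓ N))) (hed : Cfsg.IsInducedBlockIn M N (Subgroup.normalizer (Q : Set G) ⊓ N) e d) : (∀ c : Set (Cfsg.IrrCharacter ↥(Subgroup.normalizer (Q : Set G))), Cfsg.IsPBlock M c → (∃ ψ ∈ c, ∃ ξ ∈ e, Cfsg.classInner (fun l : ↥(Subgroup.normalizer (Q : Set G) ⊓ N) => (ψ : ↥(Subgroup.normalizer (Q : Set G)) → ℂ) (Subgroup.inclusion inf_le_left l)) (ξ : ↥(Subgroup.normalizer (Q : Set G) ⊓ N) → ℂ) ≠ 0) → ∃! B : Set (Cfsg.IrrCharacter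 G), Cfsg.IsInducedBlock M (Subgroup.normalizer (Q : Set G)) c B ∧ (∃ χ ∈ B, ∃ θ ∈ d, Cfsg.classInner (fun n : N => (χ : G → ℂ) n) (θ : N → ℂ) ≠ 0)) ∧ (∀ B : Set (Cfsg.IrrCharacter G), Cfsg.IsPBlock M B → (∃ χ ∈ B, ∃ θ ∈ d, Cfsg.classInner (fun n : N => (χ : G → ℂ) n) (θ : N → ℂ) ≠ 0) → ∃! c : Set (Cfsg.IrrCharacter ↥(Subgroup.normalizer (Q : Set G))), (Cfsg.IsPBlock M c ∧ ∃ ψ ∈ c, ∃ ξ ∈ e, Cfsg.classInner (fun l : ↥(Subgroup.normalizer (Q : Set G) ⊓ N) => (ψ : ↥(Subgroup.normalizer (Q : Set G)) → ℂ) (Subgroup.inclusion inf_le_left l)) (ξ : ↥(Subgroup.normalizer (Q : Set G) ⊓ N) → ℂ) ≠ 0) ∧ Cfsg.IsInducedBlock M (Subgroup.normalizer (Q : Set G)) c B) := by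
  have := hM.charP
  have hQ0 : Q ≤ Subgroup.normalizer (Q : Set G) ⊓ N := le_inf Subgroup.le_normalizer hQN
  have hC := centralizer_le_normalizer' Q
  have hN := le_normalizer_of_normal' ⊤ N
  have he1 := he.isBlockIdem_subIdem hM
  have hd1 := hd.isBlockIdem_subIdem hM
  have he2 := he1.Br_eq_self hQ hQ0 inf_le_left
  rw [he.isDefectGroup_subgroupOf_iff hM hQ0] at heQ
  rw [isInducedBlockIn_iff hM inf_le_right, induces_inclusion_iff_Br_Br hM inf_le_right hQ hQ0
    (inf_le_inf_right _ hC) he heQ.br_ne_zero hd, he2] at hed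
  have he1' : IsBlockIdem (N ⊓ Subgroup.normalizer (Q : Set G))
    (subIdem M (Subgroup.normalizer (Q : Set G) ⊓ N) e) := by rwa [inf_comm N]
  have heQ' : IsDefGrp p (N ⊓ Subgroup.normalizer (Q : Set G))
    (subIdem M (Subgroup.normalizer (Q : Set G) ⊓ N) e) Q := by rwa [inf_comm N]
  obtain ⟨hdQ', hde⟩ := hd1.Br_eq_of_Br_mul he1' heQ' hed
  have key : ∀ (c : Set (IrrCharacter (Subgroup.normalizer (Q : Set G))))
      (B : Set (IrrCharacter G)), IsPBlock M c → IsPBlock M B →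
      (IsInducedBlock M (Subgroup.normalizer (Q : Set G)) c B ↔
        Br Q (blockIdem M B) * subIdem M _ c = subIdem M _ c) := by
    intro c B hc hB
    have hc1 := hc.isBlockIdem_subIdem hM
    have hc2 := hc1.Br_eq_self hQ Subgroup.le_normalizer le_rfl
    rw [isInducedBlock_iff hM, induces_subtype_iff_Br hM hQ Subgroup.le_normalizer hC hc
      (hc2.symm ▸ hc1.ne_zero) hB, hc2]
  refine ⟨fun c hc hce => ?_, fun B hB hBd => ?_⟩
  · rw [exists_classInner_inclusion_iff hM inf_le_left hc he] at hce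
    have hc1 := hc.isBlockIdem_subIdem hM
    obtain ⟨b, hb, h⟩ := hc1.exists_Br_mul_eq (L := ⊤) hQ Subgroup.le_normalizer
      (inf_le_right.trans hC) (le_inf le_top le_rfl)
    obtain ⟨B, hB, rfl⟩ := hM.exists_block_of_isBlockIdem hb
    have h1 := (key c B hc hB).2 h
    refine ⟨B, ⟨h1, (exists_classInner_subtype_iff hM hB hd).2 ?_⟩, fun B' h' => ?_⟩
    · refine mul_ne_zero_of_Br_mul (c := subIdem M _ c) hQ (fixedBy_anti le_top hb.mem.2)
        (fixedBy_anti hQN hd1.mem.2) ?_ (hde.symm ▸ hce)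
      rw [mul_comm_of_fixedBy_of_suppIn hc1.mem.2 (suppIn_mono hC (Br_mem_suppIn Q _)), h]
    · exact ((isInducedBlock_iff hM).1 h'.1).unique hM ((isInducedBlock_iff hM).1 h1)
  · rw [exists_classInner_subtype_iff hM hB hd] at hBd
    have hb := hB.isBlockIdem hM
    obtain ⟨c, hc, h1, h2⟩ := hd1.harrisKnorr_exists le_top hN hQ hQN hdQ'.br_ne_zero hb hBd
    rw [hde] at h1
    have hc' := hc
    rw [top_inf_eq] at hc'
    obtain ⟨c, hc1, rfl⟩ := hM.exists_block_of_isBlockIdem_sub hc'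
    refine ⟨c, ⟨⟨hc1, (exists_classInner_inclusion_iff hM inf_le_left hc1 he).2 h1⟩,
      (key c B hc1 hB).2 h2⟩, fun c' ⟨⟨h3, h4⟩, h5⟩ => h3.subIdem_inj hc1 hM ?_⟩
    rw [exists_classInner_inclusion_iff hM inf_le_left h3 he] at h4
    have h6 := h3.isBlockIdem_subIdem hM
    refine IsBlockIdem.harrisKnorr_unique ?_ le_top hN he1' heQ' hc h4 h1 hb
      ((key c' B h3 hB).1 h5) h2
    rwa [top_inf_eq]

end Cfsg.Agent.S4674
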