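import Cfsg.Statements.S4679
import Cfsg.Agent.Blk.Fusion
-- import your own Cfsg.Agent.* helpers here

set_option autoImplicit false
open Cfsg

namespace Cfsg.Agent.S4679

open GA MonoidAlgebra

/-- Fix a prime p and a maximal ideal M of the algebraic integers containing p, a p-block B of the finite group G with maximal Brauer pair (P, e), its fusion system F on P, a Brauer pair (Q, f) ≤ (P, e), and let T be the stabilizer of f in N_G(Q). Then Q is fully normalized in F if and only if N_P(Q) is a defect group of the block of T whose idempotent is that of f. -/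
theorem result {G : Type*} [Group G] [Fintype G] (p : ℕ) [Fact p.Prime] (M : Ideal Cfsg.AlgInt) (hM : Cfsg.IsPModular p M) (B : Set (Cfsg.IrrCharacter G)) (P : Subgroup G) (e : Set (Cfsg.IrrCharacter (Subgroup.centralizer (P : Set G)))) (hmax : Cfsg.IsMaximalBrauerPair p M B P e) (F : Cfsg.FusionSystem P) (hF : Cfsg.IsBlockFusionSystemOn p M B P e F) (Q : Subgroup G) (f : Set (Cfsg.IrrCharacter (Subgroup.centralizer (Q : Set G)))) (hQP : Q ≤ P) (hf : Cfsg.IsPBlock M f) (hle : Cfsg.SubpairLE p M Q f P e) (T : Subgroup G) (hT : ∀ y : G, y ∈ T ↔ y ∈ Subgroup.normalizer (Q : Set G) ∧ Cfsg.StabilizesBlock (Subgroup.centralizer (Q : Set G)) f y) : F.IsFullyNormalized Q ↔ ∃ F' : Set (Cfsg.IrrCharacter T), Cfsg.IsPBlock M F' ∧ (∀ t : T, Cfsg.blockCoeff F' t = Cfsg.subgroupBlockCoeff (Subgroup.centralizer (Q : Set G)) f (t : G)) ∧ Cfsg.IsDefectGroup p M F' ((P ⊓ Subgroup.normalizer (Q : Set G)).subgroupOf T) := by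
  have := hM.charP
  have h := hmax.isMaxPair hM
  have h1 := hle.bpLe hM
  have hI := (h1.left h.pair).isInertial_stab
  have h2 : P ⊓ Subgroup.normalizer (Q : Set G) ≤
    Subgroup.normalizer (Q : Set G) ⊓ cjStab (subIdem M _ f) :=
    le_inf inf_le_right (h1.mem_fixedBy h.pair)
  rw [(hF.isPairFusion hM).isFullyNormalized_iff h h1]
  rw [← hf.eq_normalizer_inf_cjStab hM hT] at hI h2 ⊢
  constructor
  · intro hD
    obtain ⟨F, hF, h3, h4⟩ := hM.exists_block_forall_blockCoeff_eq hI.centralizer_le hf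
      (hI.isBlockIdem ((le_inf hQP Subgroup.le_normalizer).trans h2))
    exact ⟨F, hF, h4, (hF.isDefectGroup_subgroupOf_iff hM h2).2 (h3 ▸ hD)⟩
  · rintro ⟨F, hF, h3, h4⟩
    rwa [hF.isDefectGroup_subgroupOf_iff hM h2,
      (forall_blockCoeff_eq_iff hM hI.centralizer_le hf hF).1 h3] at h4

end Cfsg.Agent.S4679
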