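import Cfsg.Statements.S4681
import Cfsg.Agent.Blk.Fusion
-- import your own Cfsg.Agent.* helpers here

set_option autoImplicit false
open Cfsg

namespace Cfsg.Agent.S4681

open GA MonoidAlgebra

/-- Fix a prime p and a maximal ideal M of the algebraic integers containing p. Let B₀ be the principal p-block of the finite group G, P a Sylow p-subgroup and e₀ the principal p-block of C_G(P). Then (P, e₀) is a maximal Brauer pair of B₀, and the fusion system of B₀ on (P, e₀) is the fusion system of G on P: its maps from each subgroup of P are exactly the conjugation maps into P by elements of G. -/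
theorem result {G : Type*} [Group G] [Fintype G] (p : ℕ) [Fact p.Prime] (M : Ideal Cfsg.AlgInt) (hM : Cfsg.IsPModular p M) (S : Sylow p G) : Cfsg.IsMaximalBrauerPair p M (Cfsg.principalBlock M G) (S : Subgroup G) (Cfsg.principalBlock M (Subgroup.centralizer ((S : Subgroup G) : Set G))) ∧ ∀ F : Cfsg.FusionSystem (S : Subgroup G), Cfsg.IsBlockFusionSystemOn p M (Cfsg.principalBlock M G) (S : Subgroup G) (Cfsg.principalBlock M (Subgroup.centralizer ((S : Subgroup G) : Set G))) F → ∀ Q : Subgroup G, F.Hom Q = (Cfsg.groupFusionSystem (S : Subgroup G)).Hom Q := by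
  have := hM.charP
  have hB : IsPBlock M (principalBlock M G) := isPBlock_principalBlock
  have he : IsPBlock M (principalBlock M (Subgroup.centralizer ((S : Subgroup G) : Set G))) :=
    isPBlock_principalBlock
  have h2 := (he.aug_subIdem_eq_one_iff hM).2 rfl
  have h := isMaxPair_of_aug_eq_one (hB.isBlockIdem hM) (sylow_isSylowIn S)
    (he.isBlockIdem_subIdem hM) ((hB.aug_blockIdem_eq_one_iff hM).2 rfl) h2
  refine ⟨(isMaximalBrauerPair_iff hM).2 ⟨hB, he, h⟩, fun F hF Q => ?_⟩
  ext φ
  rw [hF.isPairFusion hM]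
  simp only [bFus_iff_of_aug_eq_one h.pair h2]
  constructor
  · rintro ⟨g, ⟨h3, h4⟩, h5⟩
    exact ⟨h3, fun x => h5 x ▸ h4 (conj_mem_cjS.2 x.2), g, h5⟩
  · rintro ⟨h3, h4, g, h5⟩
    exact ⟨g, ⟨h3, cjS_le_iff_forall.2 fun x hx => h5 ⟨x, hx⟩ ▸ h4 _⟩, h5⟩

end Cfsg.Agent.S4681
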