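import Cfsg.Statements.S4682
import Cfsg.Agent.Blk.Fusion
-- import your own Cfsg.Agent.* helpers here

set_option autoImplicit false
open Cfsg

namespace Cfsg.Agent.S4682

open GA MonoidAlgebra

/-- Fix a prime p and a maximal ideal M of the algebraic integers containing p, a p-block B of the finite group G with maximal Brauer pair (P, e), P abelian, and a Brauer pair (Q, f) ≤ (P, e). Let T_Q be the stabilizer of f in N_G(Q) and T_P the stabilizer of e in N_G(P). Then every element of T_Q is a product of an element of T_P and an element of C_G(Q); and the index of C_G(Q) in T_Q equals the index of T_P ∩ C_G(Q) in T_P ∩ N_G(Q). -/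
theorem result {G : Type*} [Group G] [Fintype G] (p : ℕ) [Fact p.Prime] (M : Ideal Cfsg.AlgInt) (hM : Cfsg.IsPModular p M) (B : Set (Cfsg.IrrCharacter G)) (P : Subgroup G) (e : Set (Cfsg.IrrCharacter (Subgroup.centralizer (P : Set G)))) (hmax : Cfsg.IsMaximalBrauerPair p M B P e) (hab : ∀ x ∈ P, ∀ y ∈ P, x * y = y * x) (Q : Subgroup G) (f : Set (Cfsg.IrrCharacter (Subgroup.centralizer (Q : Set G)))) (hQP : Q ≤ P) (hf : Cfsg.IsPBlock M f) (hle : Cfsg.SubpairLE p M Q f P e) (TQ : Subgroup G) (hTQ : ∀ y : G, y ∈ TQ ↔ y ∈ Subgroup.normalizer (Q : Set G) ∧ Cfsg.StabilizesBlock (Subgroup.centralizer (Q : Set G)) f y) (TP : Subgroup G) (hTP : ∀ y : G, y ∈ TP ↔ y ∈ Subgroup.normalizer (P : Set G) ∧ Cfsg.StabilizesBlock (Subgroup.centralizer (P : Set G)) e y) : (∀ x ∈ TQ, ∃ y ∈ TP, ∃ c ∈ Subgroup.centralizer (Q : Set G), x = y * c) ∧ ((Subgroup.centralizer (Q : Set G)).subgroupOf TQ).index = ((TP ⊓ Subgroup.centralizer (Q : Set G)).subgroupOf (TP ⊓ Subgroup.normalizer (Q :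 Set G))).index := by
  have := hM.charP
  have h := hmax.isMaxPair hM
  have h1 := hle.bpLe hM
  have hI := (h1.left h.pair).isInertial_stab
  have hTQ' := hf.eq_normalizer_inf_cjStab hM hTQ
  have hTP' := hmax.isPBlock_pair.eq_normalizer_inf_cjStab hM hTP
  have hPC : P ≤ Subgroup.centralizer (Q : Set G) :=
    fun x hx => mem_centralizer_sub.2 fun u hu => hab u (hQP hu) x hx
  rw [← hTQ'] at hI
  have key : ∀ x ∈ TQ, ∃ y ∈ TP, ∃ c ∈ Subgroup.centralizer (Q : Set G), x = y * c := by
    intro x hx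
    have hx' := hI.le_normalizer hx
    obtain ⟨c, hc, h2⟩ := h.exists_mul_mem_stab ((h1.bFus_iff h.pair hx').2 (hI.fixed x hx)) hPC
      (by rwa [cjS_of_mem_normalizer hx'])
    rw [cjS_of_mem_normalizer hx'] at hc
    exact ⟨c * x, hTP' ▸ h2, x⁻¹ * c⁻¹ * x, inv_conj_mem_of_mem_normalizer
      (normalizer_le_normalizer_centralizer' Q hx') (inv_mem hc), by group⟩
  refine ⟨key, ?_⟩
  have h2 : TQ = (TP ⊓ Subgroup.normalizer (Q : Set G)) ⊔ Subgroup.centralizer (Q : Set G) := by
    refine le_antisymm (fun x hx => ?_) (sup_le (fun y hy => ?_) hI.centralizer_le)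
    · obtain ⟨y, hy, c, hc, rfl⟩ := key x hx
      exact Subgroup.mul_mem_sup (Subgroup.mem_inf.2 ⟨hy, (Subgroup.mul_mem_cancel_right _
        (centralizer_le_normalizer' Q hc)).1 (hI.le_normalizer hx)⟩) hc
    · rw [hTQ']
      have h3 := hy.1
      rw [hTP'] at h3
      exact ⟨hy.2, h1.eq_cj_of_cjS_eq h.pair (h1.cj_of_mem_stab h3.1 h3.2) hy.2⟩
  change (Subgroup.centralizer (Q : Set G)).relIndex TQ =
    (TP ⊓ Subgroup.centralizer (Q : Set G)).relIndex (TP ⊓ Subgroup.normalizer (Q : Set G))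
  rw [h2, relIndex_sup_of_le_normalizer
    (inf_le_right.trans (normalizer_le_normalizer_centralizer' Q)),
    ← Subgroup.inf_relIndex_right (TP ⊓ _), ← Subgroup.inf_relIndex_right (Subgroup.centralizer _)]
  congr 1
  exact le_antisymm (le_inf (le_inf (inf_le_right.trans inf_le_left) inf_le_left) inf_le_right)
    (inf_le_inf_right _ inf_le_right)

end Cfsg.Agent.S4682
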