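import Cfsg.Statements.S4683
import Cfsg.Agent.Blk.SubContrib

set_option autoImplicit false
open Cfsg

namespace Cfsg.Agent.S4683

theorem aux {G H : Type*} [Group G] [Finite G] [Group H] [Finite H] {p : ℕ} [Fact p.Prime]
    {M : Ideal AlgInt} (hM : IsPModular p M) {f : H →* G} {u : G} (h : IsSec p f u)
    {B : Set (IrrCharacter G)} {e : Set (IrrCharacter H)} (hi : Induces M f e B) :
    ∑ᶠ χ ∈ B, ∑ᶠ s : H, subPart p f u e χ.1 s * blockPart e (secFun f u⁻¹ χ.1) s⁻¹ =
      (Nat.card H : ℂ) * (blockRank p e : ℂ) := by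
  classical
  rw [← h.finsum_contrib_self hM hi, finsum_mem_irr_eq_sum, finsum_mem_irr_eq_sum, Finset.mul_sum]
  refine Finset.sum_congr rfl fun χ _ => ?_
  rw [h.contrib_eq_ip_subPart hM hi.left _ χ.isClassFunction, ip,
    mul_inv_cancel_left₀ (natCard_cast_ne_zero _)]
  refine finsum_congr fun s => ?_
  by_cases hs : IsPRegular p s
  · congr 1
    obtain ⟨z, hz⟩ := h.exists_eq
    rw [subPart_apply_of_reg _ _ _ _ hs, blockPart_eq_sum, blockPart_eq_sum, Finset.sum_apply,
      Finset.sum_apply, map_sum]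
    refine Finset.sum_congr rfl fun ψ _ => ?_
    obtain ⟨n, hn⟩ := (χ.isCharacter.comp f).exists_ip_eq_nat ψ.isCharacter
    rw [h.ip_secFun_irr hz χ.isClassFunction, h.inv.ip_secFun_irr (z := z⁻¹) (by rw [map_inv, hz])
      χ.isClassFunction, hn]
    simp [ψ.apply_inv, ψ.apply_one]
  · rw [subPart_apply_of_not_reg _ _ _ _ hs, zero_mul, zero_mul]

/-- Fix a prime p and a maximal ideal M of the algebraic integers containing p, a p-block B of the finite group G, a p-element u and a p-block e of C = C_G(u) such that (⟨u⟩, e) is a Brauer pair of B (a Brauer element of B). For χ ∈ B let χ_u be the e-part of the class function c ↦ χ(u c) on C and χ_u' the e-part of c ↦ χ(u⁻¹ c). Then the sum over χ ∈ B and over the p-regular elements s of C of χ_u(s)·χ_u'(s⁻¹) equals the order of C times the p-regular rank of e (the number of irreducible Brauer characters of e). -/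
theorem result {G : Type*} [Group G] [Fintype G] (p : ℕ) [Fact p.Prime] (M : Ideal Cfsg.AlgInt) (hM : Cfsg.IsPModular p M) (B : Set (Cfsg.IrrCharacter G)) (u : G) (hu : ∃ k : ℕ, orderOf u = p ^ k) (e : Set (Cfsg.IrrCharacter (Subgroup.centralizer (Subgroup.zpowers u : Set G)))) (hBe : Cfsg.IsBrauerPairOf p M B (Subgroup.zpowers u) e) : ∑ᶠ χ ∈ B, ∑ᶠ s : Subgroup.centralizer (Subgroup.zpowers u : Set G), Cfsg.pRegularPart p (Cfsg.blockPart e (fun c : Subgroup.centralizer (Subgroup.zpowers u : Set G) => (χ : G → ℂ) (u * c))) s * Cfsg.blockPart e (fun c : Subgroup.centralizer (Subgroup.zpowers u : Set G) => (χ : G → ℂ) (u⁻¹ * c)) s⁻¹ = (Nat.card (Subgroup.centralizer (Subgroup.zpowers u : Set G)) : ℂ) * (Cfsg.blockRank p e : ℂ) := by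
  exact aux hM (isSec_centralizer_zpowers hu) ((isBrauerPairOf_iff_induces hM).1 hBe).2

end Cfsg.Agent.S4683
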