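import Cfsg.Agent.Mod.StarLin
-- Template for statement S4684 (row 4684; see /opt/grader/pristine/manifest.json for weights).
-- Copy to Cfsg/Agent/S4684.lean and replace the sorry. The statement below is byte-identical to the frozen
-- statement Cfsg.CfsgFrozen.S4684 (Cfsg/Statements/S4684.lean; the theorem Cfsg.blk5_height_zero_count_divisible_by_index_of_focal_subgroup);
-- the grader kernel-checks Cfsg.Agent.S4684.result against that frozen type. Keep the theorem IN THIS FILE
-- (a `result` declared elsewhere and merely imported here is not credited); helpers may live anywhere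
-- under Cfsg/Agent/.
import Cfsg.Statements.S4684
-- import your own Cfsg.Agent.* helpers here

set_option autoImplicit false
open Cfsg

namespace Cfsg.Agent.S4684

/-- Fix a prime p and a maximal ideal M of the algebraic integers containing p, a p-block B of the finite group G with maximal Brauer pair (P, e) and fusion system F on P. Then the number of irreducible characters of height zero in B is divisible by the index in P of the focal subgroup of F. -/
theorem result {G : Type*} [Group G] [Fintype G] (p : ℕ) [Fact p.Prime] (M : Ideal Cfsg.AlgInt) (hM : Cfsg.IsPModular p M) (B : Set (Cfsg.IrrCharacter G)) (P : Subgroup G) (e : Set (Cfsg.IrrCharacter (Subgroup.centralizer (P : Set G)))) (hmax : Cfsg.IsMaximalBrauerPair p M B P e) (F : Cfsg.FusionSystem P) (hF : Cfsg.IsBlockFusionSystemOn p M B P e F) : (F.focalSubgroup.subgroupOf P).index ∣ Nat.card {χ : Cfsg.IrrCharacter G // χ ∈ B ∧ Cfsg.blockHeight p B (χ : G → ℂ) = 0} := by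
  haveI := hM.charP
  have hP := hmax.isMaxPair hM
  obtain ⟨h1, h2⟩ := (hF.isPairFusion hM).focal hP.pair
  rw [← Subgroup.relIndex_top_right]
  refine hM.relIndex_dvd_card_height hmax.isPBlock hP h1 h2 fun u _ χ hχ h0 h3 => ?_
  obtain ⟨r, h4, h5⟩ := hM.ip_starC_indicator_pos hmax.isPBlock hP hχ h0 u
  rw [h3, ip_zero_left] at h5
  exact h4.ne (by exact_mod_cast h5)

end Cfsg.Agent.S4684
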