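import Cfsg.Agent.Mod.StarLin
-- Template for statement S4685 (row 4685; see /opt/grader/pristine/manifest.json for weights).
-- Copy to Cfsg/Agent/S4685.lean and replace the sorry. The statement below is byte-identical to the frozen
-- statement Cfsg.CfsgFrozen.S4685 (Cfsg/Statements/S4685.lean; the theorem Cfsg.blk5_height_count_divisible_by_center_mod_focal);
-- the grader kernel-checks Cfsg.Agent.S4685.result against that frozen type. Keep the theorem IN THIS FILE
-- (a `result` declared elsewhere and merely imported here is not credited); helpers may live anywhere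
-- under Cfsg/Agent/.
import Cfsg.Statements.S4685
-- import your own Cfsg.Agent.* helpers here

set_option autoImplicit false
open Cfsg

namespace Cfsg.Agent.S4685

/-- Fix a prime p and a maximal ideal M of the algebraic integers containing p, a p-block B of the finite group G with maximal Brauer pair (P, e) and fusion system F on P. Then for every h the number of irreducible characters of height h in B is divisible by the index of Z(P) ∩ foc(F) in Z(P), where foc(F) is the focal subgroup of F. -/
theorem result {G : Type*} [Group G] [Fintype G] (p : ℕ) [Fact p.Prime] (M : Ideal Cfsg.AlgInt) (hM : Cfsg.IsPModular p M) (B : Set (Cfsg.IrrCharacter G)) (P : Subgroup G) (e : Set (Cfsg.IrrCharacter (Subgroup.centralizer (P : Set G)))) (hmax : Cfsg.IsMaximalBrauerPair p M B P e) (F : Cfsg.FusionSystem P) (hF : Cfsg.IsBlockFusionSystemOn p M B P e F) (h : ℕ) : ((P ⊓ Subgroup.centralizer (P : Set G) ⊓ F.focalSubgroup).subgroupOf (P ⊓ Subgroup.centralizer (P : Set G))).index ∣ Nat.card {χ : Cfsg.IrrCharacter G // χ ∈ B ∧ Cfsg.blockHeight p B (χ : G → ℂ) = h} := by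
  haveI := hM.charP
  have hP := hmax.isMaxPair hM
  obtain ⟨h1, h2⟩ := (hF.isPairFusion hM).focal hP.pair
  have h3 := hM.relIndex_dvd_card_height hmax.isPBlock hP h1 h2 (h := h)
    (Z := (P ⊓ Subgroup.centralizer (P : Set G)).subgroupOf P)
    fun u hu χ hχ _ => hM.starC_indicator_ne_zero_of_center hmax.isPBlock hP hu.2 hχ
  rwa [Subgroup.relIndex_subgroupOf inf_le_left, ← Subgroup.inf_relIndex_left] at h3

end Cfsg.Agent.S4685
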