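import Cfsg.Agent.Mod.Nilp
-- Template for statement S4689 (row 4689; see /opt/grader/pristine/manifest.json for weights).
-- Copy to Cfsg/Agent/S4689.lean and replace the sorry. The statement below is byte-identical to the frozen
-- statement Cfsg.CfsgFrozen.S4689 (Cfsg/Statements/S4689.lean; the theorem Cfsg.blk5_nilpotent_block_rank_one_with_unit_decomposition_row);
-- the grader kernel-checks Cfsg.Agent.S4689.result against that frozen type. Keep the theorem IN THIS FILE
-- (a `result` declared elsewhere and merely imported here is not credited); helpers may live anywhere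
-- under Cfsg/Agent/.
import Cfsg.Statements.S4689
-- import your own Cfsg.Agent.* helpers here

set_option autoImplicit false
open Cfsg

namespace Cfsg.Agent.S4689

/-- Fix a prime p and a maximal ideal M of the algebraic integers containing p, and a nilpotent p-block B of the finite group G. Then B has p-regular rank one (a single irreducible Brauer character), and some χ₀ ∈ B restricts to that Brauer character: every χ ∈ B agrees on the p-regular elements with a natural-number multiple of χ₀. -/
theorem result {G : Type*} [Group G] [Fintype G] (p : ℕ) [Fact p.Prime] (M : Ideal Cfsg.AlgInt) (hM : Cfsg.IsPModular p M) (B : Set (Cfsg.IrrCharacter G)) (hnil : Cfsg.IsNilpotentBlock p M B) : Cfsg.blockRank p B = 1 ∧ ∃ χ₀ ∈ B, ∀ χ ∈ B, ∃ d : ℕ, ∀ x : G, Cfsg.pRegularPart p (χ : G → ℂ) x = (d : ℂ) * Cfsg.pRegularPart p (χ₀ : G → ℂ) x := by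
  obtain ⟨hB, hn⟩ := (isNilpotentBlock_iff hM).1 hnil
  obtain ⟨P, hP⟩ := hB.exists_isDefectGroup hM
  obtain ⟨χ₀, h, h0⟩ := exists_blockHeight_eq_zero (p := p) (hB.nonempty hM)
  obtain ⟨Φ, hΦ⟩ := hB.exists_equiv_of_nilp hM hn hP h h0
  refine ⟨hB.blockRank_eq_one_of_nilp hM hn, χ₀, h, fun χ hχ => ?_⟩
  obtain ⟨l, hl⟩ := Φ.surjective ⟨χ, hχ⟩
  refine ⟨charDegree l.1, fun x => ?_⟩
  have := congrFun (hΦ l) x
  rwa [hl, show l 1 = _ from l.isCharacter.apply_one] at this

end Cfsg.Agent.S4689
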