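import Cfsg.Agent.Mod.Nilp
-- Template for statement S4690 (row 4690; see /opt/grader/pristine/manifest.json for weights).
-- Copy to Cfsg/Agent/S4690.lean and replace the sorry. The statement below is byte-identical to the frozen
-- statement Cfsg.CfsgFrozen.S4690 (Cfsg/Statements/S4690.lean; the theorem Cfsg.blk5_nilpotent_block_height_preserving_bijection_with_defect_group_characters);
-- the grader kernel-checks Cfsg.Agent.S4690.result against that frozen type. Keep the theorem IN THIS FILE
-- (a `result` declared elsewhere and merely imported here is not credited); helpers may live anywhere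
-- under Cfsg/Agent/.
import Cfsg.Statements.S4690
-- import your own Cfsg.Agent.* helpers here

set_option autoImplicit false
open Cfsg

namespace Cfsg.Agent.S4690

/-- Fix a prime p and a maximal ideal M of the algebraic integers containing p, and a nilpotent p-block B of the finite group G with defect group P. Then there is a bijection from B onto the irreducible characters of P carrying the height of each χ ∈ B to the exponent of p in the degree of its image. -/
theorem result {G : Type*} [Group G] [Fintype G] (p : ℕ) [Fact p.Prime] (M : Ideal Cfsg.AlgInt) (hM : Cfsg.IsPModular p M) (B : Set (Cfsg.IrrCharacter G)) (hnil : Cfsg.IsNilpotentBlock p M B) (P : Subgroup G) (hP : Cfsg.IsDefectGroup p M B P) : ∃ Φ : B ≃ Cfsg.IrrCharacter P, ∀ χ : B, Cfsg.blockHeight p B ((χ : Cfsg.IrrCharacter G) : G → ℂ) = (Cfsg.charDegree ((Φ χ : Cfsg.IrrCharacter P) : P → ℂ)).factorization p := by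
  obtain ⟨hB, hn⟩ := (isNilpotentBlock_iff hM).1 hnil
  obtain ⟨χ₀, h, h0⟩ := exists_blockHeight_eq_zero (p := p) (hB.nonempty hM)
  obtain ⟨Φ, hΦ⟩ := hB.exists_equiv_of_nilp hM hn hP h h0
  refine ⟨Φ.symm, fun χ => ?_⟩
  obtain ⟨l, rfl⟩ := Φ.surjective χ
  have h1 := congrFun (hΦ l) 1
  rw [Pi.smul_apply, pRegularPart_of_reg isPRegular_one, pRegularPart_of_reg isPRegular_one,
    show l 1 = _ from l.isCharacter.apply_one, (Φ l).1.isCharacter.apply_one,
    χ₀.isCharacter.apply_one, smul_eq_mul] at h1
  have h2 : charDegree (Φ l).1.1 = charDegree l.1 * charDegree χ₀.1 := by exact_mod_cast h1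
  have h3 := minExp_add_blockHeight (p := p) (Φ l).2
  rw [h2, Nat.factorization_mul l.charDegree_pos.ne' χ₀.charDegree_pos.ne', Finsupp.add_apply,
    (blockHeight_eq_zero_iff h).1 h0] at h3
  rw [Equiv.symm_apply_apply]
  omega

end Cfsg.Agent.S4690
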