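import Cfsg.Statements.S4693
import Cfsg.Agent.Blk.Fusion
-- import your own Cfsg.Agent.* helpers here

set_option autoImplicit false
open Cfsg

namespace Cfsg.Agent.S4693

open GA MonoidAlgebra

/-- Fix a prime p and a maximal ideal M of the algebraic integers containing p, a p-block B of the finite group G with maximal Brauer pair (P, e) and fusion system F on P, and a Brauer pair (Q, f) ≤ (P, e) with Q centric in F. Suppose every element of G normalizes Q and stabilizes f. Then the idempotent of B agrees with that of f modulo M at every element of G, and f is the idempotent of a nilpotent block of Q·C_G(Q): some p-block of Q·C_G(Q) has the idempotent coefficients of f and is nilpotent. -/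
theorem result {G : Type*} [Group G] [Fintype G] (p : ℕ) [Fact p.Prime] (M : Ideal Cfsg.AlgInt) (hM : Cfsg.IsPModular p M) (B : Set (Cfsg.IrrCharacter G)) (P : Subgroup G) (e : Set (Cfsg.IrrCharacter (Subgroup.centralizer (P : Set G)))) (hmax : Cfsg.IsMaximalBrauerPair p M B P e) (F : Cfsg.FusionSystem P) (hF : Cfsg.IsBlockFusionSystemOn p M B P e F) (Q : Subgroup G) (f : Set (Cfsg.IrrCharacter (Subgroup.centralizer (Q : Set G)))) (hQP : Q ≤ P) (hf : Cfsg.IsPBlock M f) (hle : Cfsg.SubpairLE p M Q f P e) (hcen : F.IsCentric Q) (hG : ∀ x : G, x ∈ Subgroup.normalizer (Q : Set G) ∧ Cfsg.StabilizesBlock (Subgroup.centralizer (Q : Set G)) f x) : (∀ g : G, Cfsg.MemLocalIdeal M (Cfsg.blockCoeff B g - Cfsg.subgroupBlockCoeff (Subgroup.centralizer (Q : Set G)) f g)) ∧ ∃ F' : Set (Cfsg.IrrCharacter ↥(Q ⊔ Subgroup.centralizer (Q : Set G))), Cfsg.IsPBlock M F' ∧ (∀ t : ↥(Q ⊔ Subgroup.centralizer (Q : Set G)), Cfsg.blockCoeff F' t = Cfsg.subgroupBlockCoeff (Subgroup.centralizer (Q : Set G)) f (t : G)) ∧ Cfsg.IsNilpotentBlock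 p M F' := by
  have := hM.charP
  have h := hmax.isMaxPair hM
  have h1 := hle.bpLe hM
  have hQ := h.toIsPairOf.of_le h1
  have hD := ((hF.isPairFusion hM).isCentric_iff h h1).1 hcen
  have hI : IsInertial p Q (subIdem M _ f) ⊤ :=
    ⟨hQ.pair, le_top, fun x _ => (hG x).1, fun x _ => ((hf.stabilizesBlock_iff hM).1 (hG x).2).2⟩
  constructor
  · have h2 : blockIdem M B = subIdem M _ f :=
      h.block.eq_of_mul_ne_zero (Zalg_mul_comm le_rfl) (hI.isBlockIdem le_top) (by
        rw [← Br_eq_self_of_normal hQ.pair.isPGroup le_top hI.le_normalizer le_rfl h.block.mem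
          h.block.idem, hQ.br]
        exact hQ.pair.ne_zero)
    intro g
    rw [(forall_blockCoeff_eq_iff_top hM hf hmax.isPBlock).2 h2, sub_self]
    exact (hM.memLocalIdeal_iff_red (zero_mem _) isAlgebraic_zero).2 red_zero
  · obtain ⟨F', hF', h2, h3⟩ := hM.exists_block_forall_blockCoeff_eq le_sup_right hf
      ((hQ.pair.isDefGrp_sup_centralizer hD).1.isBlockIdem le_sup_left)
    exact ⟨F', hF', h3, (isNilpotentBlock_iff_sub hM).2
      ⟨hF', h2 ▸ hQ.pair.isNilpIn_sup_centralizer hD⟩⟩

end Cfsg.Agent.S4693
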