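import Cfsg.Statements.S4694
import Cfsg.Agent.Blk.Weight
-- import your own Cfsg.Agent.* helpers here

set_option autoImplicit false
open Cfsg

namespace Cfsg.Agent.S4694

open GA MonoidAlgebra

/-- Fix a prime p and a maximal ideal M of the algebraic integers containing p, a p-block B of the finite group G and a Brauer pair (Q, e) of B. Let T be the stabilizer of e in N_G(Q) and suppose that (Q, e) carries a weight: the block of T whose idempotent is that of e contains an irreducible character χ that is constant on the cosets of Q and whose degree has p-part equal to the p-part of the index of Q in T. Then Z(Q) is a defect group of e as a block of C_G(Q), and Q is the largest normal p-subgroup of T: every p-subgroup of T normalized by T lies in Q. -/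
theorem result {G : Type*} [Group G] [Fintype G] (p : ℕ) [Fact p.Prime] (M : Ideal Cfsg.AlgInt) (hM : Cfsg.IsPModular p M) (B : Set (Cfsg.IrrCharacter G)) (Q : Subgroup G) (e : Set (Cfsg.IrrCharacter (Subgroup.centralizer (Q : Set G)))) (hQe : Cfsg.IsBrauerPairOf p M B Q e) (T : Subgroup G) (hT : ∀ y : G, y ∈ T ↔ y ∈ Subgroup.normalizer (Q : Set G) ∧ Cfsg.StabilizesBlock (Subgroup.centralizer (Q : Set G)) e y) (F' : Set (Cfsg.IrrCharacter T)) (hF' : Cfsg.IsPBlock M F') (hF'e : ∀ t : T, Cfsg.blockCoeff F' t = Cfsg.subgroupBlockCoeff (Subgroup.centralizer (Q : Set G)) e (t : G)) (χ : Cfsg.IrrCharacter T) (hχ : χ ∈ F') (hχQ : ∀ q : G, q ∈ Q → ∀ t : T, ∀ t' : T, (t' : G) = q * (t : G) → (χ : T → ℂ) t' = (χ : T → ℂ) t) (hdeg : (Cfsg.charDegree (χ : T → ℂ)).factorization p + (Nat.card Q).factorization p = (Nat.card T).factorization p) : Cfsg.IsDefectGroup p M e ((Q ⊓ Subgroup.centralizer (Q : Set G)).subgroupOf (Subgroup.centralizer (Q : Set G))) ∧ ∀ R : Subgroup G, R ≤ T → IsPGroup p R → (∀ t ∈ T, t ∈ Subgroup.normalizer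 (R : Set G)) → R ≤ Q := by
  have := hM.charP
  obtain ⟨-, hb, hp⟩ := (isBrauerPairOf_iff hM).1 hQe
  have hQ := hp.pair.isPGroup
  have hT' := hb.eq_normalizer_inf_cjStab hM hT
  have hCT : Subgroup.centralizer (Q : Set G) ≤ T := hT' ▸ hp.pair.isInertial_stab.centralizer_le
  have hTN : T ≤ Subgroup.normalizer (Q : Set G) := hT' ▸ inf_le_left
  have hQT : Q ≤ T := hT' ▸ le_inf Subgroup.le_normalizer
      (mem_fixedBy_iff_le.1 (suppIn_centralizer_le_fixedBy Q hp.pair.block.mem.1))
  have hn : (Q.subgroupOf T).Normal := (Subgroup.normal_subgroupOf_iff_le_normalizer hQT).2 hTN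
  have hπ := QuotientGroup.mk'_surjective (Q.subgroupOf T)
  have hk := QuotientGroup.ker_mk' (Q.subgroupOf T)
  obtain ⟨β, rfl⟩ := IrrCharacter.exists_inflate_eq _ hπ χ
    (fun g hg => hχQ g (by rwa [hk] at hg) 1 g (by simp))
  have h2 := factorization_card_of_surjective (p := p) hπ
  rw [hk, Nat.card_congr (Subgroup.subgroupOfEquivOfLe hQT).toEquiv] at h2
  rw [show charDegree (β.inflate _ hπ).1 = charDegree β.1 from charDegree_comp β.1 _] at hdeg
  have hβ : (charDegree β.1).factorization p =
    (Nat.card (T ⧸ Q.subgroupOf T)).factorization p := by omega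
  constructor
  · let ρ := (QuotientGroup.mk' (Q.subgroupOf T)).comp (Subgroup.inclusion hCT)
    have hCn : ((Subgroup.centralizer (Q : Set G)).subgroupOf T).Normal :=
      (Subgroup.normal_subgroupOf_iff_le_normalizer hCT).2
        (hTN.trans (normalizer_le_normalizer_centralizer' Q))
    have hρ : ρ.range.Normal := by
      rw [MonoidHom.range_comp, Subgroup.inclusion_range]
      exact hCn.map _ hπ
    obtain ⟨θ, hθ⟩ := IrrCharacter.exists_liesOver_below ρ.range.subtype β
    have h3 := hθ.defect_zero hM hβ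
    have hs := ρ.rangeRestrict_surjective
    have hker : ρ.rangeRestrict.ker = Q.subgroupOf (Subgroup.centralizer (Q : Set G)) := by
      ext x
      rw [MonoidHom.ker_rangeRestrict, MonoidHom.mem_ker, MonoidHom.comp_apply, ← MonoidHom.mem_ker,
        hk]
      rfl
    have h4 : LiesOver (Subgroup.inclusion hCT) (β.inflate _ hπ).1 (θ.inflate _ hs).1 :=
      (liesOver_comp_iff_of_comm hs (fun _ => rfl) β.1 θ.1).2 hθ
    have h5 : θ.inflate _ hs ∈ e := by
      have h6 := (covers_inclusion_iff hM hCT hF' (isPBlock_blockOf (θ.inflate _ hs))).1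
        ⟨_, hχ, _, hM.mem_blockOf_self _, h4⟩
      rw [(forall_blockCoeff_eq_iff hM hCT hb hF').1 hF'e] at h6
      rw [hb.subIdem_inj (isPBlock_blockOf _) hM ((hb.isBlockIdem_subIdem hM).eq_of_mul_ne_zero
        (Zalg_mul_comm le_rfl) ((isPBlock_blockOf _).isBlockIdem_subIdem hM) h6)]
      exact hM.mem_blockOf_self _
    rw [Subgroup.inf_subgroupOf_right, ← hker]
    refine (hb.isDefectGroup_ker_iff hM hs (hker ▸ isPGroup_subgroupOf hQ _) fun g _ => ?_).2
      ⟨θ, h5, h3⟩
    rw [hker]
    exact fun z hz => Subtype.ext (g.2 z hz)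
  · intro R hRT hR hRn
    have h3 : (R.subgroupOf T).Normal := (Subgroup.normal_subgroupOf_iff_le_normalizer hRT).2 hRn
    have h4 := h3.map _ hπ
    have h5 := β.eq_bot_of_defect_zero hM hβ ((isPGroup_subgroupOf hR T).map
      (QuotientGroup.mk' (Q.subgroupOf T)))
    rw [Subgroup.map_eq_bot_iff, hk] at h5
    exact fun x hx => h5 (show (⟨x, hRT hx⟩ : T) ∈ R.subgroupOf T from hx)

end Cfsg.Agent.S4694
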