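import Cfsg.Agent.Mod.AbLocal
import Cfsg.Agent.Blk.FrobGen
-- Template for statement S4695 (row 4695; see /opt/grader/pristine/manifest.json for weights).
-- Copy to Cfsg/Agent/S4695.lean and replace the sorry. The statement below is byte-identical to the frozen
-- statement Cfsg.CfsgFrozen.S4695 (Cfsg/Statements/S4695.lean; the theorem Cfsg.blk7_cyclic_defect_block_rank_eq_inertial_index);
-- the grader kernel-checks Cfsg.Agent.S4695.result against that frozen type. Keep the theorem IN THIS FILE
-- (a `result` declared elsewhere and merely imported here is not credited); helpers may live anywhere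
-- under Cfsg/Agent/.
import Cfsg.Statements.S4695
-- import your own Cfsg.Agent.* helpers here

set_option autoImplicit false
open Cfsg

namespace Cfsg.Agent.S4695

/-- Let p be a prime, M a maximal ideal of the algebraic integers containing p, and B a p-block of the finite group G whose defect group D is cyclic of order p^a with a ≥ 1. Let C = C_G(D), let b be a block of C inducing B, let T be the stabilizer of b in N_G(D) (the elements g of N_G(D) such that the g-conjugate of every member of b is again in b), and let e be the index of C in T (the inertial index of B). Then the p-regular rank of B (the dimension of the span of the restrictions of its members to the p-regular elements, classically the number l(B) of irreducible Brauer characters in B) equals e. -/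
theorem result {G : Type*} [Group G] [Finite G] (p : ℕ) [Fact p.Prime] (M : Ideal Cfsg.AlgInt) (hM : Cfsg.IsPModular p M) (D : Subgroup G) (hD : IsCyclic D) (a : ℕ) (ha : 1 ≤ a) (hDa : Nat.card D = p ^ a) (B : Set (Cfsg.IrrCharacter G)) (hB : Cfsg.IsPBlock M B) (hBD : Cfsg.IsDefectGroup p M B D) (b : Set (Cfsg.IrrCharacter (Subgroup.centralizer (D : Set G)))) (hind : Cfsg.IsInducedBlock M (Subgroup.centralizer (D : Set G)) b B) (T : Subgroup G) (hT : ∀ g : G, g ∈ T ↔ (g ∈ Subgroup.normalizer (D : Set G) ∧ ∀ θ ∈ b, ∀ θ' : Cfsg.IrrCharacter (Subgroup.centralizer (D : Set G)), (∀ h h' : Subgroup.centralizer (D : Set G), (h' : G) = g * h * g⁻¹ → (θ' : Subgroup.centralizer (D : Set G) → ℂ) h' = (θ : Subgroup.centralizer (D : Set G) → ℂ) h) → θ' ∈ b)) (e : ℕ) (he : (Subgroup.centralizer (D : Set G)).relIndex T = e) : Cfsg.blockRank p B = e := by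
  letI := Fintype.ofFinite D
  obtain ⟨hc', hP⟩ := hind.isMaxPair_sub hM hBD
  obtain rfl := hc'.eq_normalizer_inf_cjStab hM (T := T) fun g => by
    rw [hT, stabilizesBlock_iff_conjSet]
    refine and_congr_right fun hg => ⟨fun h => ⟨GA.normalizer_le_normalizer_centralizer' D hg,
      fun ξ' ⟨ξ, h1, h2⟩ => h ξ h1 ξ' h2⟩, fun h θ h1 θ' h2 => h.2 ⟨θ, h1, h2⟩⟩
  have hD1 : D ≠ ⊥ := fun h => by
    rw [h, Subgroup.card_bot, eq_comm, Nat.pow_eq_one] at hDa
    have := hM.prime.one_lt
    omega
  obtain ⟨S, X, Y, δ, ζ, a, h, -, o, h1, -⟩ := hP.exists_out_cyclic hM hB hD1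
    (j := D.subtype) (MulEquiv.refl _) (fun _ => rfl)
  rw [o.rank, h1, card_autOf_subtype inf_le_left, he]

end Cfsg.Agent.S4695
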