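import Cfsg.Statements.S4696
import Cfsg.Agent.Blk.FrobGen
-- import your own Cfsg.Agent.* helpers here

set_option autoImplicit false
open Cfsg

namespace Cfsg.Agent.S4696

/-- Let p be a prime, M a maximal ideal of the algebraic integers containing p, and B a p-block of the finite group G whose defect group D is cyclic of order p^a with a ≥ 1. Let C = C_G(D), let b be a block of C inducing B, let T be the stabilizer of b in N_G(D) (the elements g of N_G(D) such that the g-conjugate of every member of b is again in b), and let e be the index of C in T (the inertial index of B). Then e divides p − 1, every irreducible character in B has height zero, and B is the disjoint union of a set X of e characters and a set Y of (p^a − 1)/e characters, the members of Y agreeing on p-regular elements, for which there are signs δ_χ = ±1 (χ ∈ X) and δ₀ = ±1 such that: for every ψ ∈ Y and every p-regular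 g, δ₀ ψ(g) + Σ_{χ ∈ X} δ_χ χ(g) = 0; for all χ, χ' ∈ X the integers δ_χ χ(1) and δ_χ' χ'(1) are congruent modulo p^a; and for ψ ∈ Y and χ ∈ X, ψ(1) ≡ −e δ₀ δ_χ χ(1) modulo p^a. -/
theorem result {G : Type*} [Group G] [Finite G] (p : ℕ) [Fact p.Prime] (M : Ideal Cfsg.AlgInt) (hM : Cfsg.IsPModular p M) (D : Subgroup G) (hD : IsCyclic D) (a : ℕ) (ha : 1 ≤ a) (hDa : Nat.card D = p ^ a) (B : Set (Cfsg.IrrCharacter G)) (hB : Cfsg.IsPBlock M B) (hBD : Cfsg.IsDefectGroup p M B D) (b : Set (Cfsg.IrrCharacter (Subgroup.centralizer (D : Set G)))) (hind : Cfsg.IsInducedBlock M (Subgroup.centralizer (D : Set G)) b B) (T : Subgroup G) (hT : ∀ g : G, g ∈ T ↔ (g ∈ Subgroup.normalizer (D : Set G) ∧ ∀ θ ∈ b, ∀ θ' : Cfsg.IrrCharacter (Subgroup.centralizer (D : Set G)), (∀ h h' : Subgroup.centralizer (D : Set G), (h' : G) = g * h * g⁻¹ → (θ' : Subgroup.centralizer (D : Set G) → ℂ) h' = (θ : Subgroup.centralizer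 (D : Set G) → ℂ) h) → θ' ∈ b)) (e : ℕ) (he : (Subgroup.centralizer (D : Set G)).relIndex T = e) : e ∣ p - 1 ∧ (∀ χ ∈ B, Cfsg.blockHeight p B (χ : G → ℂ) = 0) ∧ ∃ X Y : Set (Cfsg.IrrCharacter G), B = X ∪ Y ∧ Disjoint X Y ∧ Nat.card X = e ∧ Nat.card Y = (p ^ a - 1) / e ∧ (∀ ψ ∈ Y, ∀ ψ' ∈ Y, ∀ g : G, ¬ p ∣ orderOf g → (ψ : G → ℂ) g = (ψ' : G → ℂ) g) ∧ ∃ (δ : Cfsg.IrrCharacter G → ℤ) (δ₀ : ℤ), (∀ χ ∈ X, δ χ = 1 ∨ δ χ = -1) ∧ (δ₀ = 1 ∨ δ₀ = -1) ∧ (∀ ψ ∈ Y, ∀ g : G, ¬ p ∣ orderOf g → (δ₀ : ℂ) * (ψ : G → ℂ) g + ∑ᶠ χ ∈ X, (δ χ : ℂ) * (χ : G → ℂ) g = 0) ∧ (∀ χ ∈ X, ∀ χ' ∈ X, δ χ * (Cfsg.charDegree (χ : G → ℂ) : ℤ) ≡ δ χ' * (Cfsg.charDegree (χ' : G → ℂ) : ℤ) [ZMOD (p : ℤ) ^ a]) ∧ (∀ ψ ∈ Y, ∀ χ ∈ X, (Cfsg.charDegree (ψ : G → ℂ) : ℤ) ≡ -((e : ℤ) * δ₀ * δ χ * (Cfsg.charDegree (χ : G → ℂ) : ℤ)) [ZMOD (p : ℤ) ^ a]) := by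
  let _ := Fintype.ofFinite D
  have hp : p.Prime := Fact.out
  have hi := (Cfsg.isInducedBlock_iff hM).1 hind
  have hP := hi.isMaxPair hM hBD
  obtain rfl := hi.left.eq_normalizer_inf_cjStab hM (T := T) (fun g => (hT g).trans
    (and_congr_right fun hg => by
      rw [Cfsg.stabilizesBlock_iff_conjSet]
      refine ⟨fun h => ⟨Cfsg.GA.normalizer_le_normalizer_centralizer' _ hg, ?_⟩, fun h θ hθ θ' h' =>
        h.2 ⟨θ, hθ, h'⟩⟩
      rintro θ' ⟨θ, hθ, h'⟩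
      exact h θ hθ θ' h'))
  have hP1 : D ≠ ⊥ := fun h => by
    rw [h, Subgroup.card_bot] at hDa
    exact (Nat.one_lt_pow (by omega) hp.one_lt).ne hDa
  obtain ⟨S, X, Y, δ, ζ, α, h, -, o, h1, h2⟩ := hP.exists_out_cyclic hM hB hP1
    (j := D.subtype) (MulEquiv.refl D) (fun _ => rfl)
  have hE := (Cfsg.card_autOf_subtype (P := D) inf_le_left).trans he
  have h3 := o.cardY
  have h4 := o.cardY_eq
  have h5 := h.free.card_dvd_sub_one h.pgroup h.nontriv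
  rw [hE] at h1 h3 h4 h5
  rw [hDa] at h3 h4
  have h6 : (p : ℤ) ^ a ∣ (p : ℤ) ^ (Nat.card G).factorization p := pow_dvd_pow _
    ((hp.pow_dvd_iff_le_factorization Nat.card_pos.ne').1 (hDa ▸ D.card_subgroup_dvd_card))
  have h7 : ∀ χ ∈ X, α χ * α χ = 1 := fun χ hχ => by rcases h2 χ hχ with h | h <;> simp [h]
  refine ⟨h5, fun χ hχ => o.blockHeight_eq_zero h h2 hχ, X, Y, o.union, o.disj, h1, h4,
    o.reg_eq, α, -δ, h2, by rcases o.sign with h | h <;> simp [h], fun ψ hψ g hg => ?_,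
    fun χ hχ χ' hχ' => ?_, fun ψ hψ χ hχ => ?_⟩
  · simpa using o.reg_rel ψ hψ g hg
  · refine (Int.modEq_iff_dvd.2 ?_).symm
    have := (h6.trans (o.pow_dvd_X h hχ hχ')).mul_left (α χ * α χ')
    refine this.trans (dvd_of_eq ?_)
    linear_combination (α χ * Cfsg.charDegree χ.1 : ℤ) * h7 χ' hχ' -
      (α χ' * Cfsg.charDegree χ'.1 : ℤ) * h7 χ hχ
  · refine Int.modEq_iff_dvd.2 ?_
    have h8 : (e : ℤ) * Nat.card Y + 1 = p ^ a := by exact_mod_cast h3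
    have := ((h6.trans (o.pow_dvd_Y h hχ hψ)).mul_left (e * α χ)).sub
      (dvd_mul_right ((p : ℤ) ^ a) (Cfsg.charDegree ψ.1))
    refine this.trans (dvd_of_eq ?_)
    linear_combination (e * Nat.card Y * Cfsg.charDegree ψ.1 : ℤ) * h7 χ hχ +
      (Cfsg.charDegree ψ.1 : ℤ) * h8

end Cfsg.Agent.S4696
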