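import Cfsg.Statements.S4697
import Cfsg.Agent.Blk.CycBound

set_option autoImplicit false
open Cfsg

namespace Cfsg.Agent.S4697

theorem card_sup_le {A : Type*} [CommGroup A] [Finite A] (H K : Subgroup A) :
    Nat.card (H ⊔ K : Subgroup A) ≤ Nat.card H * Nat.card K := by
  rw [← Nat.card_prod]
  refine Nat.card_le_card_of_surjective
    (fun a => ⟨a.1 * a.2, Subgroup.mul_mem_sup a.1.2 a.2.2⟩) fun ⟨g, hg⟩ => ?_
  obtain ⟨a, ha, b, hb, rfl⟩ := Subgroup.mem_sup.1 hg
  exact ⟨(⟨a, ha⟩, ⟨b, hb⟩), rfl⟩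

/-- Let p be a prime, M a maximal ideal of the algebraic integers containing p, and B a p-block of the finite group G with an abelian defect group D of order p^d. If D has rank 2 (its least number of generators is 2) then B contains at most p^d irreducible characters; if D has rank 3 then the number k of irreducible characters in B satisfies k^3 ≤ p^(5d). -/
theorem result {G : Type*} [Group G] [Finite G] (p : ℕ) [Fact p.Prime] (M : Ideal Cfsg.AlgInt) (hM : Cfsg.IsPModular p M) (B : Set (Cfsg.IrrCharacter G)) (hB : Cfsg.IsPBlock M B) (D : Subgroup G) (hBD : Cfsg.IsDefectGroup p M B D) (hab : IsMulCommutative D) (d : ℕ) (hDd : Nat.card D = p ^ d) : (Group.rank D = 2 → Nat.card B ≤ p ^ d) ∧ (Group.rank D = 3 → Nat.card B ^ 3 ≤ p ^ (5 * d)) := by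
  classical
  have hd : blockDefect p B = d :=
    Nat.pow_right_injective hM.prime.two_le ((hBD.card_eq hB hM).symm.trans hDd)
  obtain ⟨S, h1, h2⟩ := Group.rank_spec D
  have hc : ∀ a b : D, a * b = b * a := hab.1.1
  refine ⟨fun h => ?_, fun h => ?_⟩
  · obtain ⟨x, y, -, rfl⟩ := Finset.card_eq_two.1 (h1.trans h)
    rw [Finset.coe_pair, Set.insert_eq, Subgroup.closure_union, ← Subgroup.zpowers_eq_closure,
      ← Subgroup.zpowers_eq_closure] at h2
    exact hd ▸ hBD.card_le_of_two_gen hM hB (fun d => hc d x) h2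
  obtain ⟨x, y, z, h3, h4⟩ : ∃ x y z : D, Subgroup.zpowers x ⊔ (Subgroup.zpowers y ⊔
      Subgroup.zpowers z) = ⊤ ∧ orderOf y ≤ orderOf x ∧ orderOf z ≤ orderOf x := by
    obtain ⟨x, y, z, -, -, -, rfl⟩ := Finset.card_eq_three.1 (h1.trans h)
    simp only [Finset.coe_insert, Finset.coe_singleton, Set.insert_eq, Subgroup.closure_union,
      ← Subgroup.zpowers_eq_closure] at h2
    by_cases h3 : orderOf y ≤ orderOf x ∧ orderOf z ≤ orderOf x
    · exact ⟨x, y, z, h2, h3⟩
    rcases le_total (orderOf y) (orderOf z) with h4 | h4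
    · exact ⟨z, y, x, by rw [← h2]; ac_rfl, by omega⟩
    · exact ⟨y, x, z, by rw [← h2]; ac_rfl, by omega⟩
  have h5 : p ^ d ≤ orderOf (x : G) ^ 3 := by
    letI : CommGroup D := { mul_comm := hc }
    have := card_sup_le (Subgroup.zpowers x) (Subgroup.zpowers y ⊔ Subgroup.zpowers z)
    have h5 := card_sup_le (Subgroup.zpowers y) (Subgroup.zpowers z)
    rw [h3, Subgroup.card_top, hDd] at this
    simp only [Nat.card_zpowers] at this h5
    rw [Subgroup.orderOf_coe, pow_three]
    exact this.trans (Nat.mul_le_mul_left _ (h5.trans (Nat.mul_le_mul h4.1 h4.2)))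
  obtain ⟨Q, _, _, π, c, b, h6, h7, h8, h9, h10, h11, h12, -⟩ := hBD.exists_dominated hM hB x.2
    fun d hd => Subgroup.mem_centralizer_singleton_iff.2 (congrArg Subtype.val (hc ⟨d, hd⟩ x))
  have h13 := h8.card_le_of_two_gen hM h7 (x := π.rangeRestrict y) (y := π.rangeRestrict z)
    (fun d => by
      obtain ⟨d, rfl⟩ := π.rangeRestrict_surjective d
      rw [← map_mul, hc, map_mul]) (by
      rw [← Subgroup.map_top_of_surjective _ π.rangeRestrict_surjective, ← h3, Subgroup.map_sup,
        Subgroup.map_sup, MonoidHom.map_zpowers, MonoidHom.map_zpowers, MonoidHom.map_zpowers,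
        show π.rangeRestrict x = 1 from Subtype.ext h6, Subgroup.zpowers_one_eq_bot, bot_sup_eq])
  have h14 := ((isSec_centralizer (isPElt_of_mem hBD.isPGroup x.2)).card_le_mul_blockRank hM h11
    h12).trans (Nat.mul_le_mul_left _ (h10.ge.trans ((blockRank_le_card c).trans h13)))
  rw [hd] at h9 h14
  refine (Nat.pow_le_pow_left h14 3).trans (Nat.le_of_mul_le_mul_left ?_ (pow_pos hM.prime.pos d))
  calc _ = p ^ d * (p ^ d) ^ 3 * (p ^ blockDefect p c) ^ 3 := by ring
    _ ≤ orderOf (x : G) ^ 3 * (p ^ d) ^ 3 * (p ^ blockDefect p c) ^ 3 := by gcongr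
    _ = (p ^ d) ^ 3 * (p ^ d) ^ 3 := by nth_rw 3 [h9]; ring
    _ = _ := by ring

end Cfsg.Agent.S4697
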