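import Cfsg.Statements.S4716
import Cfsg.Agent.Blk.SubBound

set_option autoImplicit false
open Cfsg

namespace Cfsg.Agent.S4716

theorem aux {G H : Type*} [Group G] [Finite G] [Group H] [Finite H] {p : ℕ} [Fact p.Prime]
    {M : Ideal AlgInt} (hM : IsPModular p M) {f : H →* G} {x : G} (h : IsSec p f x)
    {B : Set (IrrCharacter G)} {b : Set (IrrCharacter H)} (hi : Induces M f b B)
    (hd : blockDefect p b = blockDefect p B) (hh : ∀ χ ∈ B, blockHeight p B χ.1 = 0) :
    Nat.card B ^ 2 ≤ p ^ (2 * blockDefect p B) * blockRank p b := by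
  classical
  obtain ⟨n, hx⟩ := h.pElt.exists_pow_succ_eq_one
  have h1 := Finset.card_nsmul_le_sum (Finset.univ.filter (· ∈ B))
    (fun χ => (p : ℝ) ^ blockDefect p B * avgC p n f x b χ.1) (Nat.card B) fun χ hχ => by
      have hχ' := (Finset.mem_filter.1 hχ).2
      refine le_trans ?_ (h.sum_pow_height_le hM hx hi hd hχ' (hh χ hχ'))
      exact_mod_cast card_le_sum_pow_height (p := p) B
  rw [← natCard_eq_card_filter, ← Finset.mul_sum, h.sum_avgC hM hi, hd, nsmul_eq_mul, ← mul_assoc,
    ← pow_add, ← two_mul, ← pow_two] at h1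
  exact_mod_cast h1

/-- Let p be a prime, M a maximal ideal of the algebraic integers containing p, and B a p-block of defect d of the finite group G all of whose irreducible characters have height zero. Let y be a p-element, C = C_G(y), and b a block of C inducing B and having the same defect d (a major subsection). Then k(B)^2 ≤ p^(2d)·l(b), where k(B) is the number of irreducible characters in B and l(b) the p-regular rank of b (its number of irreducible Brauer characters); in particular (y = 1) k(B)^2 ≤ p^(2d)·l(B). -/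
theorem result {G : Type*} [Group G] [Finite G] (p : ℕ) [Fact p.Prime] (M : Ideal Cfsg.AlgInt) (hM : Cfsg.IsPModular p M) (B : Set (Cfsg.IrrCharacter G)) (hB : Cfsg.IsPBlock M B) (d : ℕ) (hd : Cfsg.blockDefect p B = d) (hh : ∀ χ ∈ B, Cfsg.blockHeight p B (χ : G → ℂ) = 0) (y : G) (hy : ∃ k : ℕ, orderOf y = p ^ k) (b : Set (Cfsg.IrrCharacter ↥(Subgroup.centralizer ({y} : Set G)))) (hind : Cfsg.IsInducedBlock M (Subgroup.centralizer ({y} : Set G)) b B) (hbd : Cfsg.blockDefect p b = d) : Nat.card B ^ 2 ≤ p ^ (2 * d) * Cfsg.blockRank p b := by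
  exact hd ▸ aux hM (isSec_centralizer hy) ((isInducedBlock_iff hM).1 hind) (hbd.trans hd.symm) hh

end Cfsg.Agent.S4716
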