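import Cfsg.Statements.S4698
import Cfsg.Agent.Blk.CycBound
import Cfsg.Agent.Blk.BrauerFeit
import Cfsg.Agent.S4716

set_option autoImplicit false
open Cfsg

namespace Cfsg.Agent.S4698

theorem aux {p : ℕ} [hp : Fact p.Prime] {M : Ideal AlgInt} (hM : IsPModular p M) (d : ℕ) :
    ∀ (G : Type*) [Group G] [Finite G] (B : Set (IrrCharacter G)), IsPBlock M B →
      blockDefect p B = d → 3 ≤ d → Nat.card B ≤ p ^ (2 * d - 2) := by
  induction d using Nat.strong_induction_on with
  | _ d ih =>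
  intro G _ _ B hB hd h3
  by_cases h0 : ∀ χ ∈ B, blockHeight p B χ.1 = 0
  swap
  · push Not at h0
    obtain ⟨χ, hχ, h0⟩ := h0
    have := hB.two_mul_card_le hM hχ h0
    rw [hd] at this
    omega
  obtain ⟨D, hD⟩ := hB.exists_isDefectGroup hM
  obtain ⟨x, hx, ⟨k, hk⟩, hc⟩ := hD.exists_center hM hB (by omega)
  obtain ⟨Q, _, _, π, c, b, -, h1, -, h4, h5, h6, h7, -⟩ := hD.exists_dominated hM hB hx hc
  have h8 : p ^ (blockDefect p c + 1) ∣ p ^ blockDefect p B := ⟨k, by rw [h4, hk]; ring⟩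
  rw [Nat.pow_dvd_pow_iff_le_right hM.prime.one_lt] at h8
  have h9 : Nat.card c ≤ p ^ (2 * d - 4) := by
    rcases le_or_gt (blockDefect p c) 2 with h | h
    · exact (h1.card_le_of_defect_le_two hM h).trans (Nat.pow_le_pow_right hp.out.pos (by omega))
    · exact (ih _ (by omega) Q c h1 rfl h).trans (Nat.pow_le_pow_right hp.out.pos (by omega))
  have := (S4716.aux hM (isSec_centralizer (isPElt_of_mem hD.isPGroup hx)) h6 h7 h0).trans
    (Nat.mul_le_mul_left _ (h5.ge.trans ((blockRank_le_card c).trans h9)))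
  rwa [← pow_add, hd, show 2 * d + (2 * d - 4) = (2 * d - 2) * 2 by omega, pow_mul,
    Nat.pow_le_pow_iff_left two_ne_zero] at this

/-- Let p be a prime, M a maximal ideal of the algebraic integers containing p, and B a p-block of defect d of the finite group G, containing k irreducible characters. Then k ≤ p^d when d ≤ 2, and k ≤ p^(2d − 2) when d ≥ 3. -/
theorem result {G : Type*} [Group G] [Finite G] (p : ℕ) [Fact p.Prime] (M : Ideal Cfsg.AlgInt) (hM : Cfsg.IsPModular p M) (B : Set (Cfsg.IrrCharacter G)) (hB : Cfsg.IsPBlock M B) (d : ℕ) (hd : Cfsg.blockDefect p B = d) : (d ≤ 2 → Nat.card B ≤ p ^ d) ∧ (3 ≤ d → Nat.card B ≤ p ^ (2 * d - 2)) := by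
  exact ⟨fun h => hd ▸ hB.card_le_of_defect_le_two hM (hd ▸ h), aux hM d G B hB hd⟩

end Cfsg.Agent.S4698
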