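import Cfsg.Statements.S4699
import Cfsg.Agent.Char.BasicA
import Mathlib.LinearAlgebra.Eigenspace.Zero

set_option autoImplicit false
open Cfsg

namespace Cfsg.Agent.S4699

open Polynomial

section aux

theorem geom_poly (F : Type*) [Field F] (p : ℕ) [Fact p.Prime] [CharP F p] (n : ℕ) :
    (∑ i ∈ Finset.range (p ^ n), (X : F[X]) ^ i) = (X - 1) ^ (p ^ n - 1) := by
  have hp : 0 < p ^ n := pow_pos (Fact.out : p.Prime).pos _
  have h1 : (X - 1 : F[X]) ≠ 0 := X_sub_C_ne_zero 1
  apply mul_right_cancel₀ h1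
  rw [geom_sum_mul, ← pow_succ, Nat.sub_add_cancel hp, sub_pow_char_pow, one_pow]

theorem pow_sub_one_poly (F : Type*) [Field F] (p : ℕ) [Fact p.Prime] [CharP F p] (a : ℕ)
    (ha : ¬ p ∣ a) : ∃ r : F[X],
      ((X : F[X]) ^ a - 1) ^ (p - 1) = (X - 1) ^ (p - 1) * (1 + (X - 1) * r) := by
  have h1 : ((∑ i ∈ Finset.range a, (X : F[X]) ^ i) ^ (p - 1) - 1).IsRoot 1 := by
    have h2 : ((a : ZMod p)) ^ (p - 1) = 1 :=
      ZMod.pow_card_sub_one_eq_one (by rwa [Ne, ZMod.natCast_eq_zero_iff])
    have h3 := congrArg (ZMod.castHom (dvd_refl p) F) h2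
    simp only [map_pow, map_natCast, map_one] at h3
    simp [IsRoot, eval_finsetSum, h3]
  obtain ⟨r, hr⟩ := dvd_iff_isRoot.2 h1
  refine ⟨r, ?_⟩
  rw [← geom_sum_mul, mul_pow, mul_comm]
  congr 1
  rw [C_1] at hr
  rw [← hr]; ring

/-- the relative trace from the trivial subgroup is killed by a small power of `y - 1`. -/
theorem pow_mul_trace_eq_zero {F : Type*} [Field F] (p : ℕ) [Fact p.Prime] [CharP F p]
    {E : Type*} [Ring E] [Algebra F E] (y : Eˣ) (n l k : ℕ) (hl : ((y : E) - 1) ^ l = 0)
    (hk : 2 * l ≤ k + p ^ n) (f : E) :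
    ((y : E) - 1) ^ k * ∑ i ∈ Finset.range (p ^ n), ((y ^ i : Eˣ) : E) * f * ((y ^ i)⁻¹ : Eˣ)
      = 0 := by
  have hp : 0 < p ^ n := pow_pos (Fact.out : p.Prime).pos _
  set L : Module.End F E := LinearMap.mulLeft F ((y : E) - 1) with hL
  set R : Module.End F E := LinearMap.mulRight F ((y : E) - 1) with hR
  set Y : Module.End F E := LinearMap.mulRight F ((y⁻¹ : Eˣ) : E) with hY
  set c : Module.End F E := LinearMap.mulLeft F (y : E) * Y with hc
  have hci : ∀ i : ℕ, (c ^ i) f = ((y ^ i : Eˣ) : E) * f * ((y ^ i)⁻¹ : Eˣ) := by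
    intro i
    induction i with
    | zero => simp
    | succ i ih =>
      rw [pow_succ', Module.End.mul_apply, ih, pow_succ' y]
      simp [hc, hY, mul_assoc]
  have hsum : ∑ i ∈ Finset.range (p ^ n), c ^ i = (c - 1) ^ (p ^ n - 1) := by
    have := congrArg (aeval c) (geom_poly F p n)
    simpa [map_sum] using this
  have hc1 : c - 1 = (L - R) * Y := by
    ext g
    simp [hc, hL, hR, hY, mul_sub, sub_mul, mul_assoc]
  have hLR : Commute L R := LinearMap.commute_mulLeft_right _ _
  have hLY : Commute L Y := LinearMap.commute_mulLeft_right _ _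
  have hRY : Commute R Y := by
    ext g
    simp [hR, hY, mul_sub, sub_mul, mul_assoc]
  have hLl : L ^ l = 0 := by rw [hL, LinearMap.pow_mulLeft, hl, LinearMap.mulLeft_zero_eq_zero]
  have hRl : R ^ l = 0 := by rw [hR, LinearMap.pow_mulRight, hl, LinearMap.mulRight_zero_eq_zero]
  have key : L ^ k * (L - R) ^ (p ^ n - 1) = 0 := by
    rw [sub_eq_add_neg, hLR.neg_right.add_pow', Finset.mul_sum]
    refine Finset.sum_eq_zero ?_
    rintro ⟨i, j⟩ hij
    have hij : i + j = p ^ n - 1 := by simpa using hij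
    have : L ^ k * (L ^ i * (-R) ^ j) = 0 := by
      by_cases hj : l ≤ j
      · have h0 : (-R) ^ l = 0 := by
          have := neg_pow R l
          rw [hRl, mul_zero] at this
          exact this
        rw [pow_eq_zero_of_le hj h0]; simp
      · rw [← mul_assoc, ← pow_add, pow_eq_zero_of_le (by omega) hLl, zero_mul]
    rw [mul_smul_comm, this, smul_zero]
  have h2 : L ^ k * ∑ i ∈ Finset.range (p ^ n), c ^ i = 0 := by
    rw [hsum, hc1, (hLY.sub_left hRY).mul_pow, ← mul_assoc, key, zero_mul]
  have h3 := congrArg (fun T : Module.End F E => T f) h2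
  simp only [Module.End.mul_apply, LinearMap.sum_apply, hci, LinearMap.zero_apply] at h3
  rwa [hL, LinearMap.pow_mulLeft, LinearMap.mulLeft_apply] at h3

theorem sum_eq_zero_of_free {P X A : Type*} [Group P] [Fintype P] [MulAction P X]
    [AddCommMonoid A] (S : Finset X) (hS : ∀ c ∈ S, ∀ y : P, y • c ∈ S)
    (hfree : ∀ c ∈ S, ∀ y : P, y • c = c → y = 1) (Φ : X → A)
    (h : ∀ c ∈ S, ∑ y : P, Φ (y • c) = 0) : ∑ c ∈ S, Φ c = 0 := by
  classical
  rw [← Finset.sum_fiberwise_of_maps_to (s := S)
    (t := S.image (Quotient.mk (MulAction.orbitRel P X)))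
    (g := Quotient.mk (MulAction.orbitRel P X)) (fun c hc => Finset.mem_image_of_mem _ hc)]
  refine Finset.sum_eq_zero fun w hw => ?_
  obtain ⟨c, hc, rfl⟩ := Finset.mem_image.1 hw
  rw [← h c hc]
  symm
  refine Finset.sum_bij (fun y _ => y • c) ?_ ?_ ?_ (fun _ _ => rfl)
  · intro y _
    rw [Finset.mem_filter]
    exact ⟨hS c hc y, Quotient.sound ⟨y, rfl⟩⟩
  · intro y _ z _ hyz
    have : (z⁻¹ * y) • c = c := by rw [mul_smul, hyz, inv_smul_smul]
    exact (inv_mul_eq_one.1 (hfree c hc _ this)).symm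
  · intro d hd
    obtain ⟨y, hy⟩ := Quotient.exact (Finset.mem_filter.1 hd).2
    exact ⟨y, Finset.mem_univ _, hy⟩

end aux

/-- Let p be a prime and G a finite group whose Sylow p-subgroup P is cyclic of order p^n with n ≥ 2 and meets every other Sylow p-subgroup trivially. Then every faithful irreducible representation of G on a finite-dimensional space over a finite field of characteristic p has dimension at least p^n − (p − 1). -/
theorem result {G : Type*} [Group G] [Finite G] (p : ℕ) [Fact p.Prime] (P : Sylow p G) (hcyc : IsCyclic P) (n : ℕ) (hn : 2 ≤ n) (hPn : Nat.card P = p ^ n) (hTI : ∀ Q : Sylow p G, Q ≠ P → (P : Subgroup G) ⊓ (Q : Subgroup G) = ⊥) (F : Type*) [Field F] [Finite F] [CharP F p] (V : Type*) [AddCommGroup V] [Module F V] [FiniteDimensional F V] (ρ : Representation F G V) (hfaith : Function.Injective ρ) (hirr : ρ.IsIrreducible) : p ^ n - (p - 1) ≤ Module.finrank F V := by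
  classical
  have hp : p.Prime := Fact.out
  haveI := Fintype.ofFinite G
  haveI := Fintype.ofFinite (G ⧸ (P : Subgroup G))
  obtain ⟨x₀, hx₀⟩ := IsCyclic.exists_generator (α := P)
  set x : G := (x₀ : G) with hx
  have hox₀ : orderOf x₀ = p ^ n := by rw [orderOf_eq_card_of_forall_mem_zpowers hx₀, hPn]
  have hox : orderOf x = p ^ n := by rw [← hox₀]; exact Subgroup.orderOf_coe _
  have hxP : x ∈ (P : Subgroup G) := x₀.2
  have hpow : ∀ g ∈ (P : Subgroup G), ∃ a : ℕ, g = x ^ a := by
    intro g hg
    obtain ⟨a, ha⟩ := (mem_powers_iff_mem_zpowers).2 (hx₀ ⟨g, hg⟩)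
    exact ⟨a, by simpa using (congrArg Subtype.val ha).symm⟩
  obtain ⟨hV, hsub⟩ := (rep_isIrreducible_iff ρ).1 hirr
  set y : (Module.End F V)ˣ := ρ.asGroupHom x with hy
  have hyv : (y : Module.End F V) = ρ x := rfl
  set t : Module.End F V := ρ x - 1 with ht
  -- the equivariant function on cosets
  let Φ₀ : G → Module.End F V := fun g => (ρ (g * x * g⁻¹) - 1) ^ (p - 1)
  have hΦ₀ : ∀ g h : G, g⁻¹ * h ∈ (P : Subgroup G) → Φ₀ g = Φ₀ h := by
    intro g h hgh
    obtain ⟨a, ha⟩ := hpow _ hgh
    have : h = g * x ^ a := by rw [← ha]; group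
    simp only [Φ₀, this]
    congr 3
    group
  let Φ : G ⧸ (P : Subgroup G) → Module.End F V := Quotient.lift Φ₀
    (fun g h hgh => hΦ₀ g h (QuotientGroup.leftRel_apply.1 hgh))
  have hΦ : ∀ (h : G) (c : G ⧸ (P : Subgroup G)), Φ (h • c) = ρ h * Φ c * ρ h⁻¹ := by
    intro h c
    induction c using QuotientGroup.induction_on with
    | H g =>
      change Φ₀ (h * g) = ρ h * Φ₀ g * ρ h⁻¹
      have h1 : ρ (h * g * x * (h * g)⁻¹) - 1 = (ρ.asGroupHom h : Module.End F V) *
          (ρ (g * x * g⁻¹) - 1) * ((ρ.asGroupHom h)⁻¹ : (Module.End F V)ˣ) := by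
        rw [← map_inv, Representation.asGroupHom_apply, Representation.asGroupHom_apply,
          mul_sub, sub_mul, mul_one, ← map_mul, ← map_mul, ← map_mul]
        congr 2
        · group
        · simp
      simp only [Φ₀]
      rw [h1, Units.conj_pow, ← map_inv]
      rfl
  set T : Module.End F V := ∑ c, Φ c with hT
  have hTc : ∀ h : G, ρ h * T = T * ρ h := by
    intro h
    have : ρ h * T * ρ h⁻¹ = T := by
      rw [hT, Finset.mul_sum, Finset.sum_mul]
      simp only [← hΦ]
      exact Fintype.sum_equiv (MulAction.toPerm h) _ _ (fun _ => rfl)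
    conv_rhs => rw [← this, mul_assoc, ← map_mul, inv_mul_cancel, map_one, mul_one]
  have hTu : T = 0 ∨ IsUnit T := by
    rcases hsub (LinearMap.ker T) (fun g v hv => by
      rw [LinearMap.mem_ker] at hv ⊢
      rw [← Module.End.mul_apply, ← hTc, Module.End.mul_apply, hv, map_zero]) with h | h
    · exact Or.inr ((LinearMap.isUnit_iff_ker_eq_bot T).2 h)
    · exact Or.inl (LinearMap.ker_eq_top.1 h)
  -- fixed and free cosets
  set S₀ : Finset (G ⧸ (P : Subgroup G)) :=
    Finset.univ.filter (· ∈ MulAction.fixedPoints (P : Subgroup G) (G ⧸ (P : Subgroup G)))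
    with hS₀
  set S₁ : Finset (G ⧸ (P : Subgroup G)) :=
    Finset.univ.filter (· ∉ MulAction.fixedPoints (P : Subgroup G) (G ⧸ (P : Subgroup G)))
    with hS₁
  have hm : ¬ p ∣ S₀.card := by
    have h1 := P.isPGroup'.card_modEq_card_fixedPoints (G ⧸ (P : Subgroup G))
    have h2 : Nat.card (MulAction.fixedPoints (P : Subgroup G) (G ⧸ (P : Subgroup G))) =
        S₀.card := by
      rw [Nat.card_eq_fintype_card, Fintype.card_subtype]
    rw [h2] at h1
    intro h
    exact P.not_dvd_index ((h1.dvd_iff (dvd_refl p)).2 h)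
  have hfix : ∀ c ∈ S₀, ∃ r : F[X], Φ c = t ^ (p - 1) * (1 + t * aeval (ρ x) r) := by
    intro c hc
    induction c using QuotientGroup.induction_on with
    | H g =>
      have hc' := (Finset.mem_filter.1 hc).2
      have hg : g ∈ Subgroup.normalizer ((P : Subgroup G) : Set G) :=
        Sylow.mem_fixedPoints_mul_left_cosets_iff_mem_normalizer.1 hc'
      obtain ⟨a, ha⟩ := hpow _ ((Subgroup.mem_normalizer_iff.1 hg x).1 hxP)
      have hoa : orderOf (x ^ a) = p ^ n := by
        rw [← ha, ← hox]
        exact (MulAut.conj g).orderOf_eq x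
      have hpa : ¬ p ∣ a := by
        rintro ⟨b, rfl⟩
        have h1 : (x ^ (p * b)) ^ (p ^ (n - 1)) = 1 := by
          rw [← pow_mul, ← orderOf_dvd_iff_pow_eq_one, hox]
          refine ⟨b, ?_⟩
          obtain ⟨m, rfl⟩ : ∃ m, n = m + 1 := ⟨n - 1, by omega⟩
          simp only [Nat.add_sub_cancel]; ring
        have h2 := orderOf_dvd_of_pow_eq_one h1
        rw [hoa, Nat.pow_dvd_pow_iff_le_right hp.one_lt] at h2
        omega
      obtain ⟨r, hr⟩ := pow_sub_one_poly F p a hpa
      refine ⟨r, ?_⟩
      have := congrArg (aeval (ρ x)) hr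
      simp only [map_pow, map_sub, map_mul, map_add, aeval_X, map_one] at this
      change (ρ (g * x * g⁻¹) - 1) ^ (p - 1) = _
      rw [ha, map_pow, this]
  choose! r hr using hfix
  have hsum₀ : ∑ c ∈ S₀, Φ c =
      t ^ (p - 1) * ((S₀.card : Module.End F V) + t * aeval (ρ x) (∑ c ∈ S₀, r c)) := by
    rw [Finset.sum_congr rfl hr, ← Finset.mul_sum, Finset.sum_add_distrib, ← Finset.mul_sum,
      map_sum]
    simp
  set u : Module.End F V := (S₀.card : Module.End F V) + t * aeval (ρ x) (∑ c ∈ S₀, r c) with hu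
  have htq : t ^ p ^ n = 0 := by
    have := congrArg (aeval (ρ x)) (sub_pow_char_pow (p := p) (n := n) (X : F[X]) 1)
    simp only [map_pow, map_sub, aeval_X, map_one, one_pow] at this
    rw [ht, this, ← map_pow, ← hox, pow_orderOf_eq_one, map_one, sub_self]
  have htn : IsNilpotent t := ⟨_, htq⟩
  have hcomm : ∀ (s : F[X]) (B : Module.End F V), Commute (ρ x) B → Commute (aeval (ρ x) s) B := by
    intro s B hB
    induction s using Polynomial.induction_on' with
    | add s s' h h' => rw [map_add]; exact h.add_left h'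
    | monomial i a =>
      rw [aeval_monomial]
      exact Commute.mul_left (Algebra.commutes a B) (hB.pow_left i)
  have hxt : Commute (ρ x) t := (Commute.refl _).sub_right (Commute.one_right _)
  have huu : IsUnit u := by
    refine IsNilpotent.isUnit_add_left_of_commute ?_ ?_ (Nat.cast_commute _ _).symm
    · exact (hcomm _ _ hxt).symm.isNilpotent_mul_right htn
    · have : (S₀.card : F) ≠ 0 := by rwa [Ne, CharP.cast_eq_zero_iff F p]
      simpa using (IsUnit.mk0 _ this).map (algebraMap F (Module.End F V))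
  have hTx : Commute (ρ x) T := hTc x
  have hTt : Commute t T := hTx.sub_left (Commute.one_left _)
  have hTuc : Commute u T :=
    (Nat.cast_commute _ _).add_left (hTt.mul_left (hcomm _ _ hTx))
  have htu : Commute t u := (Nat.cast_commute _ _).symm.add_right
    ((Commute.refl t).mul_right (hcomm _ _ hxt).symm)
  have hfree : ∀ c ∈ S₁, ∀ z : (P : Subgroup G), z • c = c → z = 1 := by
    intro c hc z hz
    induction c using QuotientGroup.induction_on with
    | H g =>
      have hc' := (Finset.mem_filter.1 hc).2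
      have hg : g ∉ Subgroup.normalizer ((P : Subgroup G) : Set G) := fun h =>
        hc' (Sylow.mem_fixedPoints_mul_left_cosets_iff_mem_normalizer.2 h)
      have hne : g • P ≠ P := fun h => hg (Sylow.smul_eq_iff_mem_normalizer.1 h)
      have hz' : ((z : G) * g)⁻¹ * g ∈ (P : Subgroup G) := QuotientGroup.eq.1 hz
      have hz2 : (z : G) ∈ (P : Subgroup G) ⊓ ((g • P : Sylow p G) : Subgroup G) := by
        refine Subgroup.mem_inf.2 ⟨z.2, ?_⟩
        rw [Sylow.coe_subgroup_smul, Subgroup.mem_pointwise_smul_iff_inv_smul_mem]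
        have := (P : Subgroup G).inv_mem hz'
        simpa [mul_assoc] using this
      rw [hTI _ hne, Subgroup.mem_bot] at hz2
      exact Subtype.ext hz2
  have hstab : ∀ c ∈ S₁, ∀ z : (P : Subgroup G), z • c ∈ S₁ := by
    intro c hc z
    refine Finset.mem_filter.2 ⟨Finset.mem_univ _, fun h => (Finset.mem_filter.1 hc).2 ?_⟩
    have : c = z • c := by
      conv_lhs => rw [← inv_smul_smul z c]
      exact h z⁻¹
    rw [this]; exact h
  have main : ∀ l : ℕ, l + p ≤ p ^ n → t ^ l ≠ 0 := by
    intro l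
    induction l using Nat.strong_induction_on with
    | _ l ih =>
      intro hl htl
      by_cases hlp : l ≤ p
      · have h1 : t ^ p = 0 := pow_eq_zero_of_le hlp htl
        have := congrArg (aeval (ρ x)) (sub_pow_char (p := p) (X : F[X]) 1)
        simp only [map_pow, map_sub, aeval_X, map_one, one_pow] at this
        rw [ht, this, ← map_pow, sub_eq_zero, ← map_one ρ] at h1
        have h2 := orderOf_dvd_of_pow_eq_one (hfaith h1)
        rw [hox] at h2
        have h3 := Nat.le_of_dvd hp.pos h2
        have h4 : p ^ 1 < p ^ n := Nat.pow_lt_pow_right hp.one_lt (by omega)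
        rw [pow_one] at h4
        omega
      set k := 2 * l - p ^ n with hk
      have h1 : t ^ k * ∑ c ∈ S₁, Φ c = 0 := by
        rw [Finset.mul_sum]
        refine sum_eq_zero_of_free (P := (P : Subgroup G)) S₁ hstab hfree _ fun c _ => ?_
        rw [← Finset.mul_sum, ← pow_mul_trace_eq_zero (F := F) p y n l k htl (by omega) (Φ c)]
        congr 1
        symm
        refine Finset.sum_bij (fun i _ => x₀ ^ i) (fun _ _ => Finset.mem_univ _) ?_ ?_ ?_
        · intro i hi j hj hij
          exact pow_injOn_Iio_orderOf (x := x₀) (by simpa [hox₀] using hi)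
            (by simpa [hox₀] using hj) hij
        · intro z _
          obtain ⟨a, ha⟩ := (mem_powers_iff_mem_zpowers).2 (hx₀ z)
          refine ⟨a % p ^ n, Finset.mem_range.2 (Nat.mod_lt _ (pow_pos hp.pos _)), ?_⟩
          rw [← hox₀, pow_mod_orderOf]; exact ha
        · intro i _
          change _ = Φ (((x₀ ^ i : (P : Subgroup G)) : G) • c)
          rw [hΦ, hy, ← map_pow, ← map_inv]
          rfl
      have h2 : T = t ^ (p - 1) * u + ∑ c ∈ S₁, Φ c := by
        rw [← hsum₀, hT, hS₀, hS₁, Finset.sum_filter_add_sum_filter_not]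
      have h3 : t ^ k * (T - t ^ (p - 1) * u) = 0 := by
        rw [h2, add_sub_cancel_left, h1]
      have h4 : t ^ (k + (p - 1)) = 0 := by
        rcases hTu with h0 | hU
        · rw [h0, zero_sub, mul_neg, neg_eq_zero, ← mul_assoc, ← pow_add] at h3
          exact huu.mul_left_eq_zero.1 h3
        · have hU' : IsUnit (T - t ^ (p - 1) * u) := by
            rw [sub_eq_add_neg]
            refine IsNilpotent.isUnit_add_left_of_commute ?_ hU ?_
            · refine IsNilpotent.neg ?_
              refine (htu.pow_left _).isNilpotent_mul_right ?_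
              exact htn.pow_of_pos (by have := hp.two_le; omega)
            · exact ((hTt.pow_left _).mul_left hTuc).neg_left
          rw [pow_add, hU'.mul_left_eq_zero.1 h3, zero_mul]
      have := hp.two_le
      exact ih (k + (p - 1)) (by omega) (by omega) h4
  by_contra hlt
  refine main (Module.finrank F V) (by have := hp.two_le; omega) ?_
  have := t.aeval_self_charpoly
  rwa [htn.charpoly_eq_X_pow_finrank, map_pow, aeval_X] at this

end Cfsg.Agent.S4699
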