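import Cfsg.Statements.S4701
import Cfsg.Agent.Blk.BrauerReyn
-- import your own Cfsg.Agent.* helpers here

set_option autoImplicit false
open Cfsg

namespace Cfsg.Agent.S4701

/-- Let G be a finite perfect group and p a prime dividing the order of G with p^3 larger than the order of G. Suppose a Sylow p-subgroup of G is not normal and G has no normal subgroup of order 2. Then p > 3 and G is isomorphic to PSL(2, p), or to SL(2, 2^m) with p = 2^m + 1. -/
theorem result {G : Type*} [Group G] [Finite G] (hperf : commutator G = ⊤) (p : ℕ) [Fact p.Prime] (hdvd : p ∣ Nat.card G) (hbig : Nat.card G < p ^ 3) (P : Sylow p G) (hP : ¬ (P : Subgroup G).Normal) (h2 : ∀ N : Subgroup G, N.Normal → Nat.card N ≠ 2) : (∃ (F : Type) (_ : Field F) (_ : Fintype F), Fintype.card F = p ∧ 3 < p ∧ Nonempty (G ≃* Matrix.ProjectiveSpecialLinearGroup (Fin 2) F)) ∨ (∃ (m : ℕ) (F : Type) (_ : Field F) (_ : Fintype F), Fintype.card F = 2 ^ m ∧ p = 2 ^ m + 1 ∧ 3 < p ∧ Nonempty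 (G ≃* Matrix.SpecialLinearGroup (Fin 2) F)) := by
  have hp : p.Prime := Fact.out
  have hD1 : Nat.card (Sylow p G) ≠ 1 := fun e => by
    have : Subsingleton (Sylow p G) := Finite.card_le_one_iff_subsingleton.1 e.le
    exact hP P.normal_of_subsingleton
  obtain ⟨n, hn⟩ : ∃ n, Nat.card (Sylow p G) = 1 + n * p := by
    obtain ⟨n, hn⟩ := (Nat.modEq_iff_dvd' Nat.card_pos).1 (card_sylow_modEq_one p G).symm
    have : 0 < Nat.card (Sylow p G) := Nat.card_pos
    exact ⟨n, by rw [mul_comm]; omega⟩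
  have hn0 : 0 < n := Nat.pos_of_ne_zero (by rintro rfl; omega)
  have hn1 : p ≤ n * p := Nat.le_mul_of_pos_left _ hn0
  have hcP : Nat.card P = p := by
    obtain ⟨k, hk⟩ := P.isPGroup'.exists_card_eq
    have h1 := (P : Subgroup G).card_mul_index
    have h2 := Nat.le_of_dvd (Nat.pos_of_ne_zero Subgroup.FiniteIndex.index_ne_zero)
      P.card_dvd_index
    have h3 : p ^ k * p < p ^ 3 := by
      refine lt_of_le_of_lt ?_ hbig
      rw [← h1, hk]
      exact Nat.mul_le_mul_left _ (by omega)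
    rw [← pow_succ, Nat.pow_lt_pow_iff_right hp.one_lt] at h3
    have h4 := P.dvd_card_of_dvd_card hdvd
    have : k ≠ 0 := by
      rintro rfl
      rw [hk, pow_zero, Nat.dvd_one] at h4
      exact hp.one_lt.ne' h4
    rw [hk, show k = 1 by omega, pow_one]
  have h3 : ¬ ∃ h u : ℕ, 0 < h ∧ 0 < u ∧ n * (u + 1) = h * u * p + u ^ 2 + u + h := by
    rintro ⟨h, u, h0, hu, e⟩
    have h1 := (Cfsg.two_le_relIndex_of_perfect hperf P hcP).1
    have : IsCyclic P := isCyclic_of_prime_card hcP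
    have h4 := Nat.le_of_dvd Nat.card_pos (Subgroup.card_dvd_of_le
      (Subgroup.le_centralizer (P : Subgroup G)))
    have h5 := Cfsg.card_mul_relIndex
      (Subgroup.centralizer_le_normalizer ((P : Subgroup G) : Set G))
    have h6 := (Subgroup.normalizer ((P : Subgroup G) : Set G)).card_mul_index
    have h7 : Nat.card (Sylow p G) = (Subgroup.normalizer ((P : Subgroup G) : Set G)).index :=
      P.card_eq_index_normalizer
    rw [← h7, hn, ← h5] at h6
    rw [hcP] at h4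
    have h8 : p * 2 * (1 + n * p) ≤ Nat.card G := h6 ▸ Nat.mul_le_mul_right _ (Nat.mul_le_mul h4 h1)
    have h9 : p ≤ 2 * n := by
      refine Nat.le_of_mul_le_mul_right (c := u + 1) ?_ (by omega)
      have : 1 * u * p ≤ h * u * p := Nat.mul_le_mul_right _ (Nat.mul_le_mul_right _ h0)
      have : 1 * p ≤ u * p := Nat.mul_le_mul_right _ hu
      nlinarith
    have : p * p * p ≤ p * p * (2 * n) := Nat.mul_le_mul_left _ h9
    nlinarith
  have key : ∀ m, p ^ 3 ≤ 3 * m → m ≤ Nat.card (G ⧸ Cfsg.pPrimeCore p G) →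
      Nonempty (G ≃* G ⧸ Cfsg.pPrimeCore p G) := by
    intro m h1 h4
    have h5 := (Cfsg.pPrimeCore p G).card_mul_index
    have h6 : Nat.card (Cfsg.pPrimeCore p G) < 3 := by
      refine lt_of_mul_lt_mul_right (a := m) ?_ (Nat.zero_le _)
      exact lt_of_le_of_lt ((Nat.mul_le_mul_left _ h4).trans h5.le) (by omega)
    have h7 := h2 (Cfsg.pPrimeCore p G) inferInstance
    have h8 : 0 < Nat.card (Cfsg.pPrimeCore p G) := Nat.card_pos
    exact ⟨QuotientGroup.quotientBot.symm.trans (QuotientGroup.quotientMulEquivOfEq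
      (Subgroup.card_eq_one.1 (by omega)).symm)⟩
  obtain ⟨h1, ⟨⟨φ⟩⟩ | ⟨a, F, _, _, h4, h5, ⟨φ⟩⟩⟩ := Cfsg.brauerReynolds hperf P hcP hn h3
  · obtain ⟨ψ⟩ := key _ (by
      have h6 := Cfsg.card_SL2_le_two_mul_card_PSL2 (ZMod p)
      rw [Cfsg.card_SL2, ZMod.card, ← Nat.card_congr φ.toEquiv] at h6
      obtain ⟨k, hk⟩ : ∃ k, p = k + 4 := ⟨p - 4, by omega⟩
      have h7 : 2 * p ^ 3 ≤ 3 * ((p + 1) * p * (p - 1)) := by
        rw [hk, show k + 4 - 1 = k + 3 from rfl]
        nlinarith [Nat.zero_le (k ^ 3), Nat.zero_le (k ^ 2)]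
      omega) le_rfl
    exact Or.inl ⟨ZMod p, inferInstance, inferInstance, ZMod.card p, h1, ⟨ψ.trans φ⟩⟩
  · obtain ⟨ψ⟩ := key _ (by
      rw [Nat.card_congr φ.toEquiv, Cfsg.card_SL2, h5, ← h4, show 2 ^ a = p - 1 by omega]
      have : p ≠ 4 := by
        rintro rfl
        exact absurd hp (by decide)
      obtain ⟨k, hk⟩ : ∃ k, p = k + 5 := ⟨p - 5, by omega⟩
      rw [hk, show k + 5 - 1 = k + 4 from rfl, show k + 4 - 1 = k + 3 from rfl]
      nlinarith [Nat.zero_le (k ^ 3), Nat.zero_le (k ^ 2)]) le_rfl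
    exact Or.inr ⟨a, F, _, _, h5, h4, h1, ⟨ψ.trans φ⟩⟩

end Cfsg.Agent.S4701
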