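import Cfsg.Statements.S4702
import Cfsg.Agent.Grp.Sharp3

set_option autoImplicit false
open Cfsg

namespace Cfsg.Agent.S4702

/-- Let G be a triply transitive permutation group on a finite set of odd size m ≥ 3 in which only the identity fixes three or more points. Then m = 2^a + 1 for some a ≥ 1 and G is isomorphic to SL(2, 2^a). -/
theorem result {α : Type*} [Fintype α] [DecidableEq α] (hm : 3 ≤ Fintype.card α) (hodd : Odd (Fintype.card α)) (G : Subgroup (Equiv.Perm α)) (h3 : MulAction.IsMultiplyPretransitive G α 3) (hfix : ∀ g : G, 3 ≤ Nat.card (MulAction.fixedBy α g) → g = 1) : ∃ a : ℕ, 1 ≤ a ∧ Fintype.card α = 2 ^ a + 1 ∧ ∃ (F : Type) (_ : Field F) (_ : Fintype F), Fintype.card F = 2 ^ a ∧ Nonempty (G ≃* Matrix.SpecialLinearGroup (Fin 2) F) := by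
  have h : IsSharp3 G α := by
    refine ⟨fun {a b c a' b' c'} h1 h2 h3' h4 h5 h6 => ?_, fun {g a b c} h1 h2 h3' e1 e2 e3 => ?_⟩
    · have hi : ∀ {a b c : α}, a ≠ b → a ≠ c → b ≠ c → Function.Injective ![a, b, c] := by
        intro a b c h1 h2 h3 i j
        fin_cases i <;> fin_cases j <;> simp [h1, h2, h3, h1.symm, h2.symm, h3.symm]
      obtain ⟨g, hg⟩ := MulAction.isMultiplyPretransitive_iff.1 h3 ⟨_, hi h1 h2 h3'⟩ ⟨_, hi h4 h5 h6⟩
      exact ⟨g, DFunLike.congr_fun hg 0, DFunLike.congr_fun hg 1, DFunLike.congr_fun hg 2⟩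
    · refine hfix g ?_
      rw [Nat.card_coe_set_eq, ← Set.ncard_eq_three.2 ⟨a, b, c, h1, h2, h3', rfl⟩]
      refine Set.ncard_le_ncard ?_
      rintro x (rfl | rfl | rfl) <;> assumption
  simpa only [Nat.card_eq_fintype_card] using h.exists_mulEquiv_SL2
    (by rwa [Nat.card_eq_fintype_card]) (by rwa [Nat.card_eq_fintype_card])

end Cfsg.Agent.S4702
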