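import Cfsg.Statements.S4704
import Cfsg.Agent.Blk.PrimeCore
-- import your own Cfsg.Agent.* helpers here

set_option autoImplicit false
open Cfsg

namespace Cfsg.Agent.S4704

/-- Let G be a finite group with centre Z, p > 7 a prime, and suppose a Sylow p-subgroup of G has order p and is not normal. Let ζ be a faithful irreducible character of G and t the number of conjugacy classes of G consisting of elements of order p. Then one of the following holds: G/Z is isomorphic to PSL(2, p), ζ has degree (p + 1)/2 or (p − 1)/2 and t = 2; or ζ has degree at least p − 1; or ζ has degree at least p + 3/2 − √(p + 5/4) and p ≤ t^2 − 3t + 1. -/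
theorem result {G : Type*} [Group G] [Finite G] (p : ℕ) [Fact p.Prime] (hp : 7 < p) (P : Sylow p G) (hP : Nat.card P = p) (hnn : ¬ (P : Subgroup G).Normal) (ζ : G → ℂ) (hζ : Cfsg.IsIrrCharacter G ζ) (hfaith : ∀ g : G, ζ g = ζ 1 → g = 1) (t : ℕ) (ht : Nat.card {c : ConjClasses G // ∃ g : G, ConjClasses.mk g = c ∧ orderOf g = p} = t) : ((∃ (F : Type) (_ : Field F) (_ : Fintype F), Fintype.card F = p ∧ Nonempty (G ⧸ Subgroup.center G ≃* Matrix.ProjectiveSpecialLinearGroup (Fin 2) F)) ∧ (2 * Cfsg.charDegree ζ = p + 1 ∨ 2 * Cfsg.charDegree ζ = p - 1) ∧ t = 2) ∨ p - 1 ≤ Cfsg.charDegree ζ ∨ ((p : ℝ) + 3 / 2 - Real.sqrt ((p : ℝ) + 5 / 4) ≤ (Cfsg.charDegree ζ : ℝ) ∧ (p : ℤ) ≤ (t : ℤ) ^ 2 - 3 * t + 1) := by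
  classical
  by_cases h0 : p - 1 ≤ charDegree ζ
  · exact Or.inr (Or.inl h0)
  have h : SmallDeg p P ⟨ζ, hζ⟩ := ⟨hP, by omega, hnn, eq_bot_iff.2 fun g hg =>
    hfaith g (hζ.isCharacter.mem_charKer.1 hg), show charDegree ζ + 2 ≤ p by omega⟩
  letI := Fintype.ofFinite (P : Subgroup G)
  have h6 := card_conjClasses_orderOf_prime P hP
  rw [ht] at h6
  obtain ⟨x, h1, h2, h3⟩ | ⟨e, s, h7, h1, h2, h3, -⟩ := h.core hp
  · obtain ⟨h4, h7, h5⟩ := h.psl_of_dickson h1 h2 h3
    exact Or.inl ⟨⟨ZMod p, inferInstance, inferInstance, ZMod.card p, h4⟩, h5,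
      Nat.eq_of_mul_eq_mul_right (by omega) (Nat.add_right_cancel (h6.trans h7.symm))⟩
  have h4 : 0 < e := by dsimp only at h1; omega
  obtain rfl : t = s := Nat.eq_of_mul_eq_mul_right h4 (by rw [h7] at h6; linarith)
  refine Or.inr (Or.inr ⟨?_, by nlinarith⟩)
  have h5 : (charDegree ζ + e : ℝ) = p := by exact_mod_cast h1
  have h8 : (e * (e + 3) + 1 : ℝ) ≤ p := by
    exact_mod_cast (Nat.add_le_add_right (Nat.mul_le_mul_left e h3) 1).trans h2.le
  have := Real.le_sqrt_of_sq_le (show (e + 3 / 2 : ℝ) ^ 2 ≤ p + 5 / 4 by linarith)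
  linarith

end Cfsg.Agent.S4704
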