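import Cfsg.Statements.S4706
import Cfsg.Agent.Blk.PrimePerm
-- import your own Cfsg.Agent.* helpers here

set_option autoImplicit false
open Cfsg

namespace Cfsg.Agent.S4706

/-- Let p > 2 be a prime and G a permutation group on p letters whose Sylow p-subgroup P has normalizer of order 2p. Then either P is normal in G, or p − 1 = 2^a for some a and G is isomorphic to SL(2, 2^a). -/
theorem result {α : Type*} [Fintype α] [DecidableEq α] {p : ℕ} [Fact p.Prime] (hp : 2 < p) (hα : Fintype.card α = p) (G : Subgroup (Equiv.Perm α)) (P : Sylow p G) (hN : Nat.card (Subgroup.normalizer ((P : Subgroup G) : Set G)) = 2 * p) : (P : Subgroup G).Normal ∨ ∃ (a : ℕ) (F : Type) (_ : Field F) (_ : Fintype F), p = 2 ^ a + 1 ∧ Fintype.card F = 2 ^ a ∧ Nonempty (G ≃* Matrix.SpecialLinearGroup (Fin 2) F) := by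
  have hpp : p.Prime := Fact.out
  refine or_iff_not_imp_left.2 fun hnn => ?_
  have hα' : Nat.card α = p := by rw [Nat.card_eq_fintype_card, hα]
  have hp3 : 3 < p := by
    refine lt_of_le_of_ne hp fun e => hnn ?_
    have h1 := G.card_subgroup_dvd_card
    rw [Nat.card_perm, hα', ← e] at h1
    have h2 := Nat.le_of_dvd (by decide) h1
    exact Subgroup.normalizer_eq_top_iff.1 (Subgroup.eq_top_of_le_card _
      (h2.trans (by rw [hN, ← e]; decide)))
  obtain ⟨x, hx⟩ := exists_prime_orderOf_dvd_card' (G := G) p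
    ((hN ▸ dvd_mul_left p 2).trans (Subgroup.card_subgroup_dvd_card _))
  rw [← Subgroup.orderOf_coe] at hx
  have hc := Equiv.Perm.isCycle_of_prime_order'' (σ := x.1) (hα ▸ hpp) (hx.trans hα.symm)
  have hs : x.1.support = Finset.univ :=
    Finset.eq_univ_of_card _ (hc.orderOf.symm.trans (hx.trans hα.symm))
  have : MulAction.IsPretransitive G α := ⟨fun a b => by
    obtain ⟨i, hi⟩ := hc.exists_zpow_eq (Equiv.Perm.mem_support.1 (hs ▸ Finset.mem_univ a))
      (Equiv.Perm.mem_support.1 (hs ▸ Finset.mem_univ b))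
    exact ⟨x ^ i, hi⟩⟩
  have := MulAction.IsPreprimitive.of_prime_card (G := G) (hα' ▸ hpp)
  obtain ⟨h1, h2, -⟩ := Cfsg.exists_elemInvol_of_perm hp3 (Or.inl hα') P hN hnn
  obtain ⟨a, F, _, _, h3, h4, h5⟩ := h2.exists_mulEquiv h1 (hpp.even_sub_one (by omega))
  exact ⟨a, F, _, _, by omega, h4, h5⟩

end Cfsg.Agent.S4706
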