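import Cfsg.Statements.S4707
import Cfsg.Agent.Blk.PrimePerm
-- import your own Cfsg.Agent.* helpers here

set_option autoImplicit false
open Cfsg

namespace Cfsg.Agent.S4707

/-- Let p > 3 be a prime and G a primitive permutation group of degree 2p that is not doubly transitive. If a Sylow p-subgroup of G has normalizer of order 2p, then p = 5 and G is isomorphic to the alternating group of degree 5. -/
theorem result {α : Type*} [Fintype α] [DecidableEq α] {p : ℕ} [Fact p.Prime] (hp : 3 < p) (hα : Fintype.card α = 2 * p) (G : Subgroup (Equiv.Perm α)) (hprim : MulAction.IsPreprimitive G α) (hnot2 : ¬ MulAction.IsMultiplyPretransitive G α 2) (P : Sylow p G) (hN : Nat.card (Subgroup.normalizer ((P : Subgroup G) : Set G)) = 2 * p) : p = 5 ∧ Nonempty (G ≃* alternatingGroup (Fin 5)) := by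
  classical
  have hpp : p.Prime := Fact.out
  have hα' : Nat.card α = 2 * p := by rw [Nat.card_eq_fintype_card, hα]
  have : Nonempty α := (Nat.card_ne_zero.1 (by omega)).1
  have hnn : ¬ (P : Subgroup G).Normal := fun hn => by
    have h1 := Cfsg.dvd_card_of_normal_of_isPreprimitive (α := α) (P.ne_bot_of_dvd_card
      ((hN ▸ dvd_mul_left p 2).trans (Subgroup.card_subgroup_dvd_card _)))
    obtain ⟨k, hk⟩ := P.isPGroup'.exists_card_eq
    rw [hα', hk] at h1
    have := (Nat.prime_dvd_prime_iff_eq Nat.prime_two hpp).1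
      (Nat.prime_two.dvd_of_dvd_pow ((dvd_mul_right 2 p).trans h1))
    omega
  obtain ⟨h1, h2, χ, h3, h4, h5, h6⟩ :=
    Cfsg.exists_elemInvol_of_perm hp (Or.inr ⟨hα', hnot2⟩) P hN hnn
  obtain ⟨a⟩ : Nonempty α := inferInstance
  set H := MulAction.stabilizer G a with hH
  let _ := Fintype.ofFinite H
  have h7 := H.card_mul_index
  rw [MulAction.index_stabilizer_of_transitive, hα', h1, Nat.sub_add_cancel hpp.pos] at h7
  have h8 : 2 * Nat.card H = (p - 1) * (p - 1 - 1) :=
    Nat.eq_of_mul_eq_mul_left hpp.pos (by linarith)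
  have h9 : ∀ g : H, Cfsg.IsPRegular p (g : G) := fun g hd => by
    have := (hd.trans (H.orderOf_dvd_natCard g.2)).mul_left 2
    rw [h8, hpp.dvd_mul] at this
    rcases this with h | h <;> have := Nat.le_of_dvd (by omega) h <;> omega
  rw [Cfsg.permChar_eq_ind_stabilizer α a, Cfsg.ip_ind_left _ _ χ.isClassFunction, Cfsg.ip_def,
    inv_mul_eq_one₀ (Cfsg.natCard_cast_ne_zero _), Finset.sum_congr rfl (g := fun g : H =>
      1 + ((if g = 1 then (p - 1 - 1 : ℕ) else 0 : ℂ) - if orderOf g = 2 then 1 else 0)),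
    Finset.sum_add_distrib, Finset.sum_const, Finset.card_univ, ← Nat.card_eq_fintype_card,
    nsmul_one, left_eq_add, Finset.sum_sub_distrib, Finset.sum_ite_eq', if_pos (Finset.mem_univ _),
    Finset.sum_boole, sub_eq_zero, Nat.cast_inj, ← Fintype.card_subtype,
    ← Nat.card_eq_fintype_card] at h4
  · have h10 := h2.eq_four (hpp.even_sub_one (by omega)) H h8 (by omega)
    rw [h10] at h1 h2
    exact ⟨by omega, h2.nonempty_alternating h1⟩
  intro g _
  simp only [Function.comp_apply, Subgroup.subtype_apply, one_mul]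
  by_cases hg : g = 1
  · subst hg
    rw [OneMemClass.coe_one, χ.apply_one, h3, if_pos rfl, if_neg (by simp), map_natCast,
      Nat.cast_pred (n := p - 1) (by omega)]
    ring
  by_cases hg2 : orderOf g = 2
  · simp [hg, hg2, h6 g ((Subgroup.orderOf_coe g).trans hg2)]
  · rw [h5 g (h9 g) (h2.odd_orderOf (by rwa [Subgroup.orderOf_coe])) fun e => hg (Subtype.ext e)]
    simp [hg, hg2]

end Cfsg.Agent.S4707
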