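import Cfsg.Statements.S4708
import Cfsg.Agent.Blk.Principal
-- import your own Cfsg.Agent.* helpers here

set_option autoImplicit false
open Cfsg

namespace Cfsg.Agent.S4708

/-- Let p be a prime, M a maximal ideal of the algebraic integers containing p, G a finite group and H a normal subgroup. Write λ(X) for the sum of the squares of the degrees of the irreducible characters in the principal p-block of a group X. Then λ(H) ≤ λ(G) ≤ [G : H]·λ(H). -/
theorem result {G : Type*} [Group G] [Finite G] (p : ℕ) [Fact p.Prime] (M : Ideal Cfsg.AlgInt) (hM : Cfsg.IsPModular p M) (H : Subgroup G) [H.Normal] : (∑ᶠ θ ∈ Cfsg.principalBlock M H, Cfsg.charDegree (θ : H → ℂ) ^ 2) ≤ (∑ᶠ χ ∈ Cfsg.principalBlock M G, Cfsg.charDegree (χ : G → ℂ) ^ 2) ∧ (∑ᶠ χ ∈ Cfsg.principalBlock M G, Cfsg.charDegree (χ : G → ℂ) ^ 2) ≤ H.index * ∑ᶠ θ ∈ Cfsg.principalBlock M H, Cfsg.charDegree (θ : H → ℂ) ^ 2 := by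
  constructor
  · refine le_trans ?_ (finsum_charDegree_sq_irrUnder_le H.subtype _)
    exact finsum_mem_irr_mono (fun θ hθ => exists_principalBlock_liesOver hM H.subtype hθ) _
  · refine (finsum_mem_irr_mono (principalBlock_subset_irrOver hM H.subtype) _).trans ?_
    rw [finsum_charDegree_sq_irrOver (blockStab_principalBlock _), Subgroup.range_subtype]

end Cfsg.Agent.S4708
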