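import Cfsg.Statements.S4709
import Cfsg.Agent.Blk.FrobPrin
-- import your own Cfsg.Agent.* helpers here

set_option autoImplicit false
open Cfsg

namespace Cfsg.Agent.S4709

/-- Let p be a prime, M a maximal ideal of the algebraic integers containing p, and G a finite group with a nontrivial abelian Sylow p-subgroup P; put N = N_G(P), C = C_G(P). Suppose N/C is cyclic of order m with 1 < m < #P − 1 (C has index m in N and N is generated by C and one element), and C_G(y) ∩ N = C for every non-identity y ∈ P. Put r = (#P − 1)/m. Then there is s ≤ m such that the principal p-block is the disjoint union of a set X of s characters containing the principal character and a set Y of r characters, with integers a_χ ≠ 0 (χ ∈ X), d and a sign δ = ±1, such that: every χ ∈ X takes the value a_χ at every element whose p-part is a non-identity element of P; there is a map ζ from the non-principal linear characters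 ψ of P onto Y, constant on N-conjugacy classes, with ζ_ψ(z) = d + δ·Σ ψ'(y) for every z whose p-part y is a non-identity element of P, the sum running over the N-conjugates ψ' of ψ; (d − δ)^2 + (r − 1) d^2 + Σ_{χ ∈ X} a_χ^2 = m + 1; all members of Y agree on p-regular elements; and (r d − δ) η(g) + Σ_{χ ∈ X} a_χ χ(g) = 0 for every η ∈ Y and every p-regular g. -/
theorem result {G : Type*} [Group G] [Finite G] (p : ℕ) [Fact p.Prime] (M : Ideal Cfsg.AlgInt) (hM : Cfsg.IsPModular p M) (P : Sylow p G) (hab : IsMulCommutative P) (hP1 : Nat.card P ≠ 1) (m : ℕ) (hm1 : 1 < m) (hm2 : m + 1 < Nat.card P) (hCN : (Subgroup.centralizer ((P : Subgroup G) : Set G)).relIndex (Subgroup.normalizer ((P : Subgroup G) : Set G)) = m) (hcyc : ∃ g : G, g ∈ Subgroup.normalizer ((P : Subgroup G) : Set G) ∧ Subgroup.centralizer ((P : Subgroup G) : Set G) ⊔ Subgroup.zpowers g = Subgroup.normalizer ((P : Subgroup G) : Set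 G)) (hfrob : ∀ y : G, y ∈ (P : Subgroup G) → y ≠ 1 → Subgroup.centralizer ({y} : Set G) ⊓ Subgroup.normalizer ((P : Subgroup G) : Set G) = Subgroup.centralizer ((P : Subgroup G) : Set G)) : ∃ (s : ℕ) (X Y : Set (Cfsg.IrrCharacter G)), s ≤ m ∧ Cfsg.principalBlock M G = X ∪ Y ∧ Disjoint X Y ∧ Nat.card X = s ∧ Nat.card Y = (Nat.card P - 1) / m ∧ (∃ χ₁ ∈ X, (χ₁ : G → ℂ) = fun _ => 1) ∧ ∃ (a : Cfsg.IrrCharacter G → ℤ) (d δ : ℤ) (ζ : (↥(P : Subgroup G) →* ℂˣ) → Cfsg.IrrCharacter G), (δ = 1 ∨ δ = -1) ∧ (∀ χ ∈ X, a χ ≠ 0 ∧ ∀ z y : G, Cfsg.IsPPart p z y → y ∈ (P : Subgroup G) → y ≠ 1 → (χ : G → ℂ) z = (a χ : ℂ)) ∧ (∀ ψ : ↥(P : Subgroup G) →* ℂˣ, ψ ≠ 1 → ζ ψ ∈ Y) ∧ (∀ η ∈ Y, ∃ ψ : ↥(P : Subgroup G) →* ℂˣ, ψ ≠ 1 ∧ ζ ψ = η) ∧ (∀ ψ ψ' : ↥(P : Subgroup G) →* ℂˣ, ψ ≠ 1 → (∃ n : G, n ∈ Subgroup.normalizer ((P : Subgroup G) : Set G) ∧ ∀ w w' : ↥(P : Subgroup G), (w' : G) = n * w * n⁻¹ → ψ' w' = ψ w) → ζ ψ' =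 ζ ψ) ∧ (∀ ψ : ↥(P : Subgroup G) →* ℂˣ, ψ ≠ 1 → ∀ (z : G) (y : ↥(P : Subgroup G)), Cfsg.IsPPart p z (y : G) → (y : G) ≠ 1 → (ζ ψ : G → ℂ) z = (d : ℂ) + (δ : ℂ) * ∑ᶠ ψ' ∈ {ψ' : ↥(P : Subgroup G) →* ℂˣ | ∃ n : G, n ∈ Subgroup.normalizer ((P : Subgroup G) : Set G) ∧ ∀ w w' : ↥(P : Subgroup G), (w' : G) = n * w * n⁻¹ → ψ' w' = ψ w}, ((ψ' y : ℂˣ) : ℂ)) ∧ ((d - δ) ^ 2 + ((Nat.card P - 1) / m - 1 : ℤ) * d ^ 2 + ∑ᶠ χ ∈ X, a χ ^ 2 = (m : ℤ) + 1) ∧ (∀ η ∈ Y, ∀ η' ∈ Y, ∀ g : G, ¬ p ∣ orderOf g → (η : G → ℂ) g = (η' : G → ℂ) g) ∧ (∀ η ∈ Y, ∀ g : G, ¬ p ∣ orderOf g → ((((Nat.card P - 1) / m : ℕ) : ℂ) * d - δ) * (η : G → ℂ) g + ∑ᶠ χ ∈ X, (a χ : ℂ) * (χ : G → ℂ) g = 0) := by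
  classical
  letI := Fintype.ofFinite (P : Subgroup G)
  have hab' : (P : Subgroup G) ≤ Subgroup.centralizer ((P : Subgroup G) : Set G) :=
    Subgroup.le_centralizer _
  have hP : (P : Subgroup G) ≠ ⊥ := fun e => hP1 (by rw [e]; simp)
  have hfree : ∀ y ∈ (P : Subgroup G), y ≠ 1 → Subgroup.centralizer ({y} : Set G) ⊓
      Subgroup.normalizer ((P : Subgroup G) : Set G) ≤
      Subgroup.centralizer ((P : Subgroup G) : Set G) := fun y hy h1 => (hfrob y hy h1).le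
  have h := Cfsg.excSys_principal hM hab' hP hfree
  have hE := (Cfsg.card_autOf_subtype (P := (P : Subgroup G)) le_rfl).trans hCN
  obtain ⟨X, Y, δ, d, ζ, a, o⟩ := h.exists_out
  have hY := o.cardY_eq
  rw [hE] at hY
  have hone := hM.one_mem_principalBlock (G := G)
  refine ⟨_, X, Y, hE ▸ o.cardX_le, o.union, o.disj, rfl, hY, ⟨Cfsg.IrrCharacter.one G,
    o.const (by rwa [hE]) _ hone 1 fun u hu => ?_, rfl⟩, a, d, δ, ζ, o.sign, fun χ hχ =>
    ⟨o.a_ne χ hχ, fun z y hz hy hy1 => ?_⟩, o.mem, o.surj, fun ψ ψ' hψ hn => ?_,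
    fun ψ hψ z y hz hy => ?_, ?_, o.reg_eq, ?_⟩
  · rw [Cfsg.excDec_principal hM hab' hfree hone hu]; rfl
  · have hu : (⟨y, hy⟩ : (P : Subgroup G)) ≠ 1 := fun e => hy1 (congrArg Subtype.val e)
    rw [Cfsg.apply_eq_excDec_principal hM hab' hfree (o.X_subset hχ) hu
      (Cfsg.mem_pSection_of_isPPart hz), o.nonexc χ hχ _ hu]
  · have := (Cfsg.orb_autOf_iff (P : Subgroup G).subtype_injective
      (by rw [Subgroup.range_subtype])).2 hn
    exact ((o.eq_iff _ _ hψ (this.ne_one hψ)).2 this).symm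
  · have hu : y ≠ 1 := fun e => hy (congrArg Subtype.val e)
    rw [Cfsg.apply_eq_excDec_principal hM hab' hfree (o.Y_subset (o.mem ψ hψ)) hu
      (Cfsg.mem_pSection_of_isPPart hz), o.exc ψ hψ _ hu, Cfsg.osum_autOf_subtype le_rfl]
  · have h1 := o.norm
    have h2 := o.cardY
    rw [hE] at h1 h2
    have h3 : ((Nat.card P : ℤ) - 1) / m = Nat.card Y := by
      rw [← h2]
      push_cast
      rw [add_sub_cancel_right, Int.mul_ediv_cancel_left _ (by omega)]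
    rw [h3, h1]
  · rw [← hY]; exact o.reg_rel

end Cfsg.Agent.S4709
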