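import Cfsg.Agent.Mod.StarD
import Cfsg.Agent.Blk.SecOrth
import Cfsg.Agent.Char.Galois
-- Template for statement S4712 (row 4712; see /opt/grader/pristine/manifest.json for weights).
-- Copy to Cfsg/Agent/S4712.lean and replace the sorry. The statement below is byte-identical to the frozen
-- statement Cfsg.CfsgFrozen.S4712 (Cfsg/Statements/S4712.lean; the theorem Cfsg.blk7_p_rational_characters_ge_block_rank);
-- the grader kernel-checks Cfsg.Agent.S4712.result against that frozen type. Keep the theorem IN THIS FILE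
-- (a `result` declared elsewhere and merely imported here is not credited); helpers may live anywhere
-- under Cfsg/Agent/.
import Cfsg.Statements.S4712
-- import your own Cfsg.Agent.* helpers here

set_option autoImplicit false
open Cfsg

namespace Cfsg.Agent.S4712

open scoped ComplexConjugate

theorem exists_gen {p : ℕ} (hp : p.Prime) (hodd : p ≠ 2) {n : ℕ} (hn : n ≠ 0) :
    ∃ l : ℕ, l.Coprime n ∧ l ≡ 1 [MOD ordCompl[p] n] ∧
      ∀ k : ℕ, k.Coprime n → k ≡ 1 [MOD ordCompl[p] n] → ∃ j, k ≡ l ^ j [MOD n] := by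
  haveI := ZMod.isCyclic_units_of_prime_pow p hp hodd (n.factorization p)
  haveI : NeZero (p ^ n.factorization p) := ⟨pow_ne_zero _ hp.ne_zero⟩
  obtain ⟨g, hg⟩ := IsCyclic.exists_monoid_generator (α := (ZMod (p ^ n.factorization p))ˣ)
  have hc := (Nat.coprime_ordCompl hp hn).symm.pow_right (n.factorization p)
  obtain ⟨l, h1, h2, h3⟩ := exists_coprime_modEq_modEq_one (Nat.ordCompl_pos p hn).ne'
    (NeZero.ne _) (ZMod.val_coe_unit_coprime g) (by rw [hc]; exact Nat.modEq_one)
  have h4 := Nat.ordProj_mul_ordCompl_eq_self n p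
  rw [mul_comm] at h4
  refine ⟨l, h4 ▸ h1, h2, fun k hk hk1 => ?_⟩
  obtain ⟨j, hj⟩ := hg (ZMod.unitOfCoprime k (hk.coprime_dvd_right (Nat.ordProj_dvd n p)))
  refine ⟨j, h4 ▸ (Nat.modEq_and_modEq_iff_modEq_mul hc).1 ⟨hk1.trans ?_, ?_⟩⟩
  · simpa using (h2.pow j).symm
  · refine .trans ?_ (h3.pow j).symm
    rw [← ZMod.natCast_eq_natCast_iff, Nat.cast_pow, ZMod.natCast_zmod_val,
      ← Units.val_pow_eq_pow_val, show g ^ j = _ from hj, ZMod.coe_unitOfCoprime]

theorem exists_nat {G H : Type*} [Group G] [Finite G] [Group H] [Finite H] {p : ℕ} [Fact p.Prime]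
    {M : Ideal AlgInt} (hM : IsPModular p M) {B : Set (IrrCharacter G)} (hB : IsPBlock M B)
    {f : H →* G} {x : G} (h : IsSec p f x) (α : H ≃* H) : ∃ n : ℕ,
      ∑ᶠ χ ∈ B, ip (pRegularPart p (secFun f x χ.1 ∘ α)) (secFun f x χ.1) = n := by
  classical
  letI := Fintype.ofFinite H
  refine ⟨∑ b : Blocks H M with Induces M f b.1 B, ∑ φ : IBr p M H with φ ∈ ibrOf p M b.1,
    if IBr.comapEquiv α φ = φ then 1 else 0, ?_⟩
  push_cast
  simp only [← ip_Phi_ibr hM, Phi_comapEquiv hM, ip_def, finsum_mem_irr_eq_sum, ← Finset.mul_sum]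
  congr 1
  rw [Finset.sum_comm, Finset.sum_congr rfl fun _ _ => Finset.sum_comm, Finset.sum_comm (β := ℂ)
    (s := Finset.univ.filter fun b : Blocks H M => Induces M f b.1 B)]
  refine Finset.sum_congr rfl fun y _ => ?_
  by_cases hy : IsPRegular p y
  · have := h.finsum_mul_conj_section hM hB (c := α y)
      (by rwa [IsPRegular, MulEquiv.orderOf_eq]) hy
    rw [finsum_mem_irr_eq_sum] at this
    simp only [pRegularPart_of_reg hy, Function.comp_apply, secFun_apply]
    refine this.trans (Finset.sum_congr rfl fun b _ => ?_)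
    rw [b.2.sum_mul_conj_eq_sum_Phi hM _ hy, finsum_mem_ibr_eq_sum]
  · simp [pRegularPart, hy, fun φ : IBr p M H => show φ.1 y = 0 from φ.apply_of_not_reg hy]

/-- Let p be an odd prime, M a maximal ideal of the algebraic integers containing p, G a finite group of order n with p-part p^a, and B a p-block of G. Call an irreducible character χ p-rational when χ(g^k) = χ(g) for every g and every k coprime to n with k ≡ 1 modulo n/p^a (χ is fixed by the Galois automorphisms fixing the roots of unity of order prime to p). Then the number of p-rational irreducible characters in B is at least the p-regular rank of B (the number of irreducible Brauer characters in B). -/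
theorem result {G : Type*} [Group G] [Finite G] (p : ℕ) [Fact p.Prime] (hodd : p ≠ 2) (M : Ideal Cfsg.AlgInt) (hM : Cfsg.IsPModular p M) (B : Set (Cfsg.IrrCharacter G)) (hB : Cfsg.IsPBlock M B) : Cfsg.blockRank p B ≤ Nat.card {χ : Cfsg.IrrCharacter G // χ ∈ B ∧ ∀ k : ℕ, Nat.Coprime k (Nat.card G) → k ≡ 1 [MOD Nat.card G / p ^ (Nat.card G).factorization p] → ∀ g : G, (χ : G → ℂ) (g ^ k) = (χ : G → ℂ) g} := by
  classical
  have hp : p.Prime := Fact.out
  obtain ⟨l, h1, h2, h3⟩ := exists_gen hp hodd (Nat.card_pos (α := G)).ne'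
  have hreg : ∀ y : G, IsPRegular p y → y ^ l = y := fun y hy => by
    have h4 : orderOf y ∣ ordCompl[p] (Nat.card G) := (Nat.Coprime.pow_right _
      ((hp.coprime_iff_not_dvd.2 hy).symm)).dvd_of_dvd_mul_left
      (by rw [Nat.ordProj_mul_ordCompl_eq_self]; exact orderOf_dvd_natCard y)
    rw [pow_eq_pow_iff_modEq.2 (h2.of_dvd h4), pow_one]
  obtain ⟨X, hX, hX'⟩ := exists_pElt_reps p G
  obtain ⟨x₀, ⟨h4, h5⟩, -⟩ := hX' 1 ⟨0, by simp⟩
  obtain rfl := isConj_one_right.1 h5
  have key : ∀ x ∈ X, ∃ n : ℕ,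
      ∑ᶠ χ ∈ B, ip ((pSection p x).indicator (χ.galPow l h1).1) χ.1 = n := fun x hx => by
    have h := isSec_centralizer (hX x hx)
    have h6 : ∀ y : Subgroup.centralizer {x}, IsPRegular p y →
        ∀ χ : IrrCharacter G, secFun (Subgroup.subtype _) x (χ.galPow l h1).1 y =
          χ (x ^ l * y) := fun y hy χ => by
      change χ ((x * y) ^ l) = _
      rw [(show Commute x y from h.commute y).mul_pow, hreg y (h.isPRegular_map.2 hy)]
    simp only [h.ip_indicator_pSection (IrrCharacter.isClassFunction _)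
      (IrrCharacter.isClassFunction _)]
    have hl : ¬ p ∣ l ∨ x = 1 := by
      refine or_iff_not_imp_right.2 fun h7 h8 => ?_
      obtain ⟨_ | k, hk⟩ := hX x hx
      · exact h7 (orderOf_eq_one_iff.1 hk)
      · exact hp.one_lt.ne' (Nat.eq_one_of_dvd_coprimes h1 h8
          ((dvd_pow_self p k.succ_ne_zero).trans (hk ▸ orderOf_dvd_natCard x)))
    have h' : IsSec p (Subgroup.centralizer {x}).subtype (x ^ l) := by
      rcases hl with hl | rfl
      exacts [h.pow hl, by rwa [one_pow]]
    by_cases hc : IsConj (x ^ l) x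
    · obtain ⟨t, ht⟩ := isConj_iff.1 hc
      have h7 := h'.conj t
      rw [ht] at h7
      obtain ⟨α, hα⟩ := exists_equiv_comp_eq h.inj h7.inj (h7.range_eq.trans h.range_eq.symm)
      obtain ⟨n, hn⟩ := exists_nat hM hB h α
      refine ⟨n, (finsum_mem_congr rfl fun χ _ => ?_).trans hn⟩
      congr 1
      refine pRegularPart_eq_iff.2 fun y hy => (h6 y hy χ).trans ?_
      rw [Function.comp_apply, secFun_apply, show (Subgroup.subtype _) (α y) = t * y * t⁻¹ from
        DFunLike.congr_fun hα y, ← χ.isClassFunction (x ^ l * y) t]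
      exact congrArg χ.1 ((by group : _ = t * x ^ l * t⁻¹ * (t * y * t⁻¹)).trans (by rw [ht]))
    · letI := Fintype.ofFinite (Subgroup.centralizer ({x} : Set G))
      refine ⟨0, ?_⟩
      simp only [ip_def, finsum_mem_irr_eq_sum, ← Finset.mul_sum]
      rw [Finset.sum_comm, Finset.sum_eq_zero fun y _ => ?_, mul_zero, Nat.cast_zero]
      by_cases hy : IsPRegular p y
      · have := hB.finsum_mul_conj_eq_zero' hM (g := x ^ l * y) (h := x * y) (by
          rwa [show pPart p (x ^ l * y) = _ from h'.pPart_eq hy,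
            show pPart p (x * y) = _ from h.pPart_eq hy])
        rw [finsum_mem_irr_eq_sum] at this
        simp only [pRegularPart_of_reg hy, h6 y hy]
        exact this
      · simp [pRegularPart, hy]
  choose! n hn using key
  have h6 : n 1 = blockRank p B := by
    apply Nat.cast_injective (R := ℂ)
    rw [← hn 1 h4, hB.blockRank_eq_finsum hM]
    refine finsum_mem_congr rfl fun χ _ => ?_
    rw [isSec_id_one.ip_indicator_pSection (IrrCharacter.isClassFunction _) χ.isClassFunction,
      secFun_one, secFun_one]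
    congr 1
    exact pRegularPart_eq_iff.2 fun y hy => congrArg χ.1 (hreg y hy)
  have h7 : ∑ x ∈ X, n x =
      (Finset.univ.filter fun χ : IrrCharacter G => χ ∈ B ∧ χ.galPow l h1 = χ).card := by
    apply Nat.cast_injective (R := ℂ)
    rw [Nat.cast_sum, ← Finset.sum_congr rfl hn, ← Finset.filter_filter, ← Finset.sum_boole]
    simp only [finsum_mem_irr_eq_sum]
    rw [Finset.sum_comm]
    refine Finset.sum_congr rfl fun χ _ => ?_
    rw [← ip_sum_left, sum_indicator_pSection hX']
    split_ifs with h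
    exacts [by rw [h, χ.ip_self], IrrCharacter.ip_of_ne h]
  rw [← h6]
  refine (Finset.single_le_sum (fun _ _ => Nat.zero_le _) h4).trans (h7.trans_le ?_)
  rw [← Nat.card_eq_finsetCard]
  refine Nat.card_le_card_of_injective (fun χ => ⟨χ.1, (Finset.mem_filter.1 χ.2).2.1,
    fun k hk hk1 g => ?_⟩) fun a b h => Subtype.ext (congrArg Subtype.val h :)
  obtain ⟨j, hj⟩ := h3 k hk hk1
  rw [pow_eq_pow_iff_modEq.2 (hj.of_dvd (orderOf_dvd_natCard g))]
  clear hj
  induction j with
  | zero => simp
  | succ j ih =>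
    rw [pow_succ, pow_mul, ← ih]
    exact congrFun (congrArg Subtype.val (Finset.mem_filter.1 χ.2).2.2) _

end Cfsg.Agent.S4712
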