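import Cfsg.Statements.S4714
import Cfsg.Agent.Blk.Central

set_option autoImplicit false
open Cfsg

namespace Cfsg.Agent.S4714

/-- Let p be a prime, M a maximal ideal of the algebraic integers containing p, D a p-subgroup of the finite group G with G = D·C_G(D), and B a p-block with defect group D. Let χ be a member of B having D in its kernel (there is exactly one, the canonical character of B). Then the irreducible characters in B are exactly the functions θ on G for which there is an irreducible character ζ of D such that θ(yx) = ζ(y)χ(x) whenever y ∈ D, x has order prime to p and x commutes with y, and θ(z) = 0 whenever the p-part of z does not lie in D. -/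
theorem result {G : Type*} [Group G] [Finite G] (p : ℕ) [Fact p.Prime] (M : Ideal Cfsg.AlgInt) (hM : Cfsg.IsPModular p M) (D : Subgroup G) (hD : IsPGroup p D) (hG : D ⊔ Subgroup.centralizer (D : Set G) = ⊤) (B : Set (Cfsg.IrrCharacter G)) (hB : Cfsg.IsPBlock M B) (hBD : Cfsg.IsDefectGroup p M B D) (χ : Cfsg.IrrCharacter G) (hχ : χ ∈ B) (hχD : ∀ y ∈ D, (χ : G → ℂ) y = (χ : G → ℂ) 1) : (∀ θ : Cfsg.IrrCharacter G, θ ∈ B ↔ ∃ ζ : Cfsg.IrrCharacter D, (∀ (y : D) (x : G), ¬ p ∣ orderOf x → Commute (y : G) x → (θ : G → ℂ) ((y : G) * x) = (ζ : D → ℂ) y * (χ : G → ℂ) x) ∧ (∀ z : G, (∀ y : G, Cfsg.IsPPart p z y → y ∉ D) → (θ : G → ℂ) z = 0)) ∧ ∀ ζ : Cfsg.IrrCharacter D, ∃ θ ∈ B, (∀ (y : D) (x : G), ¬ p ∣ orderOf x → Commute (y : G) x → (θ : G → ℂ) ((y : G) * x) = (ζ : D → ℂ) y * (χ : G → ℂ) x) ∧ (∀ z : G, (∀ y : G, Cfsg.IsPPart p z y → y ∉ D) → (θ : G → ℂ) z = 0) := by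
  have h0 := hBD.blockHeight_eq_zero_of_ker hM hB hG hχ hχD
  have key : ∀ (θ : IrrCharacter G) (ζ : IrrCharacter D), IsCentralForm p D θ.1 ζ.1 χ.1 ↔
      (∀ (y : D) (x : G), ¬ p ∣ orderOf x → Commute (y : G) x →
        (θ : G → ℂ) ((y : G) * x) = (ζ : D → ℂ) y * (χ : G → ℂ) x) ∧
      (∀ z : G, (∀ y : G, IsPPart p z y → y ∉ D) → (θ : G → ℂ) z = 0) := fun θ ζ =>
    ⟨fun h => ⟨fun y x hx _ => h.mul y x hx, fun z hz => h.zero z (hz _ (isPPart_pPart z))⟩,
      fun h => ⟨fun y x hx => h.1 y x hx (mem_centralizer_of_isPRegular hD hG hx y y.2),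
        fun z hz => h.2 z fun y hy => isPPart_iff.1 hy ▸ hz⟩⟩
  simp only [← key]
  refine ⟨fun θ => ⟨hBD.exists_isCentralForm hM hB hG hχ h0, fun ⟨ζ, h⟩ => ?_⟩,
    hBD.exists_mem_isCentralForm hM hB hG hχ h0⟩
  obtain ⟨θ', hθ', h'⟩ := hBD.exists_mem_isCentralForm hM hB hG hχ h0 ζ
  rwa [show θ = θ' from Subtype.ext (h.ext h')]

end Cfsg.Agent.S4714
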