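import Cfsg.Statements.S4715
import Cfsg.Agent.Blk.CenterHt
import Cfsg.Agent.Blk.Pairs

set_option autoImplicit false
open Cfsg

namespace Cfsg.Agent.S4715

/-- Let p be a prime, M a maximal ideal of the algebraic integers containing p, B a p-block of the finite group G with defect group D of order p^d, H = D·C_G(D), b a block of H inducing B, T the stabilizer of b in N_G(D) and e = [T : H] the inertial index of B; let n be the integer with p^n ≤ e < p^(n+1) and p^c the order of the centre of D. Then every irreducible character in B has height h with h + c ≤ n + d. -/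
theorem result {G : Type*} [Group G] [Finite G] (p : ℕ) [Fact p.Prime] (M : Ideal Cfsg.AlgInt) (hM : Cfsg.IsPModular p M) (B : Set (Cfsg.IrrCharacter G)) (hB : Cfsg.IsPBlock M B) (D : Subgroup G) (hBD : Cfsg.IsDefectGroup p M B D) (d : ℕ) (hDd : Nat.card D = p ^ d) (H : Subgroup G) (hH : H = D ⊔ Subgroup.centralizer (D : Set G)) (b : Set (Cfsg.IrrCharacter H)) (hind : Cfsg.IsInducedBlock M H b B) (T : Subgroup G) (hT : ∀ g : G, g ∈ T ↔ (g ∈ Subgroup.normalizer (D : Set G) ∧ ∀ θ ∈ b, ∀ θ' : Cfsg.IrrCharacter H, (∀ h h' : H, (h' : G) = g * h * g⁻¹ → (θ' : H → ℂ) h' = (θ : H → ℂ) h) → θ' ∈ b)) (e : ℕ) (he : H.relIndex T = e) (n : ℕ) (hn : p ^ n ≤ e ∧ e < p ^ (n + 1)) (c : ℕ) (hc : Nat.card (Subgroup.center D) = p ^ c) : ∀ χ ∈ B, Cfsg.blockHeight p B (χ : G → ℂ) + c ≤ n + d := by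
  haveI := hM.charP
  have hp : p.Prime := Fact.out
  intro χ hχ
  subst hH
  have hi := (Cfsg.isInducedBlock_iff hM).1 hind
  have he0 := hi.left.isBlockIdem_subIdem hM
  have hN : D ⊔ Subgroup.centralizer (D : Set G) ≤ Subgroup.normalizer (D : Set G) :=
    sup_le Subgroup.le_normalizer (GA.centralizer_le_normalizer' D)
  have h1 := GA.Br_eq_self_of_normal hBD.isPGroup le_sup_left hN le_rfl he0.mem he0.idem
  have hP : GA.IsMaxPair p (blockIdem M B) D (subIdem M _ b) :=
    ⟨⟨hB.isBlockIdem hM, he0.isBPair_of_sup hBD.isPGroup, by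
      have := (induces_subtype_iff_Br hM hBD.isPGroup le_sup_left le_sup_right hi.left
        (by rw [h1]; exact he0.ne_zero) hB).1 hi
      rwa [h1] at this⟩, (hB.isDefectGroup_iff hM D).1 hBD⟩
  have hT' : T = Subgroup.normalizer (D : Set G) ⊓ GA.cjStab (subIdem M _ b) := by
    ext g
    rw [hT, Subgroup.mem_inf]
    refine and_congr_right fun hg => ?_
    have hg' : g ∈ Subgroup.normalizer
        ((D ⊔ Subgroup.centralizer (D : Set G) : Subgroup G) : Set G) :=
      GA.cjS_eq_self_iff.1 (by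
        rw [GA.cjS_sup, GA.cjS_eq_self_iff.2 hg, GA.cjS_eq_self_iff.2
          (GA.normalizer_le_normalizer_centralizer' _ hg)])
    have := (hi.left.stabilizesBlock_iff hM (x := g)).symm.trans stabilizesBlock_iff_conjSet
    simp only [hg', true_and] at this
    refine Iff.trans ?_ this.symm
    refine ⟨fun h => ?_, fun h θ hθ θ' h' => h ⟨θ, hθ, h'⟩⟩
    rintro θ' ⟨θ, hθ, h'⟩
    exact h θ hθ θ' h'
  have h2 := hM.card_center_mul_pow_le hB hP hχ
  rw [← hT', he, hc, ← IsDefectGroup.card_eq hB hM hBD, hDd, ← pow_add] at h2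
  have h3 : p ^ (c + blockHeight p B χ.1) < p ^ (d + (n + 1)) := by
    rw [pow_add p d]
    exact h2.trans_lt (Nat.mul_lt_mul_of_pos_left hn.2 (pow_pos hp.pos d))
  have := (Nat.pow_lt_pow_iff_right hp.one_lt).1 h3
  change blockHeight p B χ.1 + c ≤ n + d
  omega

end Cfsg.Agent.S4715
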