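import Cfsg.Statements.S4717
import Cfsg.Agent.Blk.Local

set_option autoImplicit false
open Cfsg

namespace Cfsg.Agent.S4717

/-- Let p be a prime, M a maximal ideal of the algebraic integers containing p, and r a natural number; say that a finite group X has deficiency class r when X has no non-principal p-block of defect ≥ r. If G has deficiency class r then so does the centralizer of every p-element of G; conversely, if r > 0 and the centralizer of every element of order p has deficiency class r, then G has deficiency class r. -/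
theorem result {G : Type*} [Group G] [Finite G] (p : ℕ) [Fact p.Prime] (M : Ideal Cfsg.AlgInt) (hM : Cfsg.IsPModular p M) (r : ℕ) : ((∀ B' : Set (Cfsg.IrrCharacter G), Cfsg.IsPBlock M B' → B' ≠ Cfsg.principalBlock M G → Cfsg.blockDefect p B' < r) → ∀ y : G, (∃ k : ℕ, orderOf y = p ^ k) → (∀ B' : Set (Cfsg.IrrCharacter ↥(Subgroup.centralizer ({y} : Set G))), Cfsg.IsPBlock M B' → B' ≠ Cfsg.principalBlock M ↥(Subgroup.centralizer ({y} : Set G)) → Cfsg.blockDefect p B' < r)) ∧ (0 < r → (∀ y : G, orderOf y = p → (∀ B' : Set (Cfsg.IrrCharacter ↥(Subgroup.centralizer ({y} : Set G))), Cfsg.IsPBlock M B' → B' ≠ Cfsg.principalBlock M ↥(Subgroup.centralizer ({y} : Set G)) → Cfsg.blockDefect p B' < r)) → (∀ B' : Set (Cfsg.IrrCharacter G), Cfsg.IsPBlock M B' → B' ≠ Cfsg.principalBlock M G → Cfsg.blockDefect p B' < r)) := by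
  refine ⟨fun h y hy b hb hne => ?_, fun hr h B hB hne => ?_⟩
  · obtain ⟨B, hind⟩ := exists_induces_centralizer hM hy hb
    exact (hind.blockDefect_le hM (Subgroup.subtype_injective _)).trans_lt (h B hind.right
      fun hB => hne ((hind.eq_principal_iff hM (Subgroup.subtype_injective _)).1 hB))
  · by_contra hlt
    obtain ⟨D, hD⟩ := hB.exists_isDefectGroup hM
    have hcard := hD.card_eq hB hM
    have hnt : Nontrivial D := by
      rw [← Finite.one_lt_card_iff_nontrivial, hcard]
      exact Nat.one_lt_pow (by omega) hM.prime.one_lt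
    have := hD.isPGroup.center_nontrivial
    obtain ⟨k, hk0, hk⟩ := (hD.isPGroup.to_subgroup (Subgroup.center D)).nontrivial_iff_card.1 this
    obtain ⟨z, hz⟩ := exists_prime_orderOf_dvd_card' (G := Subgroup.center D) p
      (hk ▸ dvd_pow_self p hk0.ne')
    obtain ⟨c, hc, -, hd⟩ := hD.exists_induces_centralizer hM hB (u := ((z : D) : G)) z.1.2
      fun x hx => Subgroup.mem_centralizer_singleton_iff.2
        (congrArg Subtype.val (Subgroup.mem_center_iff.1 z.2 ⟨x, hx⟩))
    have := h ((z : D) : G) (by rw [Subgroup.orderOf_coe, Subgroup.orderOf_coe, hz]) c hc.left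
      fun hc' => hne ((hc.eq_principal_iff hM (Subgroup.subtype_injective _)).2 hc')
    omega

end Cfsg.Agent.S4717
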