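import Cfsg.Statements.S4718
import Cfsg.Agent.Grp.Bounded
import Cfsg.Agent.S4494

set_option autoImplicit false
universe u
open Cfsg

namespace Cfsg.Agent.S4718

/-- Let p be a prime and a a natural number. There is a bound N such that every finite group whose Sylow p-subgroups have order p^a and whose only p-block (relative to a maximal ideal of the algebraic integers containing p) is the principal block has order at most N. -/
theorem result (p : ℕ) [Fact p.Prime] (a : ℕ) : ∃ N : ℕ, ∀ (G : Type u) [Group G] [Finite G] (M : Ideal Cfsg.AlgInt), Cfsg.IsPModular p M → (Nat.card G).factorization p = a → (∀ B : Set (Cfsg.IrrCharacter G), Cfsg.IsPBlock M B → B = Cfsg.principalBlock M G) → Nat.card G ≤ N := by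
  obtain ⟨N, hN⟩ := exists_card_le_of_card_conjClasses_le.{u} (p ^ (2 * a) + 4)
  refine ⟨N, fun G _ _ M hM ha h => hN G ?_⟩
  have h1 := Agent.S4494.result p M hM (principalBlock M G) isPBlock_principalBlock
  rw [hM.blockDefect_principalBlock, ha, show principalBlock M G = Set.univ from
    Set.eq_univ_of_forall fun χ => h _ (isPBlock_blockOf χ) ▸ hM.mem_blockOf_self χ,
    Nat.card_univ, card_irr_eq_card_conjClasses] at h1
  omega

end Cfsg.Agent.S4718
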