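import Cfsg.Statements.S4719
import Cfsg.Agent.S4718
import Cfsg.Agent.Blk.Pairs
import Cfsg.Agent.GA.Fusion

set_option autoImplicit false
universe u
open Cfsg

namespace Cfsg.Agent.S4719

/-- For every natural number a there is a bound N with the following property. Let G be a finite group with Sylow 2-subgroups of order 2^a and r ≥ 0 such that G has no non-principal 2-block (relative to a maximal ideal of the algebraic integers containing 2) of defect ≥ r, and suppose a Sylow 2-subgroup of G contains an elementary abelian subgroup of order 2^(r+1). Then the order of G is at most N. -/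
theorem result (a : ℕ) : ∃ N : ℕ, ∀ (G : Type u) [Group G] [Finite G] (M : Ideal Cfsg.AlgInt) (r : ℕ) (P : Sylow 2 G), Cfsg.IsPModular 2 M → Nat.card P = 2 ^ a → (∀ B : Set (Cfsg.IrrCharacter G), Cfsg.IsPBlock M B → B ≠ Cfsg.principalBlock M G → Cfsg.blockDefect 2 B < r) → (∃ E : Subgroup G, E ≤ (P : Subgroup G) ∧ IsMulCommutative E ∧ (∀ x ∈ E, x * x = 1) ∧ Nat.card E = 2 ^ (r + 1)) → Nat.card G ≤ N := by
  have key : ∀ j : ℕ, ∃ N : ℕ, ∀ (G : Type u) [Group G] [Finite G] (M : Ideal AlgInt) (r : ℕ),
      IsPModular 2 M → (Nat.card G).factorization 2 ≤ a →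
      (∀ B : Set (IrrCharacter G), IsPBlock M B → B ≠ principalBlock M G → blockDefect 2 B < r) →
      ∀ E : Subgroup G, IsMulCommutative E → (∀ x ∈ E, x * x = 1) → Nat.card E = 2 ^ (r + 1) →
      ∀ Q ≤ E, 2 ^ r ≤ Nat.card Q * 2 ^ j →
        Nat.card (Subgroup.centralizer (Q : Set G)) ≤ N := by
    have hfac : ∀ (G : Type u) [Group G] [Finite G] (H : Subgroup G),
        (Nat.card H).factorization 2 ≤ (Nat.card G).factorization 2 := fun G _ _ H =>
      (Nat.factorization_le_iff_dvd Nat.card_pos.ne' Nat.card_pos.ne').2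
        (Subgroup.card_subgroup_dvd_card H) 2
    intro j
    induction j with
    | zero =>
      choose F hF using Agent.S4718.result.{u} 2
      refine ⟨(Finset.range (a + 1)).sup F, fun G _ _ M r hM ha hB E _ _ hE Q hQ hr => ?_⟩
      haveI := hM.charP
      refine (hF _ _ M hM rfl fun b hb => ?_).trans
        (Finset.le_sup (Finset.mem_range.2 (Nat.lt_succ_of_le ((hfac G _).trans ha))))
      have hQp : IsPGroup 2 Q := (IsPGroup.of_card hE).to_le hQ
      obtain ⟨c, hc⟩ := (hb.isBPair hM hQp).exists_isPairOf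
      obtain ⟨B, hB', rfl⟩ := hM.exists_block_of_isBlockIdem hc.block
      obtain ⟨D, hD⟩ := hB'.exists_isDefectGroup hM
      have h1 := ((hB'.isDefectGroup_iff hM D).1 hD).card_le le_top hQp hc.Br_ne_zero
      rw [hD.card_eq hB' hM] at h1
      rw [pow_zero, mul_one] at hr
      have h2 := (Nat.pow_le_pow_iff_right one_lt_two).1 (hr.trans h1)
      have h3 : B = principalBlock M G := by
        by_contra h
        exact absurd (hB B hB' h) (not_lt.2 h2)
      rw [← hb.aug_subIdem_eq_one_iff hM, hc.aug_eq_one_iff, hB'.aug_blockIdem_eq_one_iff hM]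
      exact h3
    | succ j ih =>
      obtain ⟨n, hn⟩ := ih
      obtain ⟨N, hN⟩ := exists_card_le_of_klein.{u} a n
      refine ⟨max n N, fun G _ _ M r hM ha hB E hE1 hE2 hE Q hQ hr => ?_⟩
      by_cases h : 2 ^ r ≤ Nat.card Q * 2 ^ j
      · exact (hn G M r hM ha hB E hE1 hE2 hE Q hQ h).trans (le_max_left _ _)
      have hc := isMulCommutative_iff_forall.1 hE1
      have hEC : E ≤ Subgroup.centralizer (Q : Set G) := fun x hx y hy => hc y (hQ hy) x hx
      have hlt : Nat.card Q < 2 ^ r :=
        lt_of_le_of_lt (Nat.le_mul_of_pos_right _ (by positivity)) (not_le.1 h)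
      have hex : ∀ R ≤ E, Nat.card R < 2 ^ (r + 1) → ∃ x ∈ E, x ∉ R := fun R _ hR => by
        by_contra hcon
        push Not at hcon
        exact absurd (hE ▸ Subgroup.card_le_of_le hcon) (not_le.2 hR)
      obtain ⟨x, hx, hxQ⟩ := hex Q hQ (by rw [pow_succ]; omega)
      obtain ⟨y, hy, hyQ⟩ := hex (Subgroup.zpowers x ⊔ Q)
        (sup_le (Subgroup.zpowers_le.2 hx) hQ) (by
          have h1 := Nat.le_of_dvd (Nat.mul_pos Nat.card_pos Nat.card_pos)
            (card_sup_dvd_of_le_normalizer (H := Subgroup.zpowers x) (N := Q)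
              (Subgroup.zpowers_le.2 (Subgroup.centralizer_le_normalizer _ (hEC hx))))
          have h2 : Nat.card (Subgroup.zpowers x) ≤ 2 := by
            rw [Nat.card_zpowers]
            exact orderOf_le_of_pow_eq_one two_pos (by rw [sq, hE2 x hx])
          have h3 := Nat.mul_le_mul_right (Nat.card Q) h2
          rw [pow_succ]
          omega)
      have hxy : x * y ∉ Q := fun h' => hyQ (by
        have := Subgroup.mul_mem _ (Subgroup.mem_sup_left (T := Q)
          (Subgroup.inv_mem _ (Subgroup.mem_zpowers x))) (Subgroup.mem_sup_right h')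
        rwa [inv_mul_cancel_left] at this)
      have hb : ∀ v (hv : v ∈ E), v ∉ Q → Nat.card (Subgroup.centralizer
          ({⟨v, hEC hv⟩} : Set (Subgroup.centralizer (Q : Set G)))) ≤ n := fun v hv hvQ => by
        rw [centralizer_singleton_subgroupOf, card_subgroupOf, ← centralizer_zpowers,
          ← centralizer_sup]
        refine hn G M r hM ha hB E hE1 hE2 hE _ (sup_le (Subgroup.zpowers_le.2 hv) hQ)
          (hr.trans ?_)
        have h1 : Q < Subgroup.zpowers v ⊔ Q := lt_of_le_of_ne le_sup_right fun e =>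
          hvQ (e ▸ Subgroup.mem_sup_left (Subgroup.mem_zpowers v))
        obtain ⟨t, ht⟩ := Subgroup.card_dvd_of_le h1.le
        have h2 := card_lt_of_lt h1
        have h3 : 2 ≤ t := by
          by_contra h4
          have : Nat.card Q * t ≤ Nat.card Q * 1 := Nat.mul_le_mul_left _ (by omega)
          omega
        rw [ht, pow_succ', ← mul_assoc]
        gcongr
      have hne : ∀ v (hv : v ∈ E), v ∉ Q →
          (⟨v, hEC hv⟩ : Subgroup.centralizer (Q : Set G)) ≠ 1 := fun v hv hvQ e =>
        hvQ ((show v = 1 from congrArg Subtype.val e) ▸ Q.one_mem)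
      have hy' : y ∉ Q := fun h' => hyQ (Subgroup.mem_sup_right h')
      exact (hN _ ((hfac G _).trans ha) ⟨x, hEC hx⟩ ⟨y, hEC hy⟩ (Subtype.ext (hE2 x hx))
        (Subtype.ext (hE2 y hy)) (Subtype.ext (hE2 _ (E.mul_mem hx hy))) (hne x hx hxQ)
        (hne y hy hy') (hne _ (E.mul_mem hx hy) hxy) (hb x hx hxQ) (hb y hy hy')
        (hb _ (E.mul_mem hx hy) hxy)).trans (le_max_right _ _)
  obtain ⟨N, hN⟩ := key a
  refine ⟨N, fun G _ _ M r P hM hP hB ⟨E, hEP, hE1, hE2, hE⟩ => ?_⟩
  have ha : (Nat.card G).factorization 2 = a :=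
    Nat.pow_right_injective le_rfl ((P.card_eq_multiplicity).symm.trans hP)
  have h := hN G M r hM ha.le hB E hE1 hE2 hE ⊥ bot_le (by
    have := Subgroup.card_le_of_le hEP
    rw [hE, hP, pow_succ] at this
    rw [Subgroup.card_bot]
    omega)
  rwa [GA.centralizer_coe_bot, Subgroup.card_top] at h

end Cfsg.Agent.S4719
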