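import Cfsg.Statements.S4720
import Cfsg.Agent.Blk.SecOrth

set_option autoImplicit false
open Cfsg

namespace Cfsg.Agent.S4720

open scoped ComplexConjugate

/-- Let p be a prime, M a maximal ideal of the algebraic integers containing p, P a p-subgroup of the finite group G, N a subgroup with P ≤ N ≤ N_G(P), and U a nonempty subset of P normalized by N such that an element of U and an element of P that are conjugate in G are already conjugate in N, and such that λ(C_G(y)) = w·#C_N(y) for every y ∈ U with one rational number w, where λ(X) denotes the sum of the squares of the degrees of the irreducible characters in the principal p-block of X. For a complex function θ on P and χ in the principal block of G put a_χ(θ) = #P⁻¹ Σ_{y ∈ P} χ(y) θ(y⁻¹). Then for generalized characters θ, η of P with θ vanishing outside U, Σ_χ a_χ(θ)·conj(a_χ(η)) = (w/#P²)·Σ_{y ∈ P} θ(y)·conj(Σ_{x ∈ N} η(x y x⁻¹)) (η extended by zero off P; the conjugates lie in P), the first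 sum over the principal p-block of G. -/
theorem result {G : Type*} [Group G] [Finite G] (p : ℕ) [Fact p.Prime] (M : Ideal Cfsg.AlgInt) (hM : Cfsg.IsPModular p M) (P : Subgroup G) (hP : IsPGroup p P) (N : Subgroup G) (hPN : P ≤ N) (hNN : N ≤ Subgroup.normalizer (P : Set G)) (U : Set G) (hUne : U.Nonempty) (hUP : U ⊆ (P : Set G)) (hUN : ∀ n ∈ N, ∀ u ∈ U, n * u * n⁻¹ ∈ U) (hfus : ∀ u ∈ U, ∀ g : G, g * u * g⁻¹ ∈ (P : Set G) → ∃ n ∈ N, n * u * n⁻¹ = g * u * g⁻¹) (w : ℚ) (hw : ∀ y ∈ U, ((∑ᶠ ψ ∈ Cfsg.principalBlock M ↥(Subgroup.centralizer ({y} : Set G)), Cfsg.charDegree (ψ : ↥(Subgroup.centralizer ({y} : Set G)) → ℂ) ^ 2) : ℚ) = w * Nat.card ↥(N ⊓ Subgroup.centralizer ({y} : Set G))) (θ η : ↥P → ℂ) (hθ : Cfsg.IsGeneralizedCharacter ↥P θ) (hη : Cfsg.IsGeneralizedCharacter ↥P η) (hθU : ∀ y : ↥P, (y : G) ∉ U → θ y = 0) : ∑ᶠ χ ∈ Cfsg.principalBlock M G, ((Nat.card ↥P : ℂ)⁻¹ * ∑ᶠ y : ↥P, (χ : G → ℂ) (y : G) * θ y⁻¹) * (starRingEnd ℂ) ((Nat.card ↥P : ℂ)⁻¹ * ∑ᶠ y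 : ↥P, (χ : G → ℂ) (y : G) * η y⁻¹) = ((w : ℂ) / ((Nat.card ↥P : ℂ) ^ 2)) * ∑ᶠ y : ↥P, θ y * (starRingEnd ℂ) (∑ᶠ x : ↥N, Cfsg.extendByZero P η ((x : G) * (y : G) * (x : G)⁻¹)) := by
  classical
  have := Fintype.ofFinite G
  have hpe : ∀ y : P, IsPElt p (y : G) := fun y => by
    obtain ⟨k, hk⟩ := IsPGroup.iff_orderOf.1 hP y
    exact ⟨k, by rw [← hk, Subgroup.orderOf_coe]⟩
  simp only [finsum_eq_sum_of_fintype]
  have h1 : ∀ (a : P → ℂ) (χ : IrrCharacter G), ∑ y : P, χ.1 y * a y⁻¹ =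
      ∑ y : P, conj (χ.1 y) * a y := fun a χ =>
    Fintype.sum_equiv (Equiv.inv P) _ _ fun y => by simp [χ.apply_inv]
  have key : ∀ y : P, θ y * ∑ z : P, (∑ χ : IrrCharacter G with χ ∈ principalBlock M G,
      χ z * conj (χ y)) * conj (η z) = w * (θ y * conj (∑ x : N, extendByZero P η (x * y * (x : G)⁻¹))) := by
    intro y
    by_cases hy : (y : G) ∈ U
    swap
    · simp [hθU y hy]
    rw [mul_left_comm, ← Finset.sum_fiberwise_of_maps_to (s := Finset.univ)
      (t := Finset.univ.map ⟨Subtype.val, Subtype.val_injective⟩) 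
      (g := fun x : N => (x : G) * y * (x : G)⁻¹)
      (fun x _ => Finset.mem_map.2 ⟨⟨_, GA.conj_mem_of_mem_normalizer (hNN x.2) y.2⟩,
        Finset.mem_univ _, rfl⟩), Finset.sum_map, map_sum, Finset.mul_sum]
    rw [Finset.mul_sum _ _ (w : ℂ), ← Finset.mul_sum]
    refine congrArg _ (Finset.sum_congr rfl fun z _ => ?_)
    rw [← finsum_mem_irr_eq_sum, Finset.sum_eq_card_nsmul (b := η z) fun x hx => by
      rw [(Finset.mem_filter.1 hx).2]; exact extendByZero_coe P η z, nsmul_eq_mul, map_mul,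
      map_natCast, ← mul_assoc]
    congr 1
    by_cases hc : IsConj (y : G) z
    · obtain ⟨g, hg⟩ := isConj_iff.1 hc
      obtain ⟨n, hn, hn'⟩ := hfus y hy g (hg ▸ z.2)
      have h2 := (isSec_centralizer (hpe y)).finsum_normSq_principal hM
      have h3 : ((∑ᶠ ψ ∈ principalBlock M (Subgroup.centralizer ({(y : G)} : Set G)),
          charDegree ψ.1 ^ 2 : ℕ) : ℚ) = _ := Eq.trans (by
            rw [finsum_mem_irr_eq_sum, finsum_mem_irr_eq_sum]; push_cast; rfl) (hw y hy)
      have h4 := congrArg (Rat.cast : ℚ → ℂ) h3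
      rw [Rat.cast_natCast, Rat.cast_mul, Rat.cast_natCast] at h4
      simp only [← fun χ : IrrCharacter G => χ.isClassFunction.eq_of_isConj hc]
      rw [h2, h4, ← Fintype.card_subtype, ← Nat.card_eq_fintype_card]
      congr 2
      refine Nat.card_congr ⟨fun c => ⟨⟨n * c, mul_mem hn c.2.1⟩, ?_⟩,
        fun x => ⟨n⁻¹ * x.1, Subgroup.mem_inf.2 ⟨mul_mem (inv_mem hn) x.1.2, ?_⟩⟩, fun c => by simp, fun x => by simp⟩
      · have := Subgroup.mem_centralizer_singleton_iff.1 c.2.2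
        simp only [Function.Embedding.coeFn_mk, ← hg, ← hn']
        rw [mul_assoc n, this]; group
      · have := x.2
        simp only [Function.Embedding.coeFn_mk, ← hg, ← hn'] at this
        rw [Subgroup.mem_centralizer_singleton_iff]
        calc n⁻¹ * x.1 * y = n⁻¹ * (x.1 * y * (x.1 : G)⁻¹) * x.1 := by group
          _ = _ := by rw [this]; group
    · rw [isPBlock_principalBlock.finsum_mul_conj_eq_zero' hM (g := (z : G)) (h := (y : G)) (by
        rw [pPart_eq_self_iff.2 (hpe y), pPart_eq_self_iff.2 (hpe z)]; exact fun h => hc h.symm),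
        Finset.card_eq_zero.2, Nat.cast_zero, mul_zero]
      exact Finset.filter_eq_empty_iff.2 fun x _ h => hc (isConj_iff.2 ⟨x, h⟩)
  rw [← finsum_eq_sum_of_fintype, finsum_mem_irr_eq_sum, div_mul_eq_mul_div, Finset.mul_sum,
    ← Finset.sum_congr rfl fun y _ => key y]
  simp only [h1, map_mul, map_inv₀, map_natCast, map_sum, Complex.conj_conj, Finset.mul_sum,
    Finset.sum_mul, Finset.sum_div]
  refine (Finset.sum_congr rfl fun _ _ => Finset.sum_comm).trans (Finset.sum_comm.trans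
    (Finset.sum_congr rfl fun y _ => Finset.sum_comm.trans (Finset.sum_congr rfl fun z _ =>
      Finset.sum_congr rfl fun χ _ => ?_)))
  ring

end Cfsg.Agent.S4720
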