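import Cfsg.Statements.S4722
import Cfsg.Agent.Blk.SecOrth
import Cfsg.Agent.Blk.Quot
import Cfsg.Agent.Char.Central
import Cfsg.Agent.Char.Ker

set_option autoImplicit false
open Cfsg

namespace Cfsg.Agent.S4722

open scoped ComplexConjugate

theorem aux {ι : Type*} (S : Finset ι) (a d v : ι → ℝ) (hd : ∀ i, 0 < d i)
    (h1 : ∑ i ∈ S, a i * v i ^ 2 / d i = 0) (h2 : ∑ i ∈ S, a i * d i = 0)
    (h3 : ∑ i ∈ S, a i * v i = 0) (h : (S.filter fun i => 0 < a i).card ≤ 1) :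
    ∃ r : ℝ, ∀ i ∈ S, a i ≠ 0 → v i = r * d i := by
  obtain ⟨r, hr⟩ : ∃ r : ℝ, ∀ i ∈ S, 0 < a i → v i = r * d i := by
    by_cases h0 : ∃ j ∈ S, 0 < a j
    · obtain ⟨j, hj, hj'⟩ := h0
      refine ⟨v j / d j, fun i hi hi' => ?_⟩
      rw [Finset.card_le_one.1 h i (by simp [hi, hi']) j (by simp [hj, hj']),
        div_mul_cancel₀ _ (hd j).ne']
    · exact ⟨0, fun i hi hi' => absurd ⟨i, hi, hi'⟩ h0⟩
  refine ⟨r, fun i hi hai => ?_⟩
  have h4 : ∑ i ∈ S, a i * (v i - r * d i) ^ 2 / d i = 0 := by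
    rw [Finset.sum_congr rfl (g := fun i => a i * v i ^ 2 / d i - 2 * r * (a i * v i) +
      r ^ 2 * (a i * d i)) fun i _ => by field_simp [(hd i).ne']; ring]
    simp only [Finset.sum_add_distrib, Finset.sum_sub_distrib, ← Finset.mul_sum, h1, h2, h3]
    simp
  have h5 := (Finset.sum_eq_zero_iff_of_nonpos fun i hi => by
    rcases le_or_gt (a i) 0 with h | h
    · exact div_nonpos_of_nonpos_of_nonneg (mul_nonpos_of_nonpos_of_nonneg h (sq_nonneg _))
        (hd i).le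
    · simp [hr i hi h]).1 h4 i hi
  simpa [hai, (hd i).ne', sub_eq_zero] using h5

/-- Let M be a maximal ideal of the algebraic integers containing 2, P a 2-subgroup of the finite group G, U a subset of P, and t an involution of G such that no element of U is inverted by any conjugate of t. Let θ be a generalized character of P vanishing outside U, and for χ in the principal 2-block B₀ put a_χ = #P⁻¹ Σ_{y ∈ P} χ(y) θ(y⁻¹). Then Σ_{χ ∈ B₀} a_χ χ(t)^2/χ(1) = 0, Σ_{χ ∈ B₀} a_χ χ(1) = 0 and Σ_{χ ∈ B₀} a_χ χ(t) = 0. If moreover #P⁻¹ Σ_{y ∈ P} θ(y) ≠ 0, then either at least two of the a_χ have positive real part and at least two have negative real part, or G has a proper normal subgroup containing O_2'(G) and t. -/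
theorem result {G : Type*} [Group G] [Finite G] (M : Ideal Cfsg.AlgInt) (hM : Cfsg.IsPModular 2 M) (P : Subgroup G) (hP : IsPGroup 2 P) (U : Set G) (hUP : U ⊆ (P : Set G)) (t : G) (ht : orderOf t = 2) (hinv : ∀ u ∈ U, ∀ g : G, (g * t * g⁻¹) * u * (g * t * g⁻¹)⁻¹ ≠ u⁻¹) (θ : ↥P → ℂ) (hθ : Cfsg.IsGeneralizedCharacter ↥P θ) (hθU : ∀ y : ↥P, (y : G) ∉ U → θ y = 0) : (∑ᶠ χ ∈ Cfsg.principalBlock M G, ((Nat.card ↥P : ℂ)⁻¹ * ∑ᶠ y : ↥P, (χ : G → ℂ) (y : G) * θ y⁻¹) * (χ : G → ℂ) t ^ 2 / (χ : G → ℂ) 1 = 0) ∧ (∑ᶠ χ ∈ Cfsg.principalBlock M G, ((Nat.card ↥P : ℂ)⁻¹ * ∑ᶠ y : ↥P, (χ : G → ℂ) (y : G) * θ y⁻¹) * (χ : G → ℂ) 1 = 0) ∧ (∑ᶠ χ ∈ Cfsg.principalBlock M G, ((Nat.card ↥P : ℂ)⁻¹ * ∑ᶠ y : ↥P, (χ : G → ℂ) (y : G) * θ y⁻¹) * (χ : G → ℂ) t = 0) ∧ ((Nat.card ↥P : ℂ)⁻¹ * ∑ᶠ y : ↥P, θ y ≠ 0 → (2 ≤ Nat.card {χ : Cfsg.IrrCharacter G // χ ∈ Cfsg.principalBlock M G ∧ 0 < (((Nat.card ↥P : ℂ)⁻¹ * ∑ᶠ y : ↥P, (χ : G → ℂ) (y : G) * θ y⁻¹)).re}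 ∧ 2 ≤ Nat.card {χ : Cfsg.IrrCharacter G // χ ∈ Cfsg.principalBlock M G ∧ (((Nat.card ↥P : ℂ)⁻¹ * ∑ᶠ y : ↥P, (χ : G → ℂ) (y : G) * θ y⁻¹)).re < 0}) ∨ ∃ K : Subgroup G, K.Normal ∧ K ≠ ⊤ ∧ Cfsg.pPrimeCore 2 G ≤ K ∧ t ∈ K) := by
  classical
  have := Fintype.ofFinite G
  have hpe : ∀ y : P, IsPElt 2 (y : G) := fun y => by
    obtain ⟨k, hk⟩ := IsPGroup.iff_orderOf.1 hP y
    exact ⟨k, by rw [← hk, Subgroup.orderOf_coe]⟩
  have htt : t⁻¹ = t := inv_eq_of_mul_eq_one_right (by rw [← pow_two, ← ht, pow_orderOf_eq_one])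
  have hte : IsPElt 2 t := ⟨1, by rw [ht, pow_one]⟩
  have hre : ∀ χ : IrrCharacter G, conj (χ t) = χ t := fun χ => by rw [← χ.apply_inv, htt]
  have hB : IsPBlock M (principalBlock M G) := isPBlock_principalBlock
  have key : ∀ c : IrrCharacter G → ℂ, (∀ y : G, IsPElt 2 y → y⁻¹ ∈ U →
      ∑ᶠ χ ∈ principalBlock M G, χ y * c χ = 0) → ∑ᶠ χ ∈ principalBlock M G,
      ((Nat.card P : ℂ)⁻¹ * ∑ᶠ y : P, χ.1 y * θ y⁻¹) * c χ = 0 := fun c hc => by
    simp only [finsum_mem_irr_eq_sum] at hc ⊢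
    simp only [finsum_eq_sum_of_fintype, mul_assoc, ← Finset.mul_sum]
    simp only [Finset.sum_mul, mul_assoc]
    rw [Finset.sum_comm]
    refine mul_eq_zero_of_right _ (Finset.sum_eq_zero fun y _ => ?_)
    by_cases hy : (y : G)⁻¹ ∈ U
    · simp only [mul_left_comm _ (θ _), ← Finset.mul_sum, hc y (hpe y) hy, mul_zero]
    · simp [hθU y⁻¹ hy]
  have h1 := key (fun χ => χ t ^ 2 / χ 1) fun y hy hyU => by
    have hΨ : IsClassFunction G (∑ χ : IrrCharacter G, (χ t ^ 2 / χ 1) • χ.1) :=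
      IsClassFunction.sum fun χ _ => χ.isClassFunction.smul _
    have h0 : (pSection 2 y).indicator (∑ χ : IrrCharacter G, (χ t ^ 2 / χ 1) • χ.1) = 0 := by
      refine funext fun g => Set.indicator_apply_eq_zero.2 fun hg => ?_
      suffices hE : IsEmpty {xy : G × G // IsConj t xy.1 ∧ IsConj t xy.2 ∧ xy.1 * xy.2 = g⁻¹} by
        have h2 := card_class_mul_eq_sum t t g⁻¹
        rw [Nat.card_of_isEmpty, Nat.cast_zero, eq_comm, mul_eq_zero] at h2
        refine Eq.trans ?_ (h2.resolve_left (div_ne_zero (mul_ne_zero (Nat.cast_ne_zero.2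
          Subgroup.index_ne_zero_of_finite) (Nat.cast_ne_zero.2 Subgroup.index_ne_zero_of_finite))
          (natCard_cast_ne_zero G)))
        rw [Finset.sum_apply]
        exact Finset.sum_congr rfl fun χ _ => by simp [χ.apply_inv]; ring
      refine ⟨fun ⟨⟨a, b⟩, ha, hb, hab⟩ => ?_⟩
      obtain ⟨c, rfl⟩ := isConj_iff.1 ha
      obtain ⟨d, rfl⟩ := isConj_iff.1 hb
      obtain ⟨e, he⟩ := isConj_iff.1 hg
      have h3 : c * t * c⁻¹ * g * (c * t * c⁻¹)⁻¹ = g⁻¹ := by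
        rw [← inv_inj, inv_inv, ← inv_inv g, ← hab]
        simp [mul_assoc, htt, ← mul_assoc t t, mul_eq_one_iff_eq_inv.2 htt.symm]
      have h4 := pPart_conj 2 g (c * t * c⁻¹)
      rw [h3, pPart_inv] at h4
      refine hinv _ hyU (e * c) ?_
      rw [← he]
      calc _ = e * (c * t * c⁻¹ * pPart 2 g * (c * t * c⁻¹)⁻¹)⁻¹ * e⁻¹ := by group
        _ = _ := by rw [← h4]; group
    have h5 := congrFun (hB.blockPart_indicator_pSection hM y hΨ) y
    rw [h0, blockPart_zero, Set.indicator_of_mem (by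
      rw [mem_pSection, pPart_eq_self_iff.2 hy]), blockPart_sum_smul_irr] at h5
    simpa only [mul_comm, Pi.zero_apply] using h5.symm
  have h2 := key (fun χ => χ 1) fun y hy hyU => by
    have := hB.finsum_mul_conj_eq_zero' hM (g := y) (h := 1) (by
      rw [pPart_eq_self_iff.2 hy, pPart_one, isConj_one_left]
      rintro rfl
      exact hinv _ hyU 1 (by simp))
    simpa only [IrrCharacter.apply_one, map_natCast] using this
  have h3 := key (fun χ => χ t) fun y hy hyU => by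
    have := hB.finsum_mul_conj_eq_zero' hM (g := y) (h := t) (by
      rw [pPart_eq_self_iff.2 hy, pPart_eq_self_iff.2 hte]
      intro hc
      obtain ⟨c, rfl⟩ := isConj_iff.1 hc.symm
      exact hinv _ hyU c (by
        simp [mul_assoc, htt, ← mul_assoc t t, mul_eq_one_iff_eq_inv.2 htt.symm]))
    simpa only [hre] using this
  simp only [← mul_div_assoc] at h1
  refine ⟨h1, h2, h3, fun h0 => ?_⟩
  have h4 : ∀ χ : IrrCharacter G, ∃ n : ℤ,
      (Nat.card P : ℂ)⁻¹ * ∑ᶠ y : P, χ.1 y * θ y⁻¹ = n := fun χ => by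
    simp only [hθ.apply_inv]
    exact (χ.isCharacter.isGen.comp P.subtype).exists_ip_eq_int hθ
  choose a ha using h4
  have ha1 : a (IrrCharacter.one G) ≠ 0 := fun h => h0 (by
    have := ha (IrrCharacter.one G)
    rw [h, Int.cast_zero] at this
    rw [← this, finsum_eq_sum_of_fintype, finsum_eq_sum_of_fintype]
    congr 1
    exact Fintype.sum_equiv (Equiv.inv P) _ _ fun y => by simp)
  simp only [ha, Complex.intCast_re, finsum_mem_irr_eq_sum] at h1 h2 h3 ⊢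
  have hv : ∀ χ : IrrCharacter G, χ t = ((χ t).re : ℝ) := fun χ =>
    (Complex.conj_eq_iff_re.1 (hre χ)).symm
  have hd : ∀ χ : IrrCharacter G, (0 : ℝ) < charDegree χ.1 := fun χ =>
    Nat.cast_pos.2 χ.charDegree_pos
  simp only [IrrCharacter.apply_one] at h1 h2
  rw [Finset.sum_congr rfl fun χ _ => by rw [hv χ]] at h1 h3
  have h1' : ∑ χ : IrrCharacter G with χ ∈ principalBlock M G,
    (a χ : ℝ) * (χ t).re ^ 2 / charDegree χ.1 = 0 := by exact_mod_cast h1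
  have h2' : ∑ χ : IrrCharacter G with χ ∈ principalBlock M G,
    (a χ : ℝ) * charDegree χ.1 = 0 := by exact_mod_cast h2
  have h3' : ∑ χ : IrrCharacter G with χ ∈ principalBlock M G,
    (a χ : ℝ) * (χ t).re = 0 := by exact_mod_cast h3
  rw [or_iff_not_imp_left, not_and_or]
  intro h5
  have h1m : IrrCharacter.one G ∈ Finset.univ.filter (· ∈ principalBlock M G) := by
    simpa using hM.one_mem_principalBlock
  obtain ⟨r, hr⟩ : ∃ r : ℝ, ∀ χ ∈ Finset.univ.filter (· ∈ principalBlock M G),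
      (a χ : ℝ) ≠ 0 → (χ t).re = r * charDegree χ.1 := by
    rcases h5 with h5 | h5
    · refine aux _ _ _ _ hd h1' h2' h3' ?_
      rw [Nat.card_eq_fintype_card, Fintype.card_subtype] at h5
      rw [Finset.filter_filter]; omega
    · have := aux (Finset.univ.filter (· ∈ principalBlock M G)) (fun χ => -(a χ : ℝ)) _
        (fun χ => (χ t).re) hd (by simp [neg_div, h1']) (by simp [h2']) (by simp [h3']) (by
          rw [Nat.card_eq_fintype_card, Fintype.card_subtype] at h5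
          simp only [Finset.filter_filter, neg_pos]; omega)
      simpa only [Ne, neg_eq_zero] using this
  have hr1 := hr _ h1m (by exact_mod_cast ha1)
  rw [charDegree_one_irr] at hr1
  obtain ⟨χ, hχ, hχ1, hχa⟩ : ∃ χ ∈ Finset.univ.filter (· ∈ principalBlock M G),
      χ ≠ IrrCharacter.one G ∧ a χ ≠ 0 := by
    by_contra hc
    push Not at hc
    rw [Finset.sum_eq_single_of_mem _ h1m fun χ hχ hne => by simp [hc χ hχ hne]] at h2'
    exact ha1 (by exact_mod_cast (mul_eq_zero.1 h2').resolve_right (hd _).ne')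
  refine ⟨charKer χ.1, inferInstance, fun h => hχ1 (χ.charKer_eq_top_iff.1 h), fun g hg =>
    χ.mem_charKer.2 (apply_eq_of_mem_principalBlock hM (not_dvd_card_pPrimeCore 2 G)
      (Finset.mem_filter.1 hχ).2 hg), χ.mem_charKer.2 ?_⟩
  rw [hv, hr χ hχ (by exact_mod_cast hχa), χ.apply_one]
  simp at hr1
  simp [← hr1]

end Cfsg.Agent.S4722
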