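import Cfsg.Statements.S4724
import Cfsg.Agent.Blk.PrimeTI
-- import your own Cfsg.Agent.* helpers here

set_option autoImplicit false
open Cfsg

namespace Cfsg.Agent.S4724

/-- Let G be a transitive permutation group of prime degree p having exactly one irreducible character of degree p. Let P be a Sylow p-subgroup and suppose N_G(P) = P·E for a subgroup E with P ∩ E = 1, such that the normalizer of E has order 2·#E and E meets each of its conjugates by elements outside its normalizer trivially. Then p is 5, 7 or 11 and G is isomorphic to PSL(2, p). -/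
theorem result {α : Type*} [Fintype α] [DecidableEq α] {p : ℕ} [Fact p.Prime] (hα : Fintype.card α = p) (G : Subgroup (Equiv.Perm α)) [MulAction.IsPretransitive G α] (huniq : ∃! χ : Cfsg.IrrCharacter G, Cfsg.charDegree (χ : G → ℂ) = p) (P : Sylow p G) (E : Subgroup G) (hPE : (P : Subgroup G) ⊔ E = Subgroup.normalizer ((P : Subgroup G) : Set G)) (hPE' : (P : Subgroup G) ⊓ E = ⊥) (hNE : Nat.card (Subgroup.normalizer (E : Set G)) = 2 * Nat.card E) (hTI : ∀ g : G, g ∉ Subgroup.normalizer (E : Set G) → E ⊓ E.map (MulAut.conj g).toMonoidHom = ⊥) : (p = 5 ∨ p = 7 ∨ p = 11) ∧ ∃ (F : Type) (_ : Field F) (_ : Fintype F), Fintype.card F = p ∧ Nonempty (G ≃* Matrix.ProjectiveSpecialLinearGroup (Fin 2) F) := by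
  have hpp : p.Prime := Fact.out
  have hα' : Nat.card α = p := by rw [Nat.card_eq_fintype_card, hα]
  obtain ⟨a⟩ : Nonempty α := (Nat.card_ne_zero.1 (hα' ▸ hpp.ne_zero)).1
  obtain ⟨y, hy⟩ := exists_prime_orderOf_dvd_card' (G := G) p (by
    rw [← hα', ← MulAction.index_stabilizer_of_transitive G a]
    exact Subgroup.index_dvd_card _)
  have h1 := Cfsg.selfCent_of_perm hα' hy
  obtain ⟨x, hx, hx1⟩ := h1.exists_mem_ne_one P
  obtain ⟨h2, h3⟩ := h1.zpowers_eq hx hx1
  obtain ⟨χ, hχ, -⟩ := id huniq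
  letI := Fintype.ofFinite E
  obtain ⟨h4, h5⟩ := Cfsg.TIData.psl (α := α) (x := x) (E := E)
    ⟨inferInstance, hα', h2, by rw [h3, sup_comm, hPE],
      fun y hy hy' => Subgroup.mem_bot.1 (hPE' ▸ ⟨h3 ▸ hy', hy⟩), hNE,
      fun g y hy h1 hg => by_contra fun e => h1 (conj_eq_one_iff.1
        (Subgroup.mem_bot.1 ((hTI g e).le ⟨hg, y, hy, rfl⟩))),
      Cfsg.commutator_eq_top_of_unique hα' h1 huniq⟩ hχ
  exact ⟨h4, ZMod p, inferInstance, inferInstance, ZMod.card p, h5⟩

end Cfsg.Agent.S4724
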