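import Cfsg.Statements.S4725
import Cfsg.Agent.Blk.Induced
import Cfsg.Agent.Blk.Contrib

set_option autoImplicit false
open Cfsg

namespace Cfsg.Agent.S4725

/-- Let p be a prime, M a maximal ideal of the algebraic integers containing p, H a subgroup of the finite group G, and b a p-block of H inducing the p-block B of G, with b and B of the same defect. Then for every height-zero ζ ∈ b there is a height-zero χ ∈ B whose multiplicity in the character induced from ζ is not divisible by p. -/
theorem result {G : Type*} [Group G] [Fintype G] (p : ℕ) [Fact p.Prime] (M : Ideal Cfsg.AlgInt) (hM : Cfsg.IsPModular p M) (H : Subgroup G) (b : Set (Cfsg.IrrCharacter ↥H)) (B : Set (Cfsg.IrrCharacter G)) (hind : Cfsg.IsInducedBlock M H b B) (hdef : Cfsg.blockDefect p b = Cfsg.blockDefect p B) (ζ : Cfsg.IrrCharacter ↥H) (hζ : ζ ∈ b) (hζ0 : Cfsg.blockHeight p b (ζ : ↥H → ℂ) = 0) : ∃ χ ∈ B, Cfsg.blockHeight p B (χ : G → ℂ) = 0 ∧ ∃ a : ℕ, Cfsg.classInner (Cfsg.indFun H (ζ : ↥H → ℂ)) (χ : G → ℂ) = (a : ℂ) ∧ ¬ p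 ∣ a := by
  classical
  rw [isInducedBlock_iff hM] at hind
  rw [indFun_eq_ind]
  have hc : IsCharacter G (ind H.subtype ζ.1) := ζ.isCharacter.ind _
  by_contra hcon
  push Not at hcon
  have h := vM_eq_one_of_red_ne_zero
    ((hind.vM_blockPart_ind_self hM H.subtype_injective hζ).trans_ne one_ne_zero)
  have hdeg : (charDegree (ind H.subtype ζ.1)).factorization p = minExp p B := by
    rw [ζ.isCharacter.charDegree_ind_subtype,
      Nat.factorization_mul H.index_ne_zero_of_finite ζ.charDegree_pos.ne', Finsupp.add_apply,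
      (blockHeight_eq_zero_iff hζ).1 hζ0]
    have h1 := minExp_add_blockDefect (p := p) b
    have h2 := minExp_add_blockDefect (p := p) B
    have h3 := factorization_index_add (p := p) H
    omega
  have hpos := hc.charDegree_pos (ζ.isCharacter.ind_ne_zero ζ.ne_zero H.subtype_injective)
  refine h.not_lt ?_
  rw [blockPart_eq_sum, Finset.sum_apply, Finset.sum_div]
  refine vM_sum_lt_one fun χ hχ => ?_
  have hχB : χ ∈ B := (Finset.mem_filter.1 hχ).2
  rw [Pi.smul_apply, smul_eq_mul, ← hc.ipNat_cast χ.isCharacter, hc.apply_one, mul_div_assoc]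
  change vM M (_ * (χ 1 / _)) < 1
  rw [χ.apply_one]
  by_cases h0 : blockHeight p B χ.1 = 0
  · refine vM_mul_lt_one ((hM.vM_natCast_lt_one_iff _).2 (hcon χ hχB h0 _ ?_)) ?_
    · rw [classInner_eq_ip, hc.ipNat_cast χ.isCharacter]
    · rw [hM.natCast_div_mem_iff χ.charDegree_pos.ne' hpos.ne', hdeg]
      exact minExp_le hχB
  · refine vM_mul_lt_one' (natCast_mem _ _) ?_
    rw [hM.vM_natCast_div_lt_one_iff χ.charDegree_pos.ne' hpos.ne', hdeg]
    have := minExp_add_blockHeight (p := p) hχB
    omega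

end Cfsg.Agent.S4725
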