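import Cfsg.Statements.S4726
import Cfsg.Agent.Blk.Local

set_option autoImplicit false
open Cfsg

namespace Cfsg.Agent.S4726

/-- Let p be a prime, M a maximal ideal of the algebraic integers containing p, H a subgroup of the finite group G and b a p-block of H with defect group D₀ such that C_G(D₀) ≤ H. Then b induces a block of G, and for every block B of G induced by b there is a defect group D of B with Z(D) ≤ Z(D₀) ≤ D₀ ≤ D (as subgroups of G). In particular, if the defect groups of B are abelian then D₀ is a defect group of B. -/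
theorem result {G : Type*} [Group G] [Finite G] (p : ℕ) [Fact p.Prime] (M : Ideal Cfsg.AlgInt) (hM : Cfsg.IsPModular p M) (H : Subgroup G) (b : Set (Cfsg.IrrCharacter ↥H)) (hb : Cfsg.IsPBlock M b) (D₀ : Subgroup ↥H) (hD₀ : Cfsg.IsDefectGroup p M b D₀) (hC : Subgroup.centralizer ((D₀.map H.subtype : Subgroup G) : Set G) ≤ H) : Cfsg.InducedBlockDefined M H b ∧ ∀ B : Set (Cfsg.IrrCharacter G), Cfsg.IsInducedBlock M H b B → (∃ D : Subgroup G, Cfsg.IsDefectGroup p M B D ∧ (Subgroup.center ↥D).map D.subtype ≤ ((Subgroup.center ↥D₀).map D₀.subtype).map H.subtype ∧ ((Subgroup.center ↥D₀).map D₀.subtype).map H.subtype ≤ D₀.map H.subtype ∧ D₀.map H.subtype ≤ D) ∧ (∀ D : Subgroup G, Cfsg.IsDefectGroup p M B D → IsMulCommutative ↥D → Cfsg.IsDefectGroup p M B (D₀.map H.subtype)) := by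
  refine ⟨?_, fun B hind => ?_⟩
  · obtain ⟨B, hB⟩ := exists_induces_of_defectGroup hM H.subtype_injective hb hD₀ le_rfl
      (by rwa [Subgroup.range_subtype])
    exact ⟨B, (isInducedBlock_iff hM).2 hB⟩
  rw [isInducedBlock_iff hM] at hind
  obtain ⟨D, hD, hle, hinf⟩ := hind.exists_isDefectGroup_inf_centralizer_le hM hD₀ hC
  refine ⟨⟨D, hD, ?_, Subgroup.map_mono (Subgroup.map_subtype_le _), hle⟩, fun D' hD' hc => ?_⟩
  · rintro _ ⟨z, hz, rfl⟩
    have hzC : (z : G) ∈ Subgroup.centralizer ((D₀.map H.subtype : Subgroup G) : Set G) :=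
      fun x hx => congrArg Subtype.val (Subgroup.mem_center_iff.1 hz ⟨x, hle hx⟩)
    obtain ⟨y, hy, hyz⟩ := hinf ⟨z.2, hzC⟩
    refine ⟨y, ⟨⟨y, hy⟩, Subgroup.mem_center_iff.2 fun x => Subtype.ext (Subtype.ext ?_), rfl⟩, hyz⟩
    have := hzC (x : H) ⟨x, x.2, rfl⟩
    rw [← hyz] at this
    exact this
  · obtain ⟨g, rfl⟩ := IsDefectGroup.exists_conj hind.right hM hD' hD
    rwa [le_antisymm hle (le_trans (le_inf le_rfl ?_) hinf)]
    rintro _ ⟨x, hx, rfl⟩ y hy
    obtain ⟨y', hy', rfl⟩ := hle hy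
    rw [← map_mul, ← map_mul]
    exact congrArg _ (congrArg Subtype.val (hc.is_comm.comm (⟨y', hy'⟩ : D') ⟨x, hx⟩))

end Cfsg.Agent.S4726
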