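import Cfsg.Statements.S4727
import Cfsg.Agent.Blk.KerOn
import Cfsg.Agent.Blk.SubContrib

set_option autoImplicit false
open Cfsg

namespace Cfsg.Agent.S4727

theorem aux {G H : Type*} [Group G] [Finite G] [Group H] [Finite H] {p : ℕ} [Fact p.Prime]
    {M : Ideal AlgInt} (hM : IsPModular p M) {f : H →* G} {y : G} (h : IsSec p f y)
    {B : Set (IrrCharacter G)} (hB : IsPBlock M B) {χ : IrrCharacter G} (hχ : χ ∈ B) {c : H}
    (hc : IsPRegular p c) (hb : ∀ b, Induces M f b B → c ∈ blockKer b) :
    χ (y * f c) = χ y := by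
  classical
  have h1 := h.irr_apply_eq_sum hM hB hχ (y := 1) isPRegular_one
  rw [map_one, mul_one] at h1
  rw [h1, h.irr_apply_eq_sum hM hB hχ hc]
  refine Finset.sum_congr rfl fun b hb' => ?_
  rw [blockPart_eq_sum, Finset.sum_apply, Finset.sum_apply]
  refine Finset.sum_congr rfl fun ψ hψ => ?_
  rw [Pi.smul_apply, Pi.smul_apply,
    hb b.1 (Finset.mem_filter.1 hb').2 ψ (Finset.mem_filter.1 hψ).2]

/-- Let p be a prime, π a set of primes containing p, M a maximal ideal of the algebraic integers containing p, and B a p-block of the finite group G with defect group D; let B₁ be the block of N_G(D) with defect group D that induces B (the Brauer correspondent of B). Suppose every element of O_π'(N_G(D)), the largest normal subgroup of N_G(D) whose order has no prime divisor in π, lies in the kernel of every member of B₁. If y is a p-element whose centralizer C has a normal Hall π'-subgroup (every element of C whose order has no prime divisor in π lies in O_π'(C)), then χ(y x) = χ(y) for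 every χ ∈ B and every x ∈ C whose order has no prime divisor in π. -/
theorem result {G : Type*} [Group G] [Finite G] (p : ℕ) [Fact p.Prime] (M : Ideal Cfsg.AlgInt) (hM : Cfsg.IsPModular p M) (π : Set ℕ) (hpπ : p ∈ π) (B : Set (Cfsg.IrrCharacter G)) (hB : Cfsg.IsPBlock M B) (D : Subgroup G) (hBD : Cfsg.IsDefectGroup p M B D) (B₁ : Set (Cfsg.IrrCharacter ↥(Subgroup.normalizer (D : Set G)))) (hB₁ : Cfsg.IsInducedBlock M (Subgroup.normalizer (D : Set G)) B₁ B) (hB₁D : Cfsg.IsDefectGroup p M B₁ (D.subgroupOf (Subgroup.normalizer (D : Set G)))) (hker : ∀ n : ↥(Subgroup.normalizer (D : Set G)), n ∈ Cfsg.piCore {q | q ∉ π} ↥(Subgroup.normalizer (D : Set G)) → n ∈ Cfsg.blockKer B₁) (y : G) (hy : ∃ k : ℕ, orderOf y = p ^ k) (hC : ∀ x : ↥(Subgroup.centralizer ({y} : Set G)), (∀ q : ℕ, q.Prime → q ∣ orderOf x → q ∉ π) → x ∈ Cfsg.piCore {q | q ∉ π} ↥(Subgroup.centralizer ({y} : Set G))) : ∀ χ ∈ B, ∀ x : G, x ∈ Subgroup.centralizer ({y} : Set G) → (∀ q : ℕ, q.Prime → q ∣ orderOf x → q ∉ π) → (χ : G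 → ℂ) (y * x) = (χ : G → ℂ) y := by
  intro χ hχ x hx hx'
  haveI := hM.charP
  have hp : p ∉ {q | q ∉ π} := fun h => h hpπ
  refine aux hM (isSec_centralizer hy) hB hχ (c := ⟨x, hx⟩) (fun h => hx' p Fact.out (by
    rwa [Subgroup.orderOf_mk] at h) hpπ) fun b hb => ?_
  refine hb.left.mem_blockKer_piCore hM hp ?_ (hC ⟨x, hx⟩ fun q hq hd => hx' q hq (by
    rwa [Subgroup.orderOf_mk] at hd))
  have := ((isInducedBlock_iff hM).1 hB₁).kerOn_of_isPairOf hM hp hBD hker
    ((isSec_centralizer hy).isPairOf hM hb)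
  rwa [centralizer_zpowers_eq] at this

end Cfsg.Agent.S4727
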