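import Cfsg.Statements.S4728
import Cfsg.Agent.Blk.KerOn

set_option autoImplicit false
open Cfsg

namespace Cfsg.Agent.S4728

/-- Let p be a prime, π a set of primes containing p, M a maximal ideal of the algebraic integers containing p, B a p-block of the finite group G with defect group D, and B₁ the block of N_G(D) with defect group D inducing B. Let D₀ be a p-subgroup, H₀ = D₀·C_G(D₀), and b a block of H₀ inducing B. Write O_π'(X) for the largest normal subgroup of X whose order has no prime divisor in π. Suppose that O_π'(C_G(D₀)) is a normal Hall π'-subgroup of C_G(D₀) (it contains every element of C_G(D₀) whose order has no prime divisor in π) and that every element of it lies in the kernel of every member of b. Then every element of O_π'(N_G(D)) lies in the kernel of every member of B₁. -/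
theorem result {G : Type*} [Group G] [Finite G] (p : ℕ) [Fact p.Prime] (M : Ideal Cfsg.AlgInt) (hM : Cfsg.IsPModular p M) (π : Set ℕ) (hpπ : p ∈ π) (B : Set (Cfsg.IrrCharacter G)) (hB : Cfsg.IsPBlock M B) (D : Subgroup G) (hBD : Cfsg.IsDefectGroup p M B D) (B₁ : Set (Cfsg.IrrCharacter ↥(Subgroup.normalizer (D : Set G)))) (hB₁ : Cfsg.IsInducedBlock M (Subgroup.normalizer (D : Set G)) B₁ B) (hB₁D : Cfsg.IsDefectGroup p M B₁ (D.subgroupOf (Subgroup.normalizer (D : Set G)))) (D₀ : Subgroup G) (hD₀ : IsPGroup p D₀) (H₀ : Subgroup G) (hH₀ : H₀ = D₀ ⊔ Subgroup.centralizer (D₀ : Set G)) (b : Set (Cfsg.IrrCharacter ↥H₀)) (hb : Cfsg.IsInducedBlock M H₀ b B) (hcompl : ∀ x : ↥(Subgroup.centralizer (D₀ : Set G)), (∀ q : ℕ, q.Prime → q ∣ orderOf x → q ∉ π) → x ∈ Cfsg.piCore {q | q ∉ π} ↥(Subgroup.centralizer (D₀ : Set G))) (hkerb : ∀ x : ↥(Subgroup.centralizer (D₀ : Set G)), x ∈ Cfsg.piCore {q | q ∉ π} ↥(Subgroup.centralizer (D₀ : Set G)) → ∀ θ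 ∈ b, ∀ h : ↥H₀, (h : G) = (x : G) → (θ : ↥H₀ → ℂ) h = (θ : ↥H₀ → ℂ) 1) : ∀ n : ↥(Subgroup.normalizer (D : Set G)), n ∈ Cfsg.piCore {q | q ∉ π} ↥(Subgroup.normalizer (D : Set G)) → n ∈ Cfsg.blockKer B₁ := by
  intro x hx
  haveI := hM.charP
  have hi := (isInducedBlock_iff hM).1 hb
  have hi₁ := (isInducedBlock_iff hM).1 hB₁
  have hp : p ∉ {q | q ∉ π} := fun h => h hpπ
  have h1 : D₀ ≤ H₀ := hH₀ ▸ le_sup_left
  have h2 : Subgroup.centralizer (D₀ : Set G) ≤ H₀ := hH₀ ▸ le_sup_right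
  obtain ⟨f, hf, hf'⟩ := hi.exists_isPairOf hM hD₀ h1 h2 (by
    rw [GA.Br_eq_self_of_idem hD₀ (hH₀ ▸ sup_le Subgroup.le_normalizer
      (GA.centralizer_le_normalizer' _)) (subIdem_mem _ b) (GA.fixedBy_anti h1 (subIdem_mem _ b).2)
      (hi.left.isBlockIdem_subIdem hM).idem]
    exact (hi.left.isBlockIdem_subIdem hM).ne_zero)
  obtain ⟨e, he, he'⟩ := hi₁.exists_isMaxPair hM hBD
  have h3 : GA.KerOn (piCoreOf {q | q ∉ π} (Subgroup.centralizer (D₀ : Set G))) (subIdem M H₀ b) :=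
    kerOn_subIdem ((piCoreOf_le _).trans h2) fun l ⟨y, hy, hy'⟩ θ hθ => hkerb y hy θ hθ l hy'.symm
  have h4 := he.kerOn_of_hall hf (fun y hy hy' => ⟨⟨y, hy⟩, hcompl ⟨y, hy⟩ fun q hq hd =>
    hy' q hq (by rwa [Subgroup.orderOf_mk] at hd), rfl⟩)
    ((h3.Br hf').mono (le_inf le_rfl (piCoreOf_le _)))
  exact hi₁.left.mem_blockKer_piCore hM hp ((hi₁.left.isBlockIdem_subIdem hM).kerOn_piCoreOf hp
    hBD.isPGroup (Subgroup.le_normalizer.trans Subgroup.le_normalizer)
    (GA.fixedBy_anti Subgroup.le_normalizer (subIdem_mem _ _).2) (GA.centralizer_le_normalizer' _)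
    he' he.pair.ne_zero h4) hx

end Cfsg.Agent.S4728
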