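import Cfsg.Statements.S4729
import Cfsg.Agent.Char.Arith
import Cfsg.Agent.Blk.Defect

set_option autoImplicit false
open Cfsg

namespace Cfsg.Agent.S4729

/-- Let p be a prime, M a maximal ideal of the algebraic integers containing p, G a finite perfect group and P a Sylow p-subgroup. If the principal p-block of G contains a faithful irreducible character of degree less than 2p, then the centralizer of P is a p-group. -/
theorem result {G : Type*} [Group G] [Finite G] (p : ℕ) [Fact p.Prime] (M : Ideal Cfsg.AlgInt) (hM : Cfsg.IsPModular p M) (hperf : commutator G = ⊤) (P : Sylow p G) (χ : Cfsg.IrrCharacter G) (hχ : χ ∈ Cfsg.principalBlock M G) (hfaith : ∀ g : G, (χ : G → ℂ) g = (χ : G → ℂ) 1 → g = 1) (hdeg : Cfsg.charDegree (χ : G → ℂ) < 2 * p) : IsPGroup p ↥(Subgroup.centralizer ((P : Subgroup G) : Set G)) := by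
  classical
  have hp : p.Prime := Fact.out
  have key : ∀ s ∈ Subgroup.centralizer ((P : Subgroup G) : Set G), vM M (χ s - χ 1) < 1 := by
    intro s hs
    have h1 : ¬ p ∣ (Subgroup.centralizer ({s} : Set G)).index := fun h =>
      P.not_dvd_index (h.trans (Subgroup.index_dvd_of_le fun x hx y hy => by
        rw [Set.mem_singleton_iff.1 hy]; exact (hs x hx).symm))
    have h2 := (hM.memLocalIdeal_iff.1 (hχ s)).2
    have h3 := vM_mul_lt_one h2 (mul_mem (hM.inv_natCast_mem h1) (χ.mem_locO 1))
    rw [← Valuation.map_neg] at h3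
    convert h3 using 2
    have : ((Subgroup.centralizer ({s} : Set G)).index : ℂ) ≠ 0 :=
      Nat.cast_ne_zero.2 Subgroup.index_ne_zero_of_finite
    have := χ.apply_one_ne_zero
    simp only [centralChar]
    field_simp
    ring
  rw [IsPGroup.iff_card]
  refine ⟨_, Nat.eq_prime_pow_of_unique_prime_dvd Nat.card_pos.ne' fun {r} hr h => ?_⟩
  by_contra hrp
  have : Fact r.Prime := ⟨hr⟩
  obtain ⟨s, hs⟩ := exists_prime_orderOf_dvd_card' r h
  rw [← Subgroup.orderOf_coe] at hs
  obtain ⟨ε, h1, h2, h3⟩ := χ.isCharacter.exists_roots (s : G)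
  rw [hs] at h1
  have hpr : ¬ p ∣ r := fun h => hrp ((Nat.prime_dvd_prime_iff_eq hp hr).1 h).symm
  have hcount : ∀ i, ε i ≠ 1 → p ∣ (Finset.univ.filter fun j => ε i = ε j).card := by
    intro i hi
    have h4 := mul_count_roots_eq hr.ne_zero ε h1 (h1 i)
    rw [Multiset.count_map] at h4
    have h5 := sum_range_pow_mul_inv_pow hr.ne_zero (h1 i) (one_pow r)
    rw [if_neg hi] at h5
    refine (hp.dvd_mul.1 ((hM.vM_natCast_lt_one_iff (r * _)).1 ?_)).resolve_left hpr
    rw [Nat.cast_mul]
    refine (congrArg (vM M) h4).trans_lt ?_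
    rw [← sub_zero (Finset.sum _ _), ← mul_zero (χ 1), ← h5, Finset.mul_sum, ← Finset.sum_sub_distrib]
    refine vM_sum_lt_one fun k _ => ?_
    rw [← h2, one_pow, one_mul, ← sub_mul]
    exact vM_mul_lt_one (key _ (pow_mem s.2 k)) (pow_mem (mem_locO_of_pow_eq_one hr.ne_zero
      (by rw [inv_pow, h1, inv_one])) k)
  have h4 : ∀ i, ε i = 1 := by
    intro i
    by_contra hi
    have h5 : ∀ i, ε i ≠ 1 → p ≤ (Finset.univ.filter fun j => ε i = ε j).card := fun i hi =>
      Nat.le_of_dvd (Finset.card_pos.2 ⟨i, by simp⟩) (hcount i hi)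
    have h6 : ∀ j, ε i ≠ ε j → ε j = 1 := fun j hj => by
      by_contra h
      have h7 := Finset.card_le_univ ((Finset.univ.filter fun k => ε i = ε k) ∪
        (Finset.univ.filter fun k => ε j = ε k))
      rw [Finset.card_union_of_disjoint (Finset.disjoint_filter.2 fun k _ a b =>
        hj (a.trans b.symm)), Fintype.card_fin] at h7
      have := h5 i hi
      have := h5 j h
      omega
    have h7 : (Finset.univ.filter fun j => ε i = ε j).card = p := by
      obtain ⟨c, hc⟩ := hcount i hi
      have h7 := Finset.card_le_univ (Finset.univ.filter fun k => ε i = ε k)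
      have := h5 i hi
      rw [Fintype.card_fin] at h7
      rw [hc] at h7 this ⊢
      have : c = 1 := by
        have := hp.pos
        rcases c with _ | _ | c <;> first | rfl | nlinarith
      rw [this, mul_one]
    have h8 := detOrder_dvd_iff.1 (detOrder_dvd_index_commutator χ.1) ((s : G) ^ 1)
    rw [hperf, Subgroup.index_top, pow_one, h3, ← Finset.prod_filter_mul_prod_filter_not _
      (fun j => ε i = ε j), Finset.prod_congr rfl (g := fun _ => ε i)
        (fun j hj => by rw [pow_one, (Finset.mem_filter.1 hj).2]), Finset.prod_eq_one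
        (s := Finset.univ.filter fun j => ¬ ε i = ε j)
        (fun j hj => by rw [h6 j (Finset.mem_filter.1 hj).2, one_pow]), Finset.prod_const, h7,
        mul_one] at h8
    exact hi (by simpa [((Nat.coprime_primes hp hr).2 (Ne.symm hrp)).gcd_eq_one] using
      pow_gcd_eq_one.2 ⟨h8, h1 i⟩)
  have h5 := hfaith s (by rw [← pow_one (s : G), h2, ← pow_zero (s : G), h2]; simp [h4])
  rw [h5, orderOf_one] at hs
  exact hr.one_lt.ne hs

end Cfsg.Agent.S4729
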