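import Cfsg.Statements.S4730
import Cfsg.Agent.Char.Arith
import Cfsg.Agent.Blk.Defect

set_option autoImplicit false
open Cfsg

namespace Cfsg.Agent.S4730

/-- Let p be a prime, M a maximal ideal of the algebraic integers containing p, and G a finite group with trivial centre, Sylow p-subgroup P of order p^a and centre Z(P) of order p^b. If χ is a faithful irreducible character of G whose degree is a power of p, then the p-block of χ has defect at most a − b; in particular, if P is abelian then χ lies in a block of defect zero. -/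
theorem result {G : Type*} [Group G] [Finite G] (p : ℕ) [Fact p.Prime] (M : Ideal Cfsg.AlgInt) (hM : Cfsg.IsPModular p M) (hZ : Subgroup.center G = ⊥) (P : Sylow p G) (a b : ℕ) (ha : Nat.card P = p ^ a) (hb : Nat.card (Subgroup.center ↥(P : Subgroup G)) = p ^ b) (χ : Cfsg.IrrCharacter G) (hfaith : ∀ g : G, (χ : G → ℂ) g = (χ : G → ℂ) 1 → g = 1) (n : ℕ) (hdeg : Cfsg.charDegree (χ : G → ℂ) = p ^ n) : Cfsg.blockDefect p (Cfsg.blockOf M (χ : G → ℂ)) ≤ a - b ∧ (IsMulCommutative ↥(P : Subgroup G) → Cfsg.blockDefect p (Cfsg.blockOf M (χ : G → ℂ)) = 0) := by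
  classical
  have hp : p.Prime := Fact.out
  set Z : Subgroup G := (Subgroup.center (P : Subgroup G)).map (P : Subgroup G).subtype with hZd
  have := Fintype.ofFinite Z
  have hZc : Nat.card Z = p ^ b := by rw [← hb, hZd, Subgroup.card_subtype]
  have hc := χ.charCenter_eq_center_of_faithful (χ.isCharacter.charKer_eq_bot_iff.2 hfaith)
  have key : ∀ ψ ∈ blockOf M χ.1, b ≤ (charDegree ψ.1).factorization p := by
    intro ψ hψ
    have h1 : ∀ z : Z, z ≠ 1 → vM M (ψ z / ψ 1) < 1 := by
      rintro ⟨_, z, hz, rfl⟩ h0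
      have h1 : ¬ p ∣ (Subgroup.centralizer ({(z : G)} : Set G)).index := fun h =>
        P.not_dvd_index (h.trans (Subgroup.index_dvd_of_le fun x hx y hy => by
          rw [Set.mem_singleton_iff.1 hy]
          exact congrArg Subtype.val (Subgroup.mem_center_iff.1 hz ⟨x, hx⟩).symm))
      have h2 := (χ.mem_charCenter_or_eq_zero (g := z) (hdeg ▸
        ((hp.coprime_iff_not_dvd.2 h1).pow_left n))).resolve_left (by
          rw [hc, hZ, Subgroup.mem_bot]; exact fun h => h0 (Subtype.ext h))
      have h3 := vM_mul_lt_one (hM.memLocalIdeal_iff.1 (hψ z)).2 (hM.inv_natCast_mem h1)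
      rw [← Valuation.map_neg] at h3
      convert h3 using 2
      have : ((Subgroup.centralizer ({(z : G)} : Set G)).index : ℂ) ≠ 0 :=
        Nat.cast_ne_zero.2 Subgroup.index_ne_zero_of_finite
      simp only [centralChar, h2, Subgroup.coe_subtype]
      field_simp
      ring
    by_contra h2
    have h3 := mem_locO_of_isIntegral (M := M) (ψ.isCharacter.isGen.isIntegral_avg
      (P := Z) (x := 1) (fun x _ => by simp [Subgroup.mem_centralizer_iff]))
    have h4 := vM_mul_lt_one ((hM.vM_natCast_div_lt_one_iff (m := Nat.card Z) Nat.card_pos.ne'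
      ψ.charDegree_pos.ne').2 (by rw [hZc, hp.factorization_pow]; simpa using h2)) h3
    have h5 := vM_sub_lt_one h4 (vM_sum_lt_one (s := Finset.univ.erase 1)
      fun z hz => h1 z (Finset.ne_of_mem_erase hz))
    refine h5.ne ?_
    rw [← (vM M).map_one, ← Finset.add_sum_erase _ _ (Finset.mem_univ (1 : Z)), ← Finset.sum_div,
      ← ψ.apply_one]
    have : (Nat.card Z : ℂ) ≠ 0 := Nat.cast_ne_zero.2 Nat.card_pos.ne'
    have := ψ.apply_one_ne_zero
    simp only [one_mul, OneMemClass.coe_one]
    congr 1
    field_simp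
    ring
  have h1 : blockDefect p (blockOf M χ.1) ≤ a - b := by
    obtain ⟨ψ, hψ, h⟩ := exists_eq_minExp (p := p) ⟨χ, hM.mem_blockOf_self χ⟩
    have h2 := P.card_eq_multiplicity
    rw [ha] at h2
    rw [blockDefect_def, ← h, ← Nat.pow_right_injective hp.two_le h2]
    exact Nat.sub_le_sub_left (key ψ hψ) _
  refine ⟨h1, fun h => ?_⟩
  rw [Subgroup.center_eq_top_iff.2 h, Subgroup.card_top, ha] at hb
  rw [Nat.pow_right_injective hp.two_le hb] at h1
  omega

end Cfsg.Agent.S4730
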