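import Cfsg.Statements.S4733
import Cfsg.Agent.Blk.Contrib

set_option autoImplicit false
open Cfsg

namespace Cfsg.Agent.S4733

/-- Let p be a prime, M a maximal ideal of the algebraic integers containing p, and B a p-block of the finite group G with k irreducible characters and p-regular rank l (the number of irreducible Brauer characters). Then l ≤ k, and the following are equivalent: B has defect 0; k = l = 1; k = l. -/
theorem result {G : Type*} [Group G] [Finite G] (p : ℕ) [Fact p.Prime] (M : Ideal Cfsg.AlgInt) (hM : Cfsg.IsPModular p M) (B : Set (Cfsg.IrrCharacter G)) (hB : Cfsg.IsPBlock M B) : Cfsg.blockRank p B ≤ Nat.card B ∧ (Cfsg.blockDefect p B = 0 ↔ (Nat.card B = 1 ∧ Cfsg.blockRank p B = 1)) ∧ (Cfsg.blockDefect p B = 0 ↔ Nat.card B = Cfsg.blockRank p B) := by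
  refine ⟨blockRank_le_card B, ⟨fun h => ⟨(hB.blockDefect_eq_zero_iff_card hM).1 h,
    hB.blockRank_eq_one_of_defect_zero hM h⟩, fun h => (hB.blockDefect_eq_zero_iff_card hM).2 h.1⟩,
    ⟨fun h => ?_, hB.blockDefect_eq_zero_of_card_eq hM⟩⟩
  rw [(hB.blockDefect_eq_zero_iff_card hM).1 h, hB.blockRank_eq_one_of_defect_zero hM h]

end Cfsg.Agent.S4733
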