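import Cfsg.Statements.S4735
import Cfsg.Agent.Blk.Principal
-- import your own Cfsg.Agent.* helpers here

set_option autoImplicit false
open Cfsg

namespace Cfsg.Agent.S4735

/-- Let p be a prime, M a maximal ideal of the algebraic integers containing p, G a finite group, H = O_p'(G) and Ḡ = G/H. For x ∈ G write λ(G, x) for the sum of |χ(x)|^2 over the irreducible characters χ in the principal p-block of G. Then λ(G, x) is a positive integer, λ(G, x) = λ(Ḡ, x̄) where x̄ is the image of x, and λ(G, x) ≤ #C_Ḡ(x̄). Moreover λ(G, 1) = [G : H] if and only if the principal block is the only p-block of Ḡ. -/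
theorem result {G : Type*} [Group G] [Finite G] (p : ℕ) [Fact p.Prime] (M : Ideal Cfsg.AlgInt) (hM : Cfsg.IsPModular p M) (x : G) : (∃ n : ℕ, 0 < n ∧ ∑ᶠ χ ∈ Cfsg.principalBlock M G, Complex.normSq ((χ : G → ℂ) x) = n) ∧ ∑ᶠ χ ∈ Cfsg.principalBlock M G, Complex.normSq ((χ : G → ℂ) x) = ∑ᶠ ψ ∈ Cfsg.principalBlock M (G ⧸ Cfsg.pPrimeCore p G), Complex.normSq ((ψ : G ⧸ Cfsg.pPrimeCore p G → ℂ) (QuotientGroup.mk x)) ∧ ∑ᶠ χ ∈ Cfsg.principalBlock M G, Complex.normSq ((χ : G → ℂ) x) ≤ (Nat.card ↥(Subgroup.centralizer ({(QuotientGroup.mk x : G ⧸ Cfsg.pPrimeCore p G)} : Set (G ⧸ Cfsg.pPrimeCore p G))) : ℝ) ∧ ((∑ᶠ χ ∈ Cfsg.principalBlock M G, Cfsg.charDegree (χ : G → ℂ) ^ 2) = (Cfsg.pPrimeCore p G).index ↔ ∀ B : Set (Cfsg.IrrCharacter (G ⧸ Cfsg.pPrimeCore p G)), Cfsg.IsPBlock M B → B = Cfsg.principalBlock M (G ⧸ Cfsg.pPrimeCore p G)) := by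
  classical
  have hπ := QuotientGroup.mk'_surjective (pPrimeCore p G)
  have hk : ¬ p ∣ Nat.card (QuotientGroup.mk' (pPrimeCore p G)).ker := by
    rw [QuotientGroup.ker_mk']; exact not_dvd_card_pPrimeCore p G
  have e := image_inflate_principalBlock hM hπ hk
  have hinj := (IrrCharacter.inflate_injective _ hπ).injOn
    (s := principalBlock M (G ⧸ pPrimeCore p G))
  have h2 : ∑ᶠ χ ∈ principalBlock M G, Complex.normSq ((χ : G → ℂ) x) =
      ∑ᶠ ψ ∈ principalBlock M (G ⧸ pPrimeCore p G),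
        Complex.normSq ((ψ : G ⧸ pPrimeCore p G → ℂ) (QuotientGroup.mk x)) := by
    rw [← e, finsum_mem_image hinj]
    rfl
  refine ⟨?_, h2, ?_, ?_⟩
  · have hc : ((∑ᶠ χ ∈ principalBlock M G, Complex.normSq ((χ : G → ℂ) x) : ℝ) : ℂ) =
        ∑ χ : IrrCharacter G with χ ∈ principalBlock M G, χ x * (starRingEnd ℂ) (χ x) := by
      rw [finsum_mem_irr_eq_sum, Complex.ofReal_sum]
      exact Finset.sum_congr rfl fun χ _ => (Complex.mul_conj _).symm
    obtain ⟨m, hm⟩ := exists_int_of_forall_ringEquiv_fix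
      (z := ∑ χ : IrrCharacter G with χ ∈ principalBlock M G, χ x * (starRingEnd ℂ) (χ x))
      (IsIntegral.sum _ fun χ _ => by
        rw [← χ.apply_inv]
        exact (χ.isCharacter.isGen.mem_algInt x).mul (χ.isCharacter.isGen.mem_algInt x⁻¹))
      (fun σ => by
        rw [map_sum]
        refine Finset.sum_bij (fun χ _ => σ • χ) (fun χ hχ => ?_) (fun χ _ ψ _ h => ?_)
          (fun χ hχ => ?_) (fun χ _ => ?_)
        · simpa [gal_smul_mem_principalBlock_iff hM] using hχ
        · exact MulAction.injective σ h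
        · exact ⟨σ⁻¹ • χ, by simpa [gal_smul_mem_principalBlock_iff hM] using hχ, smul_inv_smul _ _⟩
        · rw [← χ.apply_inv, ← (σ • χ).apply_inv, map_mul]
          rfl)
    have hpos : (1 : ℝ) ≤ ∑ᶠ χ ∈ principalBlock M G, Complex.normSq ((χ : G → ℂ) x) := by
      rw [finsum_mem_irr_eq_sum]
      refine le_trans ?_ (Finset.single_le_sum (fun _ _ => Complex.normSq_nonneg _)
        (Finset.mem_filter.2 ⟨Finset.mem_univ _, hM.one_mem_principalBlock⟩))
      exact (Complex.normSq_one).ge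
    rw [← hc] at hm
    have hm' : ∑ᶠ χ ∈ principalBlock M G, Complex.normSq ((χ : G → ℂ) x) = m := by
      exact_mod_cast hm
    have hm1 : 1 ≤ m := by
      rw [hm'] at hpos
      exact_mod_cast hpos
    refine ⟨m.toNat, by omega, ?_⟩
    rw [hm']
    exact_mod_cast (Int.toNat_of_nonneg (by omega)).symm
  · rw [h2, finsum_mem_irr_eq_sum]
    refine (Finset.sum_le_sum_of_subset_of_nonneg (Finset.filter_subset _ _)
      fun _ _ _ => Complex.normSq_nonneg _).trans (le_of_eq ?_)
    apply Complex.ofReal_injective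
    rw [Complex.ofReal_sum, Complex.ofReal_natCast, ← sum_irr_mul_conj_of_isConj (IsConj.refl _)]
    exact Finset.sum_congr rfl fun χ _ => (Complex.mul_conj _).symm
  · have h3 : ∑ᶠ χ ∈ principalBlock M G, charDegree (χ : G → ℂ) ^ 2 =
        ∑ᶠ ψ ∈ principalBlock M (G ⧸ pPrimeCore p G),
          charDegree (ψ : G ⧸ pPrimeCore p G → ℂ) ^ 2 := by
      rw [← e, finsum_mem_image hinj]
      exact finsum_congr fun ψ => finsum_congr fun _ =>
        congrArg (· ^ 2) (charDegree_comp ψ.1 (QuotientGroup.mk' _))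
    rw [h3, Subgroup.index, ← sum_charDegree_sq, finsum_mem_irr_eq_sum]
    constructor
    · intro h B hB
      obtain ⟨ψ, hψ⟩ := hB.nonempty hM
      refine hB.eq_of_mem isPBlock_principalBlock hM hψ ?_
      by_contra h'
      refine absurd h (Finset.sum_lt_sum_of_subset (Finset.filter_subset _ _) (Finset.mem_univ ψ)
        (by simpa using h') (pow_pos ψ.charDegree_pos 2) fun _ _ _ => Nat.zero_le _).ne
    · intro h
      rw [Finset.filter_true_of_mem]
      intro ψ _
      rw [← h _ (isPBlock_blockOf ψ)]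
      exact hM.mem_blockOf_self ψ

end Cfsg.Agent.S4735
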