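import Cfsg.Statements.S4736
import Cfsg.Agent.Blk.Fong
-- import your own Cfsg.Agent.* helpers here

set_option autoImplicit false
open Cfsg

namespace Cfsg.Agent.S4736

/-- Let p be a prime, M a maximal ideal of the algebraic integers containing p, and G a finite p-solvable group with Sylow p-subgroup P. Then P is abelian if and only if every irreducible character in the principal p-block of G has height zero. -/
theorem result {G : Type*} [Group G] [Finite G] (p : ℕ) [Fact p.Prime] (M : Ideal Cfsg.AlgInt) (hM : Cfsg.IsPModular p M) (hsolv : Cfsg.IsPSolvable p G) (P : Sylow p G) : IsMulCommutative P ↔ ∀ χ ∈ Cfsg.principalBlock M G, Cfsg.blockHeight p (Cfsg.principalBlock M G) (χ : G → ℂ) = 0 := by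
  simp only [blockHeight_principalBlock_eq hM]
  rw [hsolv.forall_mem_principalBlock_iff hM (fun n => n.factorization p = 0)]
  set π := QuotientGroup.mk' (pPrimeCore p G)
  have hπ : Function.Surjective π := QuotientGroup.mk'_surjective _
  have hs := hsolv.to_quotient (pPrimeCore p G)
  have h1 := hs.sylow_normal_comm_iff (P.mapSurjective hπ)
  have h2 : ∀ β : IrrCharacter (G ⧸ pPrimeCore p G), (charDegree β.1).factorization p = 0 ↔
      ¬ p ∣ charDegree β.1 := fun β => by
    rw [Nat.factorization_eq_zero_iff]
    simp [(Fact.out : p.Prime), β.charDegree_pos.ne']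
  simp only [h2]
  rw [← h1, Sylow.coe_mapSurjective, isMulCommutative_iff_forall, isMulCommutative_iff_forall]
  constructor
  · intro h
    have hc : ∀ a ∈ (P : Subgroup G).map π, ∀ b ∈ (P : Subgroup G).map π, a * b = b * a := by
      rintro _ ⟨a, ha, rfl⟩ _ ⟨b, hb, rfl⟩
      rw [← map_mul, ← map_mul, h a ha b hb]
    refine ⟨?_, hc⟩
    have hle := pCore_le_sylow (P.mapSurjective hπ)
    have : (P : Subgroup G).map π = pCore p (G ⧸ pPrimeCore p G) := by
      refine le_antisymm (le_trans ?_ (hs.centralizer_pCore_le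
        (pPrimeCore_quotient_pPrimeCore p G))) hle
      intro a ha b hb
      exact hc b (hle hb) a ha
    rw [this]
    infer_instance
  · rintro ⟨-, h⟩ a ha b hb
    have h3 := h _ (Subgroup.mem_map_of_mem π ha) _ (Subgroup.mem_map_of_mem π hb)
    rw [← map_mul, ← map_mul] at h3
    have h4 : (a * b)⁻¹ * (b * a) ∈ (P : Subgroup G) ⊓ pPrimeCore p G :=
      Subgroup.mem_inf.2
        ⟨mul_mem (inv_mem (mul_mem ha hb)) (mul_mem hb ha), QuotientGroup.eq.1 h3⟩
    rw [inf_eq_bot_of_isPGroup_of_not_dvd P.isPGroup' (not_dvd_card_pPrimeCore p G),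
      Subgroup.mem_bot, inv_mul_eq_one] at h4
    exact h4

end Cfsg.Agent.S4736
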